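import Mathlib
import Cfsg.Agent.Lib.Char.Integrality

/-!
# Matrix coefficients of an irreducible representation span

For an irreducible representation `Y` of a finite group on `W`, and a nonzero endomorphism `A` of `W`,
some `tr (A Y n)` is nonzero (Schur orthogonality in a coordinate free form):
`∑ₙ tr (A Y n) Y(n⁻¹) = (|N| / dim W) A`.
-/

set_option autoImplicit false
set_option linter.unusedSectionVars false

namespace Cfsg.Agent.Lib.Char.TraceNonzero

open Cfsg.Agent.Lib.Char.Integrality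

variable {N : Type*} [Group N] [Fintype N]

/-- The Schur averaging identity for rank one maps. -/
theorem sum_smul_apply {d : ℕ} (Y : Representation ℂ N (Fin d → ℂ)) [hY : Y.IsIrreducible]
    (f : Module.Dual ℂ (Fin d → ℂ)) (v w : Fin d → ℂ) :
    ∑ n : N, f (Y n⁻¹ w) • Y n v = (((Nat.card N : ℂ) * f v) / (Module.finrank ℂ (Fin d → ℂ) : ℂ)) • w := by
  classical
  set X : (Fin d → ℂ) →ₗ[ℂ] (Fin d → ℂ) := f.smulRight v with hX
  set T : (Fin d → ℂ) →ₗ[ℂ] (Fin d → ℂ) := ∑ n : N, (Y n) ∘ₗ X ∘ₗ (Y n⁻¹) with hT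
  have hcomm : ∀ g, T ∘ₗ Y g = Y g ∘ₗ T := by
    intro g
    apply LinearMap.ext
    intro x
    simp only [LinearMap.comp_apply, hT, LinearMap.sum_apply, map_sum]
    rw [← Equiv.sum_comp (Equiv.mulLeft g)]
    refine Finset.sum_congr rfl fun n _ => ?_
    simp only [Equiv.coe_mulLeft]
    have h1 : Y (g * n)⁻¹ (Y g x) = Y n⁻¹ x := by
      rw [← Module.End.mul_apply, ← map_mul]
      congr 2
      group
    rw [h1, map_mul, Module.End.mul_apply]
  have h2 := eq_trace_div_smul_of_commute Y T hcomm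
  have htr : LinearMap.trace ℂ (Fin d → ℂ) T = (Nat.card N : ℂ) * f v := by
    rw [hT, map_sum]
    have h3 : ∀ n : N, LinearMap.trace ℂ (Fin d → ℂ) ((Y n) ∘ₗ X ∘ₗ (Y n⁻¹)) = f v := by
      intro n
      rw [LinearMap.trace_comp_comm', LinearMap.comp_assoc]
      have h4 : (Y n⁻¹) ∘ₗ (Y n) = LinearMap.id := by
        rw [← Module.End.mul_eq_comp, ← map_mul, inv_mul_cancel, map_one]
        rfl
      rw [h4, LinearMap.comp_id, hX, LinearMap.trace_smulRight]
    simp only [h3]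
    rw [Finset.sum_const, Finset.card_univ, nsmul_eq_mul, Nat.card_eq_fintype_card]
  have h5 := congrArg (fun L : (Fin d → ℂ) →ₗ[ℂ] (Fin d → ℂ) => L w) h2
  simp only [LinearMap.smul_apply, LinearMap.id_apply] at h5
  rw [htr] at h5
  rw [← h5, hT, LinearMap.sum_apply]
  refine Finset.sum_congr rfl fun n _ => ?_
  simp only [LinearMap.comp_apply, hX, LinearMap.smulRight_apply, map_smul]

/-- A nonzero endomorphism is not orthogonal to all `Y n` under the trace form. -/
theorem exists_trace_ne_zero {d : ℕ} (Y : Representation ℂ N (Fin d → ℂ)) [hY : Y.IsIrreducible]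
    {A : (Fin d → ℂ) →ₗ[ℂ] (Fin d → ℂ)} (hA : A ≠ 0) :
    ∃ n : N, LinearMap.trace ℂ (Fin d → ℂ) (A ∘ₗ (Y n)) ≠ 0 := by
  classical
  by_contra hcon
  push Not at hcon
  apply hA
  have hd : (Module.finrank ℂ (Fin d → ℂ) : ℂ) ≠ 0 := Nat.cast_ne_zero.mpr (finrank_ne_zero_of_isIrreducible Y)
  have hN : (Nat.card N : ℂ) ≠ 0 := Nat.cast_ne_zero.mpr Nat.card_pos.ne'
  -- coordinates
  have htrace : ∀ n : N, LinearMap.trace ℂ (Fin d → ℂ) (A ∘ₗ (Y n)) =
      ∑ i : Fin d, ((LinearMap.proj i).comp A) (Y n (Pi.single i 1)) := by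
    intro n
    rw [LinearMap.trace_eq_matrix_trace ℂ (Pi.basisFun ℂ (Fin d)), Matrix.trace]
    refine Finset.sum_congr rfl fun i _ => ?_
    simp
  apply LinearMap.ext
  intro w
  -- the key identity
  have h1 : ∑ i : Fin d, ∑ n : N, ((LinearMap.proj i).comp A) (Y n⁻¹ (Pi.single i 1)) • Y n w =
      ∑ i : Fin d, (((Nat.card N : ℂ) * ((LinearMap.proj i).comp A) w) /
        (Module.finrank ℂ (Fin d → ℂ) : ℂ)) • (Pi.single i 1 : Fin d → ℂ) := by
    refine Finset.sum_congr rfl fun i _ => ?_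
    exact sum_smul_apply Y _ _ _
  have h2 : ∑ i : Fin d, ∑ n : N, ((LinearMap.proj i).comp A) (Y n⁻¹ (Pi.single i 1)) • Y n w = 0 := by
    rw [Finset.sum_comm]
    refine Finset.sum_eq_zero fun n _ => ?_
    rw [← Finset.sum_smul, ← htrace n⁻¹, hcon n⁻¹, zero_smul]
  have h3 : ∑ i : Fin d, (((Nat.card N : ℂ) * ((LinearMap.proj i).comp A) w) /
        (Module.finrank ℂ (Fin d → ℂ) : ℂ)) • (Pi.single i 1 : Fin d → ℂ) =
      ((Nat.card N : ℂ) / (Module.finrank ℂ (Fin d → ℂ) : ℂ)) • A w := by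
    funext j
    simp only [Finset.sum_apply, Pi.smul_apply, Pi.single_apply, smul_eq_mul, LinearMap.comp_apply,
      LinearMap.proj_apply, mul_ite, mul_one, mul_zero]
    rw [Finset.sum_ite_eq]
    simp only [Finset.mem_univ, if_true]
    ring
  rw [h2, h3] at h1
  have h4 := (smul_eq_zero.mp h1.symm).resolve_left (div_ne_zero hN hd)
  rw [h4, LinearMap.zero_apply]

end Cfsg.Agent.Lib.Char.TraceNonzero
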