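import Mathlib
import Cfsg.Prelude.Def_Characters
import Cfsg.Agent.Lib.Char.Basic
import Cfsg.Agent.Lib.Char.Ortho
import Cfsg.Agent.Lib.Char.RepEquiv
import Cfsg.Agent.Lib.Char.Commutant
import Cfsg.Agent.Lib.Char.IndRep

/-!
# The commutant of a normal subgroup acting homogeneously

If the restriction to the normal subgroup `K` of a representation `ρ` of `G` is a multiple of an
irreducible character, then the commutant of `ρ(K)` has trivial centre and every element of `G`
acts on that commutant by an inner automorphism.  This replaces the passage to a central extension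
in the theory of character triples.
-/

set_option autoImplicit false

namespace Cfsg.Agent.Lib.Char.BergerA

open Cfsg Module Cfsg.Agent.Lib.Char.Basic Cfsg.Agent.Lib.Char.Ortho
  Cfsg.Agent.Lib.Char.RepEquiv Cfsg.Agent.Lib.Char.Commutant

section Diag

variable {K : Type*} [Group K] {S : Type*} [AddCommGroup S] [Module ℂ S]

/-- The diagonal representation on `Fin e → S`. -/
noncomputable def diagRep (σ : Representation ℂ K S) (e : ℕ) : Representation ℂ K (Fin e → S) where
  toFun k :=
    { toFun := fun f i => σ k (f i)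
      map_add' := fun f₁ f₂ => by ext i; simp
      map_smul' := fun a f => by ext i; simp }
  map_one' := by
    ext f i
    simp
  map_mul' k₁ k₂ := by
    ext f i
    simp

@[simp] theorem diagRep_apply (σ : Representation ℂ K S) (e : ℕ) (k : K) (f : Fin e → S) (i : Fin e) :
    diagRep σ e k f i = σ k (f i) := rfl

theorem character_diagRep [FiniteDimensional ℂ S] (σ : Representation ℂ K S) (e : ℕ) :
    (diagRep σ e).character = (e : ℂ) • σ.character := by
  funext k
  classical
  have := Cfsg.Agent.Lib.Char.IndRep.trace_pi_of_apply (ι := Fin e) (W := S) (fun c => c)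
    (fun _ => σ k) (diagRep σ e k) (fun f c => rfl)
  simp only [if_true] at this
  simp only [Representation.character, Pi.smul_apply, smul_eq_mul]
  rw [this]
  simp

end Diag

section Commutant

variable {K : Type*} [Group K] [Finite K] {S : Type*} [AddCommGroup S] [Module ℂ S]
  [FiniteDimensional ℂ S] {V : Type*} [AddCommGroup V] [Module ℂ V] [FiniteDimensional ℂ V]

/-- An operator commuting with `K` on `S^e` is a scalar matrix in the block decomposition. -/
theorem exists_matrix (σ : Representation ℂ K S) [σ.IsIrreducible] (ρ : Representation ℂ K V) {e : ℕ}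
    (Φ : V ≃ₗ[ℂ] (Fin e → S)) (hΦ : ∀ k v i, Φ (ρ k v) i = σ k (Φ v i))
    (y : Module.End ℂ V) (hy : ∀ k, y * ρ k = ρ k * y) :
    ∃ c : Matrix (Fin e) (Fin e) ℂ, ∀ v i, Φ (y v) i = ∑ j, c i j • Φ v j := by
  classical
  cases nonempty_fintype K
  -- the blocks
  have hblock : ∀ i j : Fin e, ∃ c : ℂ, ∀ s : S,
      Φ (y (Φ.symm (Pi.single j s))) i = c • s := by
    intro i j
    let B : S →ₗ[ℂ] S :=
      (LinearMap.proj i) ∘ₗ Φ.toLinearMap ∘ₗ y ∘ₗ Φ.symm.toLinearMap ∘ₗ (LinearMap.single ℂ (fun _ : Fin e => S) j)
    have hB : ∀ k, B ∘ₗ σ k = σ k ∘ₗ B := by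
      intro k
      ext s
      have h1 : Φ.symm (Pi.single j (σ k s)) = ρ k (Φ.symm (Pi.single j s)) := by
        apply Φ.injective
        funext i'
        rw [LinearEquiv.apply_symm_apply, hΦ, LinearEquiv.apply_symm_apply]
        by_cases hi : i' = j
        · subst hi; simp
        · simp [hi]
      have h2 : y (ρ k (Φ.symm (Pi.single j s))) = ρ k (y (Φ.symm (Pi.single j s))) :=
        LinearMap.congr_fun (hy k) _
      simp only [B, LinearMap.comp_apply, LinearMap.proj_apply, LinearEquiv.coe_coe,
        LinearMap.single_apply]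
      rw [h1, h2, hΦ]
    obtain ⟨c, hc⟩ := exists_scalar σ (ofCommute σ B hB)
    exact ⟨c, fun s => hc s⟩
  choose c hc using hblock
  refine ⟨Matrix.of c, fun v i => ?_⟩
  have hdecomp : v = ∑ j, Φ.symm (Pi.single j (Φ v j)) := by
    apply Φ.injective
    rw [map_sum]
    simp only [LinearEquiv.apply_symm_apply]
    funext i'
    simp [Finset.sum_apply, Pi.single_apply]
  conv_lhs => rw [hdecomp]
  rw [map_sum, map_sum, Finset.sum_apply]
  refine Finset.sum_congr rfl fun j _ => ?_
  rw [hc]
  rfl

end Commutant

section Main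

variable {G : Type*} [Group G] [Finite G] {V : Type*} [AddCommGroup V] [Module ℂ V]
  [FiniteDimensional ℂ V]

/-- The commutant of `ρ(K)`. -/
def Com (ρ : Representation ℂ G V) (K : Subgroup G) : Set (Module.End ℂ V) :=
  {y | ∀ k ∈ K, y * ρ k = ρ k * y}

theorem mem_Com {ρ : Representation ℂ G V} {K : Subgroup G} {y : Module.End ℂ V} :
    y ∈ Com ρ K ↔ ∀ k ∈ K, y * ρ k = ρ k * y := Iff.rfl

/-- The central statement and the inner statement together. -/
theorem exists_projective (ρ : Representation ℂ G V) (K : Subgroup G) [K.Normal] (θ : K → ℂ)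
    (hθ : IsIrrCharacter K θ) (e : ℕ) (he : (fun k : K => ρ.character k) = (e : ℂ) • θ) :
    (∀ y ∈ Com ρ K, (∀ z ∈ Com ρ K, y * z = z * y) → ∃ s : ℂ, y = s • 1) ∧
    (∀ g : G, ∃ q q' : Module.End ℂ V, q * q' = 1 ∧ q' * q = 1 ∧ q ∈ Com ρ K ∧
      ∀ z ∈ Com ρ K, q * z * q' = ρ g * z * ρ g⁻¹) := by
  classical
  obtain ⟨n, σ, hσ, hσθ⟩ := hθ
  haveI : σ.IsIrreducible := hσ
  let ρK : Representation ℂ K V := ρ.comp K.subtype
  have hchar : ρK.character = (diagRep σ e).character := by
    rw [character_diagRep, hσθ, ← he]
    rfl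
  obtain ⟨E⟩ := equiv_of_character_eq ρK (diagRep σ e) hchar
  let Φ : V ≃ₗ[ℂ] (Fin e → Fin n → ℂ) := E.toLinearEquiv
  have hΦ : ∀ (k : K) v i, Φ (ρK k v) i = σ k (Φ v i) := by
    intro k v i
    have := LinearMap.congr_fun (E.toIntertwiningMap.isIntertwining' k) v
    exact congrFun this i
  have hmat : ∀ y ∈ Com ρ K, ∃ c : Matrix (Fin e) (Fin e) ℂ, ∀ v i, Φ (y v) i = ∑ j, c i j • Φ v j := by
    intro y hy
    exact exists_matrix σ ρK Φ hΦ y (fun k => hy k k.2)
  constructor
  · -- central elements are scalar
    intro y hy hcen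
    obtain ⟨c, hc⟩ := hmat y hy
    -- operators from matrices
    let Z : Matrix (Fin e) (Fin e) ℂ → Module.End ℂ V := fun m =>
      { toFun := fun v => Φ.symm (fun i => ∑ j, m i j • Φ v j)
        map_add' := fun a b => by
          apply Φ.injective
          funext i
          simp [smul_add, Finset.sum_add_distrib]
        map_smul' := fun r a => by
          apply Φ.injective
          funext i
          simp [smul_comm r, Finset.smul_sum] }
    have hZ : ∀ m v i, Φ (Z m v) i = ∑ j, m i j • Φ v j := by
      intro m v i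
      simp [Z]
    have hZcom : ∀ m, Z m ∈ Com ρ K := by
      intro m k hk
      apply LinearMap.ext
      intro v
      apply Φ.injective
      funext i
      have hk1 : ∀ w, ρ k w = ρK ⟨k, hk⟩ w := fun w => rfl
      simp only [Module.End.mul_apply]
      rw [hZ, hk1, hk1, hΦ, hZ, map_sum]
      refine Finset.sum_congr rfl fun j _ => ?_
      rw [hΦ, map_smul]
    by_cases hn : n = 0
    · subst hn
      -- the space is trivial
      have hsub : Subsingleton V := by
        refine ⟨fun a b => Φ.injective ?_⟩
        funext i j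
        exact j.elim0
      refine ⟨0, ?_⟩
      ext v
      exact Subsingleton.elim _ _
    have hne : Nonempty (Fin n) := ⟨⟨0, Nat.pos_of_ne_zero hn⟩⟩
    -- the matrix `c` commutes with all matrices
    have hcomm : ∀ m : Matrix (Fin e) (Fin e) ℂ, m * c = c * m := by
      intro m
      have h1 := hcen (Z m) (hZcom m)
      ext i j
      obtain ⟨x⟩ := hne
      -- apply to the vector with single entry `j`
      let v0 : Fin e → Fin n → ℂ := Pi.single j (Pi.single x 1)
      let v : V := Φ.symm v0
      have hv : ∀ j', Φ v j' x = if j' = j then 1 else 0 := by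
        intro j'
        simp only [v, LinearEquiv.apply_symm_apply, v0]
        by_cases h : j' = j
        · subst h; simp
        · simp [h]
      have key : ∀ (A B : Matrix (Fin e) (Fin e) ℂ),
          (∑ j', A i j' • ∑ j'', B j' j'' • Φ v j'') x = (A * B) i j := by
        intro A B
        simp only [Finset.sum_apply, Pi.smul_apply, smul_eq_mul, hv, Matrix.mul_apply]
        refine Finset.sum_congr rfl fun a _ => ?_
        simp
      have h2 := LinearMap.congr_fun h1 v
      have h3 := congrFun (congrFun (congrArg Φ h2) i) x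
      simp only [Module.End.mul_apply] at h3
      rw [hc, hZ] at h3
      simp only [hZ, hc] at h3
      rw [key, key] at h3
      exact h3.symm
    have hscalar : c ∈ Set.range (Matrix.scalar (Fin e) : ℂ →+* _) := by
      apply Matrix.mem_range_scalar_of_commute_single
      intro i j hij
      exact hcomm (Matrix.single i j 1)
    obtain ⟨s, hs⟩ := hscalar
    refine ⟨s, ?_⟩
    apply LinearMap.ext
    intro v
    apply Φ.injective
    funext i
    rw [hc, ← hs]
    simp [Matrix.scalar_apply, Matrix.diagonal_apply, ite_smul]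
  · -- inner automorphisms
    intro g
    by_cases he0 : e = 0
    · subst he0
      have hsub : Subsingleton V := by
        refine ⟨fun a b => Φ.injective ?_⟩
        funext i
        exact i.elim0
      refine ⟨1, 1, Subsingleton.elim _ _, Subsingleton.elim _ _, ?_, ?_⟩
      · intro k _
        exact Subsingleton.elim _ _
      · intro z _
        exact Subsingleton.elim _ _
    -- the twisted representation
    let cg : K →* K := (MulAut.conjNormal g).toMonoidHom
    have hcg : ∀ k : K, ((cg k : K) : G) = g * k * g⁻¹ := fun k => rfl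
    let σg : Representation ℂ K (Fin n → ℂ) := σ.comp cg
    have hinv : ∀ k : K, θ (cg k) = θ k := by
      intro k
      have h1 := congrFun he (cg k)
      have h2 := congrFun he k
      simp only [Pi.smul_apply, smul_eq_mul] at h1 h2
      have h3 : ρ.character ((cg k : K) : G) = ρ.character (k : G) := by
        rw [hcg]
        exact ρ.char_conj _ _
      have h4 : (e : ℂ) ≠ 0 := by exact_mod_cast he0
      apply mul_left_cancel₀ h4
      rw [← h1, ← h2, h3]
    have hchg : σ.character = σg.character := by
      funext k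
      have h1 : σg.character k = σ.character (cg k) := rfl
      rw [h1, hσθ, hinv]
    obtain ⟨Eg⟩ := equiv_of_character_eq σ σg hchg
    let T : (Fin n → ℂ) ≃ₗ[ℂ] (Fin n → ℂ) := Eg.toLinearEquiv
    have hT : ∀ (k : K) s, T (σ k s) = σ (cg k) (T s) := by
      intro k s
      exact LinearMap.congr_fun (Eg.toIntertwiningMap.isIntertwining' k) s
    -- the operator `r`
    let mkR : ((Fin n → ℂ) ≃ₗ[ℂ] (Fin n → ℂ)) → Module.End ℂ V := fun T' =>
      { toFun := fun v => Φ.symm (fun i => T' (Φ v i))
        map_add' := fun a b => by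
          apply Φ.injective
          funext i
          simp
        map_smul' := fun r a => by
          apply Φ.injective
          funext i
          simp }
    have hmkR : ∀ T' v i, Φ (mkR T' v) i = T' (Φ v i) := by
      intro T' v i
      simp [mkR]
    let r := mkR T
    let r' := mkR T.symm
    have hrr' : r * r' = 1 := by
      apply LinearMap.ext
      intro v
      apply Φ.injective
      funext i
      simp only [Module.End.mul_apply, Module.End.one_apply]
      rw [hmkR, hmkR]
      simp
    have hr'r : r' * r = 1 := by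
      apply LinearMap.ext
      intro v
      apply Φ.injective
      funext i
      simp only [Module.End.mul_apply, Module.End.one_apply]
      rw [hmkR, hmkR]
      simp
    -- `r` implements the conjugation by `g` on `ρ(K)`
    have hrk : ∀ k : K, r * ρ k = ρ (g * k * g⁻¹) * r := by
      intro k
      apply LinearMap.ext
      intro v
      apply Φ.injective
      funext i
      simp only [Module.End.mul_apply]
      have h1 : ∀ w, ρ (k : G) w = ρK k w := fun w => rfl
      have h2 : ∀ w, ρ (g * k * g⁻¹) w = ρK (cg k) w := fun w => rfl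
      rw [hmkR, h1, hΦ, h2, hΦ, hmkR, hT]
    -- `r` commutes with the commutant
    have hrcom : ∀ y ∈ Com ρ K, r * y = y * r := by
      intro y hy
      obtain ⟨c, hc⟩ := hmat y hy
      apply LinearMap.ext
      intro v
      apply Φ.injective
      funext i
      simp only [Module.End.mul_apply]
      rw [hmkR, hc, hc, map_sum]
      refine Finset.sum_congr rfl fun j _ => ?_
      rw [map_smul, hmkR]
    have hr'com : ∀ y ∈ Com ρ K, r' * y = y * r' := by
      intro y hy
      have h1 := hrcom y hy
      calc r' * y = r' * (y * (r * r')) := by rw [hrr', mul_one]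
        _ = r' * ((y * r) * r') := by rw [mul_assoc y]
        _ = r' * ((r * y) * r') := by rw [h1]
        _ = (r' * r) * (y * r') := by simp only [mul_assoc]
        _ = y * r' := by rw [hr'r, one_mul]
    have hg1 : ρ g * ρ g⁻¹ = 1 := by
      rw [← map_mul, mul_inv_cancel, map_one]
    have hg2 : ρ g⁻¹ * ρ g = 1 := by
      rw [← map_mul, inv_mul_cancel, map_one]
    -- conjugation by `g` preserves the commutant
    have hconj : ∀ z ∈ Com ρ K, ρ g * z * ρ g⁻¹ ∈ Com ρ K := by
      intro z hz k hk
      have hk' : g⁻¹ * k * g ∈ K := by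
        have := (inferInstance : K.Normal).conj_mem k hk g⁻¹
        simpa using this
      have h1 := hz _ hk'
      have h2 : ρ g⁻¹ * ρ k = ρ (g⁻¹ * k * g) * ρ g⁻¹ := by
        rw [← map_mul, ← map_mul]
        congr 1
        group
      have h3 : ρ g * ρ (g⁻¹ * k * g) = ρ k * ρ g := by
        rw [← map_mul, ← map_mul]
        congr 1
        group
      calc ρ g * z * ρ g⁻¹ * ρ k = ρ g * z * (ρ g⁻¹ * ρ k) := by rw [mul_assoc]
        _ = ρ g * (z * ρ (g⁻¹ * k * g)) * ρ g⁻¹ := by rw [h2]; simp only [mul_assoc]
        _ = ρ g * (ρ (g⁻¹ * k * g) * z) * ρ g⁻¹ := by rw [h1]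
        _ = (ρ g * ρ (g⁻¹ * k * g)) * z * ρ g⁻¹ := by simp only [mul_assoc]
        _ = ρ k * (ρ g * z * ρ g⁻¹) := by rw [h3]; simp only [mul_assoc]
    refine ⟨r' * ρ g, ρ g⁻¹ * r, ?_, ?_, ?_, ?_⟩
    · calc r' * ρ g * (ρ g⁻¹ * r) = r' * (ρ g * ρ g⁻¹) * r := by simp only [mul_assoc]
        _ = 1 := by rw [hg1, mul_one, hr'r]
    · calc ρ g⁻¹ * r * (r' * ρ g) = ρ g⁻¹ * (r * r') * ρ g := by simp only [mul_assoc]
        _ = 1 := by rw [hrr', mul_one, hg2]
    · intro k hk
      have h1 := hrk ⟨k, hk⟩
      have h2 : ρ g * ρ k = ρ (g * k * g⁻¹) * ρ g := by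
        rw [← map_mul, ← map_mul]
        congr 1
        group
      have h3 : r' * ρ (g * k * g⁻¹) = ρ k * r' := by
        calc r' * ρ (g * k * g⁻¹) = r' * ρ (g * k * g⁻¹) * (r * r') := by rw [hrr', mul_one]
          _ = r' * (ρ (g * k * g⁻¹) * r) * r' := by simp only [mul_assoc]
          _ = r' * (r * ρ k) * r' := by rw [h1]
          _ = (r' * r) * ρ k * r' := by simp only [mul_assoc]
          _ = ρ k * r' := by rw [hr'r, one_mul]
      calc r' * ρ g * ρ k = r' * (ρ g * ρ k) := by rw [mul_assoc]
        _ = r' * ρ (g * k * g⁻¹) * ρ g := by rw [h2, ← _root_.mul_assoc r']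
        _ = ρ k * (r' * ρ g) := by rw [h3, _root_.mul_assoc]
    · intro z hz
      have h1 := hr'com _ (hconj z hz)
      calc r' * ρ g * z * (ρ g⁻¹ * r) = r' * (ρ g * z * ρ g⁻¹) * r := by simp only [mul_assoc]
        _ = (ρ g * z * ρ g⁻¹) * (r' * r) := by rw [h1, mul_assoc]
        _ = ρ g * z * ρ g⁻¹ := by rw [hr'r, mul_one]

end Main

end Cfsg.Agent.Lib.Char.BergerA
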