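import Mathlib
import Cfsg.Agent.Lib.Char.BergerA

/-!
# Operators attached to a section on which a coprime normal section acts

Setting: `K ≤ L` normal in `G`, `H` a subgroup with `G = L H` and `L ∩ H = K`, `A` a subgroup of `H`
normalized by `H` with `A / K` abelian, such that `A / K` and `L / K` have coprime prime exponents.
Given a representation `ρ` of `G` with an `H`-imprimitivity system `π` and inner action on the
commutant of `ρ(K)`, we build commuting operators `D a` in the commutant of `ρ(L ⊔ A)`, permuted by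
`H`, not all with a single eigenvalue, as soon as `A` does not centralize `L / K`.
-/

set_option autoImplicit false

namespace Cfsg.Agent.Lib.Char.BergerB

open Cfsg Module Cfsg.Agent.Lib.Char.BergerA

variable {G : Type*} [Group G] {V : Type*} [AddCommGroup V] [Module ℂ V]

local notation "E" => Module.End ℂ V

/-- Conjugation by `ρ g` as an algebra homomorphism. -/
noncomputable def cj (ρ : Representation ℂ G V) (g : G) : Module.End ℂ V →ₐ[ℂ] Module.End ℂ V where
  toFun z := ρ g * z * ρ g⁻¹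
  map_one' := by
    rw [mul_one, ← map_mul, mul_inv_cancel, map_one]
  map_mul' x y := by
    have h : ρ g⁻¹ * ρ g = 1 := by rw [← map_mul, inv_mul_cancel, map_one]
    calc ρ g * (x * y) * ρ g⁻¹ = ρ g * x * (ρ g⁻¹ * ρ g) * y * ρ g⁻¹ := by
          rw [h, mul_one]; simp only [mul_assoc]
      _ = _ := by simp only [mul_assoc]
  map_zero' := by simp
  map_add' x y := by simp [mul_add, add_mul]
  commutes' r := by
    have h : ρ g * ρ g⁻¹ = 1 := by rw [← map_mul, mul_inv_cancel, map_one]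
    rw [Algebra.algebraMap_eq_smul_one, mul_smul_comm, smul_mul_assoc, mul_one, h]

theorem cj_apply (ρ : Representation ℂ G V) (g : G) (z : Module.End ℂ V) :
    cj ρ g z = ρ g * z * ρ g⁻¹ := rfl

theorem cj_mul (ρ : Representation ℂ G V) (g h : G) (z : Module.End ℂ V) :
    cj ρ (g * h) z = cj ρ g (cj ρ h z) := by
  show ρ (g * h) * z * ρ (g * h)⁻¹ = ρ g * (ρ h * z * ρ h⁻¹) * ρ g⁻¹
  rw [mul_inv_rev, map_mul, map_mul]
  simp only [mul_assoc]

theorem cj_one (ρ : Representation ℂ G V) (z : Module.End ℂ V) : cj ρ 1 z = z := by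
  simp [cj_apply]

section Impl

variable (ρ : Representation ℂ G V) (K : Subgroup G)

/-- `x` (with inverse `x'`) is in the commutant of `ρ(K)` and acts on that commutant as `g`. -/
def Impl (g : G) (x x' : Module.End ℂ V) : Prop :=
  x * x' = 1 ∧ x' * x = 1 ∧ x ∈ Com ρ K ∧ ∀ z ∈ Com ρ K, x * z * x' = cj ρ g z

variable {ρ K}

theorem Com.mul {x y : Module.End ℂ V} (hx : x ∈ Com ρ K) (hy : y ∈ Com ρ K) : x * y ∈ Com ρ K := by
  intro k hk
  rw [mul_assoc, hy k hk, ← mul_assoc, hx k hk, mul_assoc]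

theorem Com.add {x y : Module.End ℂ V} (hx : x ∈ Com ρ K) (hy : y ∈ Com ρ K) : x + y ∈ Com ρ K := by
  intro k hk
  rw [add_mul, mul_add, hx k hk, hy k hk]

theorem Com.smul (s : ℂ) {x : Module.End ℂ V} (hx : x ∈ Com ρ K) : s • x ∈ Com ρ K := by
  intro k hk
  rw [smul_mul_assoc, mul_smul_comm, hx k hk]

theorem Com.one : (1 : Module.End ℂ V) ∈ Com ρ K := by
  intro k _
  rw [one_mul, mul_one]

theorem Com.zero : (0 : Module.End ℂ V) ∈ Com ρ K := by
  intro k _
  rw [zero_mul, mul_zero]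

theorem Com.sum {ι : Type*} (s : Finset ι) {f : ι → Module.End ℂ V} (h : ∀ i ∈ s, f i ∈ Com ρ K) :
    ∑ i ∈ s, f i ∈ Com ρ K := by
  classical
  induction s using Finset.induction_on with
  | empty => simpa using Com.zero
  | insert a s ha ih =>
    rw [Finset.sum_insert ha]
    exact Com.add (h a (Finset.mem_insert_self _ _))
      (ih fun i hi => h i (Finset.mem_insert_of_mem hi))

theorem Com.cj [K.Normal] (g : G) {z : Module.End ℂ V} (hz : z ∈ Com ρ K) :
    BergerB.cj ρ g z ∈ Com ρ K := by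
  intro k hk
  have hk' : g⁻¹ * k * g ∈ K := by
    have := (inferInstance : K.Normal).conj_mem k hk g⁻¹
    simpa using this
  have h1 := hz _ hk'
  have h2 : ρ g⁻¹ * ρ k = ρ (g⁻¹ * k * g) * ρ g⁻¹ := by
    rw [← map_mul, ← map_mul]
    congr 1
    group
  have h3 : ρ g * ρ (g⁻¹ * k * g) = ρ k * ρ g := by
    rw [← map_mul, ← map_mul]
    congr 1
    group
  simp only [cj_apply]
  calc ρ g * z * ρ g⁻¹ * ρ k = ρ g * z * (ρ g⁻¹ * ρ k) := by rw [mul_assoc]
    _ = ρ g * (z * ρ (g⁻¹ * k * g)) * ρ g⁻¹ := by rw [h2]; simp only [mul_assoc]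
    _ = ρ g * (ρ (g⁻¹ * k * g) * z) * ρ g⁻¹ := by rw [h1]
    _ = (ρ g * ρ (g⁻¹ * k * g)) * z * ρ g⁻¹ := by simp only [mul_assoc]
    _ = ρ k * (ρ g * z * ρ g⁻¹) := by rw [h3]; simp only [mul_assoc]

theorem cj_of_mem_Com {k : G} (hk : k ∈ K) {z : Module.End ℂ V} (hz : z ∈ Com ρ K) :
    cj ρ k z = z := by
  have h : ρ k * ρ k⁻¹ = 1 := by rw [← map_mul, mul_inv_cancel, map_one]
  rw [cj_apply, ← hz k hk, mul_assoc, h, mul_one]

theorem Impl.inv_mem {g : G} {x x' : Module.End ℂ V} (h : Impl ρ K g x x') : x' ∈ Com ρ K := by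
  obtain ⟨h1, h2, h3, _⟩ := h
  intro k hk
  calc x' * ρ k = x' * (ρ k * (x * x')) := by rw [h1, mul_one]
    _ = x' * ((ρ k * x) * x') := by rw [mul_assoc (ρ k)]
    _ = x' * ((x * ρ k) * x') := by rw [h3 k hk]
    _ = (x' * x) * (ρ k * x') := by simp only [mul_assoc]
    _ = ρ k * x' := by rw [h2, one_mul]

theorem Impl.mul [K.Normal] {g h : G} {x x' y y' : Module.End ℂ V} (hx : Impl ρ K g x x')
    (hy : Impl ρ K h y y') : Impl ρ K (g * h) (x * y) (y' * x') := by
  obtain ⟨h1, h2, h3, h4⟩ := hx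
  obtain ⟨h1', h2', h3', h4'⟩ := hy
  refine ⟨?_, ?_, Com.mul h3 h3', ?_⟩
  · calc x * y * (y' * x') = x * (y * y') * x' := by simp only [mul_assoc]
      _ = 1 := by rw [h1', mul_one, h1]
  · calc y' * x' * (x * y) = y' * (x' * x) * y := by simp only [mul_assoc]
      _ = 1 := by rw [h2, mul_one, h2']
  · intro z hz
    have h5 := h4' z hz
    have h6 := h4 _ (Com.cj h hz)
    rw [cj_mul, ← h6, ← h5]
    simp only [mul_assoc]

theorem Impl.one_of_mem {k : G} (hk : k ∈ K) : Impl ρ K k 1 1 := by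
  refine ⟨one_mul _, one_mul _, Com.one, fun z hz => ?_⟩
  rw [one_mul, mul_one, cj_of_mem_Com hk hz]

theorem Impl.inv [K.Normal] {g : G} {x x' : Module.End ℂ V} (h : Impl ρ K g x x') :
    Impl ρ K g⁻¹ x' x := by
  have hm := h.inv_mem
  obtain ⟨h1, h2, h3, h4⟩ := h
  refine ⟨h2, h1, hm, fun z hz => ?_⟩
  have h5 := h4 _ (Com.cj g⁻¹ hz)
  rw [← cj_mul, mul_inv_cancel, cj_one] at h5
  calc x' * z * x = x' * (x * cj ρ g⁻¹ z * x') * x := by rw [h5]
    _ = (x' * x) * cj ρ g⁻¹ z * (x' * x) := by simp only [mul_assoc]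
    _ = _ := by rw [h2, one_mul, mul_one]

theorem Impl.conj [K.Normal] (a : G) {g : G} {x x' : Module.End ℂ V} (h : Impl ρ K g x x') :
    Impl ρ K (a * g * a⁻¹) (cj ρ a x) (cj ρ a x') := by
  have hm := h.inv_mem
  obtain ⟨h1, h2, h3, h4⟩ := h
  refine ⟨by rw [← map_mul, h1, map_one], by rw [← map_mul, h2, map_one], Com.cj a h3, ?_⟩
  intro z hz
  have h5 := h4 _ (Com.cj a⁻¹ hz)
  have h6 : cj ρ a (cj ρ a⁻¹ z) = z := by
    rw [← cj_mul, mul_inv_cancel, cj_one]
  calc cj ρ a x * z * cj ρ a x' = cj ρ a x * cj ρ a (cj ρ a⁻¹ z) * cj ρ a x' := by rw [h6]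
    _ = cj ρ a (x * cj ρ a⁻¹ z * x') := by simp only [map_mul]
    _ = cj ρ a (cj ρ g (cj ρ a⁻¹ z)) := by rw [h5]
    _ = _ := by simp only [cj_mul]

/-- Two operators implementing the same group element are proportional. -/
theorem Impl.prop [Nontrivial V] [K.Normal]
    (hZ : ∀ y ∈ Com ρ K, (∀ z ∈ Com ρ K, y * z = z * y) → ∃ s : ℂ, y = s • 1)
    {g : G} {x x' y y' : Module.End ℂ V} (hx : Impl ρ K g x x') (hy : Impl ρ K g y y') :
    ∃ s : ℂ, s ≠ 0 ∧ x = s • y ∧ x' = s⁻¹ • y' := by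
  have hxy := hx.mul hy.inv
  rw [mul_inv_cancel] at hxy
  obtain ⟨h1, h2, h3, h4⟩ := hxy
  obtain ⟨s, hs⟩ := hZ _ h3 (fun z hz => by
    have := h4 z hz
    rw [cj_one] at this
    calc x * y' * z = x * y' * z * ((y * x') * (x * y')) := by rw [h2, mul_one]
      _ = (x * y' * z * (y * x')) * (x * y') := by simp only [mul_assoc]
      _ = z * (x * y') := by rw [this])
  have hs0 : s ≠ 0 := by
    rintro rfl
    rw [zero_smul] at hs
    rw [hs, zero_mul] at h1
    exact zero_ne_one h1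
  have hxs : x = s • y := by
    have hy2 : y' * y = 1 := hy.2.1
    calc x = x * (y' * y) := by rw [hy2, mul_one]
      _ = (x * y') * y := by rw [mul_assoc]
      _ = s • y := by rw [hs, smul_mul_assoc, one_mul]
  refine ⟨s, hs0, hxs, ?_⟩
  have hx2 : x' * x = 1 := hx.2.1
  have hy1 : y * y' = 1 := hy.1
  calc x' = x' * (x * (s⁻¹ • y')) := by
        have : x * (s⁻¹ • y') = 1 := by
          rw [hxs, smul_mul_smul_comm, mul_inv_cancel₀ hs0, hy1, one_smul]
        rw [this, mul_one]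
    _ = (x' * x) * (s⁻¹ • y') := by rw [mul_assoc]
    _ = s⁻¹ • y' := by rw [hx2, one_mul]

end Impl

/-- An operator fixed by a power of a unipotent operator is fixed by the operator. -/
theorem fixed_of_unipotent {W : Type*} [AddCommGroup W] [Module ℂ W] (B : Module.End ℂ W) {q : ℕ}
    (hq : q ≠ 0) (hB : IsNilpotent (B - 1)) (u : W) (hu : (B ^ q) u = u) : B u = u := by
  obtain ⟨N, hN⟩ := hB
  set d : Module.End ℂ W := B - 1 with hd
  have hBd : Commute B d := by
    rw [hd]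
    exact (Commute.refl B).sub_right (Commute.one_right B)
  -- descend
  have key : ∀ n : ℕ, (d ^ (n + 1)) u = 0 → d u = 0 := by
    intro n
    induction n with
    | zero => intro h; simpa using h
    | succ n ih =>
      intro h
      apply ih
      set z := (d ^ n) u with hz
      set w := (d ^ (n + 1)) u with hw
      have hdz : d z = w := by
        rw [hw, pow_succ']
        rfl
      have hdw : d w = 0 := by
        rw [← h, pow_succ' d (n + 1)]
        rfl
      have hBw : B w = w := by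
        have : B w - w = 0 := hdw
        exact sub_eq_zero.mp this
      have hBz : B z = z + w := by
        have : B z - z = w := hdz
        rw [← this]
        abel
      have hpow : ∀ i : ℕ, (B ^ i) z = z + (i : ℂ) • w := by
        intro i
        induction i with
        | zero => simp
        | succ i ih2 =>
          rw [pow_succ', Module.End.mul_apply, ih2, map_add, map_smul, hBz, hBw]
          push_cast
          rw [add_smul, one_smul]
          abel
      have hfix : (B ^ q) z = z := by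
        have h1 : Commute (B ^ q) (d ^ n) := (hBd.pow_left q).pow_right n
        have h2 := LinearMap.congr_fun h1.eq u
        simp only [Module.End.mul_apply] at h2
        rw [hz, h2, hu]
      have h3 := hpow q
      rw [hfix] at h3
      have h4 : (q : ℂ) • w = 0 := by
        have : z + (q : ℂ) • w = z + 0 := by rw [← h3, add_zero]
        exact add_left_cancel this
      have h5 : (q : ℂ) ≠ 0 := by exact_mod_cast hq
      exact (smul_eq_zero.mp h4).resolve_left h5
  by_cases hN0 : N = 0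
  · subst hN0
    have hone : (1 : Module.End ℂ W) = 0 := by simpa using hN
    have : u = 0 := by
      have := LinearMap.congr_fun hone u
      simpa using this
    subst this
    simp
  have h2 : (d ^ ((N - 1) + 1)) u = 0 := by
    rw [Nat.sub_add_cancel (Nat.pos_of_ne_zero hN0), hN]
    rfl
  have := key _ h2
  have h3 : B u - u = 0 := this
  exact sub_eq_zero.mp h3

section Tau

variable {ρ : Representation ℂ G V} {K L H : Subgroup G} [K.Normal] [L.Normal] [Fintype L]
  {q q' : G → Module.End ℂ V}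

/-- The canonical element attached to `a`: the sum of the commutators with `L`. -/
noncomputable def tau (ρ : Representation ℂ G V) (L : Subgroup G) [Fintype L]
    (q q' : G → Module.End ℂ V) (a : G) : Module.End ℂ V :=
  ∑ l : L, cj ρ a (q l) * q' l

/-- The term of `tau`. -/
theorem tau_term_impl (hq : ∀ g, Impl ρ K g (q g) (q' g)) (a : G) (l : G) :
    Impl ρ K (a * l * a⁻¹ * l⁻¹) (cj ρ a (q l) * q' l) (q l * cj ρ a (q' l)) :=
  ((hq l).conj a).mul (hq l).inv

variable [Nontrivial V] (hZ : ∀ y ∈ Com ρ K, (∀ z ∈ Com ρ K, y * z = z * y) → ∃ s : ℂ, y = s • 1)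
  (hq : ∀ g, Impl ρ K g (q g) (q' g))

include hZ hq

/-- The intertwining property of `tau`. -/
theorem cj_mul_tau (a : G) (l₀ : L) :
    cj ρ a (q l₀) * tau ρ L q q' a = tau ρ L q q' a * q l₀ := by
  unfold tau
  rw [Finset.mul_sum, Finset.sum_mul]
  refine Fintype.sum_equiv (Equiv.mulLeft l₀) _ _ (fun l => ?_)
  obtain ⟨s, hs0, h1, h2⟩ := ((hq (l₀ : G)).mul (hq (l : G))).prop hZ (hq ((l₀ : G) * l))
  have hc : (((Equiv.mulLeft l₀) l : L) : G) = (l₀ : G) * l := rfl
  rw [hc]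
  have h3 : q' (l : G) = s⁻¹ • (q' ((l₀ : G) * l) * q l₀) := by
    have h4 : q' (l₀ : G) * q l₀ = 1 := (hq _).2.1
    calc q' (l : G) = q' (l : G) * (q' (l₀ : G) * q l₀) := by rw [h4, mul_one]
      _ = (q' (l : G) * q' (l₀ : G)) * q l₀ := by rw [mul_assoc]
      _ = _ := by rw [h2, smul_mul_assoc]
  calc cj ρ a (q l₀) * (cj ρ a (q l) * q' l) = cj ρ a (q l₀ * q l) * q' l := by
        rw [map_mul, mul_assoc]
    _ = cj ρ a (s • q ((l₀ : G) * l)) * (s⁻¹ • (q' ((l₀ : G) * l) * q l₀)) := by rw [h1, h3]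
    _ = cj ρ a (q ((l₀ : G) * l)) * q' ((l₀ : G) * l) * q l₀ := by
        rw [map_smul, smul_mul_smul_comm, mul_inv_cancel₀ hs0, one_smul, mul_assoc]

/-- The span of the `q l`. -/
noncomputable def spanQ (L : Subgroup G) (q : G → Module.End ℂ V) : Submodule ℂ (Module.End ℂ V) :=
  Submodule.span ℂ (Set.range fun l : L => q (l : G))

omit hq hZ in
theorem q_mem_spanQ (l : L) : q (l : G) ∈ spanQ L q :=
  Submodule.subset_span ⟨l, rfl⟩

/-- Anything implementing an element of `L` is in the span. -/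
theorem mem_spanQ_of_impl {x : G} (hx : x ∈ L) {w w' : Module.End ℂ V} (hw : Impl ρ K x w w') :
    w ∈ spanQ L q := by
  obtain ⟨s, _, h1, _⟩ := hw.prop hZ (hq x)
  rw [h1]
  exact Submodule.smul_mem _ _ (q_mem_spanQ (L := L) (q := q) ⟨x, hx⟩)

theorem tau_mem_spanQ (a : G) : tau ρ L q q' a ∈ spanQ L q := by
  refine Submodule.sum_mem _ fun l _ => ?_
  refine mem_spanQ_of_impl hZ hq ?_ (tau_term_impl hq a l)
  have h1 : a * (l : G) * a⁻¹ ∈ L := (inferInstance : L.Normal).conj_mem l l.2 a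
  exact L.mul_mem h1 (L.inv_mem l.2)

/-- The intertwining property, extended to the span. -/
theorem cj_mul_tau_of_mem (a : G) {u : Module.End ℂ V} (hu : u ∈ spanQ L q) :
    cj ρ a u * tau ρ L q q' a = tau ρ L q q' a * u := by
  induction hu using Submodule.span_induction with
  | mem x hx =>
    obtain ⟨l, rfl⟩ := hx
    exact cj_mul_tau hZ hq a l
  | zero => simp
  | add x y _ _ hx hy => rw [map_add, add_mul, mul_add, hx, hy]
  | smul r x _ hx => rw [map_smul, smul_mul_assoc, mul_smul_comm, hx]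

/-- The span is stable under conjugation. -/
theorem cj_mem_spanQ (a : G) {u : Module.End ℂ V} (hu : u ∈ spanQ L q) : cj ρ a u ∈ spanQ L q := by
  induction hu using Submodule.span_induction with
  | mem x hx =>
    obtain ⟨l, rfl⟩ := hx
    exact mem_spanQ_of_impl hZ hq ((inferInstance : L.Normal).conj_mem l l.2 a) ((hq l).conj a)
  | zero => simp
  | add x y _ _ hx hy => rw [map_add]; exact Submodule.add_mem _ hx hy
  | smul r x _ hx => rw [map_smul]; exact Submodule.smul_mem _ _ hx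

/-- `H` permutes the elements `tau`. -/
theorem cj_tau (h a : G) : cj ρ h (tau ρ L q q' a) = tau ρ L q q' (h * a * h⁻¹) := by
  unfold tau
  rw [map_sum]
  refine Fintype.sum_equiv (MulAut.conjNormal h : L ≃* L).toEquiv _ _ (fun l => ?_)
  have hc : (((MulAut.conjNormal h : L ≃* L).toEquiv l : L) : G) = h * l * h⁻¹ := rfl
  rw [hc]
  obtain ⟨s, hs0, h1, h2⟩ := ((hq (l : G)).conj h).prop hZ (hq (h * l * h⁻¹))
  have h3 : cj ρ h (cj ρ a (q l)) = cj ρ (h * a * h⁻¹) (cj ρ h (q l)) := by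
    rw [← cj_mul, ← cj_mul]
    congr 1
    group
  rw [map_mul, h3, h1, h2, map_smul, smul_mul_smul_comm, mul_inv_cancel₀ hs0, one_smul]

omit [Nontrivial V] hZ in
/-- `tau` depends only on the coset modulo `K`. -/
theorem tau_mul_mem (a : G) {k : G} (hk : k ∈ K) :
    tau ρ L q q' (a * k) = tau ρ L q q' a := by
  unfold tau
  refine Finset.sum_congr rfl fun l _ => ?_
  rw [cj_mul, cj_of_mem_Com hk (hq _).2.2.1]

/-- Commuting modulo `K` implies invariance of `tau`. -/
theorem cj_tau_eq (a b : G) (hab : a⁻¹ * (b * a * b⁻¹) ∈ K) :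
    cj ρ b (tau ρ L q q' a) = tau ρ L q q' a := by
  rw [cj_tau hZ hq]
  have h1 : b * a * b⁻¹ = a * (a⁻¹ * (b * a * b⁻¹)) := by group
  rw [h1, tau_mul_mem hq a hab]

/-- The elements `tau` commute. -/
theorem tau_comm (a b : G) (hba : b⁻¹ * (a * b * a⁻¹) ∈ K) :
    tau ρ L q q' a * tau ρ L q q' b = tau ρ L q q' b * tau ρ L q q' a := by
  have h1 := cj_mul_tau_of_mem (L := L) hZ hq a (tau_mem_spanQ (L := L) hZ hq b)
  rw [cj_tau_eq hZ hq b a hba] at h1
  exact h1.symm

omit [L.Normal] [Fintype L] in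
/-- The operators `q` are nonzero. -/
theorem q_ne_zero (g : G) : q g ≠ 0 := by
  intro h
  have h1 := (hq g).1
  rw [h, zero_mul] at h1
  exact zero_ne_one h1

omit [L.Normal] [Fintype L] hZ in
theorem impl_pow (g : G) (n : ℕ) : Impl ρ K (g ^ n) (q g ^ n) (q' g ^ n) := by
  induction n with
  | zero =>
    simpa using Impl.one_of_mem (ρ := ρ) (K := K) (one_mem K)
  | succ n ih =>
    rw [pow_succ g, pow_succ (q g), pow_succ' (q' g)]
    exact ih.mul (hq g)

omit [L.Normal] [Fintype L] in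
/-- A commutator with `a` lying in `K`: the scalar is trivial for coprime exponents. -/
theorem term_eq_one {a l : G} {P Q : ℕ} (hPQ : Nat.Coprime P Q) (ha : a ^ Q ∈ K) (hl : l ^ P ∈ K)
    (hal : a * l * a⁻¹ * l⁻¹ ∈ K) : cj ρ a (q l) * q' l = 1 := by
  obtain ⟨s, hs0, h1, _⟩ := (tau_term_impl hq a l).prop hZ (Impl.one_of_mem hal)
  rw [h1]
  have h2 : cj ρ a (q l) = s • q l := by
    have h3 : q' l * q l = 1 := (hq l).2.1
    calc cj ρ a (q l) = cj ρ a (q l) * (q' l * q l) := by rw [h3, mul_one]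
      _ = (cj ρ a (q l) * q' l) * q l := by rw [mul_assoc]
      _ = s • q l := by rw [h1, smul_mul_assoc, one_mul]
  -- the order of `a`
  have h4 : ∀ n : ℕ, cj ρ (a ^ n) (q l) = s ^ n • q l := by
    intro n
    induction n with
    | zero => simp [cj_one]
    | succ n ih =>
      rw [pow_succ, cj_mul, h2, map_smul, ih, smul_smul, pow_succ, mul_comm s]
  have hsQ : s ^ Q = 1 := by
    have h5 := h4 Q
    rw [cj_of_mem_Com ha (hq l).2.2.1] at h5
    have h6 : (s ^ Q - 1) • q l = 0 := by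
      rw [sub_smul, one_smul, ← h5, sub_self]
    have h7 := (smul_eq_zero.mp h6).resolve_right (q_ne_zero hZ hq l)
    exact sub_eq_zero.mp h7
  -- the order of `l`
  have hsP : s ^ P = 1 := by
    obtain ⟨r, hr0, h5, _⟩ := (impl_pow hq l P).prop hZ (Impl.one_of_mem hl)
    have h6 : cj ρ a (q l ^ P) = s ^ P • q l ^ P := by
      rw [map_pow, h2, smul_pow]
    rw [h5, map_smul, map_one, smul_smul] at h6
    have h7 : ((r - s ^ P * r)) • (1 : Module.End ℂ V) = 0 := by
      rw [sub_smul, h6, sub_self]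
    have h8 := (smul_eq_zero.mp h7).resolve_right one_ne_zero
    have h9 : r * (1 - s ^ P) = 0 := by
      rw [mul_sub, mul_one, mul_comm r]
      exact h8
    have h10 := (mul_eq_zero.mp h9).resolve_left hr0
    exact (sub_eq_zero.mp h10).symm
  have hs1 : s = 1 := by
    have h5 := pow_gcd_eq_one.mpr ⟨hsP, hsQ⟩
    rw [hPQ.gcd_eq_one, pow_one] at h5
    exact h5
  rw [hs1, one_smul]

end Tau

section D

variable {ρ : Representation ℂ G V} {K L H : Subgroup G} [K.Normal] [L.Normal] [Fintype L]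
  {q q' : G → Module.End ℂ V} {π : G ⧸ H → Module.End ℂ V}

/-- The operator attached to `a`. -/
noncomputable def Dop (ρ : Representation ℂ G V) (L : Subgroup G) [Fintype L] {H : Subgroup G}
    (q q' : G → Module.End ℂ V) (π : G ⧸ H → Module.End ℂ V) (a : G) : Module.End ℂ V :=
  ∑ l : L, q l * tau ρ L q q' a * q' l * π ((l : G) : G ⧸ H)

theorem Dop_congr {a b : G} (h : tau ρ L q q' a = tau ρ L q q' b) :
    Dop ρ L q q' π a = Dop ρ L q q' π b := by
  unfold Dop
  rw [h]

theorem smul_quot_of_mem (hKH : K ≤ H) {k : G} (hk : k ∈ K) (c : G ⧸ H) : k • c = c := by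
  induction c using QuotientGroup.induction_on with
  | H x =>
    have h1 : (k • (x : G ⧸ H)) = ((k * x : G) : G ⧸ H) := rfl
    rw [h1]
    apply QuotientGroup.eq.mpr
    apply hKH
    have := (inferInstance : K.Normal).conj_mem k⁻¹ (K.inv_mem hk) x⁻¹
    simpa [mul_assoc] using this

variable (hπ3 : ∀ (g : G) c, ρ g * π c * ρ g⁻¹ = π (g • c)) (hKH : K ≤ H)

include hπ3 hKH

theorem pi_mem_Com (c : G ⧸ H) : π c ∈ Com ρ K := by
  intro k hk
  have h1 := hπ3 k c
  rw [smul_quot_of_mem hKH hk] at h1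
  have h2 : ρ k⁻¹ * ρ k = 1 := by rw [← map_mul, inv_mul_cancel, map_one]
  calc π c * ρ k = (ρ k * π c * ρ k⁻¹) * ρ k := by rw [h1]
    _ = ρ k * π c * (ρ k⁻¹ * ρ k) := by simp only [mul_assoc]
    _ = ρ k * π c := by rw [h2, mul_one]

omit hπ3 hKH in
theorem tau_mem_Com (hq : ∀ g, Impl ρ K g (q g) (q' g)) (a : G) : tau ρ L q q' a ∈ Com ρ K := by
  refine Com.sum _ fun l _ => ?_
  exact Com.mul (Com.cj a (hq _).2.2.1) (hq _).inv_mem

theorem Dop_mem_Com (hq : ∀ g, Impl ρ K g (q g) (q' g)) (a : G) : Dop ρ L q q' π a ∈ Com ρ K := by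
  refine Com.sum _ fun l _ => ?_
  exact Com.mul (Com.mul (Com.mul (hq _).2.2.1 (tau_mem_Com hq a)) (hq _).inv_mem)
    (pi_mem_Com hπ3 hKH _)

theorem q_pi_q' (hq : ∀ g, Impl ρ K g (q g) (q' g)) (g : G) (c : G ⧸ H) :
    q g * π c * q' g = π (g • c) := by
  rw [(hq g).2.2.2 _ (pi_mem_Com hπ3 hKH c), cj_apply, hπ3]

variable [Nontrivial V] (hZ : ∀ y ∈ Com ρ K, (∀ z ∈ Com ρ K, y * z = z * y) → ∃ s : ℂ, y = s • 1)
  (hq : ∀ g, Impl ρ K g (q g) (q' g))

include hZ hq

/-- `q l` commutes with `D a`. -/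
theorem q_conj_Dop (a : G) (l₀ : L) : q l₀ * Dop ρ L q q' π a * q' l₀ = Dop ρ L q q' π a := by
  unfold Dop
  rw [Finset.mul_sum, Finset.sum_mul]
  refine Fintype.sum_equiv (Equiv.mulLeft l₀) _ _ (fun l => ?_)
  have hc : (((Equiv.mulLeft l₀) l : L) : G) = (l₀ : G) * l := rfl
  rw [hc]
  obtain ⟨s, hs0, h1, h2⟩ := ((hq (l₀ : G)).mul (hq (l : G))).prop hZ (hq ((l₀ : G) * l))
  have h3 : q l₀ * π ((l : G) : G ⧸ H) * q' l₀ = π (((l₀ : G) * l : G) : G ⧸ H) :=
    q_pi_q' hπ3 hKH hq _ _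
  have e : q' (l₀ : G) * q l₀ = 1 := (hq _).2.1
  set T := tau ρ L q q' a
  set P := π ((l : G) : G ⧸ H)
  calc q l₀ * (q l * T * q' l * P) * q' l₀
      = (q l₀ * q l) * T * (q' l * (q' l₀ * q l₀)) * P * q' l₀ := by
        rw [e, mul_one]; simp only [mul_assoc]
    _ = (q l₀ * q l) * T * (q' l * q' l₀) * (q l₀ * P * q' l₀) := by simp only [mul_assoc]
    _ = _ := by
        rw [h1, h2, h3]
        simp only [smul_mul_assoc, mul_smul_comm, smul_smul, inv_mul_cancel₀ hs0, one_smul]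

theorem q_comm_Dop (a : G) (l₀ : L) : q l₀ * Dop ρ L q q' π a = Dop ρ L q q' π a * q l₀ := by
  have h1 := q_conj_Dop hπ3 hKH hZ hq (π := π) a l₀
  have e : q' (l₀ : G) * q l₀ = 1 := (hq _).2.1
  calc q l₀ * Dop ρ L q q' π a = q l₀ * Dop ρ L q q' π a * (q' l₀ * q l₀) := by rw [e, mul_one]
    _ = (q l₀ * Dop ρ L q q' π a * q' l₀) * q l₀ := by simp only [mul_assoc]
    _ = _ := by rw [h1]

/-- `ρ l` commutes with `D a`. -/
theorem rho_comm_Dop (a : G) (l₀ : L) : ρ l₀ * Dop ρ L q q' π a = Dop ρ L q q' π a * ρ l₀ := by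
  have h1 := q_conj_Dop hπ3 hKH hZ hq (π := π) a l₀
  rw [(hq _).2.2.2 _ (Dop_mem_Com hπ3 hKH hq a), cj_apply] at h1
  have e : ρ (l₀ : G)⁻¹ * ρ l₀ = 1 := by rw [← map_mul, inv_mul_cancel, map_one]
  calc ρ l₀ * Dop ρ L q q' π a = ρ l₀ * Dop ρ L q q' π a * (ρ (l₀ : G)⁻¹ * ρ l₀) := by
        rw [e, mul_one]
    _ = (ρ l₀ * Dop ρ L q q' π a * ρ (l₀ : G)⁻¹) * ρ l₀ := by simp only [mul_assoc]
    _ = _ := by rw [h1]

/-- Conjugation by `H` permutes the operators. -/
theorem cj_Dop (a : G) {h : G} (hh : h ∈ H) :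
    cj ρ h (Dop ρ L q q' π a) = Dop ρ L q q' π (h * a * h⁻¹) := by
  unfold Dop
  rw [map_sum]
  refine Fintype.sum_equiv (MulAut.conjNormal h : L ≃* L).toEquiv _ _ (fun l => ?_)
  have hc : (((MulAut.conjNormal h : L ≃* L).toEquiv l : L) : G) = h * l * h⁻¹ := rfl
  rw [hc]
  obtain ⟨s, hs0, h1, h2⟩ := ((hq (l : G)).conj h).prop hZ (hq (h * l * h⁻¹))
  have h3 : cj ρ h (π ((l : G) : G ⧸ H)) = π ((h * l * h⁻¹ : G) : G ⧸ H) := by
    rw [cj_apply, hπ3]
    congr 1
    have h4 : (h • ((l : G) : G ⧸ H)) = ((h * l : G) : G ⧸ H) := rfl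
    rw [h4]
    apply QuotientGroup.eq.mpr
    have h5 : (h * (l : G))⁻¹ * (h * l * h⁻¹) = h⁻¹ := by group
    rw [h5]
    exact H.inv_mem hh
  rw [map_mul, map_mul, map_mul, h1, h2, h3, cj_tau hZ hq]
  simp only [smul_mul_assoc, mul_smul_comm, smul_smul, inv_mul_cancel₀ hs0, one_smul]

/-- Conjugation by an element commuting with `a` modulo `K` fixes `D a`. -/
theorem rho_comm_Dop_of_comm (a : G) {b : G} (hb : b ∈ H) (hab : a⁻¹ * (b * a * b⁻¹) ∈ K) :
    ρ b * Dop ρ L q q' π a = Dop ρ L q q' π a * ρ b := by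
  have h1 := cj_Dop hπ3 hKH hZ hq (L := L) (π := π) a hb
  rw [Dop_congr (a := b * a * b⁻¹) (b := a) (by
    have h2 : b * a * b⁻¹ = a * (a⁻¹ * (b * a * b⁻¹)) := by group
    rw [h2, tau_mul_mem hq a hab]), cj_apply] at h1
  have e : ρ b⁻¹ * ρ b = 1 := by rw [← map_mul, inv_mul_cancel, map_one]
  calc ρ b * Dop ρ L q q' π a = ρ b * Dop ρ L q q' π a * (ρ b⁻¹ * ρ b) := by rw [e, mul_one]
    _ = (ρ b * Dop ρ L q q' π a * ρ b⁻¹) * ρ b := by simp only [mul_assoc]
    _ = _ := by rw [h1]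

/-- `D a` commutes with the span of the `q l`. -/
theorem comm_Dop_of_mem (a : G) {u : Module.End ℂ V} (hu : u ∈ spanQ L q) :
    u * Dop ρ L q q' π a = Dop ρ L q q' π a * u := by
  induction hu using Submodule.span_induction with
  | mem x hx =>
    obtain ⟨l, rfl⟩ := hx
    exact q_comm_Dop hπ3 hKH hZ hq a l
  | zero => simp
  | add x y _ _ hx hy => rw [add_mul, mul_add, hx, hy]
  | smul r x _ hx => rw [smul_mul_assoc, mul_smul_comm, hx]

end D

section Main

variable [FiniteDimensional ℂ V] {ρ : Representation ℂ G V} {K L H : Subgroup G} [K.Normal]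
  [L.Normal] [Fintype L] {q q' : G → Module.End ℂ V} [Fintype (G ⧸ H)]
  {π : G ⧸ H → Module.End ℂ V} [Nontrivial V]
  (hπ1 : ∀ c, π c * π c = π c) (hπ1' : ∀ c c', c ≠ c' → π c * π c' = 0) (hπ2 : ∑ c, π c = 1)
  (hπ3 : ∀ (g : G) c, ρ g * π c * ρ g⁻¹ = π (g • c)) (hKH : K ≤ H)
  (hLH : ∀ g : G, ∃ l ∈ L, ∃ h ∈ H, g = l * h) (hLK : ∀ l ∈ L, l ∈ H → l ∈ K)
  (hZ : ∀ y ∈ Com ρ K, (∀ z ∈ Com ρ K, y * z = z * y) → ∃ s : ℂ, y = s • 1)
  (hq : ∀ g, Impl ρ K g (q g) (q' g))

/-- The number of elements of `L` in `K`. -/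
noncomputable def mK (K L : Subgroup G) [Fintype L] : ℕ := by
  classical exact (Finset.univ.filter fun l : L => (l : G) ∈ K).card

theorem mK_ne_zero (K L : Subgroup G) [Fintype L] : mK K L ≠ 0 := by
  classical
  unfold mK
  refine Finset.card_ne_zero.mpr ⟨1, ?_⟩
  simp [one_mem]

local notation "c₀" => ((1 : G) : G ⧸ H)

omit [Fintype L] [Fintype (G ⧸ H)] [L.Normal] [K.Normal] [FiniteDimensional ℂ V] [Nontrivial V] in
include hLK hKH in
theorem quot_eq_one_iff {l : G} (hl : l ∈ L) : ((l : G) : G ⧸ H) = c₀ ↔ l ∈ K := by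
  constructor
  · intro h
    apply hLK l hl
    have := QuotientGroup.eq.mp h.symm
    simpa using this
  · intro h
    apply QuotientGroup.eq.mpr
    simpa using hKH h

include hπ1 hπ1' hKH hLK hZ hq in
/-- The operator `D a` on the distinguished summand. -/
theorem Dop_mul_pi (a : G) :
    Dop ρ L q q' π a * π c₀ = (mK K L : ℂ) • (tau ρ L q q' a * π c₀) := by
  classical
  unfold Dop mK
  rw [Finset.sum_mul]
  have hterm : ∀ l : L, q l * tau ρ L q q' a * q' l * π ((l : G) : G ⧸ H) * π c₀ =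
      if (l : G) ∈ K then tau ρ L q q' a * π c₀ else 0 := by
    intro l
    split_ifs with hl
    · obtain ⟨s, hs0, h1, h2⟩ := (hq (l : G)).prop hZ (Impl.one_of_mem hl)
      have h3 : ((l : G) : G ⧸ H) = c₀ := (quot_eq_one_iff hKH hLK l.2).mpr hl
      rw [h3, h1, h2, mul_assoc _ (π c₀), hπ1]
      simp only [smul_mul_assoc, mul_smul_comm, smul_smul, one_mul, mul_one, inv_mul_cancel₀ hs0,
        one_smul]
    · have h3 : ((l : G) : G ⧸ H) ≠ c₀ := fun h => hl ((quot_eq_one_iff hKH hLK l.2).mp h)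
      rw [mul_assoc, hπ1' _ _ h3, mul_zero]
  rw [Finset.sum_congr rfl fun l _ => hterm l, Finset.sum_ite, Finset.sum_const_zero, add_zero,
    Finset.sum_const, Nat.cast_smul_eq_nsmul]

include hπ2 hLH hKH hLK in
/-- The sum over `L` of the idempotents. -/
theorem sum_pi_L : ∑ l : L, π ((l : G) : G ⧸ H) = (mK K L : ℂ) • (1 : Module.End ℂ V) := by
  classical
  rw [← hπ2, Finset.smul_sum]
  rw [← Finset.sum_fiberwise (s := Finset.univ) (g := fun l : L => ((l : G) : G ⧸ H))]
  refine Finset.sum_congr rfl fun c _ => ?_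
  have h1 : ∑ l ∈ Finset.univ.filter (fun l : L => ((l : G) : G ⧸ H) = c), π ((l : G) : G ⧸ H)
      = ∑ l ∈ Finset.univ.filter (fun l : L => ((l : G) : G ⧸ H) = c), π c :=
    Finset.sum_congr rfl fun l hl => by rw [(Finset.mem_filter.mp hl).2]
  rw [h1, Finset.sum_const, Nat.cast_smul_eq_nsmul]
  congr 1
  -- the fibre has the right size
  obtain ⟨g, rfl⟩ := QuotientGroup.mk_surjective c
  obtain ⟨l₁, hl₁, h, hh, rfl⟩ := hLH g
  unfold mK
  refine Finset.card_bij (fun l _ => (⟨l₁, hl₁⟩ : L)⁻¹ * l) ?_ ?_ ?_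
  · intro l hl
    have hl' := (Finset.mem_filter.mp hl).2
    simp only [Finset.mem_filter, Finset.mem_univ, true_and]
    have h2 : ((l₁ * h : G) : G ⧸ H) = ((l₁ : G) : G ⧸ H) := by
      apply QuotientGroup.eq.mpr
      simpa using H.inv_mem hh
    have h3 := QuotientGroup.eq.mp (hl'.trans h2)
    have h4 : l₁⁻¹ * (l : G) ∈ H := by
      have := H.inv_mem h3
      simpa using this
    exact hLK _ (L.mul_mem (L.inv_mem hl₁) l.2) h4
  · intro a _ b _ hab
    exact mul_left_cancel hab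
  · intro b hb
    have hb' := (Finset.mem_filter.mp hb).2
    refine ⟨(⟨l₁, hl₁⟩ : L) * b, ?_, by simp⟩
    simp only [Finset.mem_filter, Finset.mem_univ, true_and]
    apply QuotientGroup.eq.mpr
    have h5 : ((l₁ : G) * b)⁻¹ * (l₁ * h) = (b : G)⁻¹ * h := by group
    show ((l₁ : G) * b)⁻¹ * (l₁ * h) ∈ H
    rw [h5]
    exact H.mul_mem (H.inv_mem (hKH hb')) hh

include hπ2 hπ3 hKH hLH hLK hZ hq in
/-- An operator commuting with all `q l` and killing the distinguished summand vanishes. -/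
theorem eq_zero_of_comm {Y : Module.End ℂ V} (hY : Y * π c₀ = 0)
    (hcomm : ∀ l : L, Y * q l = q l * Y) : Y = 0 := by
  have h1 : ∀ l : L, Y * π ((l : G) : G ⧸ H) = 0 := by
    intro l
    have h2 : q l * π c₀ * q' l = π ((l : G) : G ⧸ H) := by
      rw [q_pi_q' hπ3 hKH hq]
      congr 1
      have : (l : G) • ((1 : G) : G ⧸ H) = (((l : G) * 1 : G) : G ⧸ H) := rfl
      rw [this, mul_one]
    rw [← h2, ← mul_assoc, ← mul_assoc, hcomm, mul_assoc _ Y, hY, mul_zero, zero_mul]
  have h2 := sum_pi_L (K := K) (L := L) hπ2 hKH hLH hLK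
  have h3 : Y * ∑ l : L, π ((l : G) : G ⧸ H) = 0 := by
    rw [Finset.mul_sum]
    exact Finset.sum_eq_zero fun l _ => h1 l
  rw [h2, mul_smul_comm, mul_one] at h3
  have h4 : (mK K L : ℂ) ≠ 0 := by exact_mod_cast mK_ne_zero K L
  exact (smul_eq_zero.mp h3).resolve_left h4

include hπ1 hπ1' hπ2 hπ3 hKH hLH hLK hZ hq in
/-- The operators `D` commute. -/
theorem Dop_comm (a b : G) (hab : a⁻¹ * (b * a * b⁻¹) ∈ K) (hba : b⁻¹ * (a * b * a⁻¹) ∈ K) :
    Dop ρ L q q' π a * Dop ρ L q q' π b = Dop ρ L q q' π b * Dop ρ L q q' π a := by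
  rw [← sub_eq_zero]
  have ha := tau_mem_spanQ (L := L) hZ hq a
  have hb := tau_mem_spanQ (L := L) hZ hq b
  have hcab := comm_Dop_of_mem hπ3 hKH hZ hq (π := π) a hb
  have hcba := comm_Dop_of_mem hπ3 hKH hZ hq (π := π) b ha
  apply eq_zero_of_comm hπ2 hπ3 hKH hLH hLK hZ hq
  · rw [sub_mul, mul_assoc, mul_assoc, Dop_mul_pi hπ1 hπ1' hKH hLK hZ hq b,
      Dop_mul_pi hπ1 hπ1' hKH hLK hZ hq a, mul_smul_comm, mul_smul_comm,
      ← mul_assoc (Dop ρ L q q' π a), ← mul_assoc (Dop ρ L q q' π b), ← hcab, ← hcba, mul_assoc,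
      mul_assoc, Dop_mul_pi hπ1 hπ1' hKH hLK hZ hq b, Dop_mul_pi hπ1 hπ1' hKH hLK hZ hq a,
      mul_smul_comm, mul_smul_comm, ← mul_assoc, ← mul_assoc,
      tau_comm (L := L) hZ hq a b hba, sub_self]
  · intro l
    have h1 := q_comm_Dop hπ3 hKH hZ hq (π := π) a l
    have h2 := q_comm_Dop hπ3 hKH hZ hq (π := π) b l
    rw [sub_mul, mul_sub]
    simp only [mul_assoc]
    rw [← h2, ← h1]
    simp only [← mul_assoc]
    rw [← h1, ← h2]

include hZ in
theorem one_mem_spanQ' (hq : ∀ g, Impl ρ K g (q g) (q' g)) : (1 : Module.End ℂ V) ∈ spanQ L q := by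
  obtain ⟨s, hs0, h1, _⟩ := (Impl.one_of_mem (ρ := ρ) (K := K) (one_mem K)).prop hZ (hq 1)
  rw [h1]
  exact Submodule.smul_mem _ _ (q_mem_spanQ (L := L) (q := q) 1)

include hZ hq in
theorem mul_mem_spanQ {u v : Module.End ℂ V} (hu : u ∈ spanQ L q) (hv : v ∈ spanQ L q) :
    u * v ∈ spanQ L q := by
  induction hu using Submodule.span_induction with
  | mem x hx =>
    obtain ⟨l, rfl⟩ := hx
    induction hv using Submodule.span_induction with
    | mem y hy =>
      obtain ⟨l', rfl⟩ := hy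
      obtain ⟨s, _, h1, _⟩ := ((hq (l : G)).mul (hq (l' : G))).prop hZ (hq ((l : G) * l'))
      show q (l : G) * q (l' : G) ∈ spanQ L q
      rw [h1]
      exact Submodule.smul_mem _ _ (q_mem_spanQ (L := L) (q := q) (l * l'))
    | zero => simp
    | add x y _ _ hx hy => rw [mul_add]; exact Submodule.add_mem _ hx hy
    | smul r x _ hx => rw [mul_smul_comm]; exact Submodule.smul_mem _ _ hx
  | zero => simp
  | add x y _ _ hx hy => rw [add_mul]; exact Submodule.add_mem _ hx hy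
  | smul r x _ hx => rw [smul_mul_assoc]; exact Submodule.smul_mem _ _ hx

include hπ1 hπ1' hπ2 hπ3 hKH hLH hLK hZ hq in
/-- Independence of the `q l` on the distinguished summand. -/
theorem eq_zero_of_mem_spanQ {u : Module.End ℂ V} (hu : u ∈ spanQ L q) (h0 : u * π c₀ = 0) :
    u = 0 := by
  classical
  -- a section of `L → G/H`
  have hsec : ∀ c : G ⧸ H, ∃ l : L, ((l : G) : G ⧸ H) = c := by
    intro c
    obtain ⟨g, rfl⟩ := QuotientGroup.mk_surjective c
    obtain ⟨l₁, hl₁, h, hh, rfl⟩ := hLH g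
    refine ⟨⟨l₁, hl₁⟩, ?_⟩
    apply QuotientGroup.eq.mpr
    simpa using hh
  choose sec hsec using hsec
  -- expansions
  have hexp : ∀ u ∈ spanQ L q, ∃ f : G ⧸ H → ℂ, u = ∑ c, f c • q (sec c) := by
    intro u hu
    induction hu using Submodule.span_induction with
    | mem x hx =>
      obtain ⟨l, rfl⟩ := hx
      set c : G ⧸ H := ((l : G) : G ⧸ H) with hc
      have h1 : (sec c : G)⁻¹ * l ∈ K := by
        apply hLK _ (L.mul_mem (L.inv_mem (sec c).2) l.2)
        apply QuotientGroup.eq.mp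
        rw [hsec c]
      have h2 := (hq (sec c : G)).mul ((Impl.one_of_mem h1))
      rw [mul_one] at h2
      obtain ⟨s, _, h3, _⟩ := (hq (l : G)).prop hZ (by simpa using h2)
      refine ⟨fun c' => if c' = c then s else 0, ?_⟩
      simp only [ite_smul, zero_smul, Finset.sum_ite_eq', Finset.mem_univ, if_true]
      exact h3
    | zero => exact ⟨0, by simp⟩
    | add x y _ _ ihx ihy =>
      obtain ⟨f, rfl⟩ := ihx
      obtain ⟨g, rfl⟩ := ihy
      exact ⟨f + g, by simp [add_smul, Finset.sum_add_distrib]⟩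
    | smul r x _ ihx =>
      obtain ⟨f, rfl⟩ := ihx
      exact ⟨r • f, by simp [Finset.smul_sum, smul_smul]⟩
  obtain ⟨f, hf⟩ := hexp u hu
  have hpi0 : π c₀ ≠ 0 := by
    intro h
    apply one_ne_zero (α := Module.End ℂ V)
    rw [← hπ2]
    refine Finset.sum_eq_zero fun c _ => ?_
    obtain ⟨g, rfl⟩ := QuotientGroup.mk_surjective c
    have h1 := hπ3 g c₀
    have h2 : g • c₀ = ((g : G) : G ⧸ H) := by
      have : g • ((1 : G) : G ⧸ H) = ((g * 1 : G) : G ⧸ H) := rfl
      rw [this, mul_one]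
    rw [h2, h, mul_zero, zero_mul] at h1
    exact h1.symm
  have hqpi : ∀ c, q (sec c) * π c₀ = π c * q (sec c) := by
    intro c
    have h1 := q_pi_q' hπ3 hKH hq (sec c : G) c₀
    have h2 : (sec c : G) • c₀ = c := by
      have : (sec c : G) • ((1 : G) : G ⧸ H) = (((sec c : G) * 1 : G) : G ⧸ H) := rfl
      rw [this, mul_one, hsec]
    rw [h2] at h1
    rw [← h1, mul_assoc, (hq _).2.1, mul_one]
  have hf0 : ∀ c', f c' = 0 := by
    intro c'
    have h1 : π c' * (u * π c₀) = f c' • (q (sec c') * π c₀) := by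
      rw [hf, Finset.sum_mul, Finset.mul_sum]
      rw [Finset.sum_eq_single c']
      · rw [smul_mul_assoc, mul_smul_comm, hqpi, ← mul_assoc, hπ1]
      · intro c _ hc
        rw [smul_mul_assoc, mul_smul_comm, hqpi, ← mul_assoc, hπ1' _ _ hc.symm, zero_mul, smul_zero]
      · simp
    rw [h0, mul_zero] at h1
    have h2 : q (sec c') * π c₀ ≠ 0 := by
      intro h3
      apply hpi0
      calc π c₀ = (q' (sec c') * q (sec c')) * π c₀ := by rw [(hq _).2.1, one_mul]
        _ = 0 := by rw [mul_assoc, h3, mul_zero]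
    exact (smul_eq_zero.mp h1.symm).resolve_right h2
  rw [hf]
  exact Finset.sum_eq_zero fun c _ => by rw [hf0, zero_smul]

include hπ1 hπ1' hπ2 hπ3 hKH hLK in
/-- The trace of an operator implementing an element of `L` outside `K` vanishes. -/
theorem trace_impl_eq_zero {x : G} (hxL : x ∈ L) (hxK : x ∉ K) {w w' : Module.End ℂ V}
    (hw : Impl ρ K x w w') : LinearMap.trace ℂ V w = 0 := by
  have h1 : w = ∑ c, w * π c := by rw [← Finset.mul_sum, hπ2, mul_one]
  rw [h1, map_sum]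
  refine Finset.sum_eq_zero fun c _ => ?_
  have hc : x • c ≠ c := by
    intro hfix
    obtain ⟨g, rfl⟩ := QuotientGroup.mk_surjective c
    apply hxK
    have h2 : ((x * g : G) : G ⧸ H) = (g : G ⧸ H) := hfix
    have h3 : (x * g)⁻¹ * g ∈ H := QuotientGroup.eq.mp h2
    have h4 : g⁻¹ * x * g ∈ H := by
      have h5 := H.inv_mem h3
      have h6 : ((x * g)⁻¹ * g)⁻¹ = g⁻¹ * x * g := by group
      rwa [h6] at h5
    have h7 : g⁻¹ * x * g ∈ L := by
      have := (inferInstance : L.Normal).conj_mem x hxL g⁻¹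
      simpa using this
    have h8 := hLK _ h7 h4
    have := (inferInstance : K.Normal).conj_mem _ h8 g
    have h9 : g * (g⁻¹ * x * g) * g⁻¹ = x := by group
    rwa [h9] at this
  have h2 : w * π c = π (x • c) * w := by
    have h3 := hw.2.2.2 _ (pi_mem_Com hπ3 hKH c)
    rw [cj_apply, hπ3] at h3
    rw [← h3, mul_assoc, hw.2.1, mul_one]
  calc LinearMap.trace ℂ V (w * π c) = LinearMap.trace ℂ V (w * (π c * π c)) := by rw [hπ1]
    _ = LinearMap.trace ℂ V (π c * (w * π c)) := by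
        rw [← mul_assoc, LinearMap.trace_mul_comm]
    _ = 0 := by
        rw [h2, ← mul_assoc, hπ1' _ _ hc.symm, zero_mul, map_zero]

include hπ1 hπ1' hπ2 hπ3 hKH hLH hLK hZ hq in
/-- The main property: `D a` has at least two eigenvalues when `a` does not centralize `L / K`. -/
theorem not_isNilpotent_Dop {a l₀ : G} {P Q : ℕ} (hPQ : Nat.Coprime P Q) (hQ : Q ≠ 0)
    (ha : a ^ Q ∈ K) (hLP : ∀ l ∈ L, l ^ P ∈ K) (hl₀ : l₀ ∈ L) (hal : a * l₀ * a⁻¹ * l₀⁻¹ ∉ K)
    (c : ℂ) : ¬ IsNilpotent (Dop ρ L q q' π a - c • (1 : Module.End ℂ V)) := by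
  classical
  intro hnil
  set m : ℂ := (mK K L : ℂ) with hmdef
  have hm : m ≠ 0 := by
    rw [hmdef]
    exact_mod_cast mK_ne_zero K L
  set τ := tau ρ L q q' a with hτ
  set D := Dop ρ L q q' π a with hD
  have hτspan : τ ∈ spanQ L q := tau_mem_spanQ hZ hq a
  have hone : (1 : Module.End ℂ V) ∈ spanQ L q := one_mem_spanQ' (L := L) hZ hq
  set y : Module.End ℂ V := m • τ - c • 1 with hy
  have hyspan : y ∈ spanQ L q :=
    Submodule.sub_mem _ (Submodule.smul_mem _ _ hτspan) (Submodule.smul_mem _ _ hone)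
  have hpowspan : ∀ n : ℕ, y ^ n ∈ spanQ L q := by
    intro n
    induction n with
    | zero => simpa using hone
    | succ n ih =>
      rw [pow_succ]
      exact mul_mem_spanQ hZ hq ih hyspan
  have hpow : ∀ n : ℕ, (D - c • 1) ^ n * π c₀ = y ^ n * π c₀ := by
    intro n
    induction n with
    | zero => simp
    | succ n ih =>
      have h1 : y ^ n * D = D * y ^ n := comm_Dop_of_mem hπ3 hKH hZ hq a (hpowspan n)
      have h2 : (D - c • 1) * y ^ n = y ^ n * (D - c • 1) := by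
        rw [sub_mul, mul_sub, ← h1, smul_mul_assoc, mul_smul_comm, one_mul, mul_one]
      have h3 : (D - c • 1) * π c₀ = y * π c₀ := by
        rw [sub_mul, hD, Dop_mul_pi hπ1 hπ1' hKH hLK hZ hq a, hy, sub_mul, smul_mul_assoc m τ]
      rw [pow_succ', mul_assoc, ih, ← mul_assoc, h2, mul_assoc, h3, pow_succ, mul_assoc]
  obtain ⟨N, hN⟩ := hnil
  have hyN : y ^ N = 0 := by
    apply eq_zero_of_mem_spanQ hπ1 hπ1' hπ2 hπ3 hKH hLH hLK hZ hq (hpowspan N)
    rw [← hpow, hN, zero_mul]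
  have hynil : IsNilpotent y := ⟨N, hyN⟩
  have hfin : (finrank ℂ V : ℂ) ≠ 0 := by
    have : 0 < finrank ℂ V := Module.finrank_pos
    exact_mod_cast this.ne'
  -- the trace of `τ`
  set n₁ : ℕ := (Finset.univ.filter fun l : L => a * (l : G) * a⁻¹ * (l : G)⁻¹ ∈ K).card with hn₁
  have hn₁0 : n₁ ≠ 0 := by
    refine Finset.card_ne_zero.mpr ⟨1, ?_⟩
    simp [one_mem]
  have htr : LinearMap.trace ℂ V τ = (n₁ : ℂ) * finrank ℂ V := by
    rw [hτ]
    unfold tau
    rw [map_sum]
    have hterm : ∀ l : L, LinearMap.trace ℂ V (cj ρ a (q l) * q' l) =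
        if a * (l : G) * a⁻¹ * (l : G)⁻¹ ∈ K then (finrank ℂ V : ℂ) else 0 := by
      intro l
      split_ifs with hl
      · rw [term_eq_one hZ hq hPQ ha (hLP l l.2) hl, LinearMap.trace_one]
      · refine trace_impl_eq_zero hπ1 hπ1' hπ2 hπ3 hKH hLK ?_ hl (tau_term_impl hq a l)
        have h1 : a * (l : G) * a⁻¹ ∈ L := (inferInstance : L.Normal).conj_mem l l.2 a
        exact L.mul_mem h1 (L.inv_mem l.2)
    rw [Finset.sum_congr rfl fun l _ => hterm l, Finset.sum_ite, Finset.sum_const_zero, add_zero,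
      Finset.sum_const, nsmul_eq_mul]
  have htry : LinearMap.trace ℂ V y = 0 := (LinearMap.isNilpotent_trace_of_isNilpotent hynil).eq_zero
  have hc : c = m * n₁ := by
    rw [hy, map_sub, map_smul, map_smul, htr, LinearMap.trace_one, smul_eq_mul, smul_eq_mul,
      sub_eq_zero, ← mul_assoc] at htry
    exact (mul_right_cancel₀ hfin htry).symm
  have hc0 : c ≠ 0 := by
    rw [hc]
    exact mul_ne_zero hm (by exact_mod_cast hn₁0)
  -- `τ' = m • τ` is invertible
  set τ' : Module.End ℂ V := m • τ with hτ'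
  have hτ'eq : τ' = c • 1 + y := by
    rw [hy, hτ']
    abel
  have hunit : IsUnit τ' := by
    rw [hτ'eq]
    apply IsNilpotent.isUnit_add_left_of_commute hynil
    · obtain ⟨u, hu⟩ := IsUnit.mk0 c hc0
      have : c • (1 : Module.End ℂ V) = algebraMap ℂ _ c := by
        rw [Algebra.algebraMap_eq_smul_one]
      rw [this]
      exact (IsUnit.mk0 c hc0).map (algebraMap ℂ (Module.End ℂ V))
    · exact ((Commute.one_right y).smul_right c)
  obtain ⟨U, hU⟩ := hunit
  set w : Module.End ℂ V := ↑U⁻¹ with hw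
  have hτw : τ' * w = 1 := by rw [← hU, hw, Units.mul_inv]
  have hwτ : w * τ' = 1 := by rw [← hU, hw, Units.inv_mul]
  have hyw : y * w = w * y := by
    have h1 : y = τ' - c • 1 := by rw [hτ'eq]; abel
    rw [h1, sub_mul, mul_sub, hτw, hwτ, smul_mul_assoc, mul_smul_comm, one_mul, mul_one]
  -- conjugation by `τ'`
  let B : Module.End ℂ (Module.End ℂ V) :=
    (LinearMap.mulLeft ℂ τ') ∘ₗ (LinearMap.mulRight ℂ w)
  have hBapply : ∀ u, B u = τ' * u * w := by
    intro u
    simp [B, mul_assoc]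
  have hBspan : ∀ u ∈ spanQ L q, B u = cj ρ a u := by
    intro u hu
    have h1 := cj_mul_tau_of_mem (L := L) hZ hq a hu
    rw [hBapply]
    calc τ' * u * w = m • (τ * u) * w := by rw [hτ', smul_mul_assoc]
      _ = m • (cj ρ a u * τ) * w := by rw [h1]
      _ = cj ρ a u * (τ' * w) := by
          rw [hτ', smul_mul_assoc, smul_mul_assoc, mul_smul_comm, mul_assoc]
      _ = cj ρ a u := by rw [hτw, mul_one]
  have hBpow : ∀ n : ℕ, ∀ u ∈ spanQ L q, (B ^ n) u = cj ρ (a ^ n) u := by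
    intro n
    induction n with
    | zero =>
      intro u _
      simp [cj_one]
    | succ n ih =>
      intro u hu
      rw [pow_succ, Module.End.mul_apply, hBspan u hu, ih _ (cj_mem_spanQ hZ hq a hu), pow_succ,
        cj_mul]
  have hspanCom : ∀ u ∈ spanQ L q, u ∈ Com ρ K := by
    intro u hu
    induction hu using Submodule.span_induction with
    | mem x hx =>
      obtain ⟨l, rfl⟩ := hx
      exact (hq _).2.2.1
    | zero => exact Com.zero
    | add x y _ _ hx hy => exact Com.add hx hy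
    | smul r x _ hx => exact Com.smul r hx
  have hBQ : ∀ u ∈ spanQ L q, (B ^ Q) u = u := by
    intro u hu
    rw [hBpow Q u hu, cj_of_mem_Com ha (hspanCom u hu)]
  have hBnil : IsNilpotent (B - 1) := by
    have h1 : B - 1 = (LinearMap.mulLeft ℂ y - LinearMap.mulRight ℂ y) * LinearMap.mulRight ℂ w := by
      apply LinearMap.ext
      intro u
      have h2 : y = τ' - c • 1 := by rw [hτ'eq]; abel
      rw [LinearMap.sub_apply, hBapply, Module.End.one_apply, Module.End.mul_apply,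
        LinearMap.sub_apply, LinearMap.mulRight_apply, LinearMap.mulLeft_apply,
        LinearMap.mulRight_apply, h2, sub_mul, mul_sub (u * w), mul_assoc u w τ', hwτ, mul_one]
      simp only [smul_mul_assoc, mul_smul_comm, one_mul, mul_one, mul_assoc]
      abel
    rw [h1]
    have hL : IsNilpotent (LinearMap.mulLeft ℂ y) := (LinearMap.isNilpotent_mulLeft_iff ℂ y).mpr hynil
    have hR : IsNilpotent (LinearMap.mulRight ℂ y) := (LinearMap.isNilpotent_mulRight_iff ℂ y).mpr hynil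
    have hLR : IsNilpotent (LinearMap.mulLeft ℂ y - LinearMap.mulRight ℂ y) :=
      (LinearMap.commute_mulLeft_right y y).isNilpotent_sub hL hR
    refine Commute.isNilpotent_mul_right ?_ hLR
    refine Commute.sub_left (LinearMap.commute_mulLeft_right y w) ?_
    -- `mulRight y` and `mulRight w` commute
    apply LinearMap.ext
    intro u
    simp [LinearMap.mulRight_apply, mul_assoc, hyw]
  -- conclusion
  have hfix := fixed_of_unipotent B hQ hBnil (q l₀)
    (hBQ _ (q_mem_spanQ (L := L) (q := q) ⟨l₀, hl₀⟩))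
  rw [hBspan _ (q_mem_spanQ (L := L) (q := q) ⟨l₀, hl₀⟩)] at hfix
  have h1 : cj ρ a (q l₀) * q' l₀ = 1 := by rw [hfix, (hq _).1]
  have h2 : a * l₀ * a⁻¹ * l₀⁻¹ ∈ L :=
    L.mul_mem ((inferInstance : L.Normal).conj_mem l₀ hl₀ a) (L.inv_mem hl₀)
  have h3 := trace_impl_eq_zero hπ1 hπ1' hπ2 hπ3 hKH hLK h2 hal (tau_term_impl hq a l₀)
  rw [h1, LinearMap.trace_one] at h3
  exact hfin h3

end Main

end Cfsg.Agent.Lib.Char.BergerB
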