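import Mathlib
import Cfsg.Agent.Lib.Char.Basic
import Cfsg.Agent.Lib.Char.Ortho
import Cfsg.Agent.Lib.Char.Induced
import Cfsg.Agent.Lib.Char.IndRep
import Cfsg.Agent.Lib.Char.Clifford
import Cfsg.Agent.Lib.Char.GoingDown
import Cfsg.Agent.Lib.Char.MackeyNormal

/-!
# The block lemma: a family of commuting endomorphisms permuted by conjugation

If `ρ` is an irreducible representation and the group permutes (by conjugation) a family of
commuting endomorphisms, one of which is not `scalar + nilpotent`, then the character of `ρ` is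
induced from the stabilizer of a simultaneous generalised eigenspace.
-/

namespace Cfsg.Agent.Lib.Char.BergerC

open Cfsg Module

variable {G : Type*} [Group G] {V : Type*} [AddCommGroup V] [Module ℂ V]
  (ρ : Representation ℂ G V) {ι : Type*} (D : ι → End ℂ V)

/-- Simultaneous generalised eigenspace of the family `D`. -/
def Wsp (ξ : ι → ℂ) : Submodule ℂ V := ⨅ i, (D i).maxGenEigenspace (ξ i)

theorem mem_Wsp (ξ : ι → ℂ) (v : V) :
    v ∈ Wsp D ξ ↔ ∀ i, ∃ k : ℕ, ((D i - ξ i • (1 : End ℂ V)) ^ k) v = 0 := by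
  unfold Wsp
  rw [Module.End.mem_iInf_maxGenEigenspace_iff]

theorem conj_sub_pow (g : G) (i j : ι) (h : ρ g * D i * ρ g⁻¹ = D j) (c : ℂ) (k : ℕ) (v : V) :
    ((D j - c • (1 : End ℂ V)) ^ k) (ρ g v) = ρ g (((D i - c • (1 : End ℂ V)) ^ k) v) := by
  have h1 : ρ g * ρ g⁻¹ = 1 := by rw [← map_mul]; simp
  have h2 : ρ g⁻¹ * ρ g = 1 := by rw [← map_mul]; simp
  have hs : SemiconjBy (ρ g) (D i - c • (1 : End ℂ V)) (D j - c • (1 : End ℂ V)) := by
    unfold SemiconjBy
    rw [← h]
    have : ρ g * D i * ρ g⁻¹ * ρ g = ρ g * D i := by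
      rw [mul_assoc, h2, mul_one]
    rw [mul_sub, sub_mul, this, mul_smul_comm, smul_mul_assoc, mul_one, one_mul]
  have := hs.pow_right k
  have h3 := LinearMap.congr_fun this.eq v
  exact h3.symm

theorem rho_mem_Wsp (g : G) (σ : ι ≃ ι) (hσ : ∀ i, ρ g * D i * ρ g⁻¹ = D (σ i)) (ξ : ι → ℂ)
    (v : V) : ρ g v ∈ Wsp D (ξ ∘ σ.symm) ↔ v ∈ Wsp D ξ := by
  have hinj : Function.Injective (ρ g) := by
    intro a b hab
    have := congrArg (ρ g⁻¹) hab
    have h2 : ∀ x, ρ g⁻¹ (ρ g x) = x := by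
      intro x
      rw [← Module.End.mul_apply, ← map_mul]
      simp
    rwa [h2, h2] at this
  rw [mem_Wsp, mem_Wsp]
  constructor
  · intro h i
    obtain ⟨k, hk⟩ := h (σ i)
    refine ⟨k, ?_⟩
    simp only [Function.comp_apply, Equiv.symm_apply_apply] at hk
    rw [conj_sub_pow ρ D g i (σ i) (hσ i)] at hk
    apply hinj
    rw [hk, map_zero]
  · intro h j
    obtain ⟨k, hk⟩ := h (σ.symm j)
    refine ⟨k, ?_⟩
    have := conj_sub_pow ρ D g (σ.symm j) j (by rw [hσ]; simp) (ξ (σ.symm j)) k v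
    simp only [Function.comp_apply]
    rw [this, hk, map_zero]

/-- Stabilizer of a subspace. -/
def stab (S : Submodule ℂ V) : Subgroup G where
  carrier := {g | ∀ v, ρ g v ∈ S ↔ v ∈ S}
  mul_mem' := by
    intro a b ha hb v
    rw [map_mul, Module.End.mul_apply, ha, hb]
  one_mem' := by
    intro v
    simp
  inv_mem' := by
    intro a ha v
    have h2 : ρ a (ρ a⁻¹ v) = v := by
      rw [← Module.End.mul_apply, ← map_mul]
      simp
    rw [← ha (ρ a⁻¹ v), h2]

theorem mem_stab (S : Submodule ℂ V) (g : G) : g ∈ stab ρ S ↔ ∀ v, ρ g v ∈ S ↔ v ∈ S := Iff.rfl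

/-- The restriction of `ρ` to the stabilizer of `S`. -/
def resStab (S : Submodule ℂ V) : Representation ℂ (stab ρ S) V := ρ.comp (stab ρ S).subtype

/-- `S` as a subrepresentation of the restriction to its stabilizer. -/
def subStab (S : Submodule ℂ V) : Subrepresentation (resStab ρ S) where
  toSubmodule := S
  apply_mem_toSubmodule := by
    intro g v hv
    exact (g.2 v).2 hv

theorem iSup_Wsp_eq_top [FiniteDimensional ℂ V] (hcomm : ∀ i j, Commute (D i) (D j)) :
    ⨆ ξ, Wsp D ξ = ⊤ := by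
  apply Module.End.iSup_iInf_maxGenEigenspace_eq_top_of_iSup_maxGenEigenspace_eq_top_of_commute
  · intro i j _
    exact hcomm i j
  · intro i
    exact Module.End.iSup_maxGenEigenspace_eq_top _

theorem indep_Wsp (hcomm : ∀ i j, Commute (D i) (D j)) : iSupIndep (fun ξ => Wsp D ξ) := by
  apply Module.End.independent_iInf_maxGenEigenspace_of_forall_mapsTo
  intro i j φ
  exact Module.End.mapsTo_maxGenEigenspace_of_comm (hcomm j i) φ

/-- Sum of dimensions of an independent family indexed by a finite type. -/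
theorem sum_finrank_le [FiniteDimensional ℂ V] {κ : Type*} [Fintype κ] (F : κ → Submodule ℂ V)
    (hF : iSupIndep F) : ∑ c, finrank ℂ (F c) ≤ finrank ℂ V := by
  classical
  have hinj := hF.dfinsupp_lsum_injective
  have h1 := LinearMap.finrank_le_finrank_of_injective hinj
  have h2 : finrank ℂ (Π₀ i, F i) = ∑ c, finrank ℂ (F c) :=
    Module.finrank_directSum (R := ℂ) (fun i => F i)
  rwa [h2] at h1

section Block

variable [Fintype G] [FiniteDimensional ℂ V]

theorem finrank_Wsp_rho (g : G) (σ : ι ≃ ι) (hσ : ∀ i, ρ g * D i * ρ g⁻¹ = D (σ i)) (ξ : ι → ℂ) :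
    finrank ℂ (Wsp D (ξ ∘ σ.symm)) = finrank ℂ (Wsp D ξ) := by
  have h1 : ∀ x, ρ g⁻¹ (ρ g x) = x := by
    intro x
    rw [← Module.End.mul_apply, ← map_mul]
    simp
  have h2 : ∀ x, ρ g (ρ g⁻¹ x) = x := by
    intro x
    rw [← Module.End.mul_apply, ← map_mul]
    simp
  let e : V ≃ₗ[ℂ] V := LinearEquiv.ofLinear (ρ g) (ρ g⁻¹)
    (by ext x; exact h2 x) (by ext x; exact h1 x)
  have hmap : (Wsp D ξ).map (e : V →ₗ[ℂ] V) = Wsp D (ξ ∘ σ.symm) := by
    ext v
    constructor
    · rintro ⟨x, hx, rfl⟩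
      exact (rho_mem_Wsp ρ D g σ hσ ξ x).2 hx
    · intro hv
      refine ⟨ρ g⁻¹ v, ?_, h2 v⟩
      have : ρ g (ρ g⁻¹ v) ∈ Wsp D (ξ ∘ σ.symm) := by rwa [h2]
      exact (rho_mem_Wsp ρ D g σ hσ ξ _).1 this
  rw [← hmap]
  exact LinearEquiv.finrank_map_eq e _

/-- Orbit bound: index of the stabilizer times dimension of the block is at most the dimension. -/
theorem index_mul_finrank_le (hcomm : ∀ i j, Commute (D i) (D j))
    (hperm : ∀ g, ∃ σ : ι ≃ ι, ∀ i, ρ g * D i * ρ g⁻¹ = D (σ i)) (ξ₀ : ι → ℂ) :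
    (stab ρ (Wsp D ξ₀)).index * finrank ℂ (Wsp D ξ₀) ≤ finrank ℂ V := by
  classical
  choose σ hσ using hperm
  set J := stab ρ (Wsp D ξ₀) with hJ
  haveI : Fintype (G ⧸ J) := Fintype.ofFinite _
  let ξc : G ⧸ J → (ι → ℂ) := fun c => ξ₀ ∘ (σ c.out).symm
  have hinj : Function.Injective ξc := by
    intro c c' hcc
    have hξ : ξ₀ ∘ (σ c.out).symm = ξ₀ ∘ (σ c'.out).symm := hcc
    have key : c.out⁻¹ * c'.out ∈ J := by
      intro v
      rw [← rho_mem_Wsp ρ D c.out (σ c.out) (hσ c.out) ξ₀ (ρ (c.out⁻¹ * c'.out) v), hξ]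
      rw [← rho_mem_Wsp ρ D c'.out (σ c'.out) (hσ c'.out) ξ₀ v]
      rw [← Module.End.mul_apply, ← map_mul]
      simp
    have : (QuotientGroup.mk c.out : G ⧸ J) = QuotientGroup.mk c'.out :=
      QuotientGroup.eq.2 key
    simpa using this
  have hind : iSupIndep (fun c : G ⧸ J => Wsp D (ξc c)) := (indep_Wsp D hcomm).comp hinj
  have := sum_finrank_le _ hind
  have h2 : ∀ c : G ⧸ J, finrank ℂ (Wsp D (ξc c)) = finrank ℂ (Wsp D ξ₀) := fun c =>
    finrank_Wsp_rho ρ D c.out (σ c.out) (hσ c.out) ξ₀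
  simp only [h2, Finset.sum_const, Finset.card_univ, smul_eq_mul] at this
  rwa [Subgroup.index_eq_card, Nat.card_eq_fintype_card]

theorem exists_block (hχ : IsIrrCharacter G ρ.character) (hcomm : ∀ i j, Commute (D i) (D j))
    (hperm : ∀ g, ∃ σ : ι ≃ ι, ∀ i, ρ g * D i * ρ g⁻¹ = D (σ i))
    (M : Subgroup G) (hM : ∀ m ∈ M, ∀ i, ρ m * D i = D i * ρ m)
    (i₀ : ι) (hnil : ∀ c : ℂ, ¬ IsNilpotent (D i₀ - c • (1 : End ℂ V))) :
    ∃ J : Subgroup G, M ≤ J ∧ J ≠ ⊤ ∧ ∃ κ : J → ℂ, IsCharacter J κ ∧ indFun J κ = ρ.character := by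
  classical
  -- a nonzero block
  have hV : Nontrivial V := by
    by_contra hV
    rw [not_nontrivial_iff_subsingleton] at hV
    apply hnil 0
    refine ⟨1, ?_⟩
    ext x
    exact Subsingleton.elim _ _
  obtain ⟨ξ₀, hξ₀⟩ : ∃ ξ₀, Wsp D ξ₀ ≠ ⊥ := by
    by_contra hall
    push Not at hall
    have := iSup_Wsp_eq_top D hcomm
    simp only [hall, iSup_bot] at this
    exact bot_ne_top this
  set S := Wsp D ξ₀ with hS
  set J := stab ρ S with hJ
  -- the block is not everything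
  have hStop : S ≠ ⊤ := by
    intro htop
    apply hnil (ξ₀ i₀)
    rw [Module.End.isNilpotent_iff_of_finite]
    intro v
    have hv : v ∈ S := by rw [htop]; trivial
    exact (mem_Wsp D ξ₀ v).1 hv i₀
  -- characters
  let S' := subStab ρ S
  obtain ⟨T', hT'⟩ := Cfsg.Agent.Lib.Char.Basic.exists_isCompl (resStab ρ S) S'
  have hres := Cfsg.Agent.Lib.Char.Basic.character_eq_add_of_isCompl (resStab ρ S) S' T' hT'
  set κ : J → ℂ := S'.toRepresentation.character with hκ
  set κT : J → ℂ := T'.toRepresentation.character with hκT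
  have hκc : IsCharacter J κ := Cfsg.Agent.Lib.Char.Basic.isCharacter_of_rep _
  have hκTc : IsCharacter J κT := Cfsg.Agent.Lib.Char.Basic.isCharacter_of_rep _
  have hresχ : (fun j : J => ρ.character j) = κ + κT := by
    rw [← hres]
    rfl
  have hκ1 : κ 1 = (finrank ℂ S : ℂ) := by
    rw [hκ]
    exact Representation.char_one _
  have hSpos : 0 < finrank ℂ S := by
    have : Nontrivial S := Submodule.nontrivial_iff_ne_bot.2 hξ₀
    exact Module.finrank_pos
  have hκ0 : κ ≠ 0 := by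
    intro h0
    rw [h0] at hκ1
    simp only [Pi.zero_apply] at hκ1
    have : ((finrank ℂ S : ℕ) : ℂ) ≠ 0 := Nat.cast_ne_zero.2 hSpos.ne'
    exact this hκ1.symm
  have hχc : IsCharacter G ρ.character := Cfsg.Agent.Lib.Char.Basic.isCharacter_of_rep _
  -- Frobenius
  have hind_c : IsCharacter G (indFun J κ) := Cfsg.Agent.Lib.Char.IndRep.isCharacter_indFun J hκc
  have hinner : classInner (indFun J κ) ρ.character ≠ 0 := by
    rw [Cfsg.Agent.Lib.Char.Induced.frobenius_reciprocity J κ ρ.character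
      (Cfsg.Agent.Lib.Char.Basic.isClassFunction_of_isCharacter hχc), hresχ]
    obtain ⟨n₁, hn₁⟩ := Cfsg.Agent.Lib.Char.Ortho.exists_nat_classInner_of_isCharacter hκc hκc
    obtain ⟨n₂, hn₂⟩ := Cfsg.Agent.Lib.Char.Ortho.exists_nat_classInner_of_isCharacter hκc hκTc
    have hadd : classInner κ (κ + κT) = classInner κ κ + classInner κ κT := by
      simp only [Cfsg.Agent.Lib.Char.Induced.classInner_def, Pi.add_apply, map_add, mul_add,
        Finset.sum_add_distrib]
    rw [hadd, hn₁, hn₂]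
    have hn₁0 : n₁ ≠ 0 := by
      rintro rfl
      apply hκ0
      apply Cfsg.Agent.Lib.Char.Ortho.eq_zero_of_classInner_self_eq_zero
      simpa using hn₁
    intro h
    have : ((n₁ + n₂ : ℕ) : ℂ) = 0 := by push_cast; exact h
    have := Nat.cast_eq_zero.1 this
    omega
  obtain ⟨β, hβc, hβ⟩ := Cfsg.Agent.Lib.Char.Clifford.exists_char_add hind_c hχ hinner
  -- degree count
  have hdeg : J.index * finrank ℂ S ≤ finrank ℂ V :=
    index_mul_finrank_le ρ D hcomm hperm ξ₀
  have h1 : indFun J κ 1 = ρ.character 1 + β 1 := by rw [hβ]; rfl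
  rw [Cfsg.Agent.Lib.Char.Induced.indFun_one, hκ1, Representation.char_one] at h1
  obtain ⟨m, hm⟩ : ∃ m : ℕ, β 1 = m := by
    obtain ⟨n, hn⟩ := Cfsg.Agent.Lib.Char.Basic.exists_degree_of_isCharacter hβc
    exact ⟨n, hn⟩
  rw [hm] at h1
  have h2 : J.index * finrank ℂ S = finrank ℂ V + m := by exact_mod_cast h1
  have hm0 : m = 0 := by omega
  have hβ0 : β = 0 := Cfsg.Agent.Lib.Char.Clifford.eq_zero_of_apply_one_eq_zero hβc (by rw [hm, hm0]; simp)
  refine ⟨J, ?_, ?_, κ, hκc, ?_⟩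
  · intro m hm
    have hσ : ∀ i, ρ m * D i * ρ m⁻¹ = D ((Equiv.refl ι) i) := by
      intro i
      rw [hM m hm i, mul_assoc, ← map_mul]
      simp
    intro v
    exact rho_mem_Wsp ρ D m (Equiv.refl ι) hσ ξ₀ v
  · intro htop
    apply hStop
    -- `S` is invariant under `G`
    have hmem : ∀ g, g ∈ J := fun g => by rw [htop]; trivial
    let S₂ : Subrepresentation ρ :=
      { toSubmodule := S
        apply_mem_toSubmodule := fun g v hv => (hmem g v).2 hv }
    obtain ⟨T₂, hT₂⟩ := Cfsg.Agent.Lib.Char.Basic.exists_isCompl ρ S₂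
    have hdec := Cfsg.Agent.Lib.Char.Basic.character_eq_add_of_isCompl ρ S₂ T₂ hT₂
    have hS₂c : IsCharacter G S₂.toRepresentation.character :=
      Cfsg.Agent.Lib.Char.Basic.isCharacter_of_rep _
    have hT₂c : IsCharacter G T₂.toRepresentation.character :=
      Cfsg.Agent.Lib.Char.Basic.isCharacter_of_rep _
    have hS₂1 : S₂.toRepresentation.character 1 ≠ 0 := by
      rw [Representation.char_one]
      exact Nat.cast_ne_zero.2 hSpos.ne'
    have h0 := Cfsg.Agent.Lib.Char.MackeyNormal.eq_zero_of_irr_eq_add hχ hS₂c hT₂c hdec hS₂1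
    have := congrFun h0 1
    rw [Representation.char_one] at this
    simp only [Pi.zero_apply] at this
    have h3 : finrank ℂ T₂.toSubmodule = 0 := by exact_mod_cast this
    have hT0 : T₂.toSubmodule = ⊥ := Submodule.finrank_eq_zero.1 h3
    have hsup : S₂.toSubmodule ⊔ T₂.toSubmodule = ⊤ := congrArg Subrepresentation.toSubmodule hT₂.sup_eq_top
    rw [hT0, sup_bot_eq] at hsup
    exact hsup
  · rw [hβ, hβ0, add_zero]

end Block

end Cfsg.Agent.Lib.Char.BergerC
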