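import Mathlib
import Cfsg.Agent.S0890
import Cfsg.Agent.S0858

/-!
# Group-theoretic setup for the induction

A maximal subgroup `H` with normal core `K < H` in a finite solvable group: a chief factor `L / K`
complementing `H / K`, and a minimal `H`-invariant section `A / K` of `H / K`, of coprime exponents
and acting nontrivially on `L / K`.
-/

set_option autoImplicit false

namespace Cfsg.Agent.Lib.Char.BergerD

variable {G : Type*} [Group G]

theorem group_step [Finite G] [Group.IsSolvable G] (K H : Subgroup G) [hKn : K.Normal] (hKH : K < H)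
    (hmax : IsCoatom H) (hcore : H.normalCore = K) :
    ∃ (L A : Subgroup G) (p q : ℕ), L.Normal ∧ K < L ∧ K ≤ A ∧ A ≤ H ∧ ¬ A ≤ K ∧ p.Prime ∧ q.Prime ∧
      p ≠ q ∧ (∀ h ∈ H, ∀ a ∈ A, h * a * h⁻¹ ∈ A) ∧ (∀ l ∈ L, l ^ p ∈ K) ∧ (∀ a ∈ A, a ^ q ∈ K) ∧
      (∀ a ∈ A, ∀ b ∈ A, a * b * a⁻¹ * b⁻¹ ∈ K) ∧ (∀ g : G, ∃ l ∈ L, ∃ h ∈ H, g = l * h) ∧
      (∀ l ∈ L, l ∈ H → l ∈ K) ∧ ∃ a ∈ A, ∃ l₀ ∈ L, a * l₀ * a⁻¹ * l₀⁻¹ ∉ K := by
  classical
  have hKtop : K ≠ ⊤ := fun h => by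
    rw [h] at hKH
    exact absurd hKH (not_lt_of_ge le_top)
  obtain ⟨L, hLn, hKL, hchief⟩ := Cfsg.Agent.S0890.exists_chief_above K hKtop
  haveI := hLn
  have hsolvQ : Group.IsSolvable (G ⧸ K) := inferInstance
  have hLab : ⁅L, L⁆ ≤ K :=
    Cfsg.Agent.S0858.commutator_le_of_chief K L K hsolvQ le_rfl hKL hchief
  have hLcomm : ∀ a ∈ L, ∀ b ∈ L, a * b * a⁻¹ * b⁻¹ ∈ K := fun a ha b hb =>
    hLab (Subgroup.commutator_mem_commutator ha hb)
  obtain ⟨p, hp, hpd⟩ : ∃ p : ℕ, p.Prime ∧ p ∣ K.relIndex L := by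
    apply Nat.exists_prime_and_dvd
    intro h1
    rw [Subgroup.relIndex_eq_one] at h1
    exact absurd h1 (not_le_of_gt hKL)
  have hLp := Cfsg.Agent.S0890.pow_mem_of_chief K L hchief hKL.le hLab hp hpd
  have hLH : ¬ L ≤ H := by
    intro h
    have := Subgroup.normal_le_normalCore.mpr h
    rw [hcore] at this
    exact absurd this (not_le_of_gt hKL)
  have hGL : ∀ g : G, ∃ l ∈ L, ∃ h ∈ H, g = l * h := by
    have h1 : L ⊔ H = ⊤ := by
      apply hmax.2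
      exact lt_of_le_of_ne le_sup_right (fun h => hLH (h ▸ le_sup_left))
    intro g
    have h2 : g ∈ ((L ⊔ H : Subgroup G) : Set G) := by rw [h1]; trivial
    rw [Subgroup.normal_mul] at h2
    obtain ⟨l, hl, h, hh, rfl⟩ := Set.mem_mul.mp h2
    exact ⟨l, hl, h, hh, rfl⟩
  -- `L ∩ H = K`
  have hLK : ∀ l ∈ L, l ∈ H → l ∈ K := by
    have hn : (L ⊓ H).Normal := by
      constructor
      rintro x ⟨hxL, hxH⟩ g
      obtain ⟨l, hl, h, hh, rfl⟩ := hGL g
      refine ⟨hLn.conj_mem x hxL _, ?_⟩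
      have hy1 : h * x * h⁻¹ ∈ L := hLn.conj_mem x hxL h
      have hy2 : h * x * h⁻¹ ∈ H := H.mul_mem (H.mul_mem hh hxH) (H.inv_mem hh)
      have hk := hLcomm l hl _ hy1
      have e : l * h * x * (l * h)⁻¹ = (l * (h * x * h⁻¹) * l⁻¹ * (h * x * h⁻¹)⁻¹) * (h * x * h⁻¹) := by
        group
      rw [e]
      exact H.mul_mem (hKH.le hk) hy2
    rcases hchief (L ⊓ H) hn (le_inf hKL.le hKH.le) inf_le_left with h | h
    · intro l hl hlH
      rw [← h]
      exact ⟨hl, hlH⟩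
    · exfalso
      apply hLH
      rw [← h]
      exact inf_le_right
  -- the section `A`
  haveI : Finite H := inferInstance
  let K' : Subgroup H := K.subgroupOf H
  haveI hK'n : K'.Normal := Subgroup.normal_subgroupOf
  have hK'top : K' ≠ ⊤ := by
    intro h
    apply not_le_of_gt hKH
    intro x hx
    have : (⟨x, hx⟩ : H) ∈ K' := by rw [h]; trivial
    exact Subgroup.mem_subgroupOf.mp this
  obtain ⟨A', hA'n, hKA', hchiefA⟩ := Cfsg.Agent.S0890.exists_chief_above K' hK'top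
  haveI := hA'n
  haveI hsolvH : Group.IsSolvable H := inferInstance
  have hsolvQ' : Group.IsSolvable (H ⧸ K') := inferInstance
  have hA'ab : ⁅A', A'⁆ ≤ K' :=
    Cfsg.Agent.S0858.commutator_le_of_chief K' A' K' hsolvQ' le_rfl hKA' hchiefA
  obtain ⟨q, hq, hqd⟩ : ∃ q : ℕ, q.Prime ∧ q ∣ K'.relIndex A' := by
    apply Nat.exists_prime_and_dvd
    intro h1
    rw [Subgroup.relIndex_eq_one] at h1
    exact absurd h1 (not_le_of_gt hKA')
  have hA'q := Cfsg.Agent.S0890.pow_mem_of_chief K' A' hchiefA hKA'.le hA'ab hq hqd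
  let A : Subgroup G := A'.map H.subtype
  have hAmem : ∀ a, a ∈ A ↔ ∃ x : H, x ∈ A' ∧ (x : G) = a := by
    intro a
    simp only [A, Subgroup.mem_map, Subgroup.coe_subtype]
  have hAH : A ≤ H := by
    intro a ha
    obtain ⟨x, -, rfl⟩ := (hAmem a).1 ha
    exact x.2
  have hKA : K ≤ A := by
    intro k hk
    refine (hAmem k).2 ⟨⟨k, hKH.le hk⟩, hKA'.le (Subgroup.mem_subgroupOf.mpr hk), rfl⟩
  have hAK : ¬ A ≤ K := by
    intro h
    apply not_le_of_gt hKA'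
    intro x hx
    exact Subgroup.mem_subgroupOf.mpr (h ((hAmem _).2 ⟨x, hx, rfl⟩))
  have hAnorm : ∀ h ∈ H, ∀ a ∈ A, h * a * h⁻¹ ∈ A := by
    intro h hh a ha
    obtain ⟨x, hx, rfl⟩ := (hAmem a).1 ha
    refine (hAmem _).2 ⟨⟨h, hh⟩ * x * ⟨h, hh⟩⁻¹, hA'n.conj_mem x hx _, rfl⟩
  have hAq : ∀ a ∈ A, a ^ q ∈ K := by
    intro a ha
    obtain ⟨x, hx, rfl⟩ := (hAmem a).1 ha
    have := hA'q x hx
    rw [Subgroup.mem_subgroupOf] at this
    simpa using this
  have hAcomm : ∀ a ∈ A, ∀ b ∈ A, a * b * a⁻¹ * b⁻¹ ∈ K := by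
    intro a ha b hb
    obtain ⟨x, hx, rfl⟩ := (hAmem a).1 ha
    obtain ⟨y, hy, rfl⟩ := (hAmem b).1 hb
    have := hA'ab (Subgroup.commutator_mem_commutator hx hy)
    rw [Subgroup.mem_subgroupOf] at this
    simpa [commutatorElement_def] using this
  -- `A` acts nontrivially on `L / K`
  have hnt : ¬ ∀ a ∈ A, ∀ l ∈ L, a * l * a⁻¹ * l⁻¹ ∈ K := by
    intro hall
    have hAn : A.Normal := by
      constructor
      intro a ha g
      obtain ⟨l, hl, h, hh, rfl⟩ := hGL g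
      have hb := hAnorm h hh a ha
      have hk := hall _ hb l hl
      have e : l * h * a * (l * h)⁻¹ =
          (h * a * h⁻¹ * l * (h * a * h⁻¹)⁻¹ * l⁻¹)⁻¹ * (h * a * h⁻¹) := by
        group
      rw [e]
      exact A.mul_mem (hKA (K.inv_mem hk)) hb
    have := Subgroup.normal_le_normalCore.mpr hAH
    rw [hcore] at this
    exact hAK this
  -- coprimality
  have hpq : p ≠ q := by
    rintro rfl
    apply hnt
    haveI : Fact p.Prime := ⟨hp⟩
    -- the centralizer of `A` in `L`, modulo `K`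
    let C : Subgroup G :=
      { carrier := {x | x ∈ L ∧ ∀ a ∈ A, a * x * a⁻¹ * x⁻¹ ∈ K}
        mul_mem' := by
          rintro x y ⟨hx, hx2⟩ ⟨hy, hy2⟩
          refine ⟨L.mul_mem hx hy, fun a ha => ?_⟩
          have e : a * (x * y) * a⁻¹ * (x * y)⁻¹ =
              (a * x * a⁻¹ * x⁻¹) * (x * (a * y * a⁻¹ * y⁻¹) * x⁻¹) := by group
          rw [e]
          exact K.mul_mem (hx2 a ha) (hKn.conj_mem _ (hy2 a ha) x)
        one_mem' := ⟨L.one_mem, fun a _ => by simp⟩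
        inv_mem' := by
          rintro x ⟨hx, hx2⟩
          refine ⟨L.inv_mem hx, fun a ha => ?_⟩
          have e : a * x⁻¹ * a⁻¹ * x⁻¹⁻¹ = x⁻¹ * (a * x * a⁻¹ * x⁻¹)⁻¹ * x := by group
          rw [e]
          have := hKn.conj_mem _ (K.inv_mem (hx2 a ha)) x⁻¹
          simpa using this }
    have hCn : C.Normal := by
      constructor
      rintro x ⟨hx, hx2⟩ g
      obtain ⟨l, hl, h, hh, rfl⟩ := hGL g
      refine ⟨hLn.conj_mem x hx _, fun a ha => ?_⟩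
      have hb : h⁻¹ * a * h⁻¹⁻¹ ∈ A := hAnorm _ (H.inv_mem hh) a ha
      have hk₁ := hx2 _ hb
      have hx' : h * x * h⁻¹ ∈ L := hLn.conj_mem x hx h
      have hk₂ := hLcomm l hl _ hx'
      have e : a * (l * h * x * (l * h)⁻¹) * a⁻¹ * (l * h * x * (l * h)⁻¹)⁻¹ =
          (a * (l * (h * x * h⁻¹) * l⁻¹ * (h * x * h⁻¹)⁻¹) * a⁻¹) *
            (h * ((h⁻¹ * a * h⁻¹⁻¹) * x * (h⁻¹ * a * h⁻¹⁻¹)⁻¹ * x⁻¹) * h⁻¹) *
              (l * (h * x * h⁻¹) * l⁻¹ * (h * x * h⁻¹)⁻¹)⁻¹ := by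
        group
      rw [e]
      exact K.mul_mem (K.mul_mem (hKn.conj_mem _ hk₂ a) (hKn.conj_mem _ hk₁ h)) (K.inv_mem hk₂)
    have hKC : K ≤ C := by
      intro k hk
      refine ⟨hKL.le hk, fun a _ => ?_⟩
      exact K.mul_mem (hKn.conj_mem _ hk a) (K.inv_mem hk)
    have hCL : C ≤ L := fun x hx => hx.1
    -- the `p`-group argument
    let π : G →* G ⧸ K := QuotientGroup.mk' K
    have hπ : ∀ x, π x = 1 ↔ x ∈ K := fun x => QuotientGroup.eq_one_iff x
    let Lb : Subgroup (G ⧸ K) := L.map π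
    let Ab : Subgroup (G ⧸ K) := A.map π
    haveI hLbn : Lb.Normal := Subgroup.Normal.map hLn _ (QuotientGroup.mk'_surjective K)
    have hLbp : IsPGroup p Lb := by
      rintro ⟨_, l, hl, rfl⟩
      refine ⟨1, ?_⟩
      apply Subtype.ext
      simp only [pow_one, Subgroup.coe_pow, Subgroup.coe_one]
      rw [← map_pow, hπ]
      exact hLp l hl
    have hAbp : IsPGroup p Ab := by
      rintro ⟨_, a, ha, rfl⟩
      refine ⟨1, ?_⟩
      apply Subtype.ext
      simp only [pow_one, Subgroup.coe_pow, Subgroup.coe_one]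
      rw [← map_pow, hπ]
      exact hAq a ha
    have hPp : IsPGroup p ↥(Lb ⊔ Ab) := IsPGroup.to_sup_of_normal_left hLbp hAbp
    let Kb : Subgroup ↥(Lb ⊔ Ab) := Lb.subgroupOf (Lb ⊔ Ab)
    haveI hKbn : Kb.Normal := Subgroup.normal_subgroupOf
    have hKb : Kb ≠ ⊥ := by
      obtain ⟨x, hxL, hxK⟩ := SetLike.exists_of_lt hKL
      intro h0
      have hmem : (⟨π x, (le_sup_left : Lb ≤ Lb ⊔ Ab) ⟨x, hxL, rfl⟩⟩ : ↥(Lb ⊔ Ab)) ∈ Kb :=
        Subgroup.mem_subgroupOf.mpr ⟨x, hxL, rfl⟩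
      rw [h0, Subgroup.mem_bot] at hmem
      have := congrArg Subtype.val hmem
      exact hxK ((hπ x).1 this)
    have hcent := Cfsg.Agent.Lib.PGroup.Basic.inf_center_ne_bot hPp hKb
    haveI : Nontrivial ↥(Kb ⊓ Subgroup.center ↥(Lb ⊔ Ab)) :=
      (Subgroup.nontrivial_iff_ne_bot _).mpr hcent
    obtain ⟨z, hz, hz1⟩ := Subgroup.exists_ne_one_of_nontrivial (Kb ⊓ Subgroup.center ↥(Lb ⊔ Ab))
    obtain ⟨hzK, hzc⟩ := hz
    obtain ⟨l, hl, hlz⟩ := Subgroup.mem_subgroupOf.mp hzK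
    have hlK : l ∉ K := by
      intro h
      apply hz1
      apply Subtype.ext
      rw [Subgroup.coe_one, ← hlz]
      exact (hπ l).2 h
    have hlC : l ∈ C := by
      refine ⟨hl, fun a ha => ?_⟩
      rw [← hπ]
      have hcomm := (Subgroup.mem_center_iff.mp hzc)
        ⟨π a, (le_sup_right : Ab ≤ Lb ⊔ Ab) ⟨a, ha, rfl⟩⟩
      have h3 := congrArg Subtype.val hcomm
      simp only [Subgroup.coe_mul] at h3
      rw [← hlz] at h3
      simp only [map_mul, map_inv]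
      rw [h3]
      group
    rcases hchief C hCn hKC hCL with h | h
    · exact absurd (h ▸ hlC) hlK
    · intro a ha l' hl'
      have : l' ∈ C := by rw [h]; exact hl'
      exact this.2 a ha
  push Not at hnt
  obtain ⟨a, ha, l₀, hl₀, hal⟩ := hnt
  exact ⟨L, A, p, q, hLn, hKL, hKA, hAH, hAK, hp, hq, hpq, hAnorm, hLp, hAq, hAcomm, hGL, hLK,
    a, ha, l₀, hl₀, hal⟩

end Cfsg.Agent.Lib.Char.BergerD
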