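import Mathlib
import Cfsg.Agent.Lib.Char.BergerB
import Cfsg.Agent.Lib.Char.BergerC
import Cfsg.Agent.Lib.Char.BergerD

/-!
# Quasi-primitive characters of solvable groups are primitive
-/

set_option autoImplicit false

namespace Cfsg.Agent.Lib.Char.BergerE

open Cfsg Module Cfsg.Agent.Lib.Char.BergerA Cfsg.Agent.Lib.Char.BergerB
open Cfsg.Agent.Lib.Char.IndRep

section PiOp

variable {G : Type*} [Group G] (H : Subgroup G) {W : Type*} [AddCommGroup W] [Module ℂ W]

open Classical in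
/-- Projection onto the coordinate `c`. -/
noncomputable def piOp (c : G ⧸ H) : Module.End ℂ (G ⧸ H → W) :=
  LinearMap.single ℂ (fun _ : G ⧸ H => W) c ∘ₗ LinearMap.proj c

open Classical in
theorem piOp_apply (c : G ⧸ H) (f : G ⧸ H → W) (d : G ⧸ H) :
    piOp H c f d = if d = c then f c else 0 := by
  simp only [piOp, LinearMap.comp_apply, LinearMap.proj_apply, LinearMap.coe_single]
  by_cases h : d = c
  · subst h; simp
  · simp [Pi.single_eq_of_ne h, h]

theorem piOp_mul_self (c : G ⧸ H) : piOp (W := W) H c * piOp H c = piOp H c := by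
  classical
  refine LinearMap.ext fun f => funext fun d => ?_
  simp only [Module.End.mul_apply, piOp_apply]
  split_ifs <;> simp

theorem piOp_mul_of_ne (c c' : G ⧸ H) (hcc : c ≠ c') : piOp (W := W) H c * piOp H c' = 0 := by
  classical
  refine LinearMap.ext fun f => funext fun d => ?_
  simp [Module.End.mul_apply, piOp_apply, hcc]

theorem sum_piOp [Fintype (G ⧸ H)] : ∑ c, piOp (W := W) H c = 1 := by
  classical
  refine LinearMap.ext fun f => funext fun d => ?_
  simp [LinearMap.sum_apply, Finset.sum_apply, piOp_apply]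

theorem rho_piOp (ρ : Representation ℂ H W) (g : G) (c : G ⧸ H) :
    indRep H ρ g * piOp H c * indRep H ρ g⁻¹ = piOp H (g • c) := by
  classical
  refine LinearMap.ext fun f => funext fun d => ?_
  simp only [Module.End.mul_apply, indRep_apply, piOp_apply]
  by_cases h : d = g • c
  · subst h
    simp only [inv_smul_smul, if_true]
    have h1 := cocycle_mul H g g⁻¹ (g • c)
    rw [mul_inv_cancel, cocycle_one, inv_smul_smul] at h1
    have h2 : ρ (cocycle H g (g • c)) (ρ (cocycle H g⁻¹ c) (f (g⁻¹⁻¹ • c))) =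
        ρ (cocycle H g (g • c) * cocycle H g⁻¹ c) (f (g⁻¹⁻¹ • c)) := by
      rw [map_mul, Module.End.mul_apply]
    rw [h2, ← h1, map_one, inv_inv]
    rfl
  · have h2 : ¬ g⁻¹ • d = c := by
      intro h3
      apply h
      rw [← h3, smul_inv_smul]
    simp [h, h2]

end PiOp

section Main

variable {G : Type*} [Group G] [Fintype G]

/-- A maximal normal subgroup case: an irreducible character with homogeneous restriction to
the normal subgroup `H` cannot be induced from `H`, unless `H = G`. -/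
theorem not_induced_of_normal (χ : G → ℂ) (hχ : IsIrrCharacter G χ) (H : Subgroup G) [Fintype H]
    (hH : H ≠ ⊤) (ϑ : H → ℂ) (e : ℕ) (hϑ : IsIrrCharacter H ϑ)
    (he : (fun n : H => χ n) = (e : ℂ) • ϑ) (ψ : H → ℂ) (hψ : IsCharacter H ψ)
    (hind : indFun H ψ = χ) : False := by
  classical
  have hχc := Cfsg.Agent.Lib.Char.Basic.isCharacter_of_isIrrCharacter hχ
  have hϑc := Cfsg.Agent.Lib.Char.Basic.isCharacter_of_isIrrCharacter hϑ
  have h1 : classInner χ χ = 1 := Cfsg.Agent.Lib.Char.Ortho.classInner_irr_self hχ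
  have h2 : classInner (indFun H ψ) χ = classInner ψ (fun h : H => χ h) :=
    Cfsg.Agent.Lib.Char.Induced.frobenius_reciprocity H ψ χ
      (Cfsg.Agent.Lib.Char.Basic.isClassFunction_of_isCharacter hχc)
  rw [hind, h1, he] at h2
  obtain ⟨n, hn⟩ := Cfsg.Agent.Lib.Char.Ortho.exists_nat_classInner_of_isCharacter hψ hϑc
  have h3 : classInner ψ ((e : ℂ) • ϑ) = (e : ℂ) * classInner ψ ϑ := by
    simp only [Cfsg.Agent.Lib.Char.Induced.classInner_def, Pi.smul_apply, smul_eq_mul, map_mul,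
      Complex.conj_natCast]
    rw [Finset.mul_sum, Finset.mul_sum, Finset.mul_sum]
    refine Finset.sum_congr rfl fun x _ => ?_
    ring
  rw [h3, hn] at h2
  have h4 : e * n = 1 := by exact_mod_cast h2.symm
  have he1 : e = 1 := Nat.eq_one_of_mul_eq_one_right h4
  have hn1 : n = 1 := Nat.eq_one_of_mul_eq_one_left h4
  have hne : classInner ψ ϑ ≠ 0 := by rw [hn, hn1]; simp
  obtain ⟨β, hβ, hψβ⟩ := Cfsg.Agent.Lib.Char.Clifford.exists_char_add hψ hϑ hne
  obtain ⟨b, hb⟩ := Cfsg.Agent.Lib.Char.Basic.exists_degree_of_isCharacter hβ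
  obtain ⟨t, ht⟩ := Cfsg.Agent.Lib.Char.Basic.exists_degree_of_isCharacter hϑc
  have ht0 : t ≠ 0 := by
    rintro rfl
    exact Cfsg.Agent.Lib.Char.Ortho.irr_apply_one_ne_zero hϑ (by simpa using ht)
  have h5 : χ 1 = ϑ 1 := by
    have := congrFun he (1 : H)
    simp only [he1, Nat.cast_one, one_smul] at this
    exact this
  have h6 : χ 1 = (H.index : ℂ) * ψ 1 := by
    rw [← hind, Cfsg.Agent.Lib.Char.Induced.indFun_one]
  have h7 : ψ 1 = ϑ 1 + β 1 := by rw [hψβ]; rfl
  rw [h5, h7, ht, hb] at h6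
  have h8 : t = H.index * (t + b) := by exact_mod_cast h6
  have hindex : H.index ≠ 0 := Subgroup.index_ne_zero_of_finite
  have hi1 : H.index = 1 := by
    by_contra hi
    have : 2 ≤ H.index := by omega
    have : 2 * (t + b) ≤ H.index * (t + b) := Nat.mul_le_mul_right _ this
    omega
  exact hH (Subgroup.index_eq_one.mp hi1)

variable [Group.IsSolvable G]

/-- The central induction for Berger's theorem. -/
theorem main_claim (χ : G → ℂ) (hχ : IsIrrCharacter G χ)
    (hqp : ∀ (N : Subgroup G), N.Normal → ∃ (ϑ : N → ℂ) (e : ℕ), IsIrrCharacter N ϑ ∧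
      (fun n : N => χ n) = (e : ℂ) • ϑ) :
    ∀ (K : Subgroup G), K.Normal → ∀ (J : Subgroup G), K ≤ J → J ≠ ⊤ → ∀ κ : J → ℂ,
      IsCharacter J κ → indFun J κ ≠ χ := by
  classical
  intro K
  induction K using WellFoundedGT.induction with
  | _ K ih =>
  intro hKn J hKJ hJ κ hκ hind
  haveI := hKn
  obtain ⟨H, hH, hJH⟩ := (eq_top_or_exists_le_coatom J).resolve_left hJ
  letI : Fintype H := Fintype.ofFinite _
  letI : Fintype J := Fintype.ofFinite _
  letI : Fintype (G ⧸ H) := Fintype.ofFinite _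
  -- pass to `H`
  set ψ : H → ℂ := indFun (J.subgroupOf H)
    (fun x => κ ⟨(x : H), Subgroup.mem_subgroupOf.mp x.2⟩) with hψ
  have hψc : IsCharacter H ψ := by
    apply isCharacter_indFun
    let f : J.subgroupOf H →* J :=
      { toFun := fun x => ⟨(x : H), Subgroup.mem_subgroupOf.mp x.2⟩
        map_one' := rfl
        map_mul' := fun _ _ => rfl }
    exact Cfsg.Agent.Lib.Char.Basic.isCharacter_comp_hom hκ f
  have hψG : indFun H ψ = χ := by
    rw [← hind]
    exact Cfsg.Agent.Lib.Char.Induced.indFun_trans J H hJH κ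
  have hKH : K ≤ H := hKJ.trans hJH
  -- the core of `H` is `K`
  have hcore : H.normalCore = K := by
    by_contra hne
    have hKcore : K ≤ H.normalCore := Subgroup.normal_le_normalCore.mpr hKH
    have hlt : H.normalCore > K := lt_of_le_of_ne hKcore (Ne.symm hne)
    exact ih _ hlt inferInstance H (Subgroup.normalCore_le H) hH.1 ψ hψc hψG
  rcases eq_or_lt_of_le hKH with hKeq | hKlt
  · -- `H = K` is normal
    subst hKeq
    obtain ⟨ϑ, e, hϑ, he⟩ := hqp K hKn
    exact not_induced_of_normal χ hχ K hH.1 ϑ e hϑ he ψ hψc hψG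
  -- the general case
  obtain ⟨L, A, p, q, hLn, hKL, hKA, hAH, hAK, hp, hq, hpq, hAnorm, hLp, hAq, hAcomm, hGL, hLK,
    a₀, ha₀, l₀, hl₀, hal⟩ := Cfsg.Agent.Lib.Char.BergerD.group_step K H hKlt hH hcore
  haveI := hLn
  letI : Fintype L := Fintype.ofFinite _
  obtain ⟨n, ρW, hρW⟩ := hψc
  let ρ := indRep H ρW
  haveI hfd : FiniteDimensional ℂ (G ⧸ H → Fin n → ℂ) := finiteDimensional_ind (G := G) H
  have hρχ : ρ.character = χ := by
    rw [← hψG, ← hρW]
    exact character_indRep H ρW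
  haveI hV : Nontrivial (G ⧸ H → Fin n → ℂ) := by
    by_contra hnt
    rw [not_nontrivial_iff_subsingleton] at hnt
    apply Cfsg.Agent.Lib.Char.Ortho.irr_apply_one_ne_zero hχ
    rw [← hρχ, Representation.char_one, Module.finrank_zero_of_subsingleton]
    simp
  obtain ⟨ϑ, e, hϑ, he⟩ := hqp K hKn
  obtain ⟨hZ, hq0⟩ := exists_projective ρ K ϑ hϑ e (by rw [hρχ]; exact he)
  choose Q Q' hQ using hq0
  have hImpl : ∀ g, Impl ρ K g (Q g) (Q' g) := fun g =>
    ⟨(hQ g).1, (hQ g).2.1, (hQ g).2.2.1, fun z hz => by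
      rw [cj_apply]
      exact (hQ g).2.2.2 z hz⟩
  let π : G ⧸ H → Module.End ℂ (G ⧸ H → Fin n → ℂ) := piOp H
  have hπ1 : ∀ c, π c * π c = π c := fun c => piOp_mul_self H c
  have hπ1' : ∀ c c', c ≠ c' → π c * π c' = 0 := fun c c' h => piOp_mul_of_ne H c c' h
  have hπ2 : ∑ c, π c = 1 := sum_piOp H
  have hπ3 : ∀ (g : G) c, ρ g * π c * ρ g⁻¹ = π (g • c) := fun g c => rho_piOp H ρW g c
  -- the family of operators
  let D : A → Module.End ℂ (G ⧸ H → Fin n → ℂ) := fun a => Dop ρ L Q Q' π (a : G)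
  have hcomm : ∀ i j, Commute (D i) (D j) := by
    intro i j
    apply Dop_comm hπ1 hπ1' hπ2 hπ3 hKH hGL hLK hZ hImpl
    · have := hAcomm _ (A.inv_mem i.2) _ j.2
      simpa [mul_assoc] using this
    · have := hAcomm _ (A.inv_mem j.2) _ i.2
      simpa [mul_assoc] using this
  have hperm : ∀ g, ∃ σ : A ≃ A, ∀ i, ρ g * D i * ρ g⁻¹ = D (σ i) := by
    intro g
    obtain ⟨l, hl, h, hh, rfl⟩ := hGL g
    let σ : A ≃ A :=
      { toFun := fun a => ⟨h * a * h⁻¹, hAnorm h hh a a.2⟩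
        invFun := fun a => ⟨h⁻¹ * a * h⁻¹⁻¹, hAnorm _ (H.inv_mem hh) a a.2⟩
        left_inv := fun a => by
          apply Subtype.ext
          simp [mul_assoc]
        right_inv := fun a => by
          apply Subtype.ext
          simp [mul_assoc] }
    refine ⟨σ, fun i => ?_⟩
    have h1 := cj_Dop hπ3 hKH hZ hImpl (L := L) (π := π) (i : G) hh
    rw [cj_apply] at h1
    have h2 := rho_comm_Dop hπ3 hKH hZ hImpl (π := π) (h * (i : G) * h⁻¹) ⟨l, hl⟩
    simp only at h2
    have h3 : ρ l * ρ l⁻¹ = 1 := by rw [← map_mul, mul_inv_cancel, map_one]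
    have hDσ : D (σ i) = Dop ρ L Q Q' π (h * (i : G) * h⁻¹) := rfl
    calc ρ (l * h) * D i * ρ (l * h)⁻¹
        = ρ l * (ρ h * D i * ρ h⁻¹) * ρ l⁻¹ := by
          rw [mul_inv_rev, map_mul, map_mul]
          simp only [mul_assoc]
      _ = ρ l * D (σ i) * ρ l⁻¹ := by rw [hDσ, ← h1]
      _ = D (σ i) * ρ l * ρ l⁻¹ := by rw [hDσ, h2]
      _ = D (σ i) := by rw [mul_assoc, h3, mul_one]
  -- the subgroup centralizing the operators
  let T : Subgroup G :=
    { carrier := {m | ∀ i, ρ m * D i = D i * ρ m}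
      mul_mem' := by
        intro x y hx hy i
        rw [map_mul, mul_assoc, hy i, ← mul_assoc, hx i, mul_assoc]
      one_mem' := by
        intro i
        simp
      inv_mem' := by
        intro x hx i
        have h1 : ρ x * ρ x⁻¹ = 1 := by rw [← map_mul, mul_inv_cancel, map_one]
        have h2 : ρ x⁻¹ * ρ x = 1 := by rw [← map_mul, inv_mul_cancel, map_one]
        calc ρ x⁻¹ * D i = ρ x⁻¹ * D i * (ρ x * ρ x⁻¹) := by rw [h1, mul_one]
          _ = ρ x⁻¹ * (D i * ρ x) * ρ x⁻¹ := by simp only [mul_assoc]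
          _ = ρ x⁻¹ * (ρ x * D i) * ρ x⁻¹ := by rw [hx i]
          _ = (ρ x⁻¹ * ρ x) * D i * ρ x⁻¹ := by simp only [mul_assoc]
          _ = D i * ρ x⁻¹ := by rw [h2, one_mul] }
  have hLT : L ≤ T := by
    intro l hl i
    exact rho_comm_Dop hπ3 hKH hZ hImpl (π := π) (i : G) ⟨l, hl⟩
  have hAT : A ≤ T := by
    intro b hb i
    have := hAcomm _ (A.inv_mem i.2) _ hb
    exact rho_comm_Dop_of_comm hπ3 hKH hZ hImpl (i : G) (hAH hb) (by simpa [mul_assoc] using this)
  have hMT : L ⊔ A ≤ T := sup_le hLT hAT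
  have hMn : (L ⊔ A).Normal := by
    constructor
    intro m hm g
    have h2 : m ∈ ((L ⊔ A : Subgroup G) : Set G) := hm
    rw [Subgroup.normal_mul] at h2
    obtain ⟨l₁, hl₁, a, ha, rfl⟩ := Set.mem_mul.mp h2
    obtain ⟨l, hl, h, hh, rfl⟩ := hGL g
    have hb := hAnorm h hh a ha
    have e : l * h * (l₁ * a) * (l * h)⁻¹ =
        ((l * h * l₁ * (l * h)⁻¹) * (l * ((h * a * h⁻¹) * l⁻¹ * (h * a * h⁻¹)⁻¹))) *
          (h * a * h⁻¹) := by
      group
    rw [e]
    refine Subgroup.mul_mem_sup (L.mul_mem (hLn.conj_mem _ hl₁ _) (L.mul_mem hl ?_)) hb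
    exact hLn.conj_mem _ (L.inv_mem hl) _
  have hnil : ∀ c : ℂ, ¬ IsNilpotent (D ⟨a₀, ha₀⟩ - c • (1 : Module.End ℂ _)) := by
    intro c
    apply not_isNilpotent_Dop hπ1 hπ1' hπ2 hπ3 hKH hGL hLK hZ hImpl
      ((Nat.coprime_primes hp hq).2 hpq) hq.ne_zero (hAq _ ha₀) hLp hl₀ hal
  have hχρ : IsIrrCharacter G ρ.character := by rw [hρχ]; exact hχ
  obtain ⟨J₂, hJ₂, hJ₂top, κ₂, hκ₂, hind₂⟩ :=
    Cfsg.Agent.Lib.Char.BergerC.exists_block ρ D hχρ hcomm hperm (L ⊔ A) hMT ⟨a₀, ha₀⟩ hnil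
  have hKM : L ⊔ A > K := lt_of_lt_of_le hKL le_sup_left
  exact ih _ hKM hMn J₂ hJ₂ hJ₂top κ₂ hκ₂ (by rw [hind₂, hρχ])

end Main

end Cfsg.Agent.Lib.Char.BergerE
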