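import Mathlib
import Cfsg.Agent.Lib.Char.BlichfeldtD

set_option autoImplicit false
open Cfsg

namespace Cfsg.Agent.Lib.Char.BlichfeldtE

open Cfsg.Agent.Lib.Char.BlichfeldtB Cfsg.Agent.Lib.Char.BlichfeldtD

variable {G : Type*} [Group G] [Fintype G]

/-- The local structure attached to a Sylow subgroup all of whose non-identity elements have the
same centralizer. -/
theorem exists_setup (p : ℕ) [hp : Fact p.Prime] (P : Sylow p G)
    (hstar : ∀ x ∈ (P : Subgroup G), x ≠ 1 →
      Subgroup.centralizer ({x} : Set G) = Subgroup.centralizer ((P : Subgroup G) : Set G))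
    (n : ℕ) (hn : Nat.card P = p ^ n) :
    ∃ (D : Subgroup G) (e : ℕ), BSetup (P : Subgroup G)
      (Subgroup.centralizer ((P : Subgroup G) : Set G)) D
      (Subgroup.normalizer ((P : Subgroup G) : Set G)) (p ^ n) e := by
  classical
  set C := Subgroup.centralizer ((P : Subgroup G) : Set G) with hC
  set N := Subgroup.normalizer ((P : Subgroup G) : Set G) with hN
  have hself : ∀ x : G, x ∈ Subgroup.centralizer ({x} : Set G) := by
    intro x
    rw [Subgroup.mem_centralizer_iff]
    rintro y rfl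
    rfl
  have hPC : (P : Subgroup G) ≤ C := by
    intro u hu
    by_cases h1 : u = 1
    · rw [h1]; exact C.one_mem
    · rw [← hstar u hu h1]
      exact hself u
  have hcomm : ∀ u ∈ (P : Subgroup G), ∀ c ∈ C, u * c = c * u := by
    intro u hu c hc
    exact (Subgroup.mem_centralizer_iff.1 hc) u hu
  -- Schur-Zassenhaus in `C`
  let P' : Subgroup ↥C := (P : Subgroup G).subgroupOf C
  have hP'n : P'.Normal := by
    constructor
    intro a ha g
    rw [Subgroup.mem_subgroupOf] at ha ⊢
    have h1 : (g : G) * a = a * g := (hcomm a ha g g.2).symm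
    show (g : G) * a * (g : G)⁻¹ ∈ (P : Subgroup G)
    rw [h1]
    simpa using ha
  have hP'card : Nat.card P' = p ^ n := by
    rw [← hn]
    exact Nat.card_congr (Subgroup.subgroupOfEquivOfLe hPC).toEquiv
  have hndvd : ¬ p ∣ P'.index := by
    intro hdvd
    have h1 : (P : Subgroup G).relIndex C * C.index = (P : Subgroup G).index :=
      Subgroup.relIndex_mul_index hPC
    have h2 : p ∣ (P : Subgroup G).index := by
      rw [← h1]
      exact Dvd.dvd.mul_right hdvd _
    exact P.not_dvd_index h2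
  have hcop : Nat.Coprime (Nat.card P') P'.index := by
    rw [hP'card]
    exact Nat.Coprime.pow_left _ ((Nat.Prime.coprime_iff_not_dvd hp.out).2 hndvd)
  obtain ⟨K, hK⟩ := Subgroup.exists_right_complement'_of_coprime hcop
  set D : Subgroup G := K.map C.subtype with hD
  have hDC : D ≤ C := by
    rintro _ ⟨k, -, rfl⟩
    exact k.2
  have hKcard : Nat.card D = P'.index := by
    rw [hD, Nat.card_congr (Subgroup.equivMapOfInjective K C.subtype C.subtype_injective).toEquiv.symm]
    have h1 := hK.card_mul_card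
    have h2 := Subgroup.card_mul_index P'
    have hpos : 0 < Nat.card P' := Nat.card_pos
    rw [← h2] at h1
    exact Nat.eq_of_mul_eq_mul_left hpos h1
  have hcop2 : Nat.Coprime (p ^ n) (Nat.card D) := by
    rw [hKcard, ← hP'card]
    exact hcop
  have hdecomp : ∀ c ∈ C, ∃ u ∈ (P : Subgroup G), ∃ d ∈ D, c = u * d := by
    intro c hc
    obtain ⟨⟨u, k⟩, hu⟩ := hK.2 (⟨c, hc⟩ : ↥C)
    refine ⟨u.1, u.2, k.1, ⟨k.1, k.2, rfl⟩, ?_⟩
    have := congrArg Subtype.val hu
    exact this.symm
  have hdisj : ∀ u ∈ (P : Subgroup G), u ∈ D → u = 1 := by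
    rintro u hu ⟨k, hk, rfl⟩
    have hu' : (k : ↥C) ∈ P' := by
      rw [Subgroup.mem_subgroupOf]
      exact hu
    have := Subgroup.disjoint_def.1 hK.disjoint hu' hk
    rw [this]
    rfl
  -- the exponent picking out the `P`-part
  obtain ⟨E, hE1, hE2⟩ : ∃ E : ℕ, E ≡ 1 [MOD p ^ n] ∧ E ≡ 0 [MOD Nat.card D] := by
    obtain ⟨k, hk⟩ := Nat.chineseRemainder hcop2 1 0
    exact ⟨k, hk.1, hk.2⟩
  have hupow : ∀ u ∈ (P : Subgroup G), u ^ (p ^ n) = 1 := by
    intro u hu
    have h1 : (⟨u, hu⟩ : ↥(P : Subgroup G)) ^ (Nat.card (P : Subgroup G)) = 1 :=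
      pow_card_eq_one'
    rw [hn] at h1
    exact congrArg Subtype.val h1
  have hdpow : ∀ d ∈ D, d ^ (Nat.card D) = 1 := by
    intro d hd
    have h1 : (⟨d, hd⟩ : ↥D) ^ (Nat.card D) = 1 := pow_card_eq_one'
    exact congrArg Subtype.val h1
  have hpart : ∀ u ∈ (P : Subgroup G), ∀ d ∈ D, (u * d) ^ E = u := by
    intro u hu d hd
    have hc : Commute u d := hcomm u hu d (hDC hd)
    rw [hc.mul_pow]
    have h1 : u ^ E = u := by
      have h2 : orderOf u ∣ p ^ n := orderOf_dvd_of_pow_eq_one (hupow u hu)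
      have h3 : E ≡ 1 [MOD orderOf u] := hE1.of_dvd h2
      have h4 : u ^ E = u ^ 1 := (pow_eq_pow_iff_modEq).2 h3
      rwa [pow_one] at h4
    have h5 : d ^ E = 1 := by
      have h2 : orderOf d ∣ Nat.card D := orderOf_dvd_of_pow_eq_one (hdpow d hd)
      have h3 : E ≡ 0 [MOD orderOf d] := hE2.of_dvd h2
      have h4 : d ^ E = d ^ 0 := (pow_eq_pow_iff_modEq).2 h3
      rwa [pow_zero] at h4
    rw [h1, h5, mul_one]
  have hconjP : ∀ g ∈ N, ∀ u ∈ (P : Subgroup G), g * u * g⁻¹ ∈ (P : Subgroup G) := by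
    intro g hg u hu
    exact (Subgroup.mem_normalizer_iff.1 hg u).1 hu
  have hCN : C ≤ N := by
    intro c hc
    rw [hN, Subgroup.mem_normalizer_iff]
    intro u
    have h2 : ∀ v ∈ (P : Subgroup G), c * v * c⁻¹ = v := by
      intro v hv
      rw [← hcomm v hv c hc]
      simp
    constructor
    · intro hu
      rw [h2 u hu]
      exact hu
    · intro hu
      have h3 := hu
      rw [← h2 _ hu] at h3
      have h4 : c * u * c⁻¹ = c * (c * u * c⁻¹) * c⁻¹ := (h2 _ hu).symm
      have h5 : u = c * u * c⁻¹ := by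
        have h6 := h4
        have h7 : c⁻¹ * (c * u * c⁻¹) * c = c⁻¹ * (c * (c * u * c⁻¹) * c⁻¹) * c := by rw [← h4]
        simpa [mul_assoc] using h7
      rw [h5]
      exact hu
  have hfree : ∀ g ∈ N, ∀ u ∈ (P : Subgroup G), u ≠ 1 → g * u * g⁻¹ = u → g ∈ C := by
    intro g _ u hu h1 h2
    rw [← hstar u hu h1, Subgroup.mem_centralizer_iff]
    rintro y rfl
    have : g * y = y * g := by
      calc g * y = (g * y * g⁻¹) * g := by group
        _ = y * g := by rw [h2]
    exact this.symm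
  have hconjC : ∀ g ∈ N, ∀ c ∈ C, g * c * g⁻¹ ∈ C := by
    intro g hg c hc
    rw [Subgroup.mem_centralizer_iff]
    intro u hu
    have h1 : g⁻¹ * u * g ∈ (P : Subgroup G) := by
      have := hconjP g⁻¹ (N.inv_mem hg) u hu
      simpa using this
    have h2 := hcomm _ h1 c hc
    calc u * (g * c * g⁻¹) = g * ((g⁻¹ * u * g) * c) * g⁻¹ := by group
      _ = g * (c * (g⁻¹ * u * g)) * g⁻¹ := by rw [h2]
      _ = g * c * g⁻¹ * u := by group
  have hTI : ∀ g, ∀ c ∈ C, c ∉ D → g * c * g⁻¹ ∈ C → g * c * g⁻¹ ∉ D → g ∈ N := by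
    intro g c hc hcD hc' hcD'
    obtain ⟨u, hu, d, hd, rfl⟩ := hdecomp c hc
    obtain ⟨u', hu', d', hd', he⟩ := hdecomp _ hc'
    have hu1 : u ≠ 1 := by
      intro h
      apply hcD
      rw [h, one_mul]
      exact hd
    have hu'1 : u' ≠ 1 := by
      intro h
      apply hcD'
      rw [he, h, one_mul]
      exact hd'
    have hconj : g * u * g⁻¹ = u' := by
      have h1 : (g * (u * d) * g⁻¹) ^ E = g * (u * d) ^ E * g⁻¹ := by
        rw [conj_pow]
      rw [hpart u hu d hd, he, hpart u' hu' d' hd'] at h1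
      exact h1.symm
    -- conjugation by `g` maps `P` into `P`
    have hgP : ∀ v ∈ (P : Subgroup G), g * v * g⁻¹ ∈ (P : Subgroup G) := by
      intro v hv
      have hvC : v ∈ C := hPC hv
      have h2 : g * v * g⁻¹ ∈ C := by
        rw [← hstar u' hu' hu'1, Subgroup.mem_centralizer_iff]
        rintro y rfl
        have h3 : y * (g * v * g⁻¹) = (g * v * g⁻¹) * y := by
          rw [← hconj]
          have h4 : u * v = v * u := hcomm u hu v hvC
          calc g * u * g⁻¹ * (g * v * g⁻¹) = g * (u * v) * g⁻¹ := by group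
            _ = g * (v * u) * g⁻¹ := by rw [h4]
            _ = _ := by group
        exact h3
      obtain ⟨w, hw, d'', hd'', he''⟩ := hdecomp _ h2
      have h3 : (g * v * g⁻¹) ^ (p ^ n) = 1 := by
        rw [conj_pow, hupow v hv]
        simp
      rw [he'', (show Commute w d'' from hcomm w hw d'' (hDC hd'')).mul_pow, hupow w hw, one_mul] at h3
      have h4 : d'' = 1 := by
        have h5 : orderOf d'' ∣ p ^ n := orderOf_dvd_of_pow_eq_one h3
        have h6 : orderOf d'' ∣ Nat.card D := orderOf_dvd_of_pow_eq_one (hdpow d'' hd'')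
        have h7 := Nat.dvd_gcd h5 h6
        rw [hcop2] at h7
        exact orderOf_eq_one_iff.1 (Nat.dvd_one.1 h7)
      rw [he'', h4, mul_one]
      exact hw
    rw [hN, Subgroup.mem_normalizer_iff]
    intro y
    refine ⟨hgP y, fun hy => ?_⟩
    let φ : ↥(P : Subgroup G) → ↥(P : Subgroup G) := fun v => ⟨g * v * g⁻¹, hgP v v.2⟩
    have hφ : Function.Injective φ := by
      intro a b hab
      apply Subtype.ext
      have : g * (a : G) * g⁻¹ = g * (b : G) * g⁻¹ := congrArg Subtype.val hab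
      simpa using this
    obtain ⟨v, hv⟩ := (Finite.injective_iff_surjective.1 hφ) ⟨g * y * g⁻¹, hy⟩
    have h3 : g * (v : G) * g⁻¹ = g * y * g⁻¹ := congrArg Subtype.val hv
    have h4 : (v : G) = y := by simpa using h3
    rw [← h4]
    exact v.2
  obtain ⟨e, he⟩ := Subgroup.card_dvd_of_le hCN
  refine ⟨D, e, ⟨hPC, hDC, hCN, hcomm, hdecomp, hdisj, hTI, hconjP, hconjC, hfree, hn, ?_⟩⟩
  rw [he, mul_comm]

end Cfsg.Agent.Lib.Char.BlichfeldtE
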