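import Mathlib
import Cfsg.Prelude.Def_Characters
import Cfsg.Agent.Lib.Char.Basic
import Cfsg.Agent.Lib.Char.Ortho
import Cfsg.Agent.Lib.Char.Values
import Cfsg.Agent.Lib.Char.Integrality
import Cfsg.Agent.Lib.Char.MackeyNormal

/-!
# Linear groups of small degree and `p`-elements acting on `p'`-subgroups

If `G` has a faithful representation of degree `n`, `n + 1 < p`, then a `p`-element normalizing a
`p'`-subgroup centralizes it.
-/

set_option autoImplicit false
set_option linter.unusedSectionVars false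
set_option linter.style.haveILetI false

namespace Cfsg.Agent.Lib.Char.CritAut

open Module Cfsg

universe u v

section Aut

variable {K : Type u} [Group K] [Finite K]

/-- Every proper invariant subgroup is fixed pointwise. -/
def ProperFix (φ : K ≃* K) : Prop :=
  ∀ U : Subgroup K, U ≠ ⊤ → (∀ u ∈ U, φ u ∈ U) → ∀ u ∈ U, φ u = u

/-- The fixed points of an automorphism. -/
def fixSub (φ : K ≃* K) : Subgroup K where
  carrier := {k | φ k = k}
  one_mem' := map_one φ
  mul_mem' := by
    intro a b ha hb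
    show φ (a * b) = a * b
    have ha' : φ a = a := ha
    have hb' : φ b = b := hb
    rw [map_mul, ha', hb']
  inv_mem' := by
    intro a ha
    show φ a⁻¹ = a⁻¹
    have ha' : φ a = a := ha
    rw [map_inv, ha']

theorem mem_fixSub {φ : K ≃* K} {k : K} : k ∈ fixSub φ ↔ φ k = k := Iff.rfl

variable {p : ℕ} {φ : K ≃* K}

theorem pow_apply_of_fixed {k c : K} (hc : φ c = c) (hk : φ k = c * k) (i : ℕ) :
    (φ ^ i) k = c ^ i * k := by
  induction i with
  | zero => simp
  | succ i ih =>
    rw [pow_succ', MulAut.mul_apply, ih, map_mul, map_pow, hc, hk, pow_succ, mul_assoc]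

/-- The coprime argument. -/
theorem eq_one_of_fixed (hφ : φ ^ p = 1) (hcop : ¬ p ∣ Nat.card K) (hp : p.Prime) {k c : K}
    (hc : φ c = c) (hk : φ k = c * k) : c = 1 := by
  have h1 := pow_apply_of_fixed hc hk p
  rw [hφ, MulAut.one_apply] at h1
  have h2 : c ^ p = 1 := by
    have : c ^ p * k = 1 * k := by rw [← h1, one_mul]
    exact mul_right_cancel this
  have h3 : c ^ Nat.card K = 1 := pow_card_eq_one'
  have h4 : Nat.Coprime p (Nat.card K) := (Nat.Prime.coprime_iff_not_dvd hp).2 hcop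
  have h5 := (pow_gcd_eq_one (a := c) (m := p) (n := Nat.card K)).2 ⟨h2, h3⟩
  rwa [h4.gcd_eq_one, pow_one] at h5

theorem orderOf_dvd_of_pow (hφ : φ ^ p = 1) : orderOf φ ∣ p := orderOf_dvd_of_pow_eq_one hφ

theorem isPGroup_zpowers [Fact p.Prime] (hφ : φ ^ p = 1) : IsPGroup p (Subgroup.zpowers φ) := by
  rw [IsPGroup.iff_card]
  obtain ⟨j, -, hj⟩ := (Nat.dvd_prime_pow (Fact.out : p.Prime)).1
    (show orderOf φ ∣ p ^ 1 by rw [pow_one]; exact orderOf_dvd_of_pow hφ)
  exact ⟨j, by rw [Nat.card_zpowers, hj]⟩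

/-- An invariant Sylow subgroup. -/
theorem exists_invariant_sylow [Fact p.Prime] (hφ : φ ^ p = 1) (hcop : ¬ p ∣ Nat.card K)
    (q : ℕ) [Fact q.Prime] : ∃ S : Sylow q K, ∀ s ∈ (S : Subgroup K), φ s ∈ (S : Subgroup K) := by
  classical
  have hS : ¬ p ∣ Nat.card (Sylow q K) := by
    intro h
    have h1 := (Sylow.card_dvd_index (default : Sylow q K)).trans
      (Subgroup.index_dvd_card ((default : Sylow q K) : Subgroup K))
    exact hcop (h.trans h1)
  obtain ⟨S, hS'⟩ := (isPGroup_zpowers hφ).nonempty_fixed_point_of_prime_not_dvd_card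
    (Sylow q K) hS
  refine ⟨S, fun s hs => ?_⟩
  have h1 : (⟨φ, Subgroup.mem_zpowers φ⟩ : Subgroup.zpowers φ) • S = S := hS' _
  have h2 : φ • S = S := h1
  have h3 : φ s ∈ ((φ • S : Sylow q K) : Subgroup K) := by
    rw [Sylow.pointwise_smul_def]
    exact Subgroup.smul_mem_pointwise_smul _ _ _ hs
  rwa [h2] at h3

theorem fix_lt_top (hnt : ∃ k, φ k ≠ k) : fixSub φ ≠ ⊤ := by
  obtain ⟨k, hk⟩ := hnt
  intro h
  have : k ∈ fixSub φ := by rw [h]; trivial
  exact hk this

/-- Under `ProperFix` a nontrivial automorphism acts on a `q`-group. -/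
theorem exists_isPGroup [Fact p.Prime] (hφ : φ ^ p = 1) (hcop : ¬ p ∣ Nat.card K)
    (hfix : ProperFix φ) (hnt : ∃ k, φ k ≠ k) : ∃ q : ℕ, q.Prime ∧ IsPGroup q K := by
  have hne : (fixSub φ).index ≠ 1 := by
    intro h
    exact fix_lt_top hnt (Subgroup.index_eq_one.1 h)
  obtain ⟨q, hq, hqd⟩ := Nat.exists_prime_and_dvd hne
  haveI : Fact q.Prime := ⟨hq⟩
  refine ⟨q, hq, ?_⟩
  obtain ⟨S, hS⟩ := exists_invariant_sylow hφ hcop q
  by_cases hST : (S : Subgroup K) = ⊤
  · intro g
    have hg : g ∈ (S : Subgroup K) := by rw [hST]; trivial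
    obtain ⟨j, hj⟩ := S.isPGroup' ⟨g, hg⟩
    exact ⟨j, by simpa using congrArg Subtype.val hj⟩
  · exfalso
    have hle : (S : Subgroup K) ≤ fixSub φ := fun s hs => hfix S hST hS s hs
    exact S.not_dvd_index (hqd.trans (Subgroup.index_dvd_of_le hle))

/-- The elements `φ k * k⁻¹` generate. -/
theorem closure_eq_top [Fact p.Prime] (hφ : φ ^ p = 1) (hcop : ¬ p ∣ Nat.card K)
    (hfix : ProperFix φ) (hnt : ∃ k, φ k ≠ k) :
    Subgroup.closure (Set.range fun k : K => φ k * k⁻¹) = ⊤ := by
  by_contra hne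
  have hinv : ∀ u ∈ Subgroup.closure (Set.range fun k : K => φ k * k⁻¹),
      φ u ∈ Subgroup.closure (Set.range fun k : K => φ k * k⁻¹) := by
    intro u hu
    induction hu using Subgroup.closure_induction with
    | mem x hx =>
      obtain ⟨k, rfl⟩ := hx
      apply Subgroup.subset_closure
      exact ⟨φ k, by simp⟩
    | one => simp
    | mul a b _ _ ha hb =>
      rw [map_mul]
      exact Subgroup.mul_mem _ ha hb
    | inv a _ ha =>
      rw [map_inv]
      exact Subgroup.inv_mem _ ha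
  obtain ⟨k, hk⟩ := hnt
  have h1 := hfix _ hne hinv (φ k * k⁻¹) (Subgroup.subset_closure ⟨k, rfl⟩)
  have h2 := eq_one_of_fixed hφ hcop (Fact.out : p.Prime) h1 (k := k) (by simp)
  apply hk
  exact mul_inv_eq_one.1 h2

theorem commutator_le_fix [Nontrivial K] [Group.IsSolvable K] (hfix : ProperFix φ) :
    commutator K ≤ fixSub φ := by
  have hlt : commutator K < ⊤ := Group.IsSolvable.commutator_lt_top_of_nontrivial K
  intro u hu
  refine hfix (commutator K) hlt.ne ?_ u hu
  intro v hv
  have h1 : (commutator K).map φ.toMonoidHom = commutator K :=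
    (Subgroup.characteristic_iff_map_eq.1 inferInstance) φ
  rw [← h1]
  exact ⟨v, hv, rfl⟩

/-- The fixed points are central. -/
theorem fix_central [Fact p.Prime] [Nontrivial K] [Group.IsSolvable K] (hφ : φ ^ p = 1)
    (hcop : ¬ p ∣ Nat.card K) (hfix : ProperFix φ) (hnt : ∃ k, φ k ≠ k) {u : K}
    (hu : φ u = u) (k : K) : u * k = k * u := by
  have hK := commutator_le_fix hfix
  have hcl := closure_eq_top hφ hcop hfix hnt
  have hgen : ∀ k : K, (φ k * k⁻¹) ∈ Subgroup.centralizer ({u} : Set K) := by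
    intro k
    rw [Subgroup.mem_centralizer_iff]
    intro w hw
    rw [Set.mem_singleton_iff] at hw
    subst hw
    -- `⁅w, k⁆`-type element
    have h1 : w⁻¹ * k⁻¹ * w * k ∈ commutator K := by
      have := Subgroup.commutator_mem_commutator (Subgroup.mem_top (w⁻¹)) (Subgroup.mem_top (k⁻¹))
      rw [commutator_def]
      simpa [commutatorElement_def] using this
    have h2 := hK h1
    rw [mem_fixSub] at h2
    simp only [map_mul, map_inv, hu] at h2
    have h3 : (φ k)⁻¹ * w * φ k = k⁻¹ * w * k := by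
      have h4 : w⁻¹ * ((φ k)⁻¹ * w * φ k) = w⁻¹ * (k⁻¹ * w * k) := by
        simpa [mul_assoc] using h2
      exact mul_left_cancel h4
    have h5 : w * (φ k * k⁻¹) = (φ k * k⁻¹) * w := by
      have h6 : φ k * ((φ k)⁻¹ * w * φ k) * k⁻¹ = φ k * (k⁻¹ * w * k) * k⁻¹ := by rw [h3]
      have e1 : φ k * ((φ k)⁻¹ * w * φ k) * k⁻¹ = w * (φ k * k⁻¹) := by group
      have e2 : φ k * (k⁻¹ * w * k) * k⁻¹ = φ k * k⁻¹ * w := by group
      rw [e1, e2] at h6
      exact h6
    exact h5
  have htop : Subgroup.closure (Set.range fun k : K => φ k * k⁻¹) ≤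
      Subgroup.centralizer ({u} : Set K) := by
    rw [Subgroup.closure_le]
    rintro _ ⟨k, rfl⟩
    exact hgen k
  rw [hcl] at htop
  have h7 := htop (Subgroup.mem_top k)
  rw [Subgroup.mem_centralizer_iff] at h7
  exact h7 u rfl

/-- Fixed points and the cardinality modulo `p`. -/
theorem card_modEq_fix [Fact p.Prime] (hφ : φ ^ p = 1) :
    Nat.card K ≡ Nat.card (fixSub φ) [MOD p] := by
  classical
  have h1 := (isPGroup_zpowers hφ).card_modEq_card_fixedPoints K
  have h2 : Nat.card (MulAction.fixedPoints (Subgroup.zpowers φ) K) = Nat.card (fixSub φ) := by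
    apply Nat.card_congr
    refine Equiv.subtypeEquivRight fun k => ?_
    constructor
    · intro h
      have := h ⟨φ, Subgroup.mem_zpowers φ⟩
      exact this
    · intro (h : φ k = k)
      rintro ⟨a, ha⟩
      obtain ⟨i, rfl⟩ := Subgroup.mem_zpowers_iff.1 ha
      have hfx : ∀ i : ℕ, (φ ^ i) k = k := by
        intro i
        induction i with
        | zero => simp
        | succ i ih => rw [pow_succ', MulAut.mul_apply, ih, h]
      show (φ ^ i) k = k
      have hpos : 0 < orderOf φ := orderOf_pos φ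
      have : φ ^ i = φ ^ (i % (orderOf φ : ℤ)).toNat := by
        rw [← zpow_mod_orderOf φ i]
        conv_lhs => rw [← Int.toNat_of_nonneg (Int.emod_nonneg i (by exact_mod_cast hpos.ne'))]
        rw [zpow_natCast]
      rw [this]
      exact hfx _
  rwa [h2] at h1

/-- The index of the fixed points modulo `p`. -/
theorem index_modEq_one [Fact p.Prime] (hφ : φ ^ p = 1) (hcop : ¬ p ∣ Nat.card K) :
    (fixSub φ).index ≡ 1 [MOD p] := by
  have h1 := card_modEq_fix hφ
  rw [← Subgroup.index_mul_card (fixSub φ)] at h1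
  have h2 : Nat.Coprime (Nat.card (fixSub φ)) p := by
    apply Nat.Coprime.symm
    rw [Nat.Prime.coprime_iff_not_dvd (Fact.out : p.Prime)]
    intro h
    exact hcop (h.trans (Subgroup.card_subgroup_dvd_card _))
  have h3 : (fixSub φ).index * Nat.card (fixSub φ) ≡ 1 * Nat.card (fixSub φ) [MOD p] := by
    rwa [one_mul]
  have h4 := Nat.ModEq.cancel_right_of_coprime (by rwa [Nat.coprime_comm, Nat.coprime_iff_gcd_eq_one] at h2) h3
  exact h4

end Aut

section Chars

open Cfsg.Agent.Lib.Char.Ortho Cfsg.Agent.Lib.Char.Basic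
open scoped commutatorElement

variable {K : Type u} [Group K] [Finite K] {p : ℕ} {φ : K ≃* K}

/-- The main computation: an irreducible representation not killing commutators. -/
theorem dim_bound [Fact p.Prime] [Nontrivial K] [Group.IsSolvable K] (hφ : φ ^ p = 1)
    (hcop : ¬ p ∣ Nat.card K) (hfix : ProperFix φ) (hnt : ∃ k, φ k ≠ k) {n : ℕ}
    (σ : Representation ℂ K (Fin n → ℂ)) [hirr : σ.IsIrreducible] (a b : K)
    (hab : σ ⁅a, b⁆ ≠ 1) : p ≤ n + 1 := by
  classical
  cases nonempty_fintype K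
  have hK := commutator_le_fix hfix
  set θ := σ.character with hθ
  have hfr : finrank ℂ (Fin n → ℂ) = n := finrank_fin_fun ℂ
  -- scalars
  have hsc : ∀ c ∈ fixSub φ, ∃ ω : ℂ, σ c = ω • (LinearMap.id : (Fin n → ℂ) →ₗ[ℂ] (Fin n → ℂ)) := by
    intro c hc
    refine Cfsg.Agent.Lib.Char.Integrality.exists_smul_id_of_commute σ (σ c) fun g => ?_
    show σ c * σ g = σ g * σ c
    rw [← map_mul, ← map_mul, fix_central hφ hcop hfix hnt hc g]
  let R : Subgroup K :=
    { carrier := {r | ∀ g, σ r * σ g = σ g * σ r}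
      one_mem' := fun g => by simp
      mul_mem' := by
        intro x y hx hy g
        rw [map_mul, mul_assoc, hy g, ← mul_assoc, hx g, mul_assoc]
      inv_mem' := by
        intro x hx g
        have hx' : σ x * σ g = σ g * σ x := hx g
        have h1 : σ x⁻¹ * σ x = 1 := by rw [← map_mul]; simp
        have h2 : σ x * σ x⁻¹ = 1 := by rw [← map_mul]; simp
        calc σ x⁻¹ * σ g = σ x⁻¹ * (σ g * (σ x * σ x⁻¹)) := by rw [h2, mul_one]
          _ = σ x⁻¹ * ((σ g * σ x) * σ x⁻¹) := by rw [mul_assoc]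
          _ = σ x⁻¹ * ((σ x * σ g) * σ x⁻¹) := by rw [hx']
          _ = (σ x⁻¹ * σ x) * σ g * σ x⁻¹ := by simp only [mul_assoc]
          _ = σ g * σ x⁻¹ := by rw [h1, one_mul] }
  have hRmem : ∀ r, r ∈ R ↔ ∀ g, σ r * σ g = σ g * σ r := fun r => Iff.rfl
  -- commuting and commutators
  have hcomm_iff : ∀ x y : K, σ x * σ y = σ y * σ x ↔ σ ⁅x, y⁆ = 1 := by
    intro x y
    have h1 : ∀ z : K, σ z * σ z⁻¹ = 1 := fun z => by rw [← map_mul]; simp
    have h2 : ∀ z : K, σ z⁻¹ * σ z = 1 := fun z => by rw [← map_mul]; simp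
    rw [commutatorElement_def]
    simp only [map_mul]
    constructor
    · intro h
      rw [h, mul_assoc (σ y), h1 x, mul_one, h1 y]
    · intro h
      calc σ x * σ y = (σ x * σ y * σ x⁻¹ * σ y⁻¹) * (σ y * σ x) := by
            simp only [mul_assoc]
            rw [← mul_assoc (σ y⁻¹) (σ y), h2 y, one_mul, h2 x, mul_one]
        _ = σ y * σ x := by rw [h, one_mul]
  have hcm : ∀ x y : K, ⁅x, y⁆ ∈ fixSub φ := fun x y =>
    hK (Subgroup.commutator_mem_commutator (Subgroup.mem_top x) (Subgroup.mem_top y) |> fun h => by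
      rwa [← commutator_def] at h)
  have hRinv : ∀ r ∈ R, φ r ∈ R := by
    intro r hr g
    rw [hcomm_iff]
    have h1 : ⁅φ r, g⁆ = ⁅r, φ.symm g⁆ := by
      have h2 : φ ⁅r, φ.symm g⁆ = ⁅r, φ.symm g⁆ := hcm _ _
      rw [map_commutatorElement] at h2
      simpa using h2
    rw [h1, ← hcomm_iff]
    exact hr _
  have hRtop : R ≠ ⊤ := by
    intro h
    have : a ∈ R := by rw [h]; trivial
    exact hab ((hcomm_iff a b).1 (this b))
  have hRfix : ∀ r ∈ R, r ∈ fixSub φ := fun r hr => hfix R hRtop hRinv r hr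
  -- vanishing
  have hvan : ∀ k, k ∉ fixSub φ → θ k = 0 := by
    intro k hk
    have hkR : k ∉ R := fun h => hk (hRfix k h)
    rw [hRmem] at hkR
    push Not at hkR
    obtain ⟨g, hg⟩ := hkR
    set c := ⁅k⁻¹, g⁆ with hc
    obtain ⟨ω, hω⟩ := hsc c (hcm _ _)
    have hcne : σ c ≠ 1 := by
      intro h
      have h2 : σ k⁻¹ * σ g = σ g * σ k⁻¹ := (hcomm_iff _ _).2 h
      have h3 : σ k * σ k⁻¹ = 1 := by rw [← map_mul]; simp
      have h4 : σ k⁻¹ * σ k = 1 := by rw [← map_mul]; simp
      apply hg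
      calc σ k * σ g = σ k * σ g * (σ k⁻¹ * σ k) := by rw [h4, mul_one]
        _ = σ k * (σ g * σ k⁻¹) * σ k := by simp only [mul_assoc]
        _ = σ k * (σ k⁻¹ * σ g) * σ k := by rw [h2]
        _ = (σ k * σ k⁻¹) * σ g * σ k := by simp only [mul_assoc]
        _ = σ g * σ k := by rw [h3, one_mul]
    have hω1 : ω ≠ 1 := by
      rintro rfl
      apply hcne
      rw [hω, one_smul]
      rfl
    have h5 : θ (g * k * g⁻¹) = θ k := by rw [hθ, Representation.char_conj]
    have h6 : g * k * g⁻¹ = k * c := by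
      rw [hc, commutatorElement_def]
      group
    have h7 : θ (k * c) = ω * θ k := by
      rw [hθ]
      show LinearMap.trace ℂ _ (σ (k * c)) = ω * LinearMap.trace ℂ _ (σ k)
      rw [map_mul, hω]
      have h10 : σ k * (ω • (LinearMap.id : (Fin n → ℂ) →ₗ[ℂ] (Fin n → ℂ))) = ω • σ k := by
        ext v i
        simp
      rw [h10, map_smul, smul_eq_mul]
    rw [h6, h7] at h5
    have h8 : (ω - 1) * θ k = 0 := by linear_combination h5
    rcases mul_eq_zero.1 h8 with h9 | h9
    · exact absurd (sub_eq_zero.1 h9) hω1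
    · exact h9
  have hirrθ : IsIrrCharacter K θ := isIrrCharacter_of_rep σ
  have h1 := Cfsg.Agent.Lib.Char.MackeyNormal.sum_norm_sq_eq_card hirrθ
  have hnorm : ∀ c ∈ fixSub φ, ‖θ c‖ = n := by
    intro c hc
    obtain ⟨ω, hω⟩ := hsc c hc
    have := (Cfsg.Agent.Lib.Char.Values.norm_character_eq_iff σ c).2 ⟨ω, hω⟩
    rwa [hfr] at this
  have h2 : ∑ x : K, ‖θ x‖ ^ 2 = (Nat.card (fixSub φ) : ℝ) * n ^ 2 := by
    rw [← Finset.sum_filter_add_sum_filter_not Finset.univ (· ∈ fixSub φ)]
    have h3 : ∑ x ∈ Finset.univ.filter (· ∉ fixSub φ), ‖θ x‖ ^ 2 = 0 := by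
      refine Finset.sum_eq_zero fun x hx => ?_
      rw [hvan x (Finset.mem_filter.1 hx).2]
      simp
    have h4 : ∑ x ∈ Finset.univ.filter (· ∈ fixSub φ), ‖θ x‖ ^ 2 =
        ∑ _x ∈ Finset.univ.filter (· ∈ fixSub φ), (n : ℝ) ^ 2 := by
      refine Finset.sum_congr rfl fun x hx => ?_
      rw [hnorm x (Finset.mem_filter.1 hx).2]
    rw [h3, h4, Finset.sum_const, add_zero, nsmul_eq_mul]
    congr 2
    rw [Nat.card_eq_fintype_card, Fintype.card_subtype]
  rw [h2] at h1
  have h5 : Nat.card (fixSub φ) * n ^ 2 = Nat.card K := by exact_mod_cast h1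
  have hCpos : 0 < Nat.card (fixSub φ) := Nat.card_pos
  have h6 : (fixSub φ).index = n ^ 2 := by
    have h7 := Subgroup.index_mul_card (fixSub φ)
    rw [← h5, mul_comm] at h7
    exact Nat.eq_of_mul_eq_mul_left hCpos h7
  have h8 := index_modEq_one hφ hcop
  rw [h6] at h8
  have hn1 : n ≠ 1 := by
    rintro rfl
    apply fix_lt_top hnt
    rw [← Subgroup.index_eq_one, h6]
    simp
  have hn0 : n ≠ 0 := by
    rintro rfl
    have : (fixSub φ).index ≠ 0 := Subgroup.index_ne_zero_of_finite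
    apply this
    rw [h6]
    simp
  have hn2 : 2 ≤ n := by omega
  have h9 : p ∣ n ^ 2 - 1 := (Nat.modEq_iff_dvd' (by nlinarith)).1 h8.symm
  have h10 : n ^ 2 - 1 = (n - 1) * (n + 1) := by
    obtain ⟨m, rfl⟩ : ∃ m, n = m + 2 := ⟨n - 2, by omega⟩
    have : (m + 2) ^ 2 = (m + 2 - 1) * (m + 2 + 1) + 1 := by
      have : m + 2 - 1 = m + 1 := by omega
      rw [this]
      ring
    omega
  rw [h10] at h9
  rcases (Nat.Prime.dvd_mul (Fact.out : p.Prime)).1 h9 with h11 | h11
  · have := Nat.le_of_dvd (by omega) h11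
    omega
  · exact Nat.le_of_dvd (by omega) h11

/-- Constituents detect values. -/
theorem exists_constituent {χ : K → ℂ} {m : IrrCharacter K → ℕ}
    (hm : χ = ∑ ψ, m ψ • (ψ : K → ℂ)) {u : K} (hu : χ u ≠ χ 1) :
    ∃ θ : IrrCharacter K, m θ ≠ 0 ∧ (θ : K → ℂ) u ≠ (θ : K → ℂ) 1 := by
  by_contra hcon
  push Not at hcon
  apply hu
  rw [hm]
  simp only [Finset.sum_apply, Pi.smul_apply]
  refine Finset.sum_congr rfl fun ψ _ => ?_
  by_cases h : m ψ = 0
  · simp [h]
  · rw [hcon ψ h]

/-- Degrees in a decomposition. -/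
theorem exists_degrees {χ : K → ℂ} {m : IrrCharacter K → ℕ}
    (hm : χ = ∑ ψ, m ψ • (ψ : K → ℂ)) {n : ℕ} (hn : χ 1 = n) :
    ∃ d : IrrCharacter K → ℕ, (∀ ψ, 0 < d ψ ∧ (ψ : K → ℂ) 1 = d ψ) ∧ ∑ ψ, m ψ * d ψ = n := by
  choose d hd using fun ψ : IrrCharacter K => irr_degree_pos ψ.2
  refine ⟨d, hd, ?_⟩
  have h1 := congrFun hm 1
  rw [hn] at h1
  simp only [Finset.sum_apply, Pi.smul_apply] at h1
  have h2 : ((n : ℕ) : ℂ) = ((∑ ψ, m ψ * d ψ : ℕ) : ℂ) := by
    rw [h1]
    push_cast
    refine Finset.sum_congr rfl fun ψ _ => ?_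
    rw [(hd ψ).2]
    simp
  exact_mod_cast h2.symm

/-- The action of an automorphism on irreducible characters. -/
def irrMap (φ : K ≃* K) (ψ : IrrCharacter K) : IrrCharacter K :=
  ⟨fun k => (ψ : K → ℂ) (φ k),
    isIrrCharacter_comp_surjective ψ.2 φ.toMonoidHom φ.surjective⟩

@[simp] theorem irrMap_apply (ψ : IrrCharacter K) (k : K) : (irrMap φ ψ : K → ℂ) k = (ψ : K → ℂ) (φ k) := rfl

theorem irrMap_iterate (ψ : IrrCharacter K) (i : ℕ) (k : K) :
    ((irrMap φ)^[i] ψ : K → ℂ) k = (ψ : K → ℂ) ((φ ^ i) k) := by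
  induction i generalizing k with
  | zero => simp
  | succ i ih =>
    rw [Function.iterate_succ_apply', irrMap_apply, ih, pow_succ, MulAut.mul_apply]

/-- Multiplicities are invariant. -/
theorem mult_invariant {χ : K → ℂ} {m : IrrCharacter K → ℕ}
    (hm : χ = ∑ ψ, m ψ • (ψ : K → ℂ)) (hinv : ∀ k, χ (φ k) = χ k) (ψ : IrrCharacter K) :
    m (irrMap φ ψ) = m ψ := by
  classical
  cases nonempty_fintype K
  have key : ∀ ψ : IrrCharacter K, classInner χ (ψ : K → ℂ) = m ψ := by
    intro ψ
    have := classInner_sum_irr (fun χ => (m χ : ℂ)) ψ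
    simp only [Nat.cast_smul_eq_nsmul] at this
    rw [← hm] at this
    exact this
  have h1 := Cfsg.Agent.Lib.Char.Clifford.classInner_comp_equiv φ χ (ψ : K → ℂ)
  have h2 : (fun a => χ (φ a)) = χ := funext hinv
  rw [h2] at h1
  have h3 := key (irrMap φ ψ)
  have h4 : ((irrMap φ ψ : IrrCharacter K) : K → ℂ) = fun a => (ψ : K → ℂ) (φ a) := rfl
  rw [h4, h1, key ψ] at h3
  exact_mod_cast h3.symm

/-- Constituents are invariant when the degree is below `p`. -/
theorem constituent_invariant [Fact p.Prime] (hφ : φ ^ p = 1) {χ : K → ℂ}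
    {m : IrrCharacter K → ℕ} (hm : χ = ∑ ψ, m ψ • (ψ : K → ℂ)) (hinv : ∀ k, χ (φ k) = χ k) {n : ℕ}
    (hn : χ 1 = n) (hnp : n < p) {θ : IrrCharacter K} (hθ : m θ ≠ 0) : irrMap φ θ = θ := by
  classical
  obtain ⟨d, hd, hsum⟩ := exists_degrees hm hn
  by_contra hne
  set f := irrMap φ with hf
  have hper : Function.IsPeriodicPt f p θ := by
    show f^[p] θ = θ
    apply Subtype.ext
    funext k
    rw [hf, irrMap_iterate, hφ, MulAut.one_apply]
  have hdvd := hper.minimalPeriod_dvd
  have hmin : Function.minimalPeriod f θ = p := by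
    rcases (Nat.dvd_prime (Fact.out : p.Prime)).1 hdvd with h | h
    · exact absurd (Function.minimalPeriod_eq_one_iff_isFixedPt.1 h) hne
    · exact h
  have hinj := Function.iterate_injOn_Iio_minimalPeriod (f := f) (x := θ)
  rw [hmin] at hinj
  set S := (Finset.range p).image (fun i => f^[i] θ) with hS
  have hcard : S.card = p := by
    rw [hS, Finset.card_image_of_injOn, Finset.card_range]
    intro a ha b hb hab
    exact hinj (by simpa using ha) (by simpa using hb) hab
  have hmS : ∀ i, m (f^[i] θ) = m θ := by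
    intro i
    induction i with
    | zero => rfl
    | succ i ih => rw [Function.iterate_succ_apply', hf, mult_invariant hm hinv, ih]
  have hle : p ≤ n := by
    calc p = ∑ _ψ ∈ S, 1 := by rw [Finset.sum_const, hcard]; simp
      _ ≤ ∑ ψ ∈ S, m ψ * d ψ := by
          refine Finset.sum_le_sum fun ψ hψ => ?_
          obtain ⟨i, -, rfl⟩ := Finset.mem_image.1 hψ
          rw [hmS]
          exact Nat.mul_pos (Nat.pos_of_ne_zero hθ) (hd _).1
      _ ≤ ∑ ψ, m ψ * d ψ := Finset.sum_le_sum_of_subset (Finset.subset_univ _)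
      _ = n := hsum
  omega

/-- Abelian case. -/
theorem abelian_case [Fact p.Prime] (hφ : φ ^ p = 1) (hcomm : ∀ a b : K, a * b = b * a) {χ : K → ℂ}
    (hχ : IsCharacter K χ) (hinv : ∀ k, χ (φ k) = χ k) {n : ℕ} (hn : χ 1 = n) (hnp : n < p) (k : K) :
    χ (k⁻¹ * φ k) = χ 1 := by
  classical
  obtain ⟨m, hm⟩ := exists_nat_decomp hχ
  by_contra hne
  obtain ⟨θ, hθ, hθu⟩ := exists_constituent hm hne
  have hfix := constituent_invariant hφ hm hinv hn hnp hθ
  apply hθu
  have hval : (θ : K → ℂ) (φ k) = (θ : K → ℂ) k := by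
    have := congrFun (congrArg Subtype.val hfix) k
    simpa using this
  obtain ⟨e, σ, hσ, hθσ⟩ := θ.2
  rw [← hθσ] at hval ⊢
  have hsc : ∀ c : K, ∃ ω : ℂ, σ c = ω • (LinearMap.id : (Fin e → ℂ) →ₗ[ℂ] (Fin e → ℂ)) := by
    intro c
    refine Cfsg.Agent.Lib.Char.Integrality.exists_smul_id_of_commute σ (σ c) fun g => ?_
    show σ c * σ g = σ g * σ c
    rw [← map_mul, ← map_mul, hcomm]
  obtain ⟨ω₁, h1⟩ := hsc k
  obtain ⟨ω₂, h2⟩ := hsc (φ k)
  have he : (e : ℂ) ≠ 0 := by
    obtain ⟨e', he', h3⟩ := irr_degree_pos (χ := σ.character) ⟨e, σ, hσ, rfl⟩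
    have h4 : σ.character 1 = e := by simp
    rw [h4] at h3
    rw [h3]
    exact_mod_cast he'.ne'
  have htr : ∀ (c : K) (ω : ℂ), σ c = ω • (LinearMap.id : (Fin e → ℂ) →ₗ[ℂ] (Fin e → ℂ)) →
      σ.character c = ω * e := by
    intro c ω h
    show LinearMap.trace ℂ _ (σ c) = _
    rw [h, map_smul, LinearMap.trace_id, finrank_fin_fun, smul_eq_mul]
  rw [htr _ _ h1, htr _ _ h2] at hval
  have hω : ω₂ = ω₁ := mul_right_cancel₀ he hval
  have h3 : σ (φ k) = σ k := by rw [h1, h2, hω]
  have h4 : σ (k⁻¹ * φ k) = σ 1 := by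
    rw [map_mul, h3, ← map_mul]
    simp
  rw [Representation.character, h4]
  rfl

/-- The abstract statement. -/
theorem aut_trivial [Fact p.Prime] (hφ : φ ^ p = 1) (hcop : ¬ p ∣ Nat.card K) (hfix : ProperFix φ)
    {V : Type v} [AddCommGroup V] [Module ℂ V] [FiniteDimensional ℂ V]
    (ρ : Representation ℂ K V) (hinj : Function.Injective ρ) (hdim : finrank ℂ V + 1 < p)
    (hχ : ∀ k, ρ.character (φ k) = ρ.character k) (k : K) : φ k = k := by
  classical
  by_contra hk
  have hnt : ∃ k, φ k ≠ k := ⟨k, hk⟩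
  haveI : Nontrivial K := by
    by_contra hnn
    rw [not_nontrivial_iff_subsingleton] at hnn
    exact hk (Subsingleton.elim _ _)
  obtain ⟨q, hq, hqK⟩ := exists_isPGroup hφ hcop hfix hnt
  haveI : Fact q.Prime := ⟨hq⟩
  haveI : Group.IsNilpotent K := hqK.isNilpotent
  have hch : IsCharacter K ρ.character := isCharacter_of_rep ρ
  have hone : ρ.character 1 = (finrank ℂ V : ℕ) := by simp
  have hval : ∀ u : K, ρ.character u = ρ.character 1 → u = 1 := by
    intro u hu
    apply hinj
    rw [hone] at hu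
    rw [map_one]
    exact (Cfsg.Agent.Lib.Char.Values.character_eq_finrank_iff ρ u).1 hu
  by_cases hc : ∀ a b : K, a * b = b * a
  · have h1 := abelian_case hφ hc hch hχ hone (by omega) k
    have h2 := hval _ h1
    apply hk
    have h3 : φ k = k * (k⁻¹ * φ k) := by group
    rw [h3, h2, mul_one]
  · push Not at hc
    obtain ⟨a, b, hab⟩ := hc
    have hne : ⁅a, b⁆ ≠ 1 := by
      intro h
      rw [commutatorElement_eq_one_iff_mul_comm] at h
      exact hab h
    obtain ⟨m, hm⟩ := exists_nat_decomp hch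
    obtain ⟨θ, hθ, hθu⟩ := exists_constituent hm (fun h => hne (hval _ h))
    obtain ⟨d, hd, hsum⟩ := exists_degrees hm hone
    obtain ⟨e, σ, hσ, hθσ⟩ := θ.2
    have hσne : σ ⁅a, b⁆ ≠ 1 := by
      intro h
      apply hθu
      rw [← hθσ]
      show LinearMap.trace ℂ _ (σ ⁅a, b⁆) = LinearMap.trace ℂ _ (σ 1)
      have h1 : σ 1 = 1 := map_one σ
      rw [h, h1]
    have hbd := dim_bound hφ hcop hfix hnt σ a b hσne
    have hde : d θ = e := by
      have h1 := (hd θ).2
      rw [← hθσ] at h1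
      have h2 : σ.character 1 = e := by simp
      rw [h2] at h1
      exact_mod_cast h1.symm
    have hle : m θ * d θ ≤ finrank ℂ V := by
      rw [← hsum]
      exact Finset.single_le_sum (f := fun ψ => m ψ * d ψ) (fun _ _ => Nat.zero_le _)
        (Finset.mem_univ θ)
    have hle2 : d θ ≤ m θ * d θ := Nat.le_mul_of_pos_left _ (Nat.pos_of_ne_zero hθ)
    omega

end Chars

section Linear

variable {G : Type u} [Group G] [Finite G] {V : Type v} [AddCommGroup V] [Module ℂ V]
  [FiniteDimensional ℂ V] {p : ℕ}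

/-- Conjugation by an element normalizing a subgroup. -/
noncomputable def conjAut (K : Subgroup G) (x : G) (hx : ∀ k ∈ K, x * k * x⁻¹ ∈ K) : K ≃* K :=
  MulEquiv.ofBijective
    ({ toFun := fun k => ⟨x * k * x⁻¹, hx k k.2⟩
       map_one' := by ext; simp
       map_mul' := fun a b => by
        apply Subtype.ext
        show x * ((a : G) * b) * x⁻¹ = x * a * x⁻¹ * (x * b * x⁻¹)
        group } : K →* K)
    (Finite.injective_iff_bijective.1 (fun a b h => by
      have h1 : x * (a : G) * x⁻¹ = x * b * x⁻¹ := congrArg Subtype.val h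
      have h2 : (a : G) = b := by simpa using h1
      exact Subtype.ext h2))

theorem conjAut_coe (K : Subgroup G) (x : G) (hx : ∀ k ∈ K, x * k * x⁻¹ ∈ K) (k : K) :
    ((conjAut K x hx k : K) : G) = x * k * x⁻¹ := rfl

theorem conjAut_pow (K : Subgroup G) (x : G) (hx : ∀ k ∈ K, x * k * x⁻¹ ∈ K) (i : ℕ) (k : K) :
    (((conjAut K x hx) ^ i) k : G) = x ^ i * k * (x ^ i)⁻¹ := by
  induction i with
  | zero => simp
  | succ i ih =>
    rw [pow_succ', MulAut.mul_apply, conjAut_coe, ih, pow_succ']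
    group

/-- **Blichfeldt-type theorem.** In a linear group of degree `n`, `n + 1 < p`, a `p`-element
normalizing a `p'`-subgroup centralizes it. -/
theorem centralizes_of_small [Fact p.Prime] (ρ : Representation ℂ G V)
    (hinj : Function.Injective ρ) (hdim : finrank ℂ V + 1 < p) :
    ∀ (m : ℕ) (K : Subgroup G), Nat.card K = m → ¬ p ∣ Nat.card K → ∀ (a : ℕ) (x : G),
      x ^ p ^ a = 1 → (∀ k ∈ K, x * k * x⁻¹ ∈ K) → ∀ k ∈ K, x * k = k * x := by
  intro m
  induction m using Nat.strong_induction_on with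
  | _ m IH =>
    intro K hK hcop a
    induction a with
    | zero =>
      intro x hx _ k _
      have h1 : x = 1 := by simpa using hx
      simp [h1]
    | succ a IHa =>
      intro x hx hxK
      have hy : ∀ k ∈ K, x ^ p * k = k * x ^ p := by
        refine IHa (x ^ p) (by rw [← pow_mul, ← pow_succ']; exact hx) ?_
        intro k hk
        have key : ∀ i : ℕ, x ^ i * k * (x ^ i)⁻¹ ∈ K := by
          intro i
          induction i with
          | zero => simpa using hk
          | succ i ih =>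
            have := hxK _ ih
            have e : x ^ (i + 1) * k * (x ^ (i + 1))⁻¹ = x * (x ^ i * k * (x ^ i)⁻¹) * x⁻¹ := by
              rw [pow_succ']
              group
            rw [e]
            exact this
        exact key p
      set φ := conjAut K x hxK with hφdef
      have hφ : φ ^ p = 1 := by
        refine MulEquiv.ext fun k => Subtype.ext ?_
        rw [hφdef, conjAut_pow, MulAut.one_apply, hy k k.2]
        simp
      have hfix : ProperFix φ := by
        intro U hU hUinv u hu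
        have hlt : Nat.card U < Nat.card K :=
          lt_of_le_of_ne (Subgroup.card_le_card_group U)
            (fun h => hU (Subgroup.eq_top_of_card_eq U h))
        have hcardL : Nat.card (U.map K.subtype) = Nat.card U :=
          Subgroup.card_map_of_injective K.subtype_injective
        have hL : ¬ p ∣ Nat.card (U.map K.subtype) := by
          rw [hcardL]
          intro h
          exact hcop (h.trans (Subgroup.card_subgroup_dvd_card U))
        have hinvL : ∀ k ∈ U.map K.subtype, x * k * x⁻¹ ∈ U.map K.subtype := by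
          rintro _ ⟨v, hv, rfl⟩
          exact ⟨φ v, hUinv v hv, rfl⟩
        have h1 := IH (Nat.card (U.map K.subtype)) (by omega) (U.map K.subtype) rfl hL (a + 1) x hx
          hinvL (u : G) ⟨u, hu, rfl⟩
        apply Subtype.ext
        rw [hφdef, conjAut_coe, h1]
        simp
      have hinj' : Function.Injective (ρ.comp K.subtype : Representation ℂ K V) := by
        intro a b hab
        exact Subtype.ext (hinj hab)
      let ρK : Representation ℂ K V := ρ.comp K.subtype
      have hchar : ∀ k : K, ρK.character (φ k) = ρK.character k := by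
        intro k
        show ρ.character (x * k * x⁻¹) = ρ.character k
        rw [Representation.char_conj]
      intro k hk
      have h2 := aut_trivial hφ hcop hfix ρK hinj' hdim hchar
        ⟨k, hk⟩
      have h3 : x * k * x⁻¹ = k := congrArg Subtype.val h2
      calc x * k = x * k * x⁻¹ * x := by group
        _ = k * x := by rw [h3]

end Linear

end Cfsg.Agent.Lib.Char.CritAut
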