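import Mathlib
import Cfsg.Agent.S4717
import Cfsg.Agent.Lib.Blocks.Dominate
import Cfsg.Agent.Lib.Blocks.PrincipalCen
import Cfsg.Agent.Lib.Blocks.HeightZero
import Cfsg.Agent.Lib.Char.CompleteCor

/-!
# Deficiency classes at the prime 2

`Defi M r X`: the finite group `X` has no non-principal 2-block of defect at least `r`.

* `defi_quot`: passage to the quotient by a central subgroup of order 2;
* `eq_bot_of_defi_zero`: a group with a single 2-block has no nontrivial normal subgroup of odd order;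
* `core_trivial`: deficiency `r` and an elementary abelian subgroup of order `2 ^ (r + 1)` force `O(X) = 1`.
-/

set_option autoImplicit false

namespace Cfsg.Agent.Lib.Char.DefClass

open Cfsg Cfsg.Agent.Lib.Blocks.Local Cfsg.Agent.Lib.Blocks.Central Cfsg.Agent.Lib.Blocks.Principal
  Cfsg.Agent.Lib.Blocks.Osima
open scoped ComplexConjugate

universe u

/-- No non-principal 2-block of defect at least `r`. -/
def Defi (M : Ideal AlgInt) (r : ℕ) (X : Type u) [Group X] : Prop :=
  ∀ B : Set (IrrCharacter X), IsPBlock M B → B ≠ principalBlock M X → blockDefect 2 B < r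

section quot

variable {X : Type u} [Group X] [Finite X] {M : Ideal AlgInt}

/-- The inflation of an irreducible character. -/
noncomputable def infl (T : Subgroup X) [T.Normal] (ψ : IrrCharacter (X ⧸ T)) : IrrCharacter X :=
  ⟨(ψ : X ⧸ T → ℂ) ∘ QuotientGroup.mk,
    Cfsg.Agent.Lib.Char.Basic.isIrrCharacter_comp_surjective ψ.2 (QuotientGroup.mk' T)
      (QuotientGroup.mk'_surjective T)⟩

theorem charDegree_infl (T : Subgroup X) [T.Normal] (ψ : IrrCharacter (X ⧸ T)) :
    charDegree ((infl T ψ : IrrCharacter X) : X → ℂ) = charDegree (ψ : X ⧸ T → ℂ) := by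
  unfold charDegree infl
  simp

set_option maxHeartbeats 1000000 in
theorem defi_quot (hM : IsPModular 2 M) (T : Subgroup X) [T.Normal] (hT : T ≤ Subgroup.center X)
    (hcard : Nat.card T = 2) {r : ℕ} (h : Defi M r X) : Defi M (r - 1) (X ⧸ T) := by
  classical
  haveI := isPrime_of_isPModular hM
  haveI : Fact (Nat.Prime 2) := ⟨Nat.prime_two⟩
  haveI : Fintype X := Fintype.ofFinite X
  rintro _ ⟨χ, rfl⟩ hne
  set B := blockOf M ((infl T χ : IrrCharacter X) : X → ℂ) with hB
  have hT2 : IsPGroup 2 T := IsPGroup.of_card (n := 1) (by rw [hcard]; norm_num)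
  have hCtop : (Subgroup.centralizer (T : Set X)).index = 2 ^ 0 := by
    have : Subgroup.centralizer (T : Set X) = ⊤ := by
      rw [eq_top_iff]
      intro g _
      rw [Subgroup.mem_centralizer_iff]
      intro z hz
      exact (Subgroup.mem_center_iff.1 (hT hz) g).symm
    rw [this, Subgroup.index_top, pow_zero]
  -- the inflated block is not principal
  have hBne : B ≠ principalBlock M X := by
    intro hBp
    apply hne
    have h1 : trivChar X ∈ B := by
      rw [hBp]
      exact trivChar_mem_principalBlock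
    have h2 : SameBlock M ((χ : X ⧸ T → ℂ) ∘ QuotientGroup.mk)
        (((trivChar (X ⧸ T) : IrrCharacter (X ⧸ T)) : X ⧸ T → ℂ) ∘ QuotientGroup.mk) := h1
    have h3 := Cfsg.Agent.Lib.Blocks.Dominate.sameBlock_of_comp_mk (P := T) (p := 2) hM hT2 ⟨0, hCtop⟩ h2
    have h4 : χ ∈ blockOf M ((trivChar (X ⧸ T) : IrrCharacter (X ⧸ T)) : X ⧸ T → ℂ) :=
      sameBlock_symm h3
    rw [principalBlock_eq]
    exact blockOf_eq_of_mem h4
  have hlt := h B ⟨_, rfl⟩ hBne
  unfold blockDefect at hlt ⊢
  set Sb := (fun ψ : IrrCharacter (X ⧸ T) => (charDegree (ψ : X ⧸ T → ℂ)).factorization 2) ''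
    blockOf M (χ : X ⧸ T → ℂ) with hSb
  set SB := (fun ψ : IrrCharacter X => (charDegree (ψ : X → ℂ)).factorization 2) '' B with hSB
  have hSbne : Sb.Nonempty := ⟨_, χ, mem_blockOf_self χ, rfl⟩
  obtain ⟨ψ, hψ, hψeq⟩ := Nat.sInf_mem hSbne
  simp only at hψeq
  -- inflation maps the block into `B`
  have hinB : infl T ψ ∈ B :=
    Cfsg.Agent.Lib.Blocks.Dominate.sameBlock_comp_mk T χ.2 ψ.2 hψ
  have hle : sInf SB ≤ sInf Sb := by
    refine Nat.sInf_le ⟨_, hinB, ?_⟩
    simp only
    rw [charDegree_infl, hψeq]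
  have hcards : Nat.card X = 2 * Nat.card (X ⧸ T) := by
    rw [← hcard, mul_comm]
    exact (Subgroup.card_eq_card_quotient_mul_card_subgroup T)
  have hv : (Nat.card X).factorization 2 = (Nat.card (X ⧸ T)).factorization 2 + 1 := by
    rw [hcards, Nat.factorization_mul (by norm_num) Nat.card_pos.ne']
    simp [Nat.Prime.factorization Nat.prime_two]
    omega
  have hdvd := Cfsg.Agent.Lib.Blocks.HeightZero.charDegree_dvd_card ψ.2
  have hd0 : charDegree (ψ : X ⧸ T → ℂ) ≠ 0 := by
    intro h0
    rw [h0] at hdvd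
    exact Nat.card_pos.ne' (Nat.eq_zero_of_zero_dvd hdvd)
  have hfle := (Nat.factorization_le_iff_dvd hd0 Nat.card_pos.ne').2 hdvd 2
  rw [hψeq] at hfle
  omega

end quot

section single

variable {X : Type u} [Group X] [Finite X] {M : Ideal AlgInt}

/-- A group with a single 2-block has no nontrivial normal subgroup of odd order. -/
theorem eq_bot_of_defi_zero (hM : IsPModular 2 M) (h : Defi M 0 X) (N : Subgroup X) (hN : N.Normal)
    (hodd : Odd (Nat.card N)) : N = ⊥ := by
  classical
  haveI := isPrime_of_isPModular hM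
  haveI : Fact (Nat.Prime 2) := ⟨Nat.prime_two⟩
  haveI : Fintype X := Fintype.ofFinite X
  haveI : Fintype (IrrCharacter X) := Fintype.ofFinite _
  have hall : ∀ χ : IrrCharacter X, χ ∈ principalBlock M X := by
    intro χ
    by_contra hχ
    have hne : blockOf M (χ : X → ℂ) ≠ principalBlock M X := by
      intro he
      apply hχ
      rw [← he]
      exact mem_blockOf_self χ
    exact Nat.not_lt_zero _ (h _ ⟨χ, rfl⟩ hne)
  rw [eq_bot_iff]
  intro x hx
  rw [Subgroup.mem_bot]
  by_contra hx1
  -- the element `x` of the `2'`-core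
  let c1 : Subgroup X := Subgroup.centralizer ({(1 : X)} : Set X)
  have hmemc : x ∈ c1 := by
    simp [c1, Subgroup.mem_centralizer_singleton_iff]
  have hkey : ∀ χ : IrrCharacter X, (χ : X → ℂ) x = (χ : X → ℂ) 1 := by
    intro χ
    haveI : Fintype c1 := Fintype.ofFinite _
    have hv : (⟨x, hmemc⟩ : c1) ∈ Cfsg.pPrimeCore 2 c1 := by
      have hNn : (N.subgroupOf c1).Normal := inferInstance
      have hcop : (Nat.card (N.subgroupOf c1)).Coprime 2 := by
        have hdvd : Nat.card (N.subgroupOf c1) ∣ Nat.card N := by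
          have hmap : (N.subgroupOf c1).map c1.subtype ≤ N := by
            rintro _ ⟨y, hy, rfl⟩
            exact hy
          have e1 : Nat.card ((N.subgroupOf c1).map c1.subtype) = Nat.card (N.subgroupOf c1) :=
            Nat.card_congr (Subgroup.equivMapOfInjective _ _ c1.subtype_injective).toEquiv.symm
          rw [← e1]
          exact Subgroup.card_dvd_of_le hmap
        exact (Nat.coprime_two_right.2 hodd).coprime_dvd_left hdvd
      exact Cfsg.Agent.Lib.Basic.PCore.le_pPrimeCore hNn hcop (by simpa [Subgroup.mem_subgroupOf] using hx)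
    have := Cfsg.Agent.Lib.Blocks.PrincipalCen.apply_mul_core (p := 2) (u := (1 : X)) (k := 0) hM (by simp) hv (hall χ)
    simpa using this
  have h0 := Cfsg.Agent.Lib.Char.CompleteCor.column_orth_not_conj (g := x) (h := (1 : X))
    (fun hc => hx1 (isConj_one_right.1 hc.symm))
  have h1 := Cfsg.Agent.Lib.Char.CompleteCor.column_orth_conj (IsConj.refl (1 : X))
  have h2 : ∑ χ : IrrCharacter X, (χ : X → ℂ) x * conj ((χ : X → ℂ) 1) =
      ∑ χ : IrrCharacter X, (χ : X → ℂ) 1 * conj ((χ : X → ℂ) 1) :=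
    Finset.sum_congr rfl fun χ _ => by rw [hkey χ]
  rw [h0, h1] at h2
  have : (Nat.card (Subgroup.centralizer ({(1 : X)} : Set X)) : ℂ) ≠ 0 := by
    exact_mod_cast Nat.card_pos.ne'
  exact this h2.symm

end single

section step

variable {X : Type u} [Group X]

/-- The centralizer of an element. -/
abbrev Cn (e : X) : Subgroup X := Subgroup.centralizer ({e} : Set X)

theorem self_mem_Cn (e : X) : e ∈ Cn e := by
  rw [Subgroup.mem_centralizer_singleton_iff]

/-- The subgroup generated by `e` in its centralizer. -/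
def Te (e : X) : Subgroup (Cn e) := Subgroup.zpowers ⟨e, self_mem_Cn e⟩

theorem Te_le_center (e : X) : Te e ≤ Subgroup.center (Cn e) := by
  rintro _ ⟨k, rfl⟩
  simp only
  refine Subgroup.zpow_mem _ ?_ k
  rw [Subgroup.mem_center_iff]
  rintro ⟨g, hg⟩
  apply Subtype.ext
  exact Subgroup.mem_centralizer_singleton_iff.1 hg

instance Te_normal (e : X) : (Te e).Normal := by
  constructor
  intro n hn g
  have := Subgroup.mem_center_iff.1 (Te_le_center e hn) g
  rw [this, mul_assoc, mul_inv_cancel, mul_one]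
  exact hn

theorem orderOf_eq_two {e : X} (he : e * e = 1) (he1 : e ≠ 1) : orderOf e = 2 :=
  orderOf_eq_prime (by rwa [pow_two]) he1

theorem card_Te {e : X} (he : e * e = 1) (he1 : e ≠ 1) : Nat.card (Te e) = 2 := by
  unfold Te
  rw [Nat.card_zpowers]
  rw [← orderOf_injective (Cn e).subtype Subtype.val_injective]
  exact orderOf_eq_two he he1

theorem card_Cn [Finite X] {e : X} (he : e * e = 1) (he1 : e ≠ 1) :
    Nat.card (Cn e) = 2 * Nat.card (Cn e ⧸ Te e) := by
  have h := Subgroup.card_eq_card_quotient_mul_card_subgroup (Te e)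
  rw [card_Te he he1] at h
  rw [h, mul_comm]

theorem defi_step [Finite X] {M : Ideal AlgInt} (hM : IsPModular 2 M) {r : ℕ} (h : Defi M r X) {e : X}
    (he : e * e = 1) (he1 : e ≠ 1) : Defi M (r - 1) (Cn e ⧸ Te e) := by
  haveI : Fact (Nat.Prime 2) := ⟨Nat.prime_two⟩
  have h1 : Defi M r (Cn e) := (Cfsg.Agent.S4717.result 2 M hM r).1 h e ⟨1, by
    rw [orderOf_eq_two he he1, pow_one]⟩
  exact defi_quot hM (Te e) (Te_le_center e) (card_Te he he1) h1

/-- The image of `E` in `C(e)/⟨e⟩`. -/
theorem elem_step [Finite X] {E : Subgroup X} (hE : ∀ x ∈ E, x * x = 1) {r : ℕ}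
    (hcard : Nat.card E = 2 ^ (r + 1)) {e : X} (heE : e ∈ E) (he1 : e ≠ 1) :
    ∃ E' : Subgroup (Cn e ⧸ Te e), (∀ x ∈ E', x * x = 1) ∧ Nat.card E' = 2 ^ r := by
  classical
  have he : e * e = 1 := hE e heE
  have hcomm : ∀ a ∈ E, ∀ b ∈ E, a * b = b * a := by
    intro a ha b hb
    have h1 := hE (a * b) (E.mul_mem ha hb)
    have ha' : a⁻¹ = a := inv_eq_of_mul_eq_one_left (hE a ha)
    have hb' : b⁻¹ = b := inv_eq_of_mul_eq_one_left (hE b hb)
    calc a * b = (a * b)⁻¹ := (inv_eq_of_mul_eq_one_left h1).symm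
      _ = b⁻¹ * a⁻¹ := mul_inv_rev a b
      _ = b * a := by rw [ha', hb']
  have hEC : E ≤ Cn e := by
    intro x hx
    rw [Subgroup.mem_centralizer_singleton_iff]
    exact hcomm x hx e heE
  let E₁ : Subgroup (Cn e) := E.subgroupOf (Cn e)
  have hE₁card : Nat.card E₁ = Nat.card E :=
    Nat.card_congr (Subgroup.subgroupOfEquivOfLe hEC).toEquiv
  let f : E₁ →* (Cn e ⧸ Te e) := (QuotientGroup.mk' (Te e)).comp E₁.subtype
  have hTE : Te e ≤ E₁ := by
    unfold Te
    rw [Subgroup.zpowers_le]
    show e ∈ E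
    exact heE
  have hker : Nat.card f.ker = 2 := by
    have h1 : f.ker = (Te e).subgroupOf E₁ := by
      ext x
      rw [MonoidHom.mem_ker, Subgroup.mem_subgroupOf]
      show ((x : Cn e) : Cn e ⧸ Te e) = 1 ↔ _
      rw [QuotientGroup.eq_one_iff]
    rw [h1, ← card_Te he he1]
    exact Nat.card_congr (Subgroup.subgroupOfEquivOfLe hTE).toEquiv
  refine ⟨f.range, ?_, ?_⟩
  · rintro _ ⟨y, rfl⟩
    rw [← map_mul]
    have : y * y = 1 := by
      apply Subtype.ext
      apply Subtype.ext
      exact hE _ y.2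
    rw [this, map_one]
  · have h1 := Subgroup.card_mul_index f.ker
    rw [hker, Subgroup.index_ker, hE₁card, hcard, pow_succ, mul_comm] at h1
    exact Nat.eq_of_mul_eq_mul_right (by norm_num) h1

end step

section core

variable {S : Type*} [Group S] [Finite S]

/-- A fixed point free automorphism of order two inverts. -/
theorem inverts_of_fixFree (σ : S →* S) (hσ : ∀ x, σ (σ x) = x) (hfix : ∀ x, σ x = x → x = 1) (x : S) :
    σ x = x⁻¹ := by
  let f : S → S := fun a => a⁻¹ * σ a
  have hf : Function.Injective f := by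
    intro a b hab
    have h1 : σ (b * a⁻¹) = b * a⁻¹ := by
      have h2 : b * a⁻¹ = σ b * (σ a)⁻¹ := by
        have h3 : a⁻¹ * σ a = b⁻¹ * σ b := hab
        calc b * a⁻¹ = b * (a⁻¹ * σ a) * (σ a)⁻¹ := by group
          _ = b * (b⁻¹ * σ b) * (σ a)⁻¹ := by rw [h3]
          _ = _ := by group
      rw [map_mul, map_inv]; exact h2.symm
    have h3 := hfix _ h1
    exact (mul_inv_eq_one.1 h3).symm
  have hs := Finite.injective_iff_surjective.1 hf
  obtain ⟨a, rfl⟩ := hs x
  simp only [f, map_mul, map_inv, hσ, mul_inv_rev, inv_inv]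

end core

section coreTrivial

variable {M : Ideal AlgInt}

/-- Fixed points of an involution on an odd normal subgroup when `C(e)/⟨e⟩` has trivial core. -/
theorem fix_eq_one {X : Type u} [Group X] [Finite X] {e : X} (he : e * e = 1) (he1 : e ≠ 1)
    (hcore : ∀ N : Subgroup (Cn e ⧸ Te e), N.Normal → Odd (Nat.card N) → N = ⊥)
    (N : Subgroup X) (hN : N.Normal) (hodd : Odd (Nat.card N)) {x : X} (hx : x ∈ N)
    (hxe : x * e = e * x) : x = 1 := by
  classical
  have hxC : x ∈ Cn e := Subgroup.mem_centralizer_singleton_iff.2 hxe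
  let Q : Subgroup (Cn e) := N.subgroupOf (Cn e)
  have hQn : Q.Normal := inferInstance
  have hQcard : Nat.card Q ∣ Nat.card N := by
    have hmap : Q.map (Cn e).subtype ≤ N := by
      rintro _ ⟨y, hy, rfl⟩
      exact hy
    have e1 : Nat.card (Q.map (Cn e).subtype) = Nat.card Q :=
      Nat.card_congr (Subgroup.equivMapOfInjective _ _ (Cn e).subtype_injective).toEquiv.symm
    rw [← e1]
    exact Subgroup.card_dvd_of_le hmap
  let Q' : Subgroup (Cn e ⧸ Te e) := Q.map (QuotientGroup.mk' (Te e))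
  have hQ'n : Q'.Normal := hQn.map _ (QuotientGroup.mk'_surjective _)
  have hQ'card : Nat.card Q' ∣ Nat.card Q := Subgroup.card_map_dvd _ _
  have hQ'odd : Odd (Nat.card Q') := hodd.of_dvd_nat (hQ'card.trans hQcard)
  have hbot := hcore Q' hQ'n hQ'odd
  have hmem : ((⟨x, hxC⟩ : Cn e) : Cn e ⧸ Te e) = 1 := by
    have : ((⟨x, hxC⟩ : Cn e) : Cn e ⧸ Te e) ∈ Q' :=
      Subgroup.mem_map_of_mem (QuotientGroup.mk' (Te e)) (show (⟨x, hxC⟩ : Cn e) ∈ Q from hx)
    rw [hbot] at this
    exact Subgroup.mem_bot.1 this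
  rw [QuotientGroup.eq_one_iff] at hmem
  -- so `x` has order dividing both 2 and an odd number
  have h1 : orderOf (⟨x, hxC⟩ : Cn e) ∣ Nat.card (Te e) := by
    have := orderOf_dvd_natCard (⟨⟨x, hxC⟩, hmem⟩ : Te e)
    simpa using this
  rw [card_Te he he1] at h1
  have h2 : orderOf x ∣ 2 := by
    rw [← Subgroup.orderOf_mk x hxC]
    exact h1
  have h3 : orderOf x ∣ Nat.card N := by
    have := orderOf_dvd_natCard (⟨x, hx⟩ : N)
    simpa using this
  have h4 : Nat.Coprime 2 (Nat.card N) := Nat.coprime_two_left.2 hodd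
  have h5 : orderOf x = 1 := Nat.eq_one_of_dvd_coprimes h4 h2 h3
  exact orderOf_eq_one_iff.1 h5

/-- `O(X) = 1` when `X` has deficiency `r` and an elementary abelian subgroup of order `2 ^ (r + 1)`. -/
theorem core_trivial (hM : IsPModular 2 M) : ∀ (r : ℕ) (X : Type u) [Group X] [Finite X], Defi M r X →
    (∃ E : Subgroup X, (∀ x ∈ E, x * x = 1) ∧ Nat.card E = 2 ^ (r + 1)) →
    ∀ N : Subgroup X, N.Normal → Odd (Nat.card N) → N = ⊥ := by
  intro r
  induction r with
  | zero =>
    intro X _ _ h _ N hN hodd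
    exact eq_bot_of_defi_zero hM h N hN hodd
  | succ r ih =>
    intro X _ _ h ⟨E, hE, hcard⟩ N hN hodd
    classical
    -- every involution of `E` is fixed point free on `N`
    have hfix : ∀ e ∈ E, e ≠ 1 → ∀ x ∈ N, x * e = e * x → x = 1 := by
      intro e heE he1 x hx hxe
      refine fix_eq_one (hE e heE) he1 ?_ N hN hodd hx hxe
      have hD : Defi M r (Cn e ⧸ Te e) := by
        simpa using defi_step hM h (hE e heE) he1
      exact ih (Cn e ⧸ Te e) hD (elem_step hE hcard heE he1)
    have hinv : ∀ e ∈ E, e ≠ 1 → ∀ x ∈ N, e * x * e⁻¹ = x⁻¹ := by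
      intro e heE he1 x hx
      have hei : e⁻¹ = e := inv_eq_of_mul_eq_one_left (hE e heE)
      let σ : N →* N := (MulAut.conjNormal e).toMonoidHom
      have hσ : ∀ y : N, ((σ y : N) : X) = e * y * e⁻¹ := fun y => rfl
      have h1 := inverts_of_fixFree σ (by
        intro y
        apply Subtype.ext
        rw [hσ, hσ, hei]
        calc e * (e * (y : X) * e) * e = (e * e) * y * (e * e) := by group
          _ = y := by rw [hE e heE]; group) (by
        intro y hy
        have hy2 : e * (y : X) * e⁻¹ = y := by rw [← hσ, hy]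
        have hy3 := hfix e heE he1 y y.2 (by
          calc (y : X) * e = e * y * e⁻¹ * e := by rw [hy2]
            _ = e * y := by group)
        exact Subtype.ext hy3) ⟨x, hx⟩
      have h2 := congrArg (Subtype.val) h1
      exact h2
    -- three distinct elements
    have hsize : 2 < (E : Set X).ncard := by
      have h1 : (E : Set X).ncard = 2 ^ (r + 1 + 1) := by
        rw [← hcard]
        exact (Nat.card_coe_set_eq (E : Set X)).symm
      rw [h1, pow_succ, pow_succ]
      have : 0 < 2 ^ r := by positivity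
      omega
    obtain ⟨a, b, c, ha, hb, hc, hab, hac, hbc⟩ := (Set.two_lt_ncard_iff (Set.toFinite _)).1 hsize
    have hai : a⁻¹ = a := inv_eq_of_mul_eq_one_left (hE a ha)
    have hbi : b⁻¹ = b := inv_eq_of_mul_eq_one_left (hE b hb)
    have hci : c⁻¹ = c := inv_eq_of_mul_eq_one_left (hE c hc)
    have he1 : a * b ≠ 1 := by
      intro h1
      exact hab (by rw [← hbi]; exact eq_inv_of_mul_eq_one_left h1)
    have he2 : a * c ≠ 1 := by
      intro h1
      exact hac (by rw [← hci]; exact eq_inv_of_mul_eq_one_left h1)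
    have he12 : (a * b) * (a * c) ≠ 1 := by
      intro h1
      apply hbc
      have h2 : a * b = (a * c)⁻¹ := eq_inv_of_mul_eq_one_left h1
      have h3 : (a * c)⁻¹ = a * c := inv_eq_of_mul_eq_one_left (hE _ (E.mul_mem ha hc))
      rw [h3] at h2
      exact mul_left_cancel h2
    rw [eq_bot_iff]
    intro x hx
    rw [Subgroup.mem_bot]
    have hb2 := hinv _ (E.mul_mem ha hb) he1 x⁻¹ (N.inv_mem hx)
    refine hfix _ (E.mul_mem (E.mul_mem ha hb) (E.mul_mem ha hc)) he12 x hx ?_
    rw [inv_inv] at hb2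
    have h3 : (a * b) * (a * c) * x * ((a * b) * (a * c))⁻¹ = x := by
      calc (a * b) * (a * c) * x * ((a * b) * (a * c))⁻¹
          = (a * b) * ((a * c) * x * (a * c)⁻¹) * (a * b)⁻¹ := by group
        _ = (a * b) * (x⁻¹) * (a * b)⁻¹ := by
          rw [hinv _ (E.mul_mem ha hc) he2 x hx]
        _ = x := by rw [hb2]
    calc x * ((a * b) * (a * c)) = ((a * b) * (a * c) * x * ((a * b) * (a * c))⁻¹) * ((a * b) * (a * c)) := by
          rw [h3]
      _ = (a * b) * (a * c) * x := by group

end coreTrivial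

end Cfsg.Agent.Lib.Char.DefClass
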