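import Mathlib
import Cfsg.Prelude.Def_Characters
import Cfsg.Agent.Lib.Char.LinearChars

/-!
# Extending invariant linear characters by transfer
-/

set_option autoImplicit false

namespace Cfsg.Agent.Lib.Char.LinearExt

open Cfsg

universe u

section Transfer

variable {G : Type u} [Group G] {A : Type*} [CommGroup A]

/-- The transfer of `ϕ : H → A`, on a normal subgroup of `G` inside `H` on which `ϕ` is invariant,
is the power `ϕ ^ |G:H|`. -/
theorem transfer_apply_of_mem_normal (H N : Subgroup G) [H.FiniteIndex] [hN : N.Normal]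
    (hNH : N ≤ H) (ϕ : H →* A)
    (hinv : ∀ (g n : G) (hn : n ∈ N), ϕ ⟨g * n * g⁻¹, hNH (hN.conj_mem n hn g)⟩ = ϕ ⟨n, hNH hn⟩)
    (n : G) (hn : n ∈ N) : ϕ.transfer n = ϕ ⟨n, hNH hn⟩ ^ H.index := by
  classical
  letI : Fintype (G ⧸ H) := H.fintypeQuotientOfFiniteIndex
  let R : G ⧸ H → G := fun q => q.out
  have hR : ∀ q, ((R q : G) : G ⧸ H) = q := fun q => QuotientGroup.out_eq' q
  let T : H.LeftTransversal := ⟨Set.range R, Subgroup.isComplement_range_left hR⟩
  have hT : ∀ q, ((T.2.leftQuotientEquiv q : T.1) : G) = R q := fun q =>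
    Subgroup.IsComplement.leftQuotientEquiv_apply hR q
  have hfix : ∀ q : G ⧸ H, n⁻¹ • q = q := by
    intro q
    induction q using QuotientGroup.induction_on with
    | H t =>
      have : (n⁻¹ • (t : G ⧸ H)) = ((n⁻¹ * t : G) : G ⧸ H) := rfl
      rw [this, QuotientGroup.eq]
      have h := hN.conj_mem n hn t⁻¹
      have h2 : t⁻¹ * n * t⁻¹⁻¹ ∈ H := hNH h
      have h3 : (n⁻¹ * t)⁻¹ * t = t⁻¹ * n * t⁻¹⁻¹ := by group
      rw [h3]
      exact h2
  have hs : ∀ q, (((n • T).2.leftQuotientEquiv q : (n • T).1) : G) = n * R q := by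
    intro q
    rw [Subgroup.smul_apply_eq_smul_apply_inv_smul, hT, hfix]
    rfl
  rw [MonoidHom.transfer_def ϕ T n]
  unfold Subgroup.leftTransversals.diff
  simp only
  have hterm : ∀ q : G ⧸ H, ϕ ⟨((T.2.leftQuotientEquiv q : T.1) : G)⁻¹ *
      (((n • T).2.leftQuotientEquiv q : (n • T).1) : G),
        QuotientGroup.leftRel_apply.mp <| Quotient.exact'
          (((T.2.leftQuotientEquiv).symm_apply_apply q).trans
            (((n • T).2.leftQuotientEquiv).symm_apply_apply q).symm)⟩ = ϕ ⟨n, hNH hn⟩ := by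
    intro q
    rw [← hinv (R q)⁻¹ n hn]
    congr 2
    rw [hT, hs]
    group
  rw [Finset.prod_congr rfl (fun q _ => hterm q)]
  rw [Finset.prod_const, Finset.card_univ, ← Nat.card_eq_fintype_card]
  rfl

/-- If `ϕ ^ m = 1` then `(transfer ϕ) ^ m = 1`. -/
theorem transfer_pow_eq_one (H : Subgroup G) [H.FiniteIndex] (ϕ : H →* A) {m : ℕ}
    (hm : ∀ x, ϕ x ^ m = 1) (g : G) : ϕ.transfer g ^ m = 1 := by
  classical
  let R : G ⧸ H → G := fun q => q.out
  have hR : ∀ q, ((R q : G) : G ⧸ H) = q := fun q => QuotientGroup.out_eq' q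
  let T : H.LeftTransversal := ⟨Set.range R, Subgroup.isComplement_range_left hR⟩
  rw [MonoidHom.transfer_def ϕ T g]
  unfold Subgroup.leftTransversals.diff
  simp only
  rw [← Finset.prod_pow]
  exact Finset.prod_eq_one fun q _ => hm _

end Transfer

/-- Inverses modulo `m`. -/
theorem exists_mul_modEq_one {r m : ℕ} (h : Nat.Coprime r m) : ∃ k, r * k ≡ 1 [MOD m] := by
  rcases Nat.lt_or_ge 1 m with hm | hm
  · obtain ⟨k, hk⟩ := Nat.exists_mul_mod_eq_one_of_coprime h hm
    refine ⟨k, ?_⟩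
    unfold Nat.ModEq
    rw [hk.2, Nat.mod_eq_of_lt hm]
  · interval_cases m
    · have : r = 1 := by simpa using h
      exact ⟨1, by rw [this]⟩
    · exact ⟨0, Nat.modEq_one⟩

variable {G : Type u} [Group G]

/-- The map from homomorphisms to functions. -/
def toFn (X : Type*) [Group X] : (X →* ℂˣ) →* (X → ℂ) where
  toFun ψ := fun x => ((ψ x : ℂˣ) : ℂ)
  map_one' := by funext x; simp
  map_mul' a b := by funext x; simp

theorem toFn_injective (X : Type*) [Group X] : Function.Injective (toFn X) := by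
  intro a b h
  ext x
  exact congrFun h x

theorem orderOf_toFn (X : Type*) [Group X] (ψ : X →* ℂˣ) :
    orderOf (fun x => ((ψ x : ℂˣ) : ℂ)) = orderOf ψ :=
  orderOf_injective (toFn X) (toFn_injective X) ψ

/-- A homomorphism to `ℂˣ` has character the associated function. -/
theorem isCharacter_hom (ψ : G →* ℂˣ) : IsCharacter G (fun g => ((ψ g : ℂˣ) : ℂ)) := by
  obtain ⟨n, ρ, -, h⟩ := Cfsg.Agent.Lib.Char.LinearChars.isIrr_of_hom ψ
  exact ⟨n, ρ, h⟩

theorem pow_orderOf_apply {X : Type*} [Group X] (ψ : X →* ℂˣ) (x : X) :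
    ψ x ^ orderOf ψ = 1 := by
  rw [← MonoidHom.pow_apply, pow_orderOf_eq_one]; rfl

variable [Finite G]

theorem orderOf_hom_pos {X : Type*} [Group X] [Finite X] (ψ : X →* ℂˣ) : 0 < orderOf ψ := by
  refine orderOf_pos_iff.2 (isOfFinOrder_iff_pow_eq_one.2 ⟨Nat.card X, Nat.card_pos, ?_⟩)
  ext x
  simp [← map_pow, pow_card_eq_one']

/-- Extension of an invariant homomorphism through a subgroup, when the index is prime to the order
of the homomorphism: this is the content of the transfer argument. -/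
theorem exists_ext_of_coprime (H N : Subgroup G) [hN : N.Normal] (hNH : N ≤ H) (ψ : H →* ℂˣ)
    (hinv : ∀ (g n : G) (hn : n ∈ N), ψ ⟨g * n * g⁻¹, hNH (hN.conj_mem n hn g)⟩ = ψ ⟨n, hNH hn⟩)
    {m : ℕ} (hm : ∀ n (hn : n ∈ N), ψ ⟨n, hNH hn⟩ ^ m = 1) (hcop : Nat.Coprime H.index m) :
    ∃ k : ℕ, ∀ n (hn : n ∈ N), (ψ.transfer ^ k) n = ψ ⟨n, hNH hn⟩ := by
  obtain ⟨k, hk⟩ := exists_mul_modEq_one hcop
  refine ⟨k, fun n hn => ?_⟩
  rw [MonoidHom.pow_apply, transfer_apply_of_mem_normal H N hNH ψ hinv n hn, ← pow_mul]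
  have h := hm n hn
  have h2 : ψ ⟨n, hNH hn⟩ ^ (H.index * k) = ψ ⟨n, hNH hn⟩ ^ 1 := by
    rw [← pow_mod_orderOf, ← pow_mod_orderOf (ψ ⟨n, hNH hn⟩) 1]
    congr 1
    exact hk.of_dvd (orderOf_dvd_of_pow_eq_one h)
  rw [h2, pow_one]

end Cfsg.Agent.Lib.Char.LinearExt
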