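import Mathlib
import Cfsg.Agent.Lib.Char.DetExt
import Cfsg.Agent.Lib.Char.LinearExt
import Cfsg.Agent.Lib.Char.Induced

set_option autoImplicit false

namespace Cfsg.Agent.Lib.Char.ExtSplit

open Cfsg Module Cfsg.Agent.Lib.Char.DetExt

variable {G : Type*} [Group G] (N : Subgroup G) [hN : N.Normal]
  {V : Type*} [AddCommGroup V] [Module ℂ V] [FiniteDimensional ℂ V] (ρ : Representation ℂ N V)

/-- Representation as a hom to units. -/
noncomputable abbrev RR : N →* (Module.End ℂ V)ˣ := MonoidHom.toHomUnits ρ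

/-- The group of all pairs `(g, T)` with `T` inducing on `ρ(N)` the conjugation by `g`. -/
noncomputable def gam : Subgroup (G × (Module.End ℂ V)ˣ) where
  carrier := {p | ∀ n : N, p.2 * RR N ρ n * p.2⁻¹ =
      RR N ρ ⟨p.1 * n * p.1⁻¹, hN.conj_mem n n.2 p.1⟩}
  mul_mem' := by
    rintro ⟨a, b⟩ ⟨a', b'⟩ h1 h1'
    intro n
    have e1 := h1' n
    have e2 := h1 ⟨a' * n * a'⁻¹, hN.conj_mem n n.2 a'⟩
    simp only [Prod.fst_mul, Prod.snd_mul] at *
    calc b * b' * RR N ρ n * (b * b')⁻¹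
        = b * (b' * RR N ρ n * b'⁻¹) * b⁻¹ := by group
      _ = _ := by rw [e1, e2]; congr 2; group
  one_mem' := by
    intro n
    simp only [Prod.snd_one, one_mul, inv_one, mul_one, Prod.fst_one]
  inv_mem' := by
    rintro ⟨a, b⟩ h1
    intro n
    simp only [Prod.snd_inv, Prod.fst_inv, inv_inv] at *
    have hm : a⁻¹ * n * a ∈ N := by simpa using hN.conj_mem n n.2 a⁻¹
    have e := h1 ⟨a⁻¹ * n * a, hm⟩
    have e2 : RR N ρ ⟨a * ((⟨a⁻¹ * n * a, hm⟩ : N) : G) * a⁻¹,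
        hN.conj_mem _ hm a⟩ = RR N ρ n := by
      congr 1
      apply Subtype.ext
      simp only
      group
    rw [e2] at e
    rw [← e]
    group

theorem mem_gam (p : G × (Module.End ℂ V)ˣ) : p ∈ gam N ρ ↔
    ∀ n : N, p.2 * RR N ρ n * p.2⁻¹ = RR N ρ ⟨p.1 * n * p.1⁻¹, hN.conj_mem n n.2 p.1⟩ := Iff.rfl

/-- The projection to `G`. -/
noncomputable def piG : gam N ρ →* G := (MonoidHom.fst G _).comp (gam N ρ).subtype

@[simp] theorem piG_apply (x : gam N ρ) : piG N ρ x = x.1.1 := rfl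

/-- The embedding of `N`. -/
noncomputable def iota : N →* gam N ρ where
  toFun n := ⟨((n : G), RR N ρ n), fun m => by
      change RR N ρ n * RR N ρ m * (RR N ρ n)⁻¹ = RR N ρ _
      rw [← map_inv, ← map_mul, ← map_mul]
      rfl⟩
  map_one' := by
    apply Subtype.ext
    simp
  map_mul' := by
    intro a b
    apply Subtype.ext
    simp

@[simp] theorem piG_iota (n : N) : piG N ρ (iota N ρ n) = n := rfl

theorem iota_snd (n : N) : (iota N ρ n).1.2 = RR N ρ n := rfl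

/-- The scalars. -/
noncomputable def scal (c : ℂˣ) : gam N ρ :=
  ⟨((1 : G), scalarU c), fun n => by
    simp only
    have h := (scalarU_comm c (RR N ρ n)).eq
    have h2 : (⟨1 * (n : G) * 1⁻¹, hN.conj_mem n n.2 1⟩ : N) = n := by
      apply Subtype.ext
      simp
    rw [h2, h]
    group⟩

@[simp] theorem scal_fst (c : ℂˣ) : (scal N ρ c).1.1 = 1 := rfl

theorem scal_snd (c : ℂˣ) : (scal N ρ c).1.2 = scalarU c := rfl

theorem scal_mul_snd (c : ℂˣ) (x : gam N ρ) : (scal N ρ c * x).1.2 = scalarU c * x.1.2 := rfl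

theorem scalarU_injective [Nontrivial V] :
    Function.Injective (scalarU : ℂˣ → (Module.End ℂ V)ˣ) := by
  intro c d h
  obtain ⟨v, hv⟩ := exists_ne (0 : V)
  have h1 := congrArg (fun u : (Module.End ℂ V)ˣ => (u : Module.End ℂ V) v) h
  simp only [coe_scalarU, LinearMap.smul_apply, LinearMap.id_apply] at h1
  apply Units.ext
  exact smul_left_injective ℂ hv h1

theorem scalarU_mul (c d : ℂˣ) : (scalarU (c * d) : (Module.End ℂ V)ˣ) = scalarU c * scalarU d := by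
  simp [scalarU]

theorem scalarU_one : (scalarU (1 : ℂˣ) : (Module.End ℂ V)ˣ) = 1 := by
  simp [scalarU]

/-- Scaling is a hom. -/
theorem scal_mul (c d : ℂˣ) : scal N ρ (c * d) = scal N ρ c * scal N ρ d := by
  apply Subtype.ext
  apply Prod.ext
  · simp [scal]
  · exact scalarU_mul c d

variable [hρ : ρ.IsIrreducible] [Finite G]

include hρ in
theorem exists_scalar_of_fst_eq_one {x : gam N ρ} (hx : x.1.1 = 1) :
    ∃ c : ℂˣ, x = scal N ρ c := by
  obtain ⟨⟨g, T⟩, hT⟩ := x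
  simp only at hx
  subst hx
  have hcomm : ∀ n : N, T * RR N ρ n = RR N ρ n * T := by
    intro n
    have h1 := hT n
    simp only at h1
    have h2 : (⟨1 * (n : G) * 1⁻¹, hN.conj_mem n n.2 1⟩ : N) = n := by
      apply Subtype.ext
      simp
    rw [h2] at h1
    calc T * RR N ρ n = T * RR N ρ n * T⁻¹ * T := by group
      _ = RR N ρ n * T := by rw [h1]
  obtain ⟨c, hc⟩ := exists_scalar_of_commute N ρ T hcomm
  refine ⟨c, ?_⟩
  apply Subtype.ext
  apply Prod.ext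
  · rfl
  · exact hc

/-- From a retraction to an extension. -/
theorem exists_extension_of_retraction
    (hinv : ∀ (g : G) (n : N), ρ.character ⟨g * n * g⁻¹, hN.conj_mem (n : G) n.2 g⟩ = ρ.character n)
    (R : gam N ρ →* ℂˣ) (h1 : ∀ n, R (iota N ρ n) = 1) (h2 : ∀ c, R (scal N ρ c) = c) :
    ∃ ρ' : Representation ℂ G V, ∀ n : N, ρ' n = ρ n := by
  have hlift : ∀ g : G, ∃ x : gam N ρ, x.1.1 = g := by
    intro g
    obtain ⟨T, hT⟩ := exists_mem_gammaOne N ρ 1 hinv g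
    exact ⟨⟨(g, T), hT.1⟩, rfl⟩
  let L : Subgroup (gam N ρ) := R.ker
  let Φ : L →* G := (piG N ρ).comp L.subtype
  have hinj : Function.Injective Φ := by
    rw [injective_iff_map_eq_one]
    rintro ⟨x, hx⟩ hx1
    have hx2 : x.1.1 = 1 := hx1
    obtain ⟨c, rfl⟩ := exists_scalar_of_fst_eq_one N ρ hx2
    have hc : R (scal N ρ c) = 1 := hx
    rw [h2] at hc
    subst hc
    apply Subtype.ext
    apply Subtype.ext
    apply Prod.ext
    · rfl
    · exact scalarU_one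
  have hsurj : Function.Surjective Φ := by
    intro g
    obtain ⟨x, hx⟩ := hlift g
    refine ⟨⟨scal N ρ (R x)⁻¹ * x, ?_⟩, ?_⟩
    · change R _ = 1
      rw [map_mul, h2]
      simp
    · change ((scal N ρ (R x)⁻¹ * x).1.1 : G) = g
      simp [hx]
  let e : L ≃* G := MulEquiv.ofBijective Φ ⟨hinj, hsurj⟩
  let ρ'' : G →* (Module.End ℂ V)ˣ :=
    (MonoidHom.snd G _).comp ((gam N ρ).subtype.comp (L.subtype.comp e.symm.toMonoidHom))
  let ρ' : Representation ℂ G V := (Units.coeHom (Module.End ℂ V)).comp ρ''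
  refine ⟨ρ', fun n => ?_⟩
  have hm : iota N ρ n ∈ L := h1 n
  have h3 : e ⟨iota N ρ n, hm⟩ = n := piG_iota N ρ n
  have h4 : e.symm (n : G) = ⟨iota N ρ n, hm⟩ := by
    rw [← h3]
    simp
  change ((e.symm (n : G) : L).1.1.2 : Module.End ℂ V) = ρ n
  rw [h4]
  rfl

/-- The subgroup of `gam` over `N`. -/
noncomputable def HH : Subgroup (gam N ρ) := N.comap (piG N ρ)

instance : (HH N ρ).Normal := hN.comap _

include hρ in
theorem exists_nu (x : HH N ρ) : ∃ c : ℂˣ, x = ⟨scal N ρ c, by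
      change (1 : G) ∈ N
      exact N.one_mem⟩ * ⟨iota N ρ ⟨x.1.1.1, x.2⟩, by
      change (x.1.1.1 : G) ∈ N
      exact x.2⟩ := by
  have hx : (x.1 * (iota N ρ ⟨x.1.1.1, x.2⟩)⁻¹).1.1 = 1 := by
    change x.1.1.1 * (x.1.1.1)⁻¹ = 1
    simp
  obtain ⟨c, hc⟩ := exists_scalar_of_fst_eq_one N ρ hx
  refine ⟨c, ?_⟩
  apply Subtype.ext
  change x.1 = scal N ρ c * iota N ρ ⟨x.1.1.1, x.2⟩
  rw [← hc]
  group


/-- The hom `ν`. -/
noncomputable def nuFun (x : HH N ρ) : ℂˣ := (exists_nu N ρ x).choose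

theorem nuFun_spec (x : HH N ρ) : x = ⟨scal N ρ (nuFun N ρ x), by
      change (1 : G) ∈ N
      exact N.one_mem⟩ * ⟨iota N ρ ⟨x.1.1.1, x.2⟩, by
      change (x.1.1.1 : G) ∈ N
      exact x.2⟩ := (exists_nu N ρ x).choose_spec

theorem nuFun_spec' (x : HH N ρ) :
    x.1 = scal N ρ (nuFun N ρ x) * iota N ρ ⟨x.1.1.1, x.2⟩ :=
  congrArg Subtype.val (nuFun_spec N ρ x)

include hρ in
theorem nuFun_unique (x : HH N ρ) (c : ℂˣ) (n : N)
    (h : x.1 = scal N ρ c * iota N ρ n) : nuFun N ρ x = c := by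
  haveI := Cfsg.Agent.Lib.Char.Integrality.nontrivial_of_isIrreducible ρ
  have h1 := nuFun_spec' N ρ x
  have hn : (⟨x.1.1.1, x.2⟩ : N) = n := by
    apply Subtype.ext
    change x.1.1.1 = (n : G)
    rw [h]
    simp [scal]
    rfl
  rw [hn, h] at h1
  have h2 := mul_right_cancel h1
  have h3 : (scal N ρ c).1.2 = (scal N ρ (nuFun N ρ x)).1.2 := by rw [h2]
  exact (scalarU_injective h3).symm

/-- The hom `ν`. -/
noncomputable def nu : HH N ρ →* ℂˣ where
  toFun := nuFun N ρ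
  map_one' := by
    apply nuFun_unique N ρ 1 1 1
    apply Subtype.ext
    apply Prod.ext
    · simp [scal]
    · simp [scal_snd, scalarU_one]
  map_mul' x y := by
    apply nuFun_unique N ρ (x * y) _ (⟨x.1.1.1, x.2⟩ * ⟨y.1.1.1, y.2⟩)
    rw [map_mul, scal_mul]
    have hx := nuFun_spec' N ρ x
    have hy := nuFun_spec' N ρ y
    have hc : Commute (scal N ρ (nuFun N ρ y)) (iota N ρ ⟨x.1.1.1, x.2⟩) := by
      apply Subtype.ext
      apply Prod.ext
      · simp [scal]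
      · exact scalarU_comm _ _
    calc ((x * y : HH N ρ) : gam N ρ) = x.1 * y.1 := rfl
      _ = (scal N ρ (nuFun N ρ x) * iota N ρ ⟨x.1.1.1, x.2⟩) *
            (scal N ρ (nuFun N ρ y) * iota N ρ ⟨y.1.1.1, y.2⟩) := by rw [← hx, ← hy]
      _ = _ := by
        rw [mul_assoc, mul_assoc, ← mul_assoc (iota N ρ _) (scal N ρ _), hc.symm.eq]
        simp only [mul_assoc]

theorem nu_apply (x : HH N ρ) : nu N ρ x = nuFun N ρ x := rfl

theorem nu_conj (y x : gam N ρ) (hx : x ∈ HH N ρ) :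
    nu N ρ ⟨y * x * y⁻¹, (inferInstance : (HH N ρ).Normal).conj_mem x hx y⟩ = nu N ρ ⟨x, hx⟩ := by
  rw [nu_apply]
  have hxs : x = scal N ρ (nuFun N ρ ⟨x, hx⟩) * iota N ρ ⟨x.1.1, hx⟩ := nuFun_spec' N ρ ⟨x, hx⟩
  apply nuFun_unique N ρ _ (nu N ρ ⟨x, hx⟩) ⟨y.1.1 * x.1.1 * y.1.1⁻¹, hN.conj_mem _ hx _⟩
  change y * x * y⁻¹ = _
  rw [nu_apply]
  have hc : y * scal N ρ (nuFun N ρ ⟨x, hx⟩) = scal N ρ (nuFun N ρ ⟨x, hx⟩) * y := by
    apply Subtype.ext
    apply Prod.ext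
    · simp [scal]
    · exact (scalarU_comm _ _).symm.eq
  have h2 : y * iota N ρ ⟨x.1.1, hx⟩ * y⁻¹ = iota N ρ ⟨y.1.1 * x.1.1 * y.1.1⁻¹, hN.conj_mem _ hx _⟩ := by
    apply Subtype.ext
    apply Prod.ext
    · rfl
    · exact y.2 ⟨x.1.1, hx⟩
  calc y * x * y⁻¹ = y * (scal N ρ (nuFun N ρ ⟨x, hx⟩) * iota N ρ ⟨x.1.1, hx⟩) * y⁻¹ :=
        congrArg (fun z => y * z * y⁻¹) hxs
    _ = (y * scal N ρ (nuFun N ρ ⟨x, hx⟩)) * iota N ρ ⟨x.1.1, hx⟩ * y⁻¹ := by group
    _ = scal N ρ (nuFun N ρ ⟨x, hx⟩) * (y * iota N ρ ⟨x.1.1, hx⟩ * y⁻¹) := by rw [hc]; group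
    _ = _ := by rw [h2]

include hρ in
theorem surjective_piG
    (hinv : ∀ (g : G) (n : N), ρ.character ⟨g * n * g⁻¹, hN.conj_mem (n : G) n.2 g⟩ = ρ.character n) :
    Function.Surjective (piG N ρ) := by
  intro g
  obtain ⟨T, hT⟩ := exists_mem_gammaOne N ρ 1 hinv g
  exact ⟨⟨(g, T), hT.1⟩, rfl⟩

/-- **The splitting theorem.** If there is a hom `W` trivial on `N` and inducing `c ↦ c ^ m`
on scalars, with `m` coprime to `|G : N|`, then `ρ` extends to `G`. -/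
theorem exists_extension_of_power
    (hinv : ∀ (g : G) (n : N), ρ.character ⟨g * n * g⁻¹, hN.conj_mem (n : G) n.2 g⟩ = ρ.character n)
    (W : gam N ρ →* ℂˣ) (m : ℕ) (h1 : ∀ n, W (iota N ρ n) = 1) (h2 : ∀ c, W (scal N ρ c) = c ^ m)
    (hcop : Nat.Coprime m N.index) :
    ∃ ρ' : Representation ℂ G V, ∀ n : N, ρ' n = ρ n := by
  have hidx : (HH N ρ).index = N.index :=
    Subgroup.index_comap_of_surjective N (surjective_piG N ρ hinv)
  haveI : (HH N ρ).FiniteIndex := ⟨by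
    rw [hidx]
    exact Subgroup.index_ne_zero_of_finite⟩
  let τ : gam N ρ →* ℂˣ := (nu N ρ).transfer
  have hτ : ∀ x (hx : x ∈ HH N ρ), τ x = nu N ρ ⟨x, hx⟩ ^ N.index := by
    intro x hx
    have := Cfsg.Agent.Lib.Char.LinearExt.transfer_apply_of_mem_normal (HH N ρ) (HH N ρ) le_rfl
      (nu N ρ) (fun y x hx => nu_conj N ρ y x hx) x hx
    rw [hidx] at this
    exact this
  have hnuι : ∀ n : N, nu N ρ ⟨iota N ρ n, n.2⟩ = 1 := by
    intro n
    apply nuFun_unique N ρ _ 1 n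
    apply Subtype.ext
    apply Prod.ext
    · simp [scal]
    · simp [scal_snd, scalarU_one]
  have hnus : ∀ c : ℂˣ, nu N ρ ⟨scal N ρ c, N.one_mem⟩ = c := by
    intro c
    apply nuFun_unique N ρ _ c 1
    apply Subtype.ext
    apply Prod.ext
    · simp [scal]
    · simp [scal_snd]
  let a : ℤ := Nat.gcdA m N.index
  let b : ℤ := Nat.gcdB m N.index
  have hab : (m : ℤ) * a + (N.index : ℤ) * b = 1 := by
    have := Nat.gcd_eq_gcd_ab m N.index
    rw [hcop] at this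
    simpa using this.symm
  let R : gam N ρ →* ℂˣ :=
    { toFun := fun x => W x ^ a * τ x ^ b
      map_one' := by simp
      map_mul' := fun x y => by
        simp only [map_mul, mul_zpow]
        exact mul_mul_mul_comm _ _ _ _ }
  refine exists_extension_of_retraction N ρ hinv R (fun n => ?_) (fun c => ?_)
  · change W _ ^ a * τ _ ^ b = 1
    rw [h1, hτ _ n.2, hnuι]
    simp
  · change W _ ^ a * τ _ ^ b = c
    rw [h2, hτ _ N.one_mem, hnus, ← zpow_natCast, ← zpow_natCast, ← zpow_mul, ← zpow_mul,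
      ← zpow_add, hab, zpow_one]


section Eigen

variable (E : Subgroup G) (μ : E →* ℂˣ)

/-- The `μ`-eigenspace of `E ⊓ N`. -/
def eigSp : Submodule ℂ V where
  carrier := {v | ∀ d : ↥(E ⊓ N), ρ ⟨d, d.2.2⟩ v = ((μ ⟨d, d.2.1⟩ : ℂˣ) : ℂ) • v}
  add_mem' := by
    intro a b ha hb d
    simp only [map_add, smul_add]
    rw [ha d, hb d]
  zero_mem' := by
    intro d
    simp
  smul_mem' := by
    intro c a ha d
    rw [map_smul, ha d, smul_comm]

theorem mem_eigSp (v : V) : v ∈ eigSp N ρ E μ ↔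
    ∀ d : ↥(E ⊓ N), ρ ⟨d, d.2.2⟩ v = ((μ ⟨d, d.2.1⟩ : ℂˣ) : ℂ) • v := Iff.rfl

theorem snd_mem_eigSp (x : gam N ρ) (hx : x.1.1 ∈ E) {v : V} (hv : v ∈ eigSp N ρ E μ) :
    (x.1.2 : Module.End ℂ V) v ∈ eigSp N ρ E μ := by
  intro d
  set e := x.1.1 with he
  have hm : e⁻¹ * (d : G) * e ∈ E ⊓ N :=
    ⟨E.mul_mem (E.mul_mem (E.inv_mem hx) d.2.1) hx, by
      simpa using hN.conj_mem _ d.2.2 e⁻¹⟩
  have h1 := x.2 ⟨e⁻¹ * (d : G) * e, hm.2⟩
  have h2 : (⟨x.1.1 * ((⟨e⁻¹ * (d : G) * e, hm.2⟩ : N) : G) * x.1.1⁻¹, hN.conj_mem _ hm.2 _⟩ : N)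
      = ⟨d, d.2.2⟩ := by
    apply Subtype.ext
    change e * (e⁻¹ * (d : G) * e) * e⁻¹ = d
    group
  rw [h2] at h1
  have h3 : RR N ρ ⟨d, d.2.2⟩ * x.1.2 = x.1.2 * RR N ρ ⟨e⁻¹ * (d : G) * e, hm.2⟩ := by
    rw [← h1]
    group
  have h4 := congrArg (fun u : (Module.End ℂ V)ˣ => (u : Module.End ℂ V) v) h3
  simp only [Units.val_mul, Module.End.mul_apply, MonoidHom.coe_toHomUnits] at h4
  rw [h4, hv ⟨e⁻¹ * (d : G) * e, hm⟩, map_smul]
  congr 2
  have h5 : (⟨e⁻¹ * (d : G) * e, hm.1⟩ : E) = (⟨e, hx⟩ : E)⁻¹ * ⟨d, d.2.1⟩ * ⟨e, hx⟩ := rfl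
  rw [h5, map_mul, map_mul, map_inv, mul_comm, ← mul_assoc, mul_inv_cancel, one_mul]

/-- The projection to `E`. -/
noncomputable abbrev piE : E.comap (piG N ρ) →* E := (piG N ρ).subgroupComap E

/-- The determinant on the eigenspace. -/
noncomputable def detEig : E.comap (piG N ρ) →* ℂ where
  toFun x := LinearMap.det ((x.1.1.2 : Module.End ℂ V).restrict
    (fun _ hv => snd_mem_eigSp N ρ E μ x.1 x.2 hv))
  map_one' := by
    have : ((1 : gam N ρ).1.2 : Module.End ℂ V).restrict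
        (fun _ hv => snd_mem_eigSp N ρ E μ (1 : gam N ρ) E.one_mem hv) =
        (1 : Module.End ℂ (eigSp N ρ E μ)) := by
      apply LinearMap.ext
      intro v
      rfl
    exact (congrArg LinearMap.det this).trans (map_one _)
  map_mul' x y := by
    have : ((x * y).1.1.2 : Module.End ℂ V).restrict
        (fun _ hv => snd_mem_eigSp N ρ E μ (x * y).1 (x * y).2 hv) =
        ((x.1.1.2 : Module.End ℂ V).restrict
          (fun _ hv => snd_mem_eigSp N ρ E μ x.1 x.2 hv)) *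
        ((y.1.1.2 : Module.End ℂ V).restrict
          (fun _ hv => snd_mem_eigSp N ρ E μ y.1 y.2 hv)) := by
      apply LinearMap.ext
      intro v
      rfl
    exact (congrArg LinearMap.det this).trans (map_mul _ _ _)

/-- The weight `w` on the group over `E`. -/
noncomputable def wU : E.comap (piG N ρ) →* ℂˣ where
  toFun x := (detEig N ρ E μ).toHomUnits x * (μ (piE N ρ E x))⁻¹ ^ finrank ℂ (eigSp N ρ E μ)
  map_one' := by simp
  map_mul' x y := by
    simp only [map_mul, mul_inv, mul_pow]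
    exact mul_mul_mul_comm _ _ _ _

theorem wU_iota (n : N) (hn : iota N ρ n ∈ E.comap (piG N ρ)) :
    wU N ρ E μ ⟨iota N ρ n, hn⟩ = 1 := by
  have hnE : (n : G) ∈ E := hn
  apply Units.ext
  have h1 : ((iota N ρ n).1.2 : Module.End ℂ V).restrict
      (fun _ hv => snd_mem_eigSp N ρ E μ (iota N ρ n) hn hv) =
      ((μ ⟨n, hnE⟩ : ℂˣ) : ℂ) • LinearMap.id := by
    apply LinearMap.ext
    intro v
    apply Subtype.ext
    exact v.2 ⟨n, hnE, n.2⟩
  have h2 : detEig N ρ E μ ⟨iota N ρ n, hn⟩ = ((μ ⟨n, hnE⟩ : ℂˣ) : ℂ) ^ finrank ℂ (eigSp N ρ E μ) := by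
    change LinearMap.det _ = _
    rw [h1, LinearMap.det_smul, LinearMap.det_id, mul_one]
  simp only [wU, MonoidHom.coe_mk, OneHom.coe_mk, Units.val_mul, MonoidHom.coe_toHomUnits,
    Units.val_pow_eq_pow_val, Units.val_inv_eq_inv_val, Units.val_one]
  rw [h2]
  have h3 : piE N ρ E ⟨iota N ρ n, hn⟩ = ⟨n, hnE⟩ := rfl
  rw [h3, ← mul_pow, mul_inv_cancel₀ (Units.ne_zero _), one_pow]

theorem wU_scal (c : ℂˣ) (hn : scal N ρ c ∈ E.comap (piG N ρ)) :
    wU N ρ E μ ⟨scal N ρ c, hn⟩ = c ^ finrank ℂ (eigSp N ρ E μ) := by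
  apply Units.ext
  have h1 : ((scal N ρ c).1.2 : Module.End ℂ V).restrict
      (fun _ hv => snd_mem_eigSp N ρ E μ (scal N ρ c) hn hv) =
      (c : ℂ) • LinearMap.id := by
    apply LinearMap.ext
    intro v
    apply Subtype.ext
    change ((scalarU c : (Module.End ℂ V)ˣ) : Module.End ℂ V) v = _
    rw [coe_scalarU]
    rfl
  have h2 : detEig N ρ E μ ⟨scal N ρ c, hn⟩ = (c : ℂ) ^ finrank ℂ (eigSp N ρ E μ) := by
    change LinearMap.det _ = _
    rw [h1, LinearMap.det_smul, LinearMap.det_id, mul_one]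
  simp only [wU, MonoidHom.coe_mk, OneHom.coe_mk, Units.val_mul, MonoidHom.coe_toHomUnits,
    Units.val_pow_eq_pow_val, Units.val_inv_eq_inv_val]
  rw [h2]
  have h3 : piE N ρ E ⟨scal N ρ c, hn⟩ = 1 := rfl
  rw [h3]
  simp

instance iota_range_normal : (iota N ρ).range.Normal := by
  refine ⟨?_⟩
  rintro _ ⟨n, rfl⟩ x
  refine ⟨⟨x.1.1 * n * x.1.1⁻¹, hN.conj_mem n n.2 x.1.1⟩, ?_⟩
  apply Subtype.ext
  apply Prod.ext
  · rfl
  · exact (x.2 n).symm

/-- **Extension criterion.** -/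
theorem exists_extension_of_eigen
    (hinv : ∀ (g : G) (n : N), ρ.character ⟨g * n * g⁻¹, hN.conj_mem (n : G) n.2 g⟩ = ρ.character n)
    (hsup : E ⊔ N = ⊤) (hcop : Nat.Coprime (finrank ℂ (eigSp N ρ E μ)) N.index) :
    ∃ ρ' : Representation ℂ G V, ∀ n : N, ρ' n = ρ n := by
  let f : E.comap (piG N ρ) →* gam N ρ ⧸ (iota N ρ).range :=
    (QuotientGroup.mk' (iota N ρ).range).comp (E.comap (piG N ρ)).subtype
  have hf : Function.Surjective f := by
    intro q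
    obtain ⟨x, rfl⟩ := QuotientGroup.mk'_surjective _ q
    have hmem : x.1.1 ∈ (E ⊔ N : Subgroup G) := by rw [hsup]; trivial
    rw [← SetLike.mem_coe, Subgroup.mul_normal, Set.mem_mul] at hmem
    obtain ⟨e, he, n, hn, hen⟩ := hmem
    refine ⟨⟨x * (iota N ρ ⟨n, hn⟩)⁻¹, ?_⟩, ?_⟩
    · change x.1.1 * (n : G)⁻¹ ∈ E
      rw [← hen]
      simpa using he
    · change ((x * (iota N ρ ⟨n, hn⟩)⁻¹ : gam N ρ) : gam N ρ ⧸ (iota N ρ).range) = (x : gam N ρ ⧸ (iota N ρ).range)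
      rw [QuotientGroup.eq]
      refine ⟨⟨n, hn⟩, ?_⟩
      simp
  have hker : f.ker ≤ (wU N ρ E μ).ker := by
    rintro ⟨y, hy⟩ hyk
    have h1 : y ∈ (iota N ρ).range := by
      have : ((y : gam N ρ) : gam N ρ ⧸ (iota N ρ).range) = 1 := hyk
      exact (QuotientGroup.eq_one_iff y).1 this
    obtain ⟨n, rfl⟩ := h1
    exact wU_iota N ρ E μ n hy
  let Wb : gam N ρ ⧸ (iota N ρ).range →* ℂˣ := MonoidHom.liftOfSurjective f hf ⟨wU N ρ E μ, hker⟩
  have hWb : ∀ y, Wb (f y) = wU N ρ E μ y := fun y =>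
    MonoidHom.liftOfRightInverse_comp_apply f _ _ ⟨wU N ρ E μ, hker⟩ y
  let W : gam N ρ →* ℂˣ := Wb.comp (QuotientGroup.mk' (iota N ρ).range)
  refine exists_extension_of_power N ρ hinv W _ (fun n => ?_) (fun c => ?_) hcop
  · change Wb ((iota N ρ n : gam N ρ) : gam N ρ ⧸ (iota N ρ).range) = 1
    have : ((iota N ρ n : gam N ρ) : gam N ρ ⧸ (iota N ρ).range) = 1 :=
      (QuotientGroup.eq_one_iff _).2 ⟨n, rfl⟩
    rw [this, map_one]
  · have hs : scal N ρ c ∈ E.comap (piG N ρ) := E.one_mem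
    change Wb (f ⟨scal N ρ c, hs⟩) = _
    rw [hWb, wU_scal]

end Eigen

section Dim

variable (E : Subgroup G) (μ : E →* ℂˣ)

/-- The twisted representation. -/
noncomputable def twist : Representation ℂ ↥(E ⊓ N) V where
  toFun d := (((μ ⟨d, d.2.1⟩)⁻¹ : ℂˣ) : ℂ) • ρ ⟨d, d.2.2⟩
  map_one' := by
    have h1 : ((⟨(1 : ↥(E ⊓ N)), (1 : ↥(E ⊓ N)).2.1⟩ : E)) = 1 := rfl
    have h2 : ((⟨(1 : ↥(E ⊓ N)), (1 : ↥(E ⊓ N)).2.2⟩ : N)) = 1 := rfl
    simp only [h1, h2, map_one, inv_one, Units.val_one, one_smul]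
  map_mul' x y := by
    have h1 : ((⟨((x * y : ↥(E ⊓ N)) : G), (x * y).2.1⟩ : E)) = ⟨x, x.2.1⟩ * ⟨y, y.2.1⟩ := rfl
    have h2 : ((⟨((x * y : ↥(E ⊓ N)) : G), (x * y).2.2⟩ : N)) = ⟨x, x.2.2⟩ * ⟨y, y.2.2⟩ := rfl
    rw [h1, h2, map_mul, map_mul, mul_inv, Units.val_mul, smul_mul_smul_comm, mul_comm]

theorem twist_apply (d : ↥(E ⊓ N)) :
    twist N ρ E μ d = (((μ ⟨d, d.2.1⟩)⁻¹ : ℂˣ) : ℂ) • ρ ⟨d, d.2.2⟩ := rfl

theorem invariants_twist : (twist N ρ E μ).invariants = eigSp N ρ E μ := by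
  ext v
  rw [Representation.mem_invariants, mem_eigSp]
  refine forall_congr' fun d => ?_
  rw [twist_apply, LinearMap.smul_apply, Units.val_inv_eq_inv_val, inv_smul_eq_iff₀ (Units.ne_zero _)]

theorem norm_hom_eq_one {K : Type*} [Group K] [Finite K] (l : K →* ℂˣ) (x : K) :
    ‖((l x : ℂˣ) : ℂ)‖ = 1 := by
  have h1 : (l x) ^ Nat.card K = 1 := by
    rw [← map_pow, pow_card_eq_one', map_one]
  have h2 : ((l x : ℂˣ) : ℂ) ^ Nat.card K = 1 := by
    rw [← Units.val_pow_eq_pow_val, h1, Units.val_one]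
  exact Complex.norm_eq_one_of_pow_eq_one h2 Nat.card_pos.ne'

theorem finrank_eigSp [Fintype ↥(E ⊓ N)] :
    classInner (fun d : ↥(E ⊓ N) => ρ.character ⟨d, d.2.2⟩)
      (fun d : ↥(E ⊓ N) => ((μ ⟨d, d.2.1⟩ : ℂˣ) : ℂ)) = (finrank ℂ (eigSp N ρ E μ) : ℂ) := by
  classical
  haveI : Invertible (Fintype.card ↥(E ⊓ N) : ℂ) := by
    rw [Fintype.card_eq_nat_card]
    exact invertibleOfNonzero Cfsg.Agent.Lib.Char.Induced.natCard_ne_zero_complex
  rw [← invariants_twist, ← (Representation.isProj_averageMap (twist N ρ E μ)).trace]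
  have h1 : LinearMap.trace ℂ V (twist N ρ E μ).averageMap =
      (Nat.card ↥(E ⊓ N) : ℂ)⁻¹ * ∑ d : ↥(E ⊓ N), (twist N ρ E μ).character d := by
    simp only [Representation.averageMap, GroupAlgebra.average, map_smul, map_sum,
      Representation.character, MonoidAlgebra.of_apply, Representation.asAlgebraHom_single_one,
      smul_eq_mul]
    congr 1
    simp [Fintype.card_eq_nat_card]
  rw [h1, classInner]
  congr 1
  refine Finset.sum_congr rfl fun d _ => ?_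
  have h2 : (twist N ρ E μ).character d =
      (((μ ⟨d, d.2.1⟩)⁻¹ : ℂˣ) : ℂ) * ρ.character ⟨d, d.2.2⟩ := by
    simp only [Representation.character, twist_apply, map_smul, smul_eq_mul]
  rw [h2, mul_comm, Units.val_inv_eq_inv_val,
    Complex.inv_eq_conj (norm_hom_eq_one μ _)]

end Dim

end Cfsg.Agent.Lib.Char.ExtSplit
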