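import Mathlib

/-!
# The additive structure of a group of class two and odd order, and the retraction onto the fixed
points of a coprime action
-/

set_option autoImplicit false
set_option linter.style.longLine false
set_option linter.unusedSectionVars false
set_option linter.unusedVariables false

namespace Cfsg.Agent.Lib.Char.IsaacsA

section Baer

variable {P : Type*} [Group P] [Finite P]

/-- The square root in a group of odd order. -/
noncomputable def half (z : P) : P := z ^ ((Nat.card P + 1) / 2)

theorem half_mul_self (hodd : Odd (Nat.card P)) (z : P) : half z * half z = z := by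
  obtain ⟨k, hk⟩ := hodd
  have h1 : (Nat.card P + 1) / 2 + (Nat.card P + 1) / 2 = Nat.card P + 1 := by omega
  rw [half, ← pow_add, h1, pow_succ, pow_card_eq_one', one_mul]

/-- The commutator. -/
def cc (x y : P) : P := x * y * x⁻¹ * y⁻¹

omit [Finite P] in
theorem cc_eq_one_of_comm {x y : P} (h : x * y = y * x) : cc x y = 1 := by
  simp [cc, h]

theorem half_one : half (1 : P) = 1 := by simp [half]

/-- Class at most two. -/
def ClassTwo (P : Type*) [Group P] : Prop := ∀ x y z : P, cc x y * z = z * cc x y

variable (hc : ClassTwo P) (hodd : Odd (Nat.card P))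

include hc

omit [Finite P] in
theorem cc_mul_left (x y z : P) : cc (x * y) z = cc x z * cc y z := by
  have h1 : cc (x * y) z = x * (cc y z) * z * x⁻¹ * z⁻¹ := by
    simp only [cc]; group
  rw [h1, ← hc y z x, hc x z (cc y z)]
  simp only [cc]; group

omit [Finite P] in
theorem cc_mul_right (x y z : P) : cc x (y * z) = cc x y * cc x z := by
  have h1 : cc x (y * z) = cc x y * (y * cc x z * y⁻¹) := by
    simp only [cc]; group
  rw [h1, ← hc x z y]
  group

omit [Finite P] in
theorem cc_swap (x y : P) : cc y x = (cc x y)⁻¹ := by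
  simp only [cc]; group

theorem half_central (x y z : P) : half (cc x y) * z = z * half (cc x y) := by
  have h : Commute (cc x y) z := hc x y z
  exact h.pow_left _

theorem half_mul_cc (a b c d : P) :
    half (cc a b * cc c d) = half (cc a b) * half (cc c d) := by
  have h : Commute (cc a b) (cc c d) := hc a b _
  exact h.mul_pow _

theorem half_inv_cc (a b : P) : half (cc a b)⁻¹ = (half (cc a b))⁻¹ := by
  simp [half]

/-- The addition of Baer. -/
noncomputable def bAdd (x y : P) : P := x * y * half (cc y x)

omit hc in
theorem bAdd_def (x y : P) : bAdd x y = x * y * half (cc y x) := rfl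

theorem bAdd_central_right (x u : P) (hu : ∀ w : P, u * w = w * u) : bAdd x u = x * u := by
  rw [bAdd, cc_eq_one_of_comm (hu x), half_one, mul_one]

include hodd in
theorem bAdd_comm (x y : P) : bAdd x y = bAdd y x := by
  have h1 : y * x = x * y * cc y x := by
    rw [← hc y x (x * y)]; simp only [cc]; group
  have h2 : half (cc x y) = (half (cc y x))⁻¹ := by
    rw [cc_swap hc y x, half_inv_cc hc]
  rw [bAdd, bAdd, h1, h2]
  calc x * y * half (cc y x) = x * y * (half (cc y x) * half (cc y x)) * (half (cc y x))⁻¹ := by group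
    _ = x * y * cc y x * (half (cc y x))⁻¹ := by rw [half_mul_self hodd]

theorem bAdd_assoc (x y z : P) : bAdd (bAdd x y) z = bAdd x (bAdd y z) := by
  have hz1 := half_central hc y x
  have hz2 := half_central hc z x
  have hz3 := half_central hc z y
  have hL : cc z (x * y * half (cc y x)) = cc z x * cc z y := by
    rw [cc_mul_right hc, cc_mul_right hc, cc_eq_one_of_comm (hz1 z).symm, mul_one]
  have hR : cc (y * z * half (cc z y)) x = cc y x * cc z x := by
    rw [cc_mul_left hc, cc_mul_left hc, cc_eq_one_of_comm (hz3 x), mul_one]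
  rw [bAdd, bAdd, hL, bAdd, bAdd, hR, half_mul_cc hc, half_mul_cc hc]
  set a := half (cc y x)
  set b := half (cc z x)
  set c := half (cc z y)
  have hab : a * b = b * a := hz1 b
  calc x * y * a * z * (b * c) = x * y * (a * z) * (b * c) := by group
    _ = x * y * (z * a) * (b * c) := by rw [hz1 z]
    _ = x * y * z * (a * (b * c)) := by group
    _ = x * y * z * (a * b * c) := by group
  symm
  calc x * (y * z * c) * (a * b) = x * y * z * (c * (a * b)) := by group
    _ = x * y * z * (a * b * c) := by rw [hz3 (a * b)]

include hodd in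
/-- The additive group. -/
@[reducible] noncomputable def bGroup : AddCommGroup P :=
  letI iAdd : Add P := ⟨bAdd⟩
  letI iZero : Zero P := ⟨1⟩
  letI iNeg : Neg P := ⟨fun x => x⁻¹⟩
  { add_assoc := bAdd_assoc hc
    zero_add := fun x => by
      show bAdd 1 x = x
      rw [bAdd, cc_eq_one_of_comm (by simp), half_one]; simp
    add_zero := fun x => by
      show bAdd x 1 = x
      rw [bAdd, cc_eq_one_of_comm (by simp), half_one]; simp
    nsmul := nsmulRec
    zsmul := zsmulRec
    neg_add_cancel := fun x => by
      show bAdd x⁻¹ x = 1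
      rw [bAdd, cc_eq_one_of_comm (by simp), half_one]; simp
    add_comm := bAdd_comm hc hodd }

end Baer

section Retract

variable {P S : Type*} [Group P] [Finite P] [Group S] [Fintype S]

/-- **The retraction onto the fixed points** for a coprime action on a group of class two. -/
theorem exists_retraction (σ : S →* MulAut P) (hc : ClassTwo P) (hodd : Odd (Nat.card P))
    (hcop : (Nat.card P).Coprime (Fintype.card S))
    (hZ : ∀ u : P, (∀ s, σ s u = u) → ∀ w, u * w = w * u)
    (hcc : ∀ (x y : P) (s : S), σ s (cc x y) = cc x y) :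
    ∃ e : P → P, (∀ x s, σ s (e x) = e x) ∧ (∀ u, (∀ s, σ s u = u) → e u = u) ∧
      (∀ x y, e (x * y) = e x * e y * half (cc x y)) ∧
      (∀ t x, e (σ t x) = e x) ∧
      (∀ f : P ≃* P, (∀ s x, f (σ s x) = σ s (f x)) → ∀ x, e (f x) = f (e x)) ∧
      (∀ ν : P →* ℂˣ, (∀ s x, ν (σ s x) = ν x) → ∀ x, ν (e x) = ν x) := by
  classical
  letI iA : AddCommGroup P := bGroup hc hodd
  have hadd : ∀ x y : P, x + y = bAdd x y := fun _ _ => rfl
  have hzero : (0 : P) = 1 := rfl
  have hsmul : ∀ (n : ℕ) (x : P), n • x = x ^ n := by
    intro n x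
    induction n with
    | zero => rw [zero_nsmul, pow_zero]; rfl
    | succ n ih =>
      rw [succ_nsmul, ih, hadd, bAdd, cc_eq_one_of_comm (by
        exact ((Commute.refl x).pow_right n).eq), half_one, mul_one, pow_succ]
  -- automorphisms are additive
  have hfadd : ∀ (f : P ≃* P) (x y : P), f (x + y) = f x + f y := by
    intro f x y
    rw [hadd, hadd, bAdd, bAdd, map_mul, map_mul, half, half, map_pow]
    simp only [cc, map_mul, map_inv, Nat.card_congr f.toEquiv]
  let fA : (P ≃* P) → (P →+ P) := fun f => AddMonoidHom.mk' f (hfadd f)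
  have hfA : ∀ f x, fA f x = f x := fun _ _ => rfl
  -- the coprime exponent
  obtain ⟨m, hm⟩ : ∃ m : ℕ, ∀ x : P, (x ^ Fintype.card S) ^ m = x := by
    by_cases h1 : Nat.card P = 1
    · refine ⟨0, fun x => ?_⟩
      haveI := (Nat.card_eq_one_iff_unique.1 h1).1
      exact Subsingleton.elim _ _
    · have hpos : 0 < Nat.card P := Nat.card_pos
      obtain ⟨m, -, hm⟩ := Nat.exists_mul_mod_eq_one_of_coprime hcop.symm (by omega)
      refine ⟨m, fun x => ?_⟩
      rw [← pow_mul, pow_eq_pow_mod _ (pow_card_eq_one' (x := x)), hm, pow_one]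
  -- the sum over the group
  let Sg : P → P := fun x => ∑ s : S, σ s x
  have hSfix : ∀ t x, σ t (Sg x) = Sg x := by
    intro t x
    have h1 : σ t (Sg x) = fA (σ t) (Sg x) := rfl
    rw [h1]
    show fA (σ t) (∑ s : S, σ s x) = ∑ s : S, σ s x
    rw [map_sum]
    refine Fintype.sum_equiv (Equiv.mulLeft t) _ _ (fun s => ?_)
    simp [map_mul, hfA]
  have hSadd : ∀ x y, Sg (x + y) = Sg x + Sg y := by
    intro x y
    simp only [Sg, hfadd, Finset.sum_add_distrib]
  have hSu : ∀ u : P, (∀ s, σ s u = u) → Sg u = u ^ Fintype.card S := by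
    intro u hu
    simp only [Sg, hu, Finset.sum_const, Finset.card_univ, hsmul]
  have hSact : ∀ t x, Sg (σ t x) = Sg x := by
    intro t x
    simp only [Sg]
    refine Fintype.sum_equiv (Equiv.mulRight t) _ _ (fun s => ?_)
    simp [map_mul]
  let e : P → P := fun x => Sg x ^ m
  have he : ∀ x, e x = m • Sg x := fun x => (hsmul m _).symm
  have hefix : ∀ x s, σ s (e x) = e x := by
    intro x s
    simp only [e, map_pow, hSfix]
  have heu : ∀ u, (∀ s, σ s u = u) → e u = u := by
    intro u hu
    simp only [e]
    rw [hSu u hu, hm]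
  refine ⟨e, hefix, heu, ?_, ?_, ?_, ?_⟩
  · intro x y
    set h : P := half (cc x y) with hh
    have hhc : ∀ w : P, h * w = w * h := half_central hc x y
    have hhfix : ∀ s, σ s h = h := by
      intro s
      rw [hh, half, map_pow, hcc]
    have h1 : x * y = (x + y) + h := by
      rw [hadd, hadd, bAdd_central_right hc _ h hhc, bAdd, cc_swap hc x y, half_inv_cc hc, ← hh]
      group
    rw [h1, he, hSadd, hSadd, smul_add, smul_add, ← he, ← he, hSu h hhfix, hsmul, hm]
    have hex := hZ _ (hefix x)
    have hey := hZ _ (hefix y)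
    rw [hadd (e x), bAdd_central_right hc _ _ hey]
    show bAdd (e x * e y) h = _
    rw [bAdd_central_right hc _ h hhc]
  · intro t x
    simp only [e, hSact]
  · intro f hf x
    have h1 : Sg (f x) = f (Sg x) := by
      have h2 : f (Sg x) = fA f (Sg x) := rfl
      rw [h2]
      show ∑ s : S, σ s (f x) = fA f (∑ s : S, σ s x)
      rw [map_sum]
      simp only [hfA, hf]
    simp only [e, h1, map_pow]
  · intro ν hν x
    have hνadd : ∀ a b : P, ν (a + b) = ν a * ν b := by
      intro a b
      have h1 : ν (half (cc b a)) = 1 := by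
        rw [half, map_pow]
        have h2 : ν (cc b a) = 1 := by
          simp only [cc, map_mul, map_inv]
          rw [mul_comm (ν b), mul_inv_cancel_right, mul_inv_cancel]
        rw [h2, one_pow]
      rw [hadd, bAdd, map_mul, map_mul, h1, mul_one]
    have hsum : ∀ A : Finset S, ν (∑ s ∈ A, σ s x) = ∏ s ∈ A, ν (σ s x) := by
      intro A
      induction A using Finset.induction_on with
      | empty =>
        rw [Finset.sum_empty, Finset.prod_empty, hzero, map_one]
      | insert a A ha ih =>
        rw [Finset.sum_insert ha, Finset.prod_insert ha, hνadd, ih]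
    have h3 : ν (Sg x) = ν x ^ Fintype.card S := by
      simp only [Sg]
      rw [hsum]
      simp only [hν, Finset.prod_const, Finset.card_univ]
    have h4 := congrArg ν (hm x)
    rw [map_pow, map_pow] at h4
    simp only [e]
    rw [map_pow, h3, h4]

end Retract

end Cfsg.Agent.Lib.Char.IsaacsA
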