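import Mathlib
import Cfsg.Agent.Lib.Char.IsaacsA

/-!
# The involution on a group `K C`, for a coprime action with fixed points `C`
-/

set_option autoImplicit false
set_option linter.style.longLine false
set_option linter.unusedSectionVars false
set_option linter.unusedVariables false

namespace Cfsg.Agent.Lib.Char.IsaacsB

open Cfsg.Agent.Lib.Char.IsaacsA

universe u v

variable {E : Type u} {S : Type v} [Group E] [Finite E] [Group S] [Fintype S]

/-- The restriction of an action to an invariant subgroup. -/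
def resAut (σ : S →* MulAut E) (K : Subgroup E) (hKS : ∀ s, ∀ k ∈ K, σ s k ∈ K) : S →* MulAut K where
  toFun s :=
    { toFun := fun k => ⟨σ s k, hKS s k k.2⟩
      invFun := fun k => ⟨σ s⁻¹ k, hKS s⁻¹ k k.2⟩
      left_inv := fun k => Subtype.ext (by
        show σ s⁻¹ (σ s k) = k
        rw [← MulAut.mul_apply, ← map_mul, inv_mul_cancel, map_one, MulAut.one_apply])
      right_inv := fun k => Subtype.ext (by
        show σ s (σ s⁻¹ k) = k
        rw [← MulAut.mul_apply, ← map_mul, mul_inv_cancel, map_one, MulAut.one_apply])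
      map_mul' := fun a b => Subtype.ext (by simp) }
  map_one' := by
    ext k
    simp
  map_mul' a b := by
    ext k
    simp [map_mul]

@[simp] theorem resAut_coe (σ : S →* MulAut E) (K : Subgroup E) (hKS : ∀ s, ∀ k ∈ K, σ s k ∈ K) (s : S) (k : K) :
    ((resAut σ K hKS s k : K) : E) = σ s k := rfl

/-- The data of the involution: an endomorphism `T` of `E`. -/
structure TauData (σ : S →* MulAut E) (K C : Subgroup E) (ε : K → E) : Prop where
  eps_C : ∀ k, ε k ∈ K ⊓ C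
  eps_mul : ∀ x y : K, ε (x * y) = ε x * ε y * ((x * y * x⁻¹ * y⁻¹ : K) : E)
  eps_U : ∀ u : K, (u : E) ∈ C → ε u = (u : E) * u
  eps_conj : ∀ (c : E), c ∈ C → ∀ (k k' : K), (k' : E) = c * k * c⁻¹ → ε k' = ε k
  eps_act : ∀ (s : S) (k k' : K), (k' : E) = σ s k → ε k' = ε k

theorem exists_eps (σ : S →* MulAut E) (K C : Subgroup E) [K.Normal]
    (hodd : Odd (Nat.card E)) (hcop : (Nat.card E).Coprime (Fintype.card S))
    (hC : ∀ x, x ∈ C ↔ ∀ s, σ s x = x) (hKS : ∀ s, ∀ k ∈ K, σ s k ∈ K)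
    (hU : ∀ u ∈ K, u ∈ C → ∀ g, u * g = g * u)
    (hcc : ∀ x ∈ K, ∀ y ∈ K, x * y * x⁻¹ * y⁻¹ ∈ C) :
    ∃ ε : K → E, TauData σ K C ε ∧
      (∀ ν : K →* ℂˣ, (∀ s (k k' : K), (k' : E) = σ s k → ν k' = ν k) → (∀ u : K, (u : E) ∈ C → ν u = 1) → ν = 1) := by
  classical
  set σK := resAut σ K hKS with hσK
  have hcardK : Nat.card K ∣ Nat.card E := Subgroup.card_subgroup_dvd_card K
  have hoddK : Odd (Nat.card K) := Odd.of_dvd_nat hodd hcardK
  have hcopK : (Nat.card K).Coprime (Fintype.card S) := Nat.Coprime.coprime_dvd_left hcardK hcop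
  have hccC : ∀ (x y : K), ((cc x y : K) : E) ∈ C := fun x y => hcc x x.2 y y.2
  have hfixK : ∀ u : K, (∀ s, σK s u = u) → (u : E) ∈ C := by
    intro u hu
    rw [hC]
    intro s
    exact congrArg Subtype.val (hu s)
  have hCfix : ∀ u : K, (u : E) ∈ C → ∀ s, σK s u = u := by
    intro u hu s
    apply Subtype.ext
    exact (hC _).1 hu s
  have hZ : ∀ u : K, (∀ s, σK s u = u) → ∀ w, u * w = w * u := by
    intro u hu w
    apply Subtype.ext
    exact hU u u.2 (hfixK u hu) w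
  have hct : ClassTwo K := by
    intro x y z
    exact hZ _ (hCfix _ (hccC x y)) z
  obtain ⟨e, h1, h2, h3, h4, h5, h6⟩ := exists_retraction σK hct hoddK hcopK hZ
    (fun x y s => hCfix _ (hccC x y) s)
  have heC : ∀ k, ((e k : K) : E) ∈ C := fun k => hfixK _ (h1 k)
  refine ⟨fun k => ((e k * e k : K) : E), ⟨?_, ?_, ?_, ?_, ?_⟩, ?_⟩
  · intro k
    refine ⟨(e k * e k).2, ?_⟩
    exact C.mul_mem (heC k) (heC k)
  · intro x y
    rw [h3]
    set h := half (cc x y) with hh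
    have hhh : h * h = cc x y := half_mul_self hoddK _
    have hcx := hZ _ (h1 x)
    have hcy := hZ _ (h1 y)
    have hhc : ∀ w : K, h * w = w * h := half_central hct x y
    show ((e x * e y * h * (e x * e y * h) : K) : E) =
      ((e x * e x * (e y * e y) * (x * y * x⁻¹ * y⁻¹) : K) : E)
    congr 1
    have h7 : x * y * x⁻¹ * y⁻¹ = h * h := hhh.symm
    rw [h7]
    calc e x * e y * h * (e x * e y * h) = e x * (e y * (h * e x)) * e y * h := by group
      _ = e x * (e y * (e x * h)) * e y * h := by rw [hhc]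
      _ = e x * ((e y * e x) * h) * e y * h := by group
      _ = e x * ((e x * e y) * h) * e y * h := by rw [hcy (e x)]
      _ = e x * e x * e y * (h * e y) * h := by group
      _ = e x * e x * e y * (e y * h) * h := by rw [hhc]
      _ = e x * e x * (e y * e y) * (h * h) := by group
  · intro u hu
    show ((e u * e u : K) : E) = u * u
    rw [h2 u (hCfix u hu)]
    rfl
  · intro c hc k k' hk'
    -- conjugation by `c` on `K`
    let f : K ≃* K := MulAut.conjNormal c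
    have hf : f k = k' := Subtype.ext (by rw [hk']; simp [f])
    have hcomm : ∀ s x, f (σK s x) = σK s (f x) := by
      intro s x
      apply Subtype.ext
      have hcs := (hC c).1 hc s
      show c * (σ s x) * c⁻¹ = σ s (c * x * c⁻¹)
      rw [map_mul, map_mul, map_inv, hcs]
    have h8 := h5 f hcomm k
    rw [hf] at h8
    have h9 : f (e k) = e k := by
      apply Subtype.ext
      have h10 := hU _ (e k).2 (heC k) c
      simp only [f, MulAut.conjNormal_apply]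
      rw [← h10]
      group
    rw [h9] at h8
    show ((e k' * e k' : K) : E) = ((e k * e k : K) : E)
    rw [h8]
  · intro s k k' hk'
    have h8 : k' = σK s k := Subtype.ext hk'
    show ((e k' * e k' : K) : E) = ((e k * e k : K) : E)
    rw [h8, h4]
  · intro ν hν hν1
    ext x
    have h8 : ν (e x) = 1 := hν1 _ (heC x)
    have h9 := h6 ν (fun s k => hν s k (σK s k) rfl) x
    rw [h8] at h9
    rw [← h9]
    rfl


/-- **The involution.** -/
theorem exists_tau (σ : S →* MulAut E) (K C : Subgroup E) [hKn : K.Normal] (ε : K → E)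
    (hε : TauData σ K C ε) (hodd : Odd (Nat.card E))
    (hC : ∀ x, x ∈ C ↔ ∀ s, σ s x = x) (hKS : ∀ s, ∀ k ∈ K, σ s k ∈ K)
    (hKC : ∀ g, ∃ k ∈ K, ∃ c ∈ C, g = k * c)
    (hU : ∀ u ∈ K, u ∈ C → ∀ g, u * g = g * u) :
    ∃ τ : E ≃* E, (∀ g, τ (τ g) = g) ∧ (∀ g, τ g = g ↔ g ∈ C) ∧ (∀ s g, τ (σ s g) = σ s (τ g)) ∧
      (∀ k ∈ K, ∃ u ∈ K, u ∈ C ∧ τ k = u * k⁻¹) := by
  classical
  have hεz : ∀ (k : K) (g : E), ε k * g = g * ε k := fun k g =>
    hU _ (hε.eps_C k).1 (hε.eps_C k).2 g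
  have heK : ∀ k : K, ε k ∈ K := fun k => (hε.eps_C k).1
  have heC : ∀ k : K, ε k ∈ C := fun k => (hε.eps_C k).2
  choose k₀ hk₀ c₀ hc₀ hg₀ using hKC
  let T : E → E := fun g => ε ⟨k₀ g, hk₀ g⟩ * (k₀ g)⁻¹ * c₀ g
  have heps1 : ε (1 : K) = 1 := by
    have := hε.eps_U 1 (C.one_mem)
    simpa using this
  have heinv : ∀ k : K, ε k⁻¹ = (ε k)⁻¹ := by
    intro k
    have h1 := hε.eps_mul k k⁻¹
    have h2 : ((k * k⁻¹ * k⁻¹ * k⁻¹⁻¹ : K) : E) = 1 := by
      simp
    have h3 : k * k⁻¹ = 1 := mul_inv_cancel k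
    rw [h2, mul_one, h3, heps1] at h1
    exact (eq_inv_of_mul_eq_one_right h1.symm)
  have hT : ∀ (k : K) (c : E), c ∈ C → T (k * c) = ε k * (k : E)⁻¹ * c := by
    intro k c hc
    set g := (k : E) * c with hg
    have hgeq : k₀ g * c₀ g = k * c := (hg₀ g).symm
    -- the central difference
    set u : E := (k₀ g)⁻¹ * k with hu
    have huK : u ∈ K := K.mul_mem (K.inv_mem (hk₀ g)) k.2
    have hu2 : u = c₀ g * c⁻¹ := by
      rw [hu]
      have : c₀ g = (k₀ g)⁻¹ * (k * c) := by rw [← hgeq]; group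
      rw [this]; group
    have huC : u ∈ C := by
      rw [hu2]
      exact C.mul_mem (hc₀ g) (C.inv_mem hc)
    have huz := hU u huK huC
    have hk : (k : E) = k₀ g * u := by rw [hu]; group
    have hkK : k = ⟨k₀ g, hk₀ g⟩ * ⟨u, huK⟩ := Subtype.ext hk
    have hc0 : c₀ g = u * c := by rw [hu2]; group
    have h3 := hε.eps_mul ⟨k₀ g, hk₀ g⟩ ⟨u, huK⟩
    have h4 : (((⟨k₀ g, hk₀ g⟩ : K) * ⟨u, huK⟩ * (⟨k₀ g, hk₀ g⟩ : K)⁻¹ * (⟨u, huK⟩ : K)⁻¹ : K) : E) = 1 := by
      show k₀ g * u * (k₀ g)⁻¹ * u⁻¹ = 1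
      rw [mul_assoc (k₀ g), huz (k₀ g)⁻¹]
      group
    rw [h4, mul_one, hε.eps_U ⟨u, huK⟩ huC, ← hkK] at h3
    show ε ⟨k₀ g, hk₀ g⟩ * (k₀ g)⁻¹ * c₀ g = ε k * (k : E)⁻¹ * c
    rw [h3, hk, hc0]
    show ε ⟨k₀ g, hk₀ g⟩ * (k₀ g)⁻¹ * (u * c) = ε ⟨k₀ g, hk₀ g⟩ * (u * u) * (k₀ g * u)⁻¹ * c
    have h5 : (k₀ g)⁻¹ * u = u * (k₀ g)⁻¹ := (huz _).symm
    calc ε ⟨k₀ g, hk₀ g⟩ * (k₀ g)⁻¹ * (u * c) = ε ⟨k₀ g, hk₀ g⟩ * ((k₀ g)⁻¹ * u) * c := by group
      _ = ε ⟨k₀ g, hk₀ g⟩ * (u * (k₀ g)⁻¹) * c := by rw [h5]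
      _ = ε ⟨k₀ g, hk₀ g⟩ * (u * u) * (k₀ g * u)⁻¹ * c := by rw [mul_inv_rev]; group
  have hT1 : ∀ k : K, T k = ε k * (k : E)⁻¹ := by
    intro k
    have := hT k 1 C.one_mem
    simpa using this
  have hTC : ∀ c ∈ C, T c = c := by
    intro c hc
    have := hT 1 c hc
    simpa [heps1] using this
  have hTmul : ∀ x y, T (x * y) = T x * T y := by
    intro x y
    set k : K := ⟨k₀ x, hk₀ x⟩ with hk
    set c := c₀ x with hc
    set k' : K := ⟨k₀ y, hk₀ y⟩ with hk'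
    set c' := c₀ y with hc'
    have hcC : c ∈ C := hc₀ x
    have hc'C : c' ∈ C := hc₀ y
    have hx : x = k * c := hg₀ x
    have hy : y = k' * c' := hg₀ y
    set k'' : K := ⟨c * k' * c⁻¹, hKn.conj_mem _ k'.2 c⟩ with hk''
    have hxy : x * y = ((k * k'' : K) : E) * (c * c') := by
      rw [hx, hy]
      show (k : E) * c * (k' * c') = k * (c * k' * c⁻¹) * (c * c')
      group
    rw [hxy, hT _ _ (C.mul_mem hcC hc'C), hx, hy, hT _ _ hcC, hT _ _ hc'C, hε.eps_mul]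
    have h1 : ε k'' = ε k' := hε.eps_conj c hcC k' k'' rfl
    rw [h1]
    set z : E := ((k * k'' * k⁻¹ * k''⁻¹ : K) : E) with hz
    have hzK : z ∈ K := (k * k'' * k⁻¹ * k''⁻¹).2
    have hzC : z ∈ C := by
      -- `z` is fixed by `S`
      have h2 := hε.eps_mul k k''
      have h3 : z = (ε k * ε k'')⁻¹ * ε (k * k'') := by
        rw [h2, ← hz]; group
      rw [h3]
      exact C.mul_mem (C.inv_mem (C.mul_mem (heC _) (heC _))) (heC _)
    have hzz := hU z hzK hzC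
    have h4 : (k : E) * k'' = z * (k'' * k) := by
      rw [hz]
      show (k : E) * k'' = k * k'' * (k : E)⁻¹ * (k'' : E)⁻¹ * (k'' * k)
      group
    have h5 : ((k * k'' : K) : E)⁻¹ = z⁻¹ * ((k : E)⁻¹ * (k'' : E)⁻¹) := by
      show ((k : E) * k'')⁻¹ = _
      rw [h4, mul_inv_rev, mul_inv_rev, (hU z⁻¹ (K.inv_mem hzK) (C.inv_mem hzC) _)]
    rw [h5]
    have h6 : c * (k' : E)⁻¹ = (k'' : E)⁻¹ * c := by
      show c * (k' : E)⁻¹ = (c * k' * c⁻¹)⁻¹ * c
      group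
    calc ε k * ε k' * z * (z⁻¹ * ((k : E)⁻¹ * (k'' : E)⁻¹)) * (c * c')
        = ε k * ε k' * (k : E)⁻¹ * ((k'' : E)⁻¹ * c) * c' := by group
      _ = ε k * ε k' * (k : E)⁻¹ * (c * (k' : E)⁻¹) * c' := by rw [h6]
      _ = ε k * (ε k' * (k : E)⁻¹) * c * (k' : E)⁻¹ * c' := by group
      _ = ε k * ((k : E)⁻¹ * ε k') * c * (k' : E)⁻¹ * c' := by rw [hεz k' _]
      _ = ε k * (k : E)⁻¹ * (ε k' * c) * (k' : E)⁻¹ * c' := by group
      _ = ε k * (k : E)⁻¹ * (c * ε k') * (k' : E)⁻¹ * c' := by rw [hεz k' c]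
      _ = ε k * (k : E)⁻¹ * c * (ε k' * (k' : E)⁻¹ * c') := by group
  have hTT : ∀ g, T (T g) = g := by
    intro g
    set k : K := ⟨k₀ g, hk₀ g⟩ with hk
    set c := c₀ g with hc
    have hcC : c ∈ C := hc₀ g
    have hg : g = k * c := hg₀ g
    rw [hg, hT _ _ hcC]
    set u : K := ⟨ε k, heK k⟩ with hu
    have huC : (u : E) ∈ C := heC k
    have h1 : ε k * (k : E)⁻¹ = ((u * k⁻¹ : K) : E) := rfl
    rw [h1, hT _ _ hcC, hε.eps_mul, hε.eps_U u huC, heinv]
    have huz := hU u u.2 huC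
    have h2 : ((u * k⁻¹ * u⁻¹ * k⁻¹⁻¹ : K) : E) = 1 := by
      show (u : E) * (k : E)⁻¹ * (u : E)⁻¹ * (k : E)⁻¹⁻¹ = 1
      rw [mul_assoc (u : E), ← (hU (u : E)⁻¹ (K.inv_mem u.2) (C.inv_mem huC) _)]
      group
    rw [h2, mul_one]
    show (u : E) * u * (u : E)⁻¹ * ((u : E) * (k : E)⁻¹)⁻¹ * c = k * c
    have h7 : (u : E) * u * (u : E)⁻¹ * ((u : E) * (k : E)⁻¹)⁻¹ = (u : E) * k * (u : E)⁻¹ := by group
    rw [h7, huz k]
    group
  let τh : E →* E := MonoidHom.mk' T hTmul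
  have hτh : ∀ g, τh g = T g := fun _ => rfl
  let τ : E ≃* E := MonoidHom.toMulEquiv τh τh
    (by ext g; exact hTT g) (by ext g; exact hTT g)
  have hτ : ∀ g, τ g = T g := fun _ => rfl
  refine ⟨τ, fun g => by rw [hτ, hτ, hTT], fun g => ?_, fun s g => ?_, fun k hk => ?_⟩
  · rw [hτ]
    constructor
    · intro h
      set k : K := ⟨k₀ g, hk₀ g⟩ with hk
      set c := c₀ g with hc
      have hcC : c ∈ C := hc₀ g
      have hg : g = k * c := hg₀ g
      rw [hg, hT _ _ hcC] at h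
      have h1 : ε k = (k : E) * k := by
        have h2 : ε k * (k : E)⁻¹ = k := by
          have := mul_right_cancel h
          exact this
        calc ε k = ε k * (k : E)⁻¹ * k := by group
          _ = k * k := by rw [h2]
      have h3 : (k : E) ∈ C := by
        have h4 := half_mul_self hodd (k : E)
        -- `k` is a power of `k * k`
        have h5 : half (k : E) * half (k : E) = k := h4
        obtain ⟨m, hm⟩ := hodd
        have h6 : (k : E) = ((k : E) * k) ^ (m + 1) := by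
          rw [← pow_two, ← pow_mul]
          have h7 : 2 * (m + 1) = Nat.card E + 1 := by omega
          rw [h7, pow_succ, pow_card_eq_one', one_mul]
        rw [h6, ← h1]
        exact C.pow_mem (heC k) _
      rw [hg]
      exact C.mul_mem h3 hcC
    · intro h
      exact hTC g h
  · rw [hτ, hτ]
    set k : K := ⟨k₀ g, hk₀ g⟩ with hk
    set c := c₀ g with hc
    have hcC : c ∈ C := hc₀ g
    have hg : g = k * c := hg₀ g
    have hcs : σ s c = c := (hC c).1 hcC s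
    have h1 : σ s g = ((⟨σ s k, hKS s k k.2⟩ : K) : E) * c := by
      rw [hg, map_mul, hcs]
    rw [h1, hT _ _ hcC, hg, hT _ _ hcC, hε.eps_act s k ⟨σ s k, hKS s k k.2⟩ rfl, map_mul, map_mul,
      hcs, (hC _).1 (heC k) s, map_inv]
  · obtain hk' := hT1 ⟨k, hk⟩
    refine ⟨ε ⟨k, hk⟩, heK _, heC _, ?_⟩
    rw [hτ]
    exact hk'

end Cfsg.Agent.Lib.Char.IsaacsB
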