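import Mathlib
import Cfsg.Agent.Lib.Char.IsaacsB
import Cfsg.Agent.Lib.Char.GlaubP
import Cfsg.Agent.Lib.Char.GlaubAb
import Cfsg.Agent.Lib.Char.CliffordCorr

/-!
# The Glauberman correspondence for an involutory automorphism
-/

set_option autoImplicit false
set_option linter.style.longLine false
set_option linter.unusedSectionVars false
set_option linter.unusedVariables false
set_option linter.style.haveILetI false

namespace Cfsg.Agent.Lib.Char.IsaacsC

open Cfsg Cfsg.Agent.Lib.Char.Basic Cfsg.Agent.Lib.Char.Ortho Cfsg.Agent.Lib.Char.GlaubRel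
  Cfsg.Agent.Lib.Char.GlaubP

universe u

section Wrapper

variable {E : Type u} [Group E] [Fintype E]

/-- The Glauberman correspondence for an involutory automorphism of a group of odd order. -/
theorem tau_corr (τ : E ≃* E) (hττ : ∀ g, τ (τ g) = g) (hodd : Odd (Nat.card E)) (C : Subgroup E)
    [Fintype C] (hC : ∀ g, τ g = g ↔ g ∈ C) :
    (∀ χ : IrrCharacter E, (∀ g, (χ : E → ℂ) (τ g) = (χ : E → ℂ) g) →
      ∃ γ : IrrCharacter C, PRel 2 (fun c : C => (χ : E → ℂ) c) γ) ∧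
    (∀ χ χ' : IrrCharacter E, (∀ g, (χ : E → ℂ) (τ g) = (χ : E → ℂ) g) →
      (∀ g, (χ' : E → ℂ) (τ g) = (χ' : E → ℂ) g) → ∀ γ : IrrCharacter C,
      PRel 2 (fun c : C => (χ : E → ℂ) c) γ → PRel 2 (fun c : C => (χ' : E → ℂ) c) γ → χ = χ') ∧
    (∀ γ : IrrCharacter C, ∃ χ : IrrCharacter E, (∀ g, (χ : E → ℂ) (τ g) = (χ : E → ℂ) g) ∧
      PRel 2 (fun c : C => (χ : E → ℂ) c) γ) := by
  classical
  have hτ2 : τ ^ 2 = 1 := by
    ext g
    simp [pow_two, MulAut.mul_apply, hττ]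
  set A : Subgroup (MulAut E) := Subgroup.zpowers τ with hA
  have hfo : IsOfFinOrder τ := by
    rw [isOfFinOrder_iff_pow_eq_one]
    exact ⟨2, by norm_num, hτ2⟩
  haveI hAfin : Finite A := finite_zpowers.2 hfo
  have hA2 : ∀ a : A, (a : MulAut E) ^ 2 = 1 := by
    rintro ⟨a, j, rfl⟩
    show (τ ^ j) ^ 2 = 1
    rw [← zpow_natCast, ← zpow_mul, mul_comm, zpow_mul, zpow_natCast, hτ2, one_zpow]
  let Γ' := SemidirectProduct E A A.subtype
  haveI : Finite Γ' := Finite.of_equiv _ (SemidirectProduct.equivProd (N := E) (G := A) (φ := A.subtype)).symm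
  letI : Fintype Γ' := Fintype.ofFinite _
  let inl : E →* Γ' := SemidirectProduct.inl
  let inr : A →* Γ' := SemidirectProduct.inr
  have hinl : Function.Injective inl := SemidirectProduct.inl_injective
  have hinr : Function.Injective inr := SemidirectProduct.inr_injective
  set G' : Subgroup Γ' := inl.range with hG'
  set S' : Subgroup Γ' := inr.range with hS'
  set C' : Subgroup Γ' := C.map inl with hC'
  letI : Fintype G' := Fintype.ofFinite _
  letI : Fintype C' := Fintype.ofFinite _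
  have hconj : ∀ (a : A) (g : E), inr a * inl g * (inr a)⁻¹ = inl ((a : MulAut E) g) := by
    intro a g
    rw [← map_inv]
    exact (SemidirectProduct.inl_aut (φ := A.subtype) a g).symm
  let t : A := ⟨τ, Subgroup.mem_zpowers τ⟩
  have hnorm : ∀ s ∈ S', ∀ g ∈ G', s * g * s⁻¹ ∈ G' := by
    rintro _ ⟨a, rfl⟩ _ ⟨g, rfl⟩
    rw [hconj]
    exact ⟨_, rfl⟩
  have hS2 : IsPGroup 2 S' := by
    rintro ⟨_, a, rfl⟩
    refine ⟨1, ?_⟩
    apply Subtype.ext
    show (inr a) ^ (2 ^ 1) = 1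
    rw [← map_pow, pow_one]
    have : a ^ 2 = 1 := Subtype.ext (hA2 a)
    rw [this, map_one]
  have hcardG' : Nat.card G' = Nat.card E :=
    (Nat.card_congr (MonoidHom.ofInjective hinl).toEquiv).symm
  have hcardS' : ∃ k, Nat.card S' = 2 ^ k := IsPGroup.iff_card.1 hS2
  have hcop : (Nat.card G').Coprime (Nat.card S') := by
    rw [hcardG']
    obtain ⟨k, hk⟩ := hcardS'
    rw [hk]
    exact Nat.Coprime.pow_right _ (Nat.coprime_two_right.2 hodd)
  have hCeq : C' = G' ⊓ Subgroup.centralizer (S' : Set Γ') := by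
    ext x
    constructor
    · rintro ⟨c, hc, rfl⟩
      refine ⟨⟨c, rfl⟩, ?_⟩
      show inl c ∈ Subgroup.centralizer (S' : Set Γ')
      rw [Subgroup.mem_centralizer_iff]
      rintro _ ⟨a, rfl⟩
      have hac : (a : MulAut E) c = c := by
        have hle : A ≤ MulAction.stabilizer (MulAut E) c := by
          rw [hA, Subgroup.zpowers_le]
          exact (hC c).2 hc
        exact hle a.2
      have h1 := hconj a c
      rw [hac] at h1
      calc inr a * inl c = inr a * inl c * (inr a)⁻¹ * inr a := (inv_mul_cancel_right _ _).symm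
        _ = inl c * inr a := by rw [h1]
    · rintro ⟨⟨g, rfl⟩, h2⟩
      have h2 : inl g ∈ Subgroup.centralizer (S' : Set Γ') := h2
      rw [Subgroup.mem_centralizer_iff] at h2
      have h3 := h2 (inr t) ⟨t, rfl⟩
      have h4 := hconj t g
      have h5 : inr t * inl g * (inr t)⁻¹ = inl g := by
        rw [h3]; exact mul_inv_cancel_right _ _
      rw [h5] at h4
      have h6 : τ g = g := (hinl h4).symm
      exact ⟨g, (hC g).1 h6, rfl⟩
  have hCG' : C' ≤ G' := by
    rw [hCeq]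
    exact inf_le_left
  obtain ⟨a, b, c⟩ := corr (Γ := Γ') Nat.prime_two _ S' rfl hS2 G' C' hnorm hcop hCeq hCG'
  -- the isomorphisms
  let e : E ≃* G' := MonoidHom.ofInjective hinl
  have he : ∀ g, ((e g : G') : Γ') = inl g := fun g => rfl
  let eC : C ≃* C' := Subgroup.equivMapOfInjective C inl hinl
  have heC : ∀ c : C, ((eC c : C') : Γ') = inl c := fun c => rfl
  -- invariance
  have hinvt : ∀ χ : IrrCharacter E, (∀ g, (χ : E → ℂ) (τ g) = (χ : E → ℂ) g) →
      SInv S' (irrComp e.symm χ : G' → ℂ) := by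
    rintro χ hχ _ ⟨a, rfl⟩ ⟨_, g, rfl⟩ ⟨_, g', rfl⟩ hg
    have h1 : g' = (a : MulAut E) g := by
      apply hinl
      rw [← hconj]
      exact hg
    have h2 : (irrComp e.symm χ : G' → ℂ) ⟨inl g, ⟨g, rfl⟩⟩ = (χ : E → ℂ) g := by
      show (χ : E → ℂ) (e.symm (e g)) = _
      simp
    have h3 : (irrComp e.symm χ : G' → ℂ) ⟨inl g', ⟨g', rfl⟩⟩ = (χ : E → ℂ) g' := by
      show (χ : E → ℂ) (e.symm (e g')) = _
      simp
    rw [h2, h3, h1]
    let Q : Subgroup (MulAut E) :=
      { carrier := {a | ∀ g, (χ : E → ℂ) (a g) = (χ : E → ℂ) g}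
        mul_mem' := fun {a b} ha hb g => by
          rw [MulAut.mul_apply, ha, hb]
        one_mem' := fun g => rfl
        inv_mem' := fun {a} ha g => by
          have := ha (a⁻¹ g)
          rw [MulAut.apply_inv_self] at this
          exact this.symm }
    have hle : A ≤ Q := by
      rw [hA, Subgroup.zpowers_le]
      exact hχ
    exact hle a.2 g
  have hinvt' : ∀ χ : IrrCharacter G', SInv S' (χ : G' → ℂ) →
      ∀ g, (irrComp e χ : E → ℂ) (τ g) = (irrComp e χ : E → ℂ) g := by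
    intro χ hχ g
    exact hχ (inr t) ⟨t, rfl⟩ (e g) (e (τ g)) (hconj t g).symm
  have hres : ∀ χ : IrrCharacter E, (fun c : C => resC hCG' (irrComp e.symm χ : G' → ℂ) (eC c)) =
      fun c : C => (χ : E → ℂ) c := by
    intro χ
    funext x
    show (χ : E → ℂ) (e.symm ⟨inl x, _⟩) = _
    have h : e.symm ⟨inl x, ⟨x, rfl⟩⟩ = x := e.symm_apply_eq.2 rfl
    exact congrArg _ h
  have hback : ∀ (χ : IrrCharacter E) (γ : IrrCharacter C'), PRel 2 (resC hCG' (irrComp e.symm χ : G' → ℂ)) γ →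
      PRel 2 (fun c : C => (χ : E → ℂ) c) (irrComp eC γ) := by
    intro χ γ h
    have h1 := PRel.comp_equiv eC h
    rwa [hres] at h1
  have hfwd : ∀ (χ : IrrCharacter E) (γ : IrrCharacter C), PRel 2 (fun c : C => (χ : E → ℂ) c) γ →
      PRel 2 (resC hCG' (irrComp e.symm χ : G' → ℂ)) (irrComp eC.symm γ) := by
    intro χ γ h
    have h1 := PRel.comp_equiv eC.symm h
    convert h1 using 1
    funext x
    have := congrFun (hres χ) (eC.symm x)
    rw [MulEquiv.apply_symm_apply] at this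
    exact this
  refine ⟨fun χ hχ => ?_, fun χ χ' hχ hχ' γ h h' => ?_, fun γ => ?_⟩
  · obtain ⟨β, hβ⟩ := a _ (hinvt χ hχ)
    exact ⟨_, hback χ β hβ⟩
  · have h1 := b _ _ (hinvt χ hχ) (hinvt χ' hχ') _ (hfwd χ γ h) (hfwd χ' γ h')
    apply Subtype.ext
    funext g
    have h2 := congrArg (fun f : IrrCharacter G' => (f : G' → ℂ) (e g)) h1
    simpa using h2
  · obtain ⟨χ, hχ, h⟩ := c (irrComp eC.symm γ)
    have h1 : irrComp e.symm (irrComp e χ) = χ := by
      apply Subtype.ext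
      funext g
      simp
    refine ⟨irrComp e χ, hinvt' χ hχ, ?_⟩
    have h2 : PRel 2 (resC hCG' (irrComp e.symm (irrComp e χ) : G' → ℂ)) (irrComp eC.symm γ) := by
      rw [h1]; exact h
    have h3 := hback _ _ h2
    have h4 : irrComp eC (irrComp eC.symm γ) = γ := by
      apply Subtype.ext
      funext g
      simp
    rwa [h4] at h3

end Wrapper

section Level1

open Cfsg.Agent.Lib.Char.Clifford Cfsg.Agent.Lib.Char.CliffordCorr Cfsg.Agent.Lib.Char.GlaubAb
open Cfsg.Agent.Lib.Char.IsaacsA Cfsg.Agent.Lib.Char.IsaacsB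

/-- A power map is invertible. -/
theorem exists_pow_inv {E : Type*} [Group E] [Finite E] {n : ℕ} (hcop : n.Coprime (Nat.card E)) :
    ∃ t : ℕ, ∀ x : E, (x ^ n) ^ t = x := by
  by_cases h1 : Nat.card E = 1
  · refine ⟨0, fun x => ?_⟩
    haveI := (Nat.card_eq_one_iff_unique.1 h1).1
    exact Subsingleton.elim _ _
  · have hpos : 0 < Nat.card E := Nat.card_pos
    obtain ⟨m, -, hm⟩ := Nat.exists_mul_mod_eq_one_of_coprime hcop (by omega)
    refine ⟨m, fun x => ?_⟩
    rw [← pow_mul, pow_eq_pow_mod _ (pow_card_eq_one' (x := x)), hm, pow_one]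

/-- Constituents are transitive. -/
theorem constituent_trans {X : Type u} [Group X] [Fintype X] (N : Subgroup X) [Fintype N] {f : X → ℂ}
    (hf : IsCharacter X f) {ξ : X → ℂ} (hξ : IsIrrCharacter X ξ) {ϑ : N → ℂ} (hϑ : IsIrrCharacter N ϑ)
    (h1 : classInner f ξ ≠ 0) (h2 : classInner (fun n : N => ξ n) ϑ ≠ 0) :
    classInner (fun n : N => f n) ϑ ≠ 0 := by
  obtain ⟨ρ, hρ, hadd⟩ := exists_char_add hf hξ h1
  have h3 : (fun n : N => f n) = (fun n : N => ξ n) + (fun n : N => ρ n) := by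
    funext n
    rw [hadd]
    rfl
  rw [h3, classInner_add_left]
  obtain ⟨a, ha⟩ := exists_nat_classInner_of_isCharacter (isCharacter_restrict (isCharacter_of_isIrrCharacter hξ) N) (isCharacter_of_isIrrCharacter hϑ)
  obtain ⟨b, hb⟩ := exists_nat_classInner_of_isCharacter (isCharacter_restrict hρ N) (isCharacter_of_isIrrCharacter hϑ)
  have h4 : classInner (fun n : N => ξ n) ϑ = a := ha
  have h5 : classInner (fun n : N => ρ n) ϑ = b := hb
  rw [h4, h5]
  rw [h4] at h2
  have h6 : a ≠ 0 := by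
    rintro rfl
    simp at h2
  exact_mod_cast (by omega : a + b ≠ 0)

/-- The section lemma. -/
theorem inv_of_abelian_section {X : Type u} [Group X] [Fintype X] (N : Subgroup X) [N.Normal] [Fintype N]
    (hab : ∀ x y : X, x * y * x⁻¹ * y⁻¹ ∈ N) (a : X ≃* X) (ha : ∀ x, a x * x⁻¹ ∈ N) (n : ℕ)
    (hn : ∀ x, a^[n] x = x) (hcop : n.Coprime (Nat.card X)) {ξ : X → ℂ} (hξ : IsIrrCharacter X ξ)
    {ϑ : N → ℂ} (hϑ : IsIrrCharacter N ϑ) (h1 : classInner (fun m : N => ξ m) ϑ ≠ 0)
    (h2 : classInner (fun m : N => ξ (a m)) ϑ ≠ 0) : ∀ x, ξ (a x) = ξ x := by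
  have hξa : IsIrrCharacter X (fun x => ξ (a x)) :=
    isIrrCharacter_comp_surjective hξ a.toMonoidHom a.surjective
  obtain ⟨l, hl1, hl2⟩ := exists_lin_of_over N hab hξ hξa hϑ h1 h2
  have hl3 : ∀ x, ξ (a x) = (l x : ℂ) * ξ x := fun x => congrFun hl2 x
  have hla : ∀ x, l (a x) = l x := by
    intro x
    have h3 : l (a x * x⁻¹) = 1 := hl1 ⟨_, ha x⟩
    rw [map_mul, map_inv] at h3
    exact mul_inv_eq_one.1 h3
  have hit : ∀ (j : ℕ) (x : X), ξ (a^[j] x) = ((l x : ℂ)) ^ j * ξ x := by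
    intro j
    induction j with
    | zero => intro x; simp
    | succ j ih =>
      intro x
      rw [Function.iterate_succ_apply, ih, hla, hl3, pow_succ, mul_assoc]
  intro x
  rw [hl3]
  by_cases h0 : ξ x = 0
  · rw [h0, mul_zero]
  · have h3 := hit n x
    rw [hn] at h3
    have h4 : ((l x : ℂ)) ^ n = 1 := by
      have : ξ x * 1 = ξ x * ((l x : ℂ)) ^ n := by rw [mul_one, mul_comm, ← h3]
      exact (mul_left_cancel₀ h0 this).symm
    have h5 : l x ^ n = 1 := by
      apply Units.ext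
      simpa using h4
    have h6 : l x ^ Nat.card X = 1 := by
      rw [← map_pow, pow_card_eq_one', map_one]
    have h7 := pow_gcd_eq_one.2 ⟨h5, h6⟩
    rw [Nat.Coprime.gcd_eq_one hcop, pow_one] at h7
    rw [h7]
    simp

variable {E : Type u} [Group E] [Fintype E] (K C : Subgroup E) [hK : K.Normal] [Fintype K]

/-- The restriction of an automorphism. -/
noncomputable def autK (a : E ≃* E) (ha : ∀ k ∈ K, a k ∈ K) : K ≃* K :=
  MulEquiv.ofBijective
    (MonoidHom.mk' (fun k : K => (⟨a k, ha k k.2⟩ : K)) (fun x y => Subtype.ext (by simp)))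
    (by
      have hi : Function.Injective (MonoidHom.mk' (fun k : K => (⟨a k, ha k k.2⟩ : K)) (fun x y => Subtype.ext (by simp))) := by
        intro x y hxy
        have h1 : a x = a y := congrArg Subtype.val hxy
        exact Subtype.ext (a.injective h1)
      exact ⟨hi, Finite.injective_iff_surjective.1 hi⟩)

omit hK in
@[simp] theorem autK_coe (a : E ≃* E) (ha : ∀ k ∈ K, a k ∈ K) (k : K) : ((autK K a ha k : K) : E) = a k := rfl

omit hK in
theorem autK_iterate (a : E ≃* E) (ha : ∀ k ∈ K, a k ∈ K) (j : ℕ) (k : K) :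
    (((autK K a ha)^[j] k : K) : E) = a^[j] k := by
  induction j generalizing k with
  | zero => rfl
  | succ j ih =>
    rw [Function.iterate_succ_apply, Function.iterate_succ_apply, ih, autK_coe]

/-- Constituents of an `a`-invariant character are `a`-invariant. -/
theorem inv_of_constituent (a : E ≃* E) (ha : ∀ k ∈ K, a k ∈ K) (haC : ∀ c ∈ C, a c = c)
    (hKC : ∀ g, ∃ k ∈ K, ∃ c ∈ C, g = k * c) (n : ℕ) (hn : ∀ g, a^[n] g = g)
    (hcop : n.Coprime (Nat.card E)) {β : E → ℂ} (hβ : IsIrrCharacter E β) (hβa : ∀ g, β (a g) = β g)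
    {φ : K → ℂ} (hφ : IsIrrCharacter K φ) (h : classInner (fun k : K => β k) φ ≠ 0) :
    ∀ k : K, φ (autK K a ha k) = φ k := by
  set aK := autK K a ha with haK
  have hφa : IsIrrCharacter K (fun k => φ (aK k)) :=
    isIrrCharacter_comp_surjective hφ aK.toMonoidHom aK.surjective
  have h1 : classInner (fun k : K => β k) (fun k => φ (aK k)) = classInner (fun k : K => β k) φ := by
    have h2 := classInner_comp_equiv aK (fun k : K => β k) φ
    rw [← h2]
    congr 1
    funext k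
    exact (hβa k).symm
  obtain ⟨g, hg⟩ := exists_conj_of_classInner_ne_zero K hβ hφ hφa h (by rw [h1]; exact h)
  obtain ⟨k₁, hk₁, c, hc, rfl⟩ := hKC g
  have hφc := isClassFunction_of_isCharacter (isCharacter_of_isIrrCharacter hφ)
  have hφa' : ∀ k : K, φ (aK k) = φ ⟨c * k * c⁻¹, hK.conj_mem k k.2 c⟩ := by
    intro k
    have h3 := congrFun hg k
    rw [conjFun_apply] at h3
    rw [h3]
    have h4 := hφc ⟨c * k * c⁻¹, hK.conj_mem k k.2 c⟩ ⟨k₁, hk₁⟩
    rw [← h4]
    congr 1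
    apply Subtype.ext
    show k₁ * c * k * (k₁ * c)⁻¹ = k₁ * (c * k * c⁻¹) * k₁⁻¹
    group
  have hacj : ∀ j : ℕ, a (c ^ j) = c ^ j := by
    intro j
    rw [map_pow, haC c hc]
  have hit : ∀ (j : ℕ) (k : K), φ (aK^[j] k) = φ ⟨c ^ j * k * (c ^ j)⁻¹, hK.conj_mem k k.2 _⟩ := by
    intro j
    induction j with
    | zero =>
      intro k
      simp
    | succ j ih =>
      intro k
      rw [Function.iterate_succ_apply, ih]
      have h3 : (⟨c ^ j * (aK k : E) * (c ^ j)⁻¹, hK.conj_mem _ (aK k).2 _⟩ : K) =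
          aK ⟨c ^ j * k * (c ^ j)⁻¹, hK.conj_mem k k.2 _⟩ := by
        apply Subtype.ext
        show c ^ j * a k * (c ^ j)⁻¹ = a (c ^ j * k * (c ^ j)⁻¹)
        rw [map_mul, map_mul, map_inv, hacj]
      rw [h3, hφa']
      congr 1
      apply Subtype.ext
      show c * (c ^ j * k * (c ^ j)⁻¹) * c⁻¹ = c ^ (j + 1) * k * (c ^ (j + 1))⁻¹
      rw [pow_succ']
      group
  have hcn : ∀ k : K, φ ⟨c ^ n * k * (c ^ n)⁻¹, hK.conj_mem k k.2 _⟩ = φ k := by
    intro k
    rw [← hit]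
    congr 1
    apply Subtype.ext
    rw [autK_iterate, hn]
  have hct : ∀ (t : ℕ) (k : K), φ ⟨(c ^ n) ^ t * k * ((c ^ n) ^ t)⁻¹, hK.conj_mem k k.2 _⟩ = φ k := by
    intro t
    induction t with
    | zero =>
      intro k
      simp
    | succ t ih =>
      intro k
      have h3 := hcn ⟨(c ^ n) ^ t * k * ((c ^ n) ^ t)⁻¹, hK.conj_mem k k.2 _⟩
      rw [ih] at h3
      rw [← h3]
      congr 1
      apply Subtype.ext
      show (c ^ n) ^ (t + 1) * k * ((c ^ n) ^ (t + 1))⁻¹ = c ^ n * ((c ^ n) ^ t * k * ((c ^ n) ^ t)⁻¹) * (c ^ n)⁻¹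
      rw [pow_succ']
      group
  obtain ⟨t, ht⟩ := exists_pow_inv hcop
  intro k
  rw [hφa', ← hct t k]
  congr 1
  apply Subtype.ext
  rw [ht c]

/-- Invariance over an invariant character. -/
theorem inv_of_over (a : E ≃* E) (ha : ∀ k ∈ K, a k ∈ K) (haC : ∀ c ∈ C, a c = c)
    (hKC : ∀ g, ∃ k ∈ K, ∃ c ∈ C, g = k * c) (n : ℕ) (hn : ∀ g, a^[n] g = g)
    (hcop : n.Coprime (Nat.card E)) {β : E → ℂ} (hβ : IsIrrCharacter E β)
    {φ : K → ℂ} (huniq : ∀ φ' : K → ℂ, IsIrrCharacter K φ' → classInner (fun k : K => β k) φ' ≠ 0 → φ' = φ)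
    (hφa : ∀ k : K, φ (autK K a ha k) = φ k) : ∀ g, β (a g) = β g := by
  classical
  intro g
  obtain ⟨k, hk, c, hc, rfl⟩ := hKC g
  set X : Subgroup E := K ⊔ Subgroup.zpowers c with hX
  haveI : Fintype X := Fintype.ofFinite _
  have hKX : K ≤ X := le_sup_left
  have hcX : c ∈ X := (le_sup_right : Subgroup.zpowers c ≤ X) (Subgroup.mem_zpowers c)
  have hzC : Subgroup.zpowers c ≤ C := by
    rw [Subgroup.zpowers_le]
    exact hc
  have hdec : ∀ x ∈ X, ∃ k' ∈ K, ∃ z ∈ Subgroup.zpowers c, x = k' * z := by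
    intro x hx
    obtain ⟨k', hk', z, hz, rfl⟩ := Subgroup.mem_sup_of_normal_left.1 hx
    exact ⟨k', hk', z, hz, rfl⟩
  have haX : ∀ x ∈ X, a x ∈ X := by
    intro x hx
    obtain ⟨k', hk', z, hz, rfl⟩ := hdec x hx
    rw [map_mul, haC z (hzC hz)]
    exact X.mul_mem (hKX (ha k' hk')) ((le_sup_right : Subgroup.zpowers c ≤ X) hz)
  set aX := autK X a haX with haXdef
  set N : Subgroup X := K.subgroupOf X with hN
  haveI hNn : N.Normal := Subgroup.normal_subgroupOf
  haveI : Fintype N := Fintype.ofFinite _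
  have hab : ∀ x y : X, x * y * x⁻¹ * y⁻¹ ∈ N := by
    intro x y
    obtain ⟨k', hk', z, hz, hx⟩ := hdec x x.2
    obtain ⟨k'', hk'', w, hw, hy⟩ := hdec y y.2
    rw [hN, Subgroup.mem_subgroupOf]
    show (x : E) * y * (x : E)⁻¹ * (y : E)⁻¹ ∈ K
    rw [hx, hy, ← QuotientGroup.eq_one_iff]
    have h1 : ((k' : E) : E ⧸ K) = 1 := (QuotientGroup.eq_one_iff _).2 hk'
    have h2 : ((k'' : E) : E ⧸ K) = 1 := (QuotientGroup.eq_one_iff _).2 hk''
    obtain ⟨i, rfl⟩ := hz
    obtain ⟨j, rfl⟩ := hw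
    simp only [QuotientGroup.mk_mul, QuotientGroup.mk_inv, h1, h2, one_mul, mul_inv_rev, inv_one, mul_one]
    have h3 : Commute (((fun x => c ^ x) i : E) : E ⧸ K) (((fun x => c ^ x) j : E) : E ⧸ K) := by
      show ((c ^ i : E) : E ⧸ K) * ((c ^ j : E) : E ⧸ K) = ((c ^ j : E) : E ⧸ K) * ((c ^ i : E) : E ⧸ K)
      rw [← QuotientGroup.mk_mul, ← QuotientGroup.mk_mul, (Commute.zpow_zpow_self c i j).eq]
    rw [h3.eq]
    group
  have haXN : ∀ x : X, aX x * x⁻¹ ∈ N := by
    intro x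
    obtain ⟨k', hk', z, hz, hx⟩ := hdec x x.2
    rw [hN, Subgroup.mem_subgroupOf]
    show a x * (x : E)⁻¹ ∈ K
    rw [hx, map_mul, haC z (hzC hz)]
    have : a k' * z * (k' * z)⁻¹ = a k' * k'⁻¹ := by group
    rw [this]
    exact K.mul_mem (ha k' hk') (K.inv_mem hk')
  have hnX : ∀ x : X, aX^[n] x = x := by
    intro x
    apply Subtype.ext
    rw [autK_iterate, hn]
  have hcopX : n.Coprime (Nat.card X) :=
    Nat.Coprime.coprime_dvd_right (Subgroup.card_subgroup_dvd_card X) hcop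
  let eN : N ≃* K := Subgroup.subgroupOfEquivOfLe hKX
  have heN : ∀ m : N, ((eN m : K) : E) = ((m : X) : E) := fun _ => rfl
  have hβc := isCharacter_of_isIrrCharacter hβ
  have hresX : IsCharacter X (fun x : X => β x) := isCharacter_restrict hβc X
  have hinvξ : ∀ ξ : IrrCharacter X, classInner (fun x : X => β x) (ξ : X → ℂ) ≠ 0 →
      ∀ x, (ξ : X → ℂ) (aX x) = (ξ : X → ℂ) x := by
    intro ξ hξ
    have hξc := isCharacter_of_isIrrCharacter ξ.2
    have hξN : IsCharacter N (fun m : N => (ξ : X → ℂ) m) := isCharacter_restrict hξc N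
    have hξ1 : (fun m : N => (ξ : X → ℂ) m) 1 ≠ 0 := by
      show (ξ : X → ℂ) 1 ≠ 0
      exact irr_apply_one_ne_zero ξ.2
    obtain ⟨ϑ, hϑ, hϑc⟩ := exists_irr_constituent hξN hξ1
    have hφ' : IsIrrCharacter K (fun k => ϑ (eN.symm k)) :=
      isIrrCharacter_comp_surjective hϑ eN.symm.toMonoidHom eN.symm.surjective
    have hβN : classInner (fun m : N => ((fun x : X => β x) m)) ϑ ≠ 0 :=
      constituent_trans N hresX ξ.2 hϑ hξ hϑc
    have h2 : classInner (fun k : K => β k) (fun k => ϑ (eN.symm k)) ≠ 0 := by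
      have h3 := classInner_comp_equiv eN.symm (fun m : N => ((fun x : X => β x) m)) ϑ
      rw [← h3] at hβN
      exact hβN
    have h4 := huniq _ hφ' h2
    have hϑφ : ∀ m : N, ϑ m = φ (eN m) := by
      intro m
      have := congrFun h4 (eN m)
      simpa using this
    -- `a` on `N`
    have haN : ∀ m ∈ N, aX m ∈ N := by
      intro m hm
      rw [hN, Subgroup.mem_subgroupOf] at hm ⊢
      exact ha _ hm
    set aN := autK N aX haN with haNdef
    have hϑa : ∀ m : N, ϑ (aN m) = ϑ m := by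
      intro m
      have h7 : eN (aN m) = autK K a ha (eN m) := Subtype.ext rfl
      rw [hϑφ, hϑφ, h7, hφa]
    have h5 : classInner (fun m : N => (ξ : X → ℂ) (aX m)) ϑ ≠ 0 := by
      have h6 := classInner_comp_equiv aN (fun m : N => (ξ : X → ℂ) m) ϑ
      have h7 : (fun a : N => ϑ (aN a)) = ϑ := funext hϑa
      rw [h7] at h6
      have h8 : classInner (fun m : N => (ξ : X → ℂ) (aX m)) ϑ = classInner (fun m : N => (ξ : X → ℂ) m) ϑ := h6
      rw [h8]
      exact hϑc
    exact inv_of_abelian_section N hab aX haXN n hnX hcopX ξ.2 hϑ hϑc h5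
  have hdecomp := decomp_eq_sum_classInner hresX
  have hfin : ∀ x : X, (fun x : X => β x) (aX x) = (fun x : X => β x) x := by
    intro x
    rw [hdecomp]
    simp only [Finset.sum_apply, Pi.smul_apply, smul_eq_mul]
    refine Finset.sum_congr rfl (fun ξ _ => ?_)
    by_cases h0 : classInner (fun x : X => β x) (ξ : X → ℂ) = 0
    · rw [h0, zero_mul, zero_mul]
    · rw [hinvξ ξ h0 x]
  have hmem : k * c ∈ X := X.mul_mem (hKX hk) hcX
  exact hfin ⟨k * c, hmem⟩

end Level1

end Cfsg.Agent.Lib.Char.IsaacsC
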