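import Mathlib
import Cfsg.Agent.Lib.Char.IsaacsC

/-!
# The correspondence for a coprime action on `K C` with `K ∩ C` central
-/

set_option autoImplicit false
set_option linter.style.longLine false
set_option linter.unusedSectionVars false
set_option linter.unusedVariables false
set_option linter.style.haveILetI false

namespace Cfsg.Agent.Lib.Char.IsaacsD

open Cfsg Cfsg.Agent.Lib.Char.Basic Cfsg.Agent.Lib.Char.Ortho Cfsg.Agent.Lib.Char.GlaubRel
  Cfsg.Agent.Lib.Char.GlaubP Cfsg.Agent.Lib.Char.Clifford Cfsg.Agent.Lib.Char.CliffordCorr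
  Cfsg.Agent.Lib.Char.GlaubAb Cfsg.Agent.Lib.Char.IsaacsA Cfsg.Agent.Lib.Char.IsaacsB
  Cfsg.Agent.Lib.Char.IsaacsC

universe u v

/-- **The central case.** -/
theorem level1 {E : Type u} {S : Type v} [Group E] [Fintype E] [Group S] [Fintype S] (σ : S →* MulAut E)
    (hodd : Odd (Nat.card E)) (hcop : (Nat.card E).Coprime (Fintype.card S))
    (K C : Subgroup E) [hKn : K.Normal] [Fintype K] [Fintype C]
    (hC : ∀ x, x ∈ C ↔ ∀ s, σ s x = x) (hKS : ∀ s, ∀ k ∈ K, σ s k ∈ K)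
    (hKC : ∀ g, ∃ k ∈ K, ∃ c ∈ C, g = k * c)
    (hU : ∀ u ∈ K, u ∈ C → ∀ g, u * g = g * u)
    (hcc : ∀ x ∈ K, ∀ y ∈ K, x * y * x⁻¹ * y⁻¹ ∈ C) :
    (∀ χ : IrrCharacter E, (∀ s g, (χ : E → ℂ) (σ s g) = (χ : E → ℂ) g) →
      ∃ γ : IrrCharacter C, PRel 2 (fun c : C => (χ : E → ℂ) c) γ) ∧
    (∀ χ χ' : IrrCharacter E, (∀ s g, (χ : E → ℂ) (σ s g) = (χ : E → ℂ) g) →
      (∀ s g, (χ' : E → ℂ) (σ s g) = (χ' : E → ℂ) g) → ∀ γ : IrrCharacter C,
      PRel 2 (fun c : C => (χ : E → ℂ) c) γ → PRel 2 (fun c : C => (χ' : E → ℂ) c) γ → χ = χ') ∧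
    (∀ γ : IrrCharacter C, ∃ χ : IrrCharacter E, (∀ s g, (χ : E → ℂ) (σ s g) = (χ : E → ℂ) g) ∧
      PRel 2 (fun c : C => (χ : E → ℂ) c) γ) := by
  classical
  obtain ⟨ε, hε, hνS⟩ := exists_eps σ K C hodd hcop hC hKS hU hcc
  obtain ⟨τ, hττ, hτC, hτσ, hτK⟩ := exists_tau σ K C ε hε hodd hC hKS hKC hU
  have hτK' : ∀ k ∈ K, τ k ∈ K := by
    intro k hk
    obtain ⟨u, hu, -, h⟩ := hτK k hk
    rw [h]
    exact K.mul_mem hu (K.inv_mem hk)
  have hτC' : ∀ c ∈ C, τ c = c := fun c hc => (hτC c).2 hc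
  have hσC : ∀ s, ∀ c ∈ C, σ s c = c := fun s c hc => (hC c).1 hc s
  -- the central subgroup
  set N : Subgroup K := C.subgroupOf K with hN
  haveI hNn : N.Normal := by
    refine ⟨fun n hn x => ?_⟩
    rw [hN, Subgroup.mem_subgroupOf] at hn ⊢
    have h1 : x * n * x⁻¹ = n := by
      apply Subtype.ext
      show (x : E) * n * (x : E)⁻¹ = n
      rw [← hU n n.2 hn x]
      group
    rw [h1]
    exact hn
  haveI : Fintype N := Fintype.ofFinite _
  have hab : ∀ x y : K, x * y * x⁻¹ * y⁻¹ ∈ N := by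
    intro x y
    rw [hN, Subgroup.mem_subgroupOf]
    exact hcc x x.2 y y.2
  have hcardK : Nat.card K ∣ Nat.card E := Subgroup.card_subgroup_dvd_card K
  have hoddK : Odd (Nat.card K) := Odd.of_dvd_nat hodd hcardK
  have hcopS : (Fintype.card S).Coprime (Nat.card E) := hcop.symm
  have hcop2 : Nat.Coprime 2 (Nat.card E) := (Nat.coprime_two_right.2 hodd).symm
  have hcopK : (Fintype.card S).Coprime (Nat.card K) := Nat.Coprime.coprime_dvd_right hcardK hcopS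
  have hnS : ∀ s g, (σ s)^[Fintype.card S] g = g := by
    intro s g
    have h1 : ∀ (n : ℕ) (g : E), (σ s)^[n] g = σ (s ^ n) g := by
      intro n
      induction n with
      | zero => intro g; simp
      | succ n ih =>
        intro g
        rw [Function.iterate_succ_apply, ih, pow_succ, map_mul, MulAut.mul_apply]
    rw [h1, ← Nat.card_eq_fintype_card, pow_card_eq_one', map_one, MulAut.one_apply]
  have hnτ : ∀ g, τ^[2] g = g := fun g => hττ g
  -- common constituents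
  have hcommon : ∀ {β : E → ℂ}, IsIrrCharacter E β → ∀ {φ₁ φ₂ : K → ℂ}, IsIrrCharacter K φ₁ →
      IsIrrCharacter K φ₂ → classInner (fun k : K => β k) φ₁ ≠ 0 → classInner (fun k : K => β k) φ₂ ≠ 0 →
      (fun n : N => φ₂ n) = (fun n : N => φ₁ n) := by
    intro β hβ φ₁ φ₂ h₁ h₂ hc₁ hc₂
    obtain ⟨g, hg⟩ := exists_conj_of_classInner_ne_zero K hβ h₁ h₂ hc₁ hc₂
    funext n
    rw [hg, conjFun_apply]
    congr 1
    apply Subtype.ext
    have hnC : ((n : K) : E) ∈ C := n.2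
    show g * ((n : K) : E) * g⁻¹ = ((n : K) : E)
    rw [← hU _ (n : K).2 hnC g]
    group
  have hconst : ∀ {φ : K → ℂ}, IsIrrCharacter K φ → ∃ ϑ : N → ℂ, IsIrrCharacter N ϑ ∧
      classInner (fun n : N => φ n) ϑ ≠ 0 := by
    intro φ hφ
    have h1 : IsCharacter N (fun n : N => φ n) := isCharacter_restrict (isCharacter_of_isIrrCharacter hφ) N
    exact exists_irr_constituent h1 (irr_apply_one_ne_zero hφ)
  -- uniqueness
  set σK := resAut σ K hKS with hσK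
  have hσKc : ∀ s k, ((σK s k : K) : E) = σ s k := fun _ _ => rfl
  have huniqS : ∀ {φ₁ φ₂ : K → ℂ}, IsIrrCharacter K φ₁ → IsIrrCharacter K φ₂ →
      (∀ s k, φ₁ (σK s k) = φ₁ k) → (∀ s k, φ₂ (σK s k) = φ₂ k) → ∀ {ϑ : N → ℂ}, IsIrrCharacter N ϑ →
      classInner (fun n : N => φ₁ n) ϑ ≠ 0 → classInner (fun n : N => φ₂ n) ϑ ≠ 0 → φ₂ = φ₁ := by
    intro φ₁ φ₂ h₁ h₂ hi₁ hi₂ ϑ hϑ hc₁ hc₂
    obtain ⟨l, hl1, hl2⟩ := exists_lin_of_over N hab h₁ h₂ hϑ hc₁ hc₂
    have hl3 : ∀ k, φ₂ k = (l k : ℂ) * φ₁ k := fun k => congrFun hl2 k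
    let l' : K →* ℂˣ := ∏ s : S, l.comp (σK s).toMonoidHom
    have hl'a : ∀ k, l' k = ∏ s : S, l (σK s k) := by
      intro k
      simp only [l', MonoidHom.finset_prod_apply]
      rfl
    have hl'1 : l' = 1 := by
      apply hνS l'
      · intro s k k' hk'
        have h1 : k' = σK s k := Subtype.ext hk'
        rw [h1, hl'a, hl'a]
        refine Fintype.prod_equiv (Equiv.mulRight s) _ _ (fun t => ?_)
        simp [map_mul, MulAut.mul_apply]
      · intro u hu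
        rw [hl'a]
        refine Finset.prod_eq_one (fun s _ => ?_)
        have h1 : σK s u = u := Subtype.ext (hσC s u hu)
        rw [h1]
        exact hl1 ⟨u, hu⟩
    funext k
    rw [hl3]
    by_cases h0 : φ₁ k = 0
    · rw [h0, mul_zero]
    · have h1 : ∀ s, l (σK s k) = l k := by
        intro s
        have h2 := hi₂ s k
        rw [hl3, hl3, hi₁] at h2
        have h3 := mul_right_cancel₀ h0 h2
        exact Units.ext h3
      have h4 : l k ^ Fintype.card S = 1 := by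
        have h5 := hl'a k
        rw [hl'1, Finset.prod_congr rfl (fun s _ => h1 s), Finset.prod_const, Finset.card_univ] at h5
        exact h5.symm
      have h6 : l k ^ Nat.card K = 1 := by
        rw [← map_pow, pow_card_eq_one', map_one]
      have h7 := pow_gcd_eq_one.2 ⟨h4, h6⟩
      rw [Nat.Coprime.gcd_eq_one hcopK, pow_one] at h7
      rw [h7]
      simp
  set τK := autK K τ hτK' with hτKdef
  have hτKu : ∀ k : K, ∃ u : K, (u : E) ∈ C ∧ τK k = u * k⁻¹ := by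
    intro k
    obtain ⟨u, hu, huC, h⟩ := hτK k k.2
    exact ⟨⟨u, hu⟩, huC, Subtype.ext h⟩
  have huniqτ : ∀ {φ₁ φ₂ : K → ℂ}, IsIrrCharacter K φ₁ → IsIrrCharacter K φ₂ →
      (∀ k, φ₁ (τK k) = φ₁ k) → (∀ k, φ₂ (τK k) = φ₂ k) → ∀ {ϑ : N → ℂ}, IsIrrCharacter N ϑ →
      classInner (fun n : N => φ₁ n) ϑ ≠ 0 → classInner (fun n : N => φ₂ n) ϑ ≠ 0 → φ₂ = φ₁ := by
    intro φ₁ φ₂ h₁ h₂ hi₁ hi₂ ϑ hϑ hc₁ hc₂
    obtain ⟨l, hl1, hl2⟩ := exists_lin_of_over N hab h₁ h₂ hϑ hc₁ hc₂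
    have hl3 : ∀ k, φ₂ k = (l k : ℂ) * φ₁ k := fun k => congrFun hl2 k
    funext k
    rw [hl3]
    by_cases h0 : φ₁ k = 0
    · rw [h0, mul_zero]
    · obtain ⟨u, hu, hku⟩ := hτKu k
      have h2 := hi₂ k
      rw [hl3, hl3, hi₁] at h2
      have h3 : (l (τK k) : ℂ) = l k := mul_right_cancel₀ h0 h2
      have h4 : l (τK k) = l k := Units.ext h3
      have h5 : l u = 1 := hl1 ⟨u, hu⟩
      rw [hku, map_mul, h5, one_mul, map_inv] at h4
      have h6 : l k ^ 2 = 1 := by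
        rw [pow_two]
        nth_rewrite 1 [← h4]
        exact inv_mul_cancel _
      have h7 : l k ^ Nat.card K = 1 := by
        rw [← map_pow, pow_card_eq_one', map_one]
      have h8 := pow_gcd_eq_one.2 ⟨h6, h7⟩
      rw [Nat.Coprime.gcd_eq_one (Nat.coprime_two_left.2 hoddK), pow_one] at h8
      rw [h8]
      simp
  -- `σK` as `autK`
  have hσauto : ∀ s k, autK K (σ s) (hKS s) k = σK s k := fun _ _ => rfl
  have hSτ : ∀ β : E → ℂ, IsIrrCharacter E β → (∀ s g, β (σ s g) = β g) → ∀ g, β (τ g) = β g := by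
    intro β hβ hinv
    have h1 : IsCharacter K (fun k : K => β k) := isCharacter_restrict (isCharacter_of_isIrrCharacter hβ) K
    obtain ⟨φ₀, hφ₀, hc₀⟩ := exists_irr_constituent h1 (irr_apply_one_ne_zero hβ)
    have hall : ∀ φ : K → ℂ, IsIrrCharacter K φ → classInner (fun k : K => β k) φ ≠ 0 →
        ∀ s k, φ (σK s k) = φ k := by
      intro φ hφ hc s k
      exact inv_of_constituent K C (σ s) (hKS s) (hσC s) hKC _ (hnS s) hcopS hβ (hinv s) hφ hc k
    have huniq : ∀ φ' : K → ℂ, IsIrrCharacter K φ' → classInner (fun k : K => β k) φ' ≠ 0 → φ' = φ₀ := by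
      intro φ' hφ' hc'
      obtain ⟨ϑ, hϑ, hcϑ⟩ := hconst hφ₀
      have h2 := hcommon hβ hφ₀ hφ' hc₀ hc'
      refine huniqS hφ₀ hφ' (hall _ hφ₀ hc₀) (hall _ hφ' hc') hϑ hcϑ ?_
      rw [h2]
      exact hcϑ
    have hτφ : IsIrrCharacter K (fun k => φ₀ (τK k)) :=
      isIrrCharacter_comp_surjective hφ₀ τK.toMonoidHom τK.surjective
    have h3 : (fun k => φ₀ (τK k)) = φ₀ := by
      obtain ⟨ϑ, hϑ, hcϑ⟩ := hconst hφ₀
      refine huniqS hφ₀ hτφ (hall _ hφ₀ hc₀) ?_ hϑ hcϑ ?_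
      · intro s k
        have h4 : τK (σK s k) = σK s (τK k) := Subtype.ext (hτσ s k)
        show φ₀ (τK (σK s k)) = φ₀ (τK k)
        rw [h4, hall _ hφ₀ hc₀]
      · have h5 : (fun n : N => (fun k => φ₀ (τK k)) n) = fun n : N => φ₀ n := by
          funext n
          show φ₀ (τK n) = φ₀ n
          congr 1
          exact Subtype.ext (hτC' _ n.2)
        rw [h5]
        exact hcϑ
    exact inv_of_over K C τ hτK' hτC' hKC 2 hnτ hcop2 hβ huniq (fun k => congrFun h3 k)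
  have hτS : ∀ β : E → ℂ, IsIrrCharacter E β → (∀ g, β (τ g) = β g) → ∀ s g, β (σ s g) = β g := by
    intro β hβ hinv s
    have h1 : IsCharacter K (fun k : K => β k) := isCharacter_restrict (isCharacter_of_isIrrCharacter hβ) K
    obtain ⟨φ₀, hφ₀, hc₀⟩ := exists_irr_constituent h1 (irr_apply_one_ne_zero hβ)
    have hall : ∀ φ : K → ℂ, IsIrrCharacter K φ → classInner (fun k : K => β k) φ ≠ 0 →
        ∀ k, φ (τK k) = φ k := by
      intro φ hφ hc k
      exact inv_of_constituent K C τ hτK' hτC' hKC 2 hnτ hcop2 hβ hinv hφ hc k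
    have huniq : ∀ φ' : K → ℂ, IsIrrCharacter K φ' → classInner (fun k : K => β k) φ' ≠ 0 → φ' = φ₀ := by
      intro φ' hφ' hc'
      obtain ⟨ϑ, hϑ, hcϑ⟩ := hconst hφ₀
      have h2 := hcommon hβ hφ₀ hφ' hc₀ hc'
      refine huniqτ hφ₀ hφ' (hall _ hφ₀ hc₀) (hall _ hφ' hc') hϑ hcϑ ?_
      rw [h2]
      exact hcϑ
    have hτφ : IsIrrCharacter K (fun k => φ₀ (σK s k)) :=
      isIrrCharacter_comp_surjective hφ₀ (σK s).toMonoidHom (σK s).surjective
    have h3 : (fun k => φ₀ (σK s k)) = φ₀ := by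
      obtain ⟨ϑ, hϑ, hcϑ⟩ := hconst hφ₀
      refine huniqτ hφ₀ hτφ (hall _ hφ₀ hc₀) ?_ hϑ hcϑ ?_
      · intro k
        have h4 : σK s (τK k) = τK (σK s k) := Subtype.ext (hτσ s k).symm
        show φ₀ (σK s (τK k)) = φ₀ (σK s k)
        rw [h4, hall _ hφ₀ hc₀]
      · have h5 : (fun n : N => (fun k => φ₀ (σK s k)) n) = fun n : N => φ₀ n := by
          funext n
          show φ₀ (σK s n) = φ₀ n
          congr 1
          exact Subtype.ext (hσC s _ n.2)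
        rw [h5]
        exact hcϑ
    exact inv_of_over K C (σ s) (hKS s) (hσC s) hKC _ (hnS s) hcopS hβ huniq (fun k => congrFun h3 k)
  obtain ⟨a, b, c⟩ := tau_corr τ hττ hodd C hτC
  refine ⟨fun χ hχ => a χ (hSτ _ χ.2 hχ), fun χ χ' hχ hχ' γ h h' => b χ χ' (hSτ _ χ.2 hχ) (hSτ _ χ'.2 hχ') γ h h', fun γ => ?_⟩
  obtain ⟨χ, hχ, h⟩ := c γ
  exact ⟨χ, hτS _ χ.2 hχ, h⟩

end Cfsg.Agent.Lib.Char.IsaacsD
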