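import Mathlib
import Cfsg.Agent.Lib.Char.IsaacsD
import Cfsg.Agent.Lib.Char.RealOdd
import Cfsg.Agent.Lib.Char.Integrality
import Cfsg.Agent.Lib.Char.Burnside2

/-!
# Lifting of characters along a projective representation: the abstract form
-/

set_option autoImplicit false
set_option linter.style.longLine false
set_option linter.unusedSectionVars false
set_option linter.unusedVariables false
set_option linter.style.haveILetI false

namespace Cfsg.Agent.Lib.Char.IsaacsE

open Cfsg Cfsg.Agent.Lib.Char.Basic Cfsg.Agent.Lib.Char.Ortho Cfsg.Agent.Lib.Char.Clifford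
  Cfsg.Agent.Lib.Char.CliffordCorr
open scoped ComplexConjugate

universe u

section Generic

variable {Y J B : Type u} [Group Y] [Group J] [Group B] [Fintype Y] [Fintype J] [Fintype B]

/-- The kernel is a finite type. -/
noncomputable def kerFintype (b : Y →* B) : Fintype b.ker := Fintype.ofFinite _

attribute [local instance] kerFintype

/-- Sums along a surjective homomorphism. -/
theorem sum_comp_surj (a : Y →* J) (ha : Function.Surjective a) (F : J → ℂ) :
    ∑ y : Y, F (a y) = (Nat.card a.ker : ℂ) * ∑ j : J, F j := by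
  classical
  have h1 : ∀ j : J, (Finset.univ.filter (fun y : Y => a y = j)).card = Nat.card a.ker := by
    intro j
    have h2 := MonoidHom.card_fiber_eq_of_mem_range a (x := j) (y := 1) (ha j) ⟨1, map_one a⟩
    rw [h2, Nat.card_eq_fintype_card, Fintype.card_subtype]
    congr 1
    ext y
    simp [MonoidHom.mem_ker]
  rw [← Finset.sum_fiberwise Finset.univ a, Finset.mul_sum]
  refine Finset.sum_congr rfl (fun j _ => ?_)
  rw [Finset.sum_congr rfl (fun y hy => by rw [(Finset.mem_filter.1 hy).2]), Finset.sum_const, h1]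
  simp

theorem card_eq_mul_ker (a : Y →* J) (ha : Function.Surjective a) :
    Nat.card Y = Nat.card a.ker * Nat.card J := by
  have h := sum_comp_surj a ha (fun _ => (1 : ℂ))
  simp only [Finset.sum_const, Finset.card_univ, nsmul_eq_mul, mul_one] at h
  rw [← Nat.card_eq_fintype_card, ← Nat.card_eq_fintype_card] at h
  exact_mod_cast h

theorem classInner_comp_surj (a : Y →* J) (ha : Function.Surjective a) (f g : J → ℂ) :
    classInner (fun y => f (a y)) (fun y => g (a y)) = classInner f g := by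
  unfold classInner
  rw [sum_comp_surj a ha (fun j => f j * conj (g j)), card_eq_mul_ker a ha]
  have h1 : (Nat.card a.ker : ℂ) ≠ 0 := Nat.cast_ne_zero.2 Nat.card_pos.ne'
  push_cast
  field_simp

/-- The Schur condition. -/
def SchCond (b : Y →* B) (tr : Y → ℂ) : Prop :=
  ∀ y, ∑ z : b.ker, tr (y * z) * conj (tr (y * z)) = (Nat.card b.ker : ℂ)

theorem classInner_tr (b : Y →* B) (hb : Function.Surjective b) (tr : Y → ℂ) (hS : SchCond b tr)
    (f f' : B → ℂ) :
    classInner (fun y => tr y * f (b y)) (fun y => tr y * f' (b y)) = classInner f f' := by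
  rw [← classInner_comp_surj b hb f f']
  unfold classInner
  congr 1
  have h1 : (Nat.card b.ker : ℂ) ≠ 0 := Nat.cast_ne_zero.2 Nat.card_pos.ne'
  apply mul_left_cancel₀ h1
  have h2 : ∀ z : b.ker, ∑ y : Y, tr y * f (b y) * conj (tr y * f' (b y)) =
      ∑ y : Y, tr (y * z) * conj (tr (y * z)) * (f (b y) * conj (f' (b y))) := by
    intro z
    refine (Equiv.sum_comp (Equiv.mulRight (z : Y)) _).symm.trans ?_
    refine Finset.sum_congr rfl (fun y _ => ?_)
    have h3 : b (y * z) = b y := by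
      rw [map_mul, MonoidHom.mem_ker.1 z.2, mul_one]
    show tr (y * z) * f (b (y * z)) * conj (tr (y * z) * f' (b (y * z))) = _
    rw [h3, map_mul]
    ring
  have h3 : (Nat.card b.ker : ℂ) * ∑ y : Y, tr y * f (b y) * conj (tr y * f' (b y)) =
      ∑ z : b.ker, ∑ y : Y, tr y * f (b y) * conj (tr y * f' (b y)) := by
    rw [Finset.sum_const, Finset.card_univ, nsmul_eq_mul, Nat.card_eq_fintype_card]
  rw [h3, Finset.sum_congr rfl (fun z _ => h2 z), Finset.sum_comm, Finset.mul_sum]
  refine Finset.sum_congr rfl (fun y _ => ?_)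
  rw [← Finset.sum_mul, hS y]

theorem isIrr_tr_mul (b : Y →* B) (hb : Function.Surjective b) {tr : Y → ℂ} (htr : IsCharacter Y tr)
    (hS : SchCond b tr) {γ : B → ℂ} (hγ : IsIrrCharacter B γ) :
    IsIrrCharacter Y (fun y => tr y * γ (b y)) := by
  apply isIrrCharacter_of_classInner_self_eq_one
  · exact isCharacter_mul htr (isCharacter_comp_hom (isCharacter_of_isIrrCharacter hγ) b)
  · rw [classInner_tr b hb tr hS]
    exact classInner_irr_self hγ

/-- Lifting. -/
theorem lift_irr (a : Y →* J) (ha : Function.Surjective a) (b : Y →* B) (hb : Function.Surjective b)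
    {tr : Y → ℂ} (htr : IsCharacter Y tr) (hS : SchCond b tr) {γ : B → ℂ} (hγ : IsIrrCharacter B γ)
    (hg : ∀ y, a y = 1 → tr y * γ (b y) = tr 1 * γ 1) :
    ∃ χ : J → ℂ, IsIrrCharacter J χ ∧ ∀ y, χ (a y) = tr y * γ (b y) := by
  have hΞ := isIrr_tr_mul b hb htr hS hγ
  obtain ⟨χ, hχ, h⟩ := Cfsg.Agent.Lib.Char.RealOdd.exists_irr_descend a ha hΞ (by
    intro y hy
    rw [hg y hy, map_one])
  exact ⟨χ, hχ, h⟩

/-- Lowering. -/
theorem lower_irr (a : Y →* J) (ha : Function.Surjective a) (b : Y →* B) (hb : Function.Surjective b)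
    {tr : Y → ℂ} (htr : IsCharacter Y tr) (hS : SchCond b tr) {χ : J → ℂ} (hχ : IsIrrCharacter J χ)
    (hne : classInner (fun z : b.ker => χ (a z)) (fun z : b.ker => tr z) ≠ 0) :
    ∃ γ : B → ℂ, IsIrrCharacter B γ ∧ ∀ y, χ (a y) = tr y * γ (b y) := by
  classical
  have hΞ : IsIrrCharacter Y (fun y => χ (a y)) :=
    isIrrCharacter_comp_surjective hχ a ha
  have hΞc := isCharacter_of_isIrrCharacter hΞ
  have hM : IsCharacter Y (fun y => χ (a y) * conj (tr y)) :=
    isCharacter_mul hΞc (isCharacter_conj htr)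
  have hone : IsIrrCharacter b.ker (fun _ => (1 : ℂ)) := Cfsg.Agent.Lib.Char.Burnside2.isIrrCharacter_one
  have hMres : classInner (fun z : b.ker => χ (a z) * conj (tr z)) (fun _ => (1 : ℂ)) =
      classInner (fun z : b.ker => χ (a z)) (fun z : b.ker => tr z) := by
    unfold classInner
    simp
  obtain ⟨ζ, hζM, hζ1⟩ : ∃ ζ : IrrCharacter Y, classInner (fun y => χ (a y) * conj (tr y)) (ζ : Y → ℂ) ≠ 0 ∧
      classInner (fun z : b.ker => (ζ : Y → ℂ) z) (fun _ => (1 : ℂ)) ≠ 0 := by
    by_contra hcon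
    push Not at hcon
    apply hne
    rw [← hMres]
    have hdec := decomp_eq_sum_classInner hM
    have h1 : (fun z : b.ker => χ (a z) * conj (tr z)) =
        ∑ ζ : IrrCharacter Y, classInner (fun y => χ (a y) * conj (tr y)) (ζ : Y → ℂ) •
          (fun z : b.ker => (ζ : Y → ℂ) z) := by
      funext z
      have := congrFun hdec (z : Y)
      simpa [Finset.sum_apply] using this
    rw [h1, classInner_sum_left]
    refine Finset.sum_eq_zero (fun ζ _ => ?_)
    rw [classInner_smul_left]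
    by_cases h2 : classInner (fun y => χ (a y) * conj (tr y)) (ζ : Y → ℂ) = 0
    · rw [h2, zero_mul]
    · rw [hcon ζ h2, mul_zero]
  -- `ζ` is trivial on the kernel
  have hζc := isCharacter_of_isIrrCharacter ζ.2
  have hres : IsCharacter b.ker (fun z : b.ker => (ζ : Y → ℂ) z) := isCharacter_restrict hζc _
  have htriv : ∀ y, b y = 1 → (ζ : Y → ℂ) y = (ζ : Y → ℂ) 1 := by
    intro y hy
    have hdec := decomp_eq_sum_classInner hres
    have h1 : ∀ ψ : IrrCharacter b.ker, ψ.1 ≠ (fun _ => (1 : ℂ)) →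
        classInner (fun z : b.ker => (ζ : Y → ℂ) z) ψ.1 = 0 := by
      intro ψ hψ
      by_contra h2
      obtain ⟨g, hg⟩ := exists_conj_of_classInner_ne_zero b.ker ζ.2 hone ψ.2 hζ1 h2
      apply hψ
      rw [hg]
      rfl
    have h2 : (fun z : b.ker => (ζ : Y → ℂ) z) =
        classInner (fun z : b.ker => (ζ : Y → ℂ) z) (fun _ => (1 : ℂ)) • (fun _ => (1 : ℂ)) := by
      conv_lhs => rw [hdec]
      rw [Finset.sum_eq_single (⟨_, hone⟩ : IrrCharacter b.ker)]
      · intro ψ _ hψ
        have h3 : ψ.1 ≠ (fun _ => (1 : ℂ)) := fun h => hψ (Subtype.ext h)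
        rw [h1 ψ h3, zero_smul]
      · intro h3
        exact absurd (Finset.mem_univ _) h3
    have h3 := congrFun h2 ⟨y, hy⟩
    have h4 := congrFun h2 1
    simp only [Pi.smul_apply, smul_eq_mul, mul_one] at h3 h4
    rw [h3, ← h4]
    rfl
  obtain ⟨γ, hγ, hγb⟩ := Cfsg.Agent.Lib.Char.RealOdd.exists_irr_descend b hb ζ.2 htriv
  refine ⟨γ, hγ, ?_⟩
  have hirr := isIrr_tr_mul b hb htr hS hγ
  have h1 : classInner (fun y => χ (a y)) (fun y => tr y * γ (b y)) ≠ 0 := by
    have h2 : classInner (fun y => χ (a y)) (fun y => tr y * γ (b y)) =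
        classInner (fun y => χ (a y) * conj (tr y)) (ζ : Y → ℂ) := by
      unfold classInner
      congr 1
      refine Finset.sum_congr rfl (fun y _ => ?_)
      show χ (a y) * conj (tr y * γ (b y)) = χ (a y) * conj (tr y) * conj ((ζ : Y → ℂ) y)
      rw [hγb, map_mul]
      ring
    rw [h2]
    exact hζM
  by_contra hcon
  apply h1
  apply classInner_irr_of_ne hΞ hirr
  intro h2
  apply hcon
  intro y
  exact congrFun h2 y

/-- A central element acts by a scalar. -/
theorem irr_central_scalar {γ : B → ℂ} (hγ : IsIrrCharacter B γ) (u : B) (hu : ∀ x, u * x = x * u) (x : B) :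
    γ (u * x) * γ 1 = γ u * γ x := by
  obtain ⟨n, ρ, hρ, rfl⟩ := hγ
  haveI := hρ
  obtain ⟨c, hc⟩ := Cfsg.Agent.Lib.Char.Integrality.exists_smul_id_of_commute ρ (ρ u) (fun g => by
    show ρ u * ρ g = ρ g * ρ u
    rw [← map_mul, ← map_mul, hu])
  have h1 : ∀ y, ρ.character (u * y) = c * ρ.character y := by
    intro y
    show LinearMap.trace ℂ _ (ρ (u * y)) = c * LinearMap.trace ℂ _ (ρ y)
    rw [map_mul, hc]
    have h3 : (c • (LinearMap.id : (Fin n → ℂ) →ₗ[ℂ] (Fin n → ℂ))) * ρ y = c • ρ y := by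
      ext v
      simp
    rw [h3, map_smul, smul_eq_mul]
  have h2 : ρ.character u = c * ρ.character 1 := by
    have := h1 1
    rwa [mul_one] at this
  rw [h1, h2]
  ring

/-- Central characters of constituents. -/
theorem central_of_constituent (C₀ : Subgroup B) [Fintype C₀] {β : B → ℂ} (hβ : IsIrrCharacter B β)
    {γ : C₀ → ℂ} (hγ : IsIrrCharacter C₀ γ) (u : C₀) (hu : ∀ x : B, (u : B) * x = x * u)
    (h : classInner (fun c : C₀ => β c) γ ≠ 0) :
    β u * γ 1 = γ u * β 1 := by
  have huC : ∀ x : C₀, u * x = x * u := fun x => Subtype.ext (hu x)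
  have hβ1 := irr_apply_one_ne_zero hβ
  have hγ1 := irr_apply_one_ne_zero hγ
  have hγc := isCharacter_of_isIrrCharacter hγ
  have huC' : ∀ x : C₀, u⁻¹ * x = x * u⁻¹ := by
    intro x
    have := huC (x)
    calc u⁻¹ * x = u⁻¹ * (x * u) * u⁻¹ := by group
      _ = u⁻¹ * (u * x) * u⁻¹ := by rw [this]
      _ = x * u⁻¹ := by group
  -- the multiplicity equation
  have h1 : classInner (fun c : C₀ => β c) γ * (β 1 * γ 1) =
      classInner (fun c : C₀ => β c) γ * (β u * γ u⁻¹) := by
    rw [classInner_eq_inv_of_isCharacter _ hγc]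
    have h2 : ∑ c : C₀, β c * γ c⁻¹ = ∑ c : C₀, β (u * c : C₀) * γ (u * c : C₀)⁻¹ :=
      (Equiv.sum_comp (Equiv.mulLeft u) (fun c : C₀ => β c * γ c⁻¹)).symm
    have h3 : (∑ c : C₀, β c * γ c⁻¹) * (β 1 * γ 1) = (∑ c : C₀, β c * γ c⁻¹) * (β u * γ u⁻¹) := by
      conv_lhs => rw [h2]
      rw [Finset.sum_mul, Finset.sum_mul]
      refine Finset.sum_congr rfl (fun c _ => ?_)
      have h4 := irr_central_scalar hβ (u : B) hu (c : B)
      have h5 := irr_central_scalar hγ u⁻¹ huC' c⁻¹
      have h6 : (u * c : C₀)⁻¹ = u⁻¹ * c⁻¹ := by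
        rw [mul_inv_rev]
        exact (huC' _).symm
      rw [h6]
      have h7 : β ((u * c : C₀) : B) = β ((u : B) * c) := rfl
      rw [h7]
      calc β ((u : B) * c) * γ (u⁻¹ * c⁻¹) * (β 1 * γ 1)
          = (β ((u : B) * c) * β 1) * (γ (u⁻¹ * c⁻¹) * γ 1) := by ring
        _ = (β (u : B) * β (c : B)) * (γ u⁻¹ * γ c⁻¹) := by rw [h4, h5]
        _ = _ := by ring
    rw [mul_assoc, mul_assoc, h3]
  have h2 := mul_left_cancel₀ h h1
  have h3 := irr_central_scalar hγ u huC u⁻¹
  rw [mul_inv_cancel] at h3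
  apply mul_right_cancel₀ hγ1
  calc β u * γ 1 * γ 1 = β u * (γ 1 * γ 1) := by ring
    _ = β u * (γ u * γ u⁻¹) := by rw [h3]
    _ = γ u * (β u * γ u⁻¹) := by ring
    _ = γ u * (β 1 * γ 1) := by rw [h2]
    _ = γ u * β 1 * γ 1 := by ring

end Generic

end Cfsg.Agent.Lib.Char.IsaacsE
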