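import Mathlib
import Cfsg.Agent.Lib.Char.IsaacsE
import Cfsg.Agent.Lib.Char.DetExt
import Cfsg.Agent.Lib.Char.ExtSplit

/-!
# The group of lifts of a projective representation

`L` is normalised by `G`, `ρ` is an irreducible representation of `L` and `T` is the group of all
pairs `(g, A)` with `A` inducing on `ρ(L)` the conjugation by `g`, with a bound on the determinant.
-/

set_option autoImplicit false
set_option linter.style.longLine false
set_option linter.unusedSectionVars false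
set_option linter.unusedVariables false
set_option linter.style.haveILetI false

namespace Cfsg.Agent.Lib.Char.IsaacsF

open Cfsg Module Cfsg.Agent.Lib.Char.Basic Cfsg.Agent.Lib.Char.Ortho Cfsg.Agent.Lib.Char.Clifford
  Cfsg.Agent.Lib.Char.CliffordCorr Cfsg.Agent.Lib.Char.DetExt Cfsg.Agent.Lib.Char.IsaacsE
open scoped ComplexConjugate

universe u

section SchurSum

variable {L : Type u} [Group L] [Fintype L] {n : ℕ} (ρ : Representation ℂ L (Fin n → ℂ)) [hρ : ρ.IsIrreducible]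

theorem trace_eq_matrix (f : (Fin n → ℂ) →ₗ[ℂ] (Fin n → ℂ)) :
    LinearMap.trace ℂ _ f = Matrix.trace (LinearMap.toMatrix' f) := by
  rw [LinearMap.trace_eq_matrix_trace ℂ (Pi.basisFun ℂ (Fin n)) f, LinearMap.toMatrix_eq_toMatrix']

/-- Matrix coefficients. -/
theorem sum_coeff (i j p q : Fin n) :
    ∑ l : L, (LinearMap.toMatrix' (ρ l)) p i * (LinearMap.toMatrix' (ρ l⁻¹)) j q =
      if i = j ∧ p = q then (Nat.card L : ℂ) / n else 0 := by
  classical
  set T : (Fin n → ℂ) →ₗ[ℂ] (Fin n → ℂ) := Matrix.toLin' (Matrix.single i j (1 : ℂ)) with hT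
  set Av : (Fin n → ℂ) →ₗ[ℂ] (Fin n → ℂ) := ∑ l : L, ρ l ∘ₗ T ∘ₗ ρ l⁻¹ with hAv
  have hmul : ∀ a b : L, ρ a ∘ₗ ρ b = ρ (a * b) := by
    intro a b
    rw [map_mul]
    rfl
  have hcomm : ∀ g, Av ∘ₗ ρ g = ρ g ∘ₗ Av := by
    intro g
    refine LinearMap.ext (fun v => ?_)
    simp only [hAv, LinearMap.comp_apply, LinearMap.sum_apply, map_sum]
    refine (Equiv.sum_comp (Equiv.mulLeft g) (fun l => ρ l (T (ρ l⁻¹ (ρ g v))))).symm.trans ?_
    refine Finset.sum_congr rfl (fun l _ => ?_)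
    simp only [Equiv.coe_mulLeft, LinearMap.comp_apply]
    have e1 : ∀ x, ρ (g * l) x = ρ g (ρ l x) := fun x => by rw [map_mul]; rfl
    have e2 : (g * l)⁻¹ = l⁻¹ * g⁻¹ := by group
    have e3 : ∀ x, ρ (l⁻¹ * g⁻¹) x = ρ l⁻¹ (ρ g⁻¹ x) := fun x => by rw [map_mul]; rfl
    have e4 : ∀ x, ρ g⁻¹ (ρ g x) = x := fun x => by
      rw [← Module.End.mul_apply, ← map_mul, inv_mul_cancel, map_one]
      rfl
    rw [e1, e2, e3, e4]
  obtain ⟨a, ha⟩ := Cfsg.Agent.Lib.Char.Integrality.exists_smul_id_of_commute ρ Av hcomm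
  have hn : (n : ℂ) ≠ 0 := by
    have := Cfsg.Agent.Lib.Char.Integrality.finrank_ne_zero_of_isIrreducible ρ
    simpa using this
  have htr : LinearMap.trace ℂ _ Av = (Nat.card L : ℂ) * Matrix.trace (Matrix.single i j (1 : ℂ)) := by
    rw [hAv, map_sum]
    have h2 : ∀ l : L, LinearMap.trace ℂ _ (ρ l ∘ₗ T ∘ₗ ρ l⁻¹) = Matrix.trace (Matrix.single i j (1 : ℂ)) := by
      intro l
      rw [LinearMap.trace_comp_comm', LinearMap.comp_assoc]
      have h3 : ρ l⁻¹ ∘ₗ ρ l = LinearMap.id := by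
        rw [hmul, inv_mul_cancel, map_one]
        rfl
      rw [h3, LinearMap.comp_id, hT, Matrix.trace_toLin'_eq]
    rw [Finset.sum_congr rfl (fun l _ => h2 l), Finset.sum_const, Finset.card_univ, nsmul_eq_mul,
      Nat.card_eq_fintype_card]
  have ha2 : a = (Nat.card L : ℂ) / n * Matrix.trace (Matrix.single i j (1 : ℂ)) := by
    rw [ha] at htr
    simp only [map_smul, LinearMap.trace_id, smul_eq_mul, finrank_fin_fun] at htr
    rw [div_mul_eq_mul_div, eq_div_iff hn, ← htr]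
  have hentry : LinearMap.toMatrix' Av p q = LinearMap.toMatrix' (a • (LinearMap.id : (Fin n → ℂ) →ₗ[ℂ] (Fin n → ℂ))) p q := by
    rw [ha]
  have hL : LinearMap.toMatrix' Av p q = ∑ l : L, (LinearMap.toMatrix' (ρ l)) p i * (LinearMap.toMatrix' (ρ l⁻¹)) j q := by
    rw [hAv, map_sum, Matrix.sum_apply]
    refine Finset.sum_congr rfl (fun l _ => ?_)
    rw [LinearMap.toMatrix'_comp, LinearMap.toMatrix'_comp, hT, LinearMap.toMatrix'_toLin', Matrix.mul_apply,
      Finset.sum_eq_single i]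
    · rw [Matrix.single_mul_apply_same, one_mul]
    · intro k _ hk
      rw [Matrix.single_mul_apply_of_ne _ _ _ _ _ hk, mul_zero]
    · intro h
      exact absurd (Finset.mem_univ _) h
  rw [← hL, hentry, ha2]
  have htrace : Matrix.trace (Matrix.single i j (1 : ℂ)) = if i = j then 1 else 0 := by
    by_cases hij : i = j
    · subst hij
      rw [Matrix.trace_single_eq_same, if_pos rfl]
    · rw [Matrix.trace_single_eq_of_ne _ _ _ hij, if_neg hij]
  rw [htrace]
  simp only [map_smul, LinearMap.toMatrix'_id, Matrix.smul_apply, Matrix.one_apply, smul_eq_mul]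
  by_cases hij : i = j <;> by_cases hpq : p = q <;> simp [hij, hpq]

/-- The orthogonality relation. -/
theorem schur_sum (A B : (Fin n → ℂ) →ₗ[ℂ] (Fin n → ℂ)) :
    ∑ l : L, LinearMap.trace ℂ _ (A ∘ₗ ρ l) * LinearMap.trace ℂ _ (ρ l⁻¹ ∘ₗ B) =
      (Nat.card L : ℂ) / n * LinearMap.trace ℂ _ (A ∘ₗ B) := by
  classical
  simp only [trace_eq_matrix, LinearMap.toMatrix'_comp]
  set X := LinearMap.toMatrix' A
  set Z := LinearMap.toMatrix' B
  have h1 : ∀ l : L, Matrix.trace (X * LinearMap.toMatrix' (ρ l)) * Matrix.trace (LinearMap.toMatrix' (ρ l⁻¹) * Z) =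
      ∑ i, ∑ p, ∑ j, ∑ q, X i p * Z q j * ((LinearMap.toMatrix' (ρ l)) p i * (LinearMap.toMatrix' (ρ l⁻¹)) j q) := by
    intro l
    simp only [Matrix.trace, Matrix.diag, Matrix.mul_apply]
    rw [Finset.sum_mul]
    refine Finset.sum_congr rfl (fun i _ => ?_)
    rw [Finset.sum_mul]
    refine Finset.sum_congr rfl (fun p _ => ?_)
    rw [Finset.mul_sum]
    refine Finset.sum_congr rfl (fun j _ => ?_)
    rw [Finset.mul_sum]
    refine Finset.sum_congr rfl (fun q _ => ?_)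
    ring
  rw [Finset.sum_congr rfl (fun l _ => h1 l)]
  have h2 : ∑ l : L, ∑ i, ∑ p, ∑ j, ∑ q, X i p * Z q j * ((LinearMap.toMatrix' (ρ l)) p i * (LinearMap.toMatrix' (ρ l⁻¹)) j q) =
      ∑ i, ∑ p, ∑ j, ∑ q, X i p * Z q j * ∑ l : L, ((LinearMap.toMatrix' (ρ l)) p i * (LinearMap.toMatrix' (ρ l⁻¹)) j q) := by
    simp only [Finset.mul_sum]
    rw [Finset.sum_comm]
    refine Finset.sum_congr rfl (fun i _ => ?_)
    rw [Finset.sum_comm]
    refine Finset.sum_congr rfl (fun p _ => ?_)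
    rw [Finset.sum_comm]
    refine Finset.sum_congr rfl (fun j _ => ?_)
    rw [Finset.sum_comm]
  rw [h2]
  simp only [sum_coeff]
  simp only [Matrix.trace, Matrix.diag, Matrix.mul_apply, Finset.mul_sum]
  refine Finset.sum_congr rfl (fun i _ => Finset.sum_congr rfl (fun p _ => ?_))
  rw [Finset.sum_eq_single i, Finset.sum_eq_single p]
  · rw [if_pos ⟨rfl, rfl⟩]
    ring
  · intro q _ hq
    have : ¬ (i = i ∧ p = q) := fun h => hq h.2.symm
    rw [if_neg this, mul_zero]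
  · intro h
    exact absurd (Finset.mem_univ _) h
  · intro j _ hj
    refine Finset.sum_eq_zero (fun q _ => ?_)
    have : ¬ (i = j ∧ p = q) := fun h => hj h.1.symm
    rw [if_neg this, mul_zero]
  · intro h
    exact absurd (Finset.mem_univ _) h

end SchurSum

/-- The data of a projective lift: an irreducible representation of a subgroup `L` normalised by
`G`, with character invariant under `G`. -/
structure LD (Γ : Type u) [Group Γ] where
  G : Subgroup Γ
  L : Subgroup Γ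
  n : ℕ
  ρ : Representation ℂ L (Fin n → ℂ)
  hirr : ρ.IsIrreducible
  hLG : L ≤ G
  hLn : ∀ g ∈ G, ∀ l ∈ L, g * l * g⁻¹ ∈ L
  hinv : ∀ g ∈ G, ∀ l l' : L, (l' : Γ) = g * l * g⁻¹ → ρ.character l' = ρ.character l

namespace LD

variable {Γ : Type u} [Group Γ] (D : LD Γ)

instance : D.ρ.IsIrreducible := D.hirr

/-- The group of units. -/
abbrev U := (Module.End ℂ (Fin D.n → ℂ))ˣ

/-- `ρ` with values in units. -/
noncomputable abbrev R : D.L →* D.U := MonoidHom.toHomUnits D.ρ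

/-- `A` induces on `ρ(L)` the conjugation by `x`. -/
def Tw (x : Γ) (A : D.U) : Prop := ∀ l l' : D.L, (l' : Γ) = x * l * x⁻¹ → A * D.R l = D.R l' * A

theorem Tw.one : D.Tw 1 1 := by
  intro l l' h
  have : l' = l := Subtype.ext (by simpa using h)
  rw [this]
  group

variable {D}

theorem Tw.mul {x y : Γ} {A B : D.U} (hx : D.Tw x A) (hy : D.Tw y B) (hyn : ∀ l ∈ D.L, y * l * y⁻¹ ∈ D.L) :
    D.Tw (x * y) (A * B) := by
  intro l l' h
  have e1 := hy l ⟨y * l * y⁻¹, hyn l l.2⟩ rfl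
  have e2 := hx ⟨y * l * y⁻¹, hyn l l.2⟩ l' (by rw [h]; simp only; group)
  generalize (⟨y * l * y⁻¹, hyn l l.2⟩ : D.L) = l₂ at e1 e2
  calc A * B * D.R l = A * (B * D.R l) := by group
    _ = A * (D.R l₂ * B) := by rw [e1]
    _ = (A * D.R l₂) * B := by group
    _ = D.R l' * A * B := by rw [e2]
    _ = _ := by group

theorem Tw.inv {x : Γ} {A : D.U} (hx : D.Tw x A) (hxn : ∀ l ∈ D.L, x⁻¹ * l * x ∈ D.L) :
    D.Tw x⁻¹ A⁻¹ := by
  intro l l' h
  have e := hx l' l (by rw [h]; group)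
  calc A⁻¹ * D.R l = A⁻¹ * (D.R l * A) * A⁻¹ := by group
    _ = A⁻¹ * (A * D.R l') * A⁻¹ := by rw [e]
    _ = _ := by group

theorem Tw.of_R (l₀ : D.L) : D.Tw (l₀ : Γ) (D.R l₀) := by
  intro l l' h
  have e : l' = l₀ * l * l₀⁻¹ := Subtype.ext (by rw [h]; rfl)
  rw [e, map_mul, map_mul, map_inv]
  group

theorem Tw.scalar {x : Γ} {A : D.U} (hx : D.Tw x A) (c : ℂˣ) : D.Tw x (A * scalarU c) := by
  intro l l' h
  have e := hx l l' h
  have e2 := (scalarU_comm c (D.R l)).eq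
  calc A * scalarU c * D.R l = A * (scalarU c * D.R l) := by group
    _ = A * (D.R l * scalarU c) := by rw [e2]
    _ = (A * D.R l) * scalarU c := by group
    _ = _ := by rw [e]; group

variable (D)

variable [Finite Γ]

/-- A unit commuting with the representation is scalar. -/
theorem exists_scalar_of_commute (T : D.U) (h : ∀ n : D.L, T * D.R n = D.R n * T) :
    ∃ c : ℂˣ, T = scalarU c := by
  have hcomm : ∀ n : D.L, (T : (Fin D.n → ℂ) →ₗ[ℂ] (Fin D.n → ℂ)) ∘ₗ D.ρ n = D.ρ n ∘ₗ (T : (Fin D.n → ℂ) →ₗ[ℂ] (Fin D.n → ℂ)) := by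
    intro n
    have := congrArg (fun u : D.U => (u : Module.End ℂ (Fin D.n → ℂ))) (h n)
    exact this
  obtain ⟨a, ha⟩ := Cfsg.Agent.Lib.Char.Integrality.exists_smul_id_of_commute D.ρ _ hcomm
  have hV := Cfsg.Agent.Lib.Char.Integrality.nontrivial_of_isIrreducible D.ρ
  have ha0 : a ≠ 0 := by
    rintro rfl
    have h0 : ((T : Module.End ℂ (Fin D.n → ℂ))) = 0 := by simpa using ha
    exact T.ne_zero h0
  refine ⟨Units.mk0 a ha0, ?_⟩
  apply Units.ext
  rw [coe_scalarU]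
  simpa using ha

/-- Intertwiners of the same element differ by a scalar. -/
theorem exists_scalar_of_tw {x : Γ} {A B : D.U} (hA : D.Tw x A) (hB : D.Tw x B)
    (hx : ∀ l ∈ D.L, x * l * x⁻¹ ∈ D.L) : ∃ c : ℂˣ, B = A * scalarU c := by
  have hcomm : ∀ l : D.L, (A⁻¹ * B) * D.R l = D.R l * (A⁻¹ * B) := by
    intro l
    have e1 := hA l ⟨x * l * x⁻¹, hx l l.2⟩ rfl
    have e2 := hB l ⟨x * l * x⁻¹, hx l l.2⟩ rfl
    have e3 : D.R l * A⁻¹ = A⁻¹ * D.R ⟨x * l * x⁻¹, hx l l.2⟩ := by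
      calc D.R l * A⁻¹ = A⁻¹ * (A * D.R l) * A⁻¹ := by group
        _ = A⁻¹ * (D.R ⟨x * l * x⁻¹, hx l l.2⟩ * A) * A⁻¹ := by rw [e1]
        _ = _ := by group
    calc (A⁻¹ * B) * D.R l = A⁻¹ * (B * D.R l) := by group
      _ = A⁻¹ * (D.R ⟨x * l * x⁻¹, hx l l.2⟩ * B) := by rw [e2]
      _ = (A⁻¹ * D.R ⟨x * l * x⁻¹, hx l l.2⟩) * B := by group
      _ = (D.R l * A⁻¹) * B := by rw [e3]
      _ = _ := by group
  obtain ⟨c, hc⟩ := D.exists_scalar_of_commute (A⁻¹ * B) hcomm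
  refine ⟨c, ?_⟩
  rw [← hc]
  group

/-- Existence of intertwiners of determinant one. -/
theorem exists_tw (x : Γ) (hx : ∀ l ∈ D.L, x * l * x⁻¹ ∈ D.L) (hx' : ∀ l ∈ D.L, x⁻¹ * l * x ∈ D.L)
    (hinv : ∀ l l' : D.L, (l' : Γ) = x * l * x⁻¹ → D.ρ.character l' = D.ρ.character l) :
    ∃ A : D.U, D.Tw x A ∧ detU A = 1 := by
  let c : D.L →* D.L :=
    { toFun := fun l => ⟨x * l * x⁻¹, hx l l.2⟩
      map_one' := by
        apply Subtype.ext
        simp
      map_mul' := by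
        intro a b
        apply Subtype.ext
        simp only [Subgroup.coe_mul]
        group }
  have hcs : Function.Surjective c := by
    intro l
    refine ⟨⟨x⁻¹ * l * x, hx' l l.2⟩, ?_⟩
    apply Subtype.ext
    show x * (x⁻¹ * l * x) * x⁻¹ = l
    group
  let σ : Representation ℂ D.L (Fin D.n → ℂ) := D.ρ.comp c
  haveI hσ : σ.IsIrreducible :=
    Cfsg.Agent.Lib.Char.CyclicExt.isIrreducible_comp_surjective D.ρ c hcs
  have hchar : D.ρ.character = σ.character := by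
    funext l
    change D.ρ.character l = D.ρ.character (c l)
    rw [hinv l (c l) rfl]
  obtain ⟨E⟩ := Cfsg.Agent.Lib.Char.CyclicExt.nonempty_equiv_of_character_eq D.ρ σ hchar
  let T₀ : D.U := LinearMap.GeneralLinearGroup.ofLinearEquiv E.toLinearEquiv
  have hT₀ : D.Tw x T₀ := by
    intro l l' h
    have hl' : l' = c l := Subtype.ext h
    subst hl'
    apply Units.ext
    apply LinearMap.ext
    intro v
    have h1 := Representation.IntertwiningMap.isIntertwining D.ρ σ E.toIntertwiningMap l v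
    exact h1
  have hd : finrank ℂ (Fin D.n → ℂ) ≠ 0 := Cfsg.Agent.Lib.Char.Integrality.finrank_ne_zero_of_isIrreducible D.ρ
  obtain ⟨a, ha⟩ := IsAlgClosed.exists_pow_nat_eq (((detU T₀)⁻¹ : ℂˣ) : ℂ) (Nat.pos_of_ne_zero hd)
  have ha0 : a ≠ 0 := by
    rintro rfl
    rw [zero_pow hd] at ha
    exact (Units.ne_zero _) ha.symm
  let cu : ℂˣ := Units.mk0 a ha0
  refine ⟨T₀ * scalarU cu, Tw.scalar hT₀ cu, ?_⟩
  rw [map_mul, detU_scalarU]
  have h1 : cu ^ finrank ℂ (Fin D.n → ℂ) = (detU T₀)⁻¹ := by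
    apply Units.ext
    simpa [cu] using ha
  rw [h1]
  simp

/-- The group of lifts. -/
def T : Subgroup (Γ × D.U) where
  carrier := {p | p.1 ∈ D.G ∧ D.Tw p.1 p.2 ∧ detU p.2 ^ Nat.card D.L = 1}
  mul_mem' := by
    rintro ⟨a, A⟩ ⟨b, B⟩ ⟨h1, h2, h3⟩ ⟨h1', h2', h3'⟩
    refine ⟨D.G.mul_mem h1 h1', Tw.mul h2 h2' (D.hLn b h1'), ?_⟩
    simp only [Prod.snd_mul, map_mul, mul_pow]
    simp only at h3 h3'
    rw [h3, h3', one_mul]
  one_mem' := ⟨D.G.one_mem, Tw.one D, by simp⟩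
  inv_mem' := by
    rintro ⟨a, A⟩ ⟨h1, h2, h3⟩
    refine ⟨D.G.inv_mem h1, Tw.inv h2 (fun l hl => ?_), ?_⟩
    · have := D.hLn a⁻¹ (D.G.inv_mem h1) l hl
      simpa using this
    · simp only [Prod.snd_inv, map_inv, inv_pow]
      simp only at h3
      rw [h3, inv_one]

theorem mem_T (p : Γ × D.U) : p ∈ D.T ↔ p.1 ∈ D.G ∧ D.Tw p.1 p.2 ∧ detU p.2 ^ Nat.card D.L = 1 := Iff.rfl

/-- The first projection to `G`. -/
def fstG : D.T →* D.G where
  toFun p := ⟨p.1.1, p.2.1⟩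
  map_one' := rfl
  map_mul' _ _ := rfl

@[simp] theorem coe_fstG (p : D.T) : (D.fstG p : Γ) = p.1.1 := rfl

/-- The first projection to the ambient group. -/
def fstΓ : D.T →* Γ := (MonoidHom.fst _ _).comp D.T.subtype

@[simp] theorem fstΓ_apply (p : D.T) : D.fstΓ p = p.1.1 := rfl

theorem fstG_surjective : Function.Surjective D.fstG := by
  rintro ⟨g, hg⟩
  obtain ⟨A, hA, hd⟩ := D.exists_tw g (D.hLn g hg) (fun l hl => by
    have := D.hLn g⁻¹ (D.G.inv_mem hg) l hl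
    simpa using this) (D.hinv g hg)
  exact ⟨⟨(g, A), hg, hA, by simp [hd]⟩, rfl⟩

/-- Every element of `G` has a lift. -/
theorem exists_lift (g : Γ) (hg : g ∈ D.G) : ∃ p : D.T, p.1.1 = g := by
  obtain ⟨p, hp⟩ := D.fstG_surjective ⟨g, hg⟩
  exact ⟨p, congrArg Subtype.val hp⟩

/-- The copy of `L`. -/
noncomputable def lt : D.L →* D.T where
  toFun l := ⟨((l : Γ), D.R l), D.hLG l.2, Tw.of_R l, by
    rw [← map_pow, ← map_pow, pow_card_eq_one', map_one, map_one]⟩
  map_one' := by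
    apply Subtype.ext
    apply Prod.ext
    · rfl
    · exact map_one _
  map_mul' a b := by
    apply Subtype.ext
    apply Prod.ext
    · rfl
    · exact map_mul _ _ _

@[simp] theorem lt_fst (l : D.L) : (D.lt l).1.1 = l := rfl
@[simp] theorem lt_snd (l : D.L) : (D.lt l).1.2 = D.R l := rfl

theorem lt_injective : Function.Injective D.lt := by
  intro a b h
  exact Subtype.ext (congrArg (fun p : D.T => p.1.1) h)

/-- The copy of `L` as a subgroup. -/
noncomputable def Lt : Subgroup D.T := D.lt.range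

theorem mem_Lt (p : D.T) : p ∈ D.Lt ↔ ∃ l, D.lt l = p := Iff.rfl

instance : D.Lt.Normal := by
  refine ⟨?_⟩
  rintro _ ⟨l, rfl⟩ x
  refine ⟨⟨x.1.1 * l * x.1.1⁻¹, D.hLn _ x.2.1 _ l.2⟩, ?_⟩
  apply Subtype.ext
  apply Prod.ext
  · rfl
  · have e := x.2.2.1 l ⟨x.1.1 * l * x.1.1⁻¹, D.hLn _ x.2.1 _ l.2⟩ rfl
    show D.R _ = x.1.2 * D.R l * x.1.2⁻¹
    rw [e]
    group

/-- The representation on the coordinate space. -/
noncomputable def rep : Representation ℂ D.T (Fin D.n → ℂ) :=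
  (Units.coeHom _).comp ((MonoidHom.snd _ _).comp D.T.subtype)

/-- The trace. -/
noncomputable def tr (p : D.T) : ℂ := LinearMap.trace ℂ _ (p.1.2 : Module.End ℂ (Fin D.n → ℂ))

theorem isCharacter_tr : IsCharacter D.T D.tr := ⟨D.n, D.rep, rfl⟩

theorem tr_lt (l : D.L) : D.tr (D.lt l) = D.ρ.character l := rfl

/-- Elements above the identity are scalars. -/
theorem exists_scalar_of_fst (p : D.T) (hp : p.1.1 = 1) :
    ∃ c : ℂˣ, p.1.2 = scalarU c ∧ c ^ (D.n * Nat.card D.L) = 1 := by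
  have h1 : D.Tw 1 p.1.2 := by
    have := p.2.2.1
    rwa [hp] at this
  obtain ⟨c, hc⟩ := D.exists_scalar_of_tw (Tw.one D) h1 (fun l hl => by simpa using hl)
  rw [one_mul] at hc
  refine ⟨c, hc, ?_⟩
  have h3 := p.2.2.2
  rw [hc, detU_scalarU, finrank_fin_fun, ← pow_mul] at h3
  exact h3

/-- The scalars, as a homomorphism. -/
noncomputable def scal : rootsOfUnity (D.n * Nat.card D.L) ℂ →* D.T where
  toFun c := ⟨((1 : Γ), scalarU (c : ℂˣ)), D.G.one_mem, by
      have h := Tw.scalar (Tw.one D) (c : ℂˣ)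
      rwa [one_mul] at h, by
      rw [detU_scalarU, finrank_fin_fun, ← pow_mul]
      exact (mem_rootsOfUnity _ _).1 c.2⟩
  map_one' := by
    apply Subtype.ext
    apply Prod.ext
    · rfl
    · exact Cfsg.Agent.Lib.Char.ExtSplit.scalarU_one
  map_mul' a b := by
    apply Subtype.ext
    apply Prod.ext
    · simp
    · exact Cfsg.Agent.Lib.Char.ExtSplit.scalarU_mul _ _

@[simp] theorem scal_fst (c) : (D.scal c).1.1 = 1 := rfl
@[simp] theorem scal_snd (c) : (D.scal c).1.2 = scalarU (c : ℂˣ) := rfl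

theorem scal_central (c) (p : D.T) : D.scal c * p = p * D.scal c := by
  apply Subtype.ext
  apply Prod.ext
  · simp
  · exact scalarU_comm _ _

theorem exists_scal_of_fst (p : D.T) (hp : p.1.1 = 1) : ∃ c, D.scal c = p := by
  obtain ⟨c, hc, hc2⟩ := D.exists_scalar_of_fst p hp
  refine ⟨⟨c, (mem_rootsOfUnity _ _).2 hc2⟩, ?_⟩
  apply Subtype.ext
  apply Prod.ext
  · exact hp.symm
  · exact hc.symm

instance : NeZero (D.n * Nat.card D.L) := by
  refine ⟨mul_ne_zero ?_ Nat.card_pos.ne'⟩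
  have := Cfsg.Agent.Lib.Char.Integrality.finrank_ne_zero_of_isIrreducible D.ρ
  simpa using this

/-- Finiteness of the group of lifts. -/
instance : Finite D.T := by
  choose s hs using D.fstG_surjective
  let f : D.G × rootsOfUnity (D.n * Nat.card D.L) ℂ → D.T := fun p => s p.1 * D.scal p.2
  refine Finite.of_surjective f ?_
  intro x
  have h1 : ((s (D.fstG x))⁻¹ * x).1.1 = 1 := by
    have := congrArg Subtype.val (hs (D.fstG x))
    show ((s (D.fstG x)).1.1)⁻¹ * x.1.1 = 1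
    have h2 : (s (D.fstG x)).1.1 = x.1.1 := this
    rw [h2]
    group
  obtain ⟨c, hc⟩ := D.exists_scal_of_fst _ h1
  refine ⟨(D.fstG x, c), ?_⟩
  show s (D.fstG x) * D.scal c = x
  rw [hc]
  group

noncomputable instance : Fintype D.T := Fintype.ofFinite _

/-- The order of the group of lifts. -/
theorem card_T_dvd : Nat.card D.T ∣ D.n * Nat.card D.L * Nat.card D.G := by
  haveI : Fintype D.G := Fintype.ofFinite _
  rw [card_eq_mul_ker D.fstG D.fstG_surjective]
  apply Nat.mul_dvd_mul_right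
  have h1 : D.fstG.ker ≤ D.scal.range := by
    intro p hp
    obtain ⟨c, hc⟩ := D.exists_scal_of_fst p (congrArg Subtype.val hp)
    exact ⟨c, hc⟩
  refine (Subgroup.card_dvd_of_le h1).trans ((Subgroup.card_range_dvd D.scal).trans ?_)
  rw [Complex.card_rootsOfUnity]

attribute [local instance] kerFintype

/-- The Schur condition for the trace. -/
theorem sch_of {Y B : Type u} [Group Y] [Group B] [Fintype Y] [Fintype B] (i : Y →* D.T) (b : Y →* B)
    (e : D.L ≃ b.ker) (he : ∀ l, i (e l) = D.lt l) : SchCond b (fun y => D.tr (i y)) := by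
  intro y
  have hn : (D.n : ℂ) ≠ 0 := by
    have := Cfsg.Agent.Lib.Char.Integrality.finrank_ne_zero_of_isIrreducible D.ρ
    simpa using this
  haveI : Fintype D.L := Fintype.ofFinite _
  set p : D.T := i y with hp
  have h1 : ∀ z : b.ker, D.tr (i (y * z)) * conj (D.tr (i (y * z))) =
      D.tr (p * i z) * D.tr (p * i z)⁻¹ := by
    intro z
    rw [map_mul, conj_of_isCharacter D.isCharacter_tr]
  have h2 : ∑ z : b.ker, D.tr (i (y * z)) * conj (D.tr (i (y * z))) =
      ∑ l : D.L, D.tr (p * D.lt l) * D.tr (p * D.lt l)⁻¹ := by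
    rw [Finset.sum_congr rfl (fun z _ => h1 z), ← Equiv.sum_comp e]
    refine Finset.sum_congr rfl (fun l _ => ?_)
    rw [he]
  have h3 : ∀ l : D.L, D.tr (p * D.lt l) * D.tr (p * D.lt l)⁻¹ =
      LinearMap.trace ℂ _ ((p.1.2 : Module.End ℂ (Fin D.n → ℂ)) ∘ₗ D.ρ l) *
        LinearMap.trace ℂ _ (D.ρ l⁻¹ ∘ₗ ((p.1.2)⁻¹ : D.U).1) := by
    intro l
    congr 1
  have h6 := schur_sum D.ρ (p.1.2 : Module.End ℂ (Fin D.n → ℂ)) ((p.1.2)⁻¹ : D.U).1
  have h7 : ((p.1.2 : Module.End ℂ (Fin D.n → ℂ)) ∘ₗ ((p.1.2)⁻¹ : D.U).1) = LinearMap.id := by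
    have := congrArg (fun u : D.U => (u : Module.End ℂ (Fin D.n → ℂ))) (mul_inv_cancel p.1.2)
    exact this
  rw [h7, LinearMap.trace_id, finrank_fin_fun] at h6
  rw [h2, Finset.sum_congr rfl (fun l _ => h3 l), h6, Nat.card_congr e.symm, div_mul_cancel₀ _ hn]

end LD

end Cfsg.Agent.Lib.Char.IsaacsF
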