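import Mathlib
import Cfsg.Agent.Lib.Char.IsaacsF

/-!
# Transfer of the central correspondence along the lifting
-/

set_option autoImplicit false
set_option linter.style.longLine false
set_option linter.unusedSectionVars false
set_option linter.unusedVariables false
set_option linter.style.haveILetI false

namespace Cfsg.Agent.Lib.Char.IsaacsG

open Cfsg Module Cfsg.Agent.Lib.Char.Basic Cfsg.Agent.Lib.Char.Ortho Cfsg.Agent.Lib.Char.Clifford
  Cfsg.Agent.Lib.Char.CliffordCorr Cfsg.Agent.Lib.Char.IsaacsE Cfsg.Agent.Lib.Char.GlaubRel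
  Cfsg.Agent.Lib.Char.IsaacsC Cfsg.Agent.Lib.Char.IsaacsD
open scoped ComplexConjugate

universe u v

attribute [local instance] kerFintype

section Transfer

variable {Y Y' E G J : Type u} {S : Type v} [Group Y] [Group Y'] [Group E] [Group G] [Group J] [Group S]
  [Fintype Y] [Fintype Y'] [Fintype E] [Fintype G] [Fintype J] [Fintype S]
  (C : Subgroup E) [Fintype C]
  (a : Y →* G) (b : Y →* E) (tr : Y → ℂ)
  (ι : Y' →* Y) (a' : Y' →* J) (b' : Y' →* C) (i : J →* G)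

/-- The multiplicities agree. -/
theorem mult_eq (ha' : Function.Surjective a') (hb' : Function.Surjective b')
    (hia : ∀ y, i (a' y) = a (ι y)) (hbb : ∀ y, (b' y : E) = b (ι y))
    (hS' : SchCond b' (fun y => tr (ι y)))
    (χ : G → ℂ) (β : E → ℂ) (hχβ : ∀ y, χ (a y) = tr y * β (b y))
    (ψ : J → ℂ) (γ : C → ℂ) (hψγ : ∀ y, ψ (a' y) = tr (ι y) * γ (b' y)) :
    classInner (fun j => χ (i j)) ψ = classInner (fun c : C => β c) γ := by
  rw [← classInner_comp_surj a' ha', ← classInner_tr b' hb' (fun y => tr (ι y)) hS']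
  congr 1
  · funext y
    rw [hia, hχβ, hbb]
  · funext y
    rw [hψγ]

/-- Constituents of the restriction lie over the same character. -/
theorem ov_of_constituent (ha' : Function.Surjective a') (hb' : Function.Surjective b')
    (hia : ∀ y, i (a' y) = a (ι y)) (hbb : ∀ y, (b' y : E) = b (ι y))
    (htr' : IsCharacter Y' (fun y => tr (ι y)))
    (hS' : SchCond b' (fun y => tr (ι y)))
    {χ : G → ℂ} (hχ : IsCharacter G χ) (β : E → ℂ) (hχβ : ∀ y, χ (a y) = tr y * β (b y))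
    {ψ : J → ℂ} (hψ : IsIrrCharacter J ψ) (h : classInner (fun j => χ (i j)) ψ ≠ 0) :
    ∃ γ : C → ℂ, IsIrrCharacter C γ ∧ ∀ y, ψ (a' y) = tr (ι y) * γ (b' y) := by
  classical
  apply lower_irr a' ha' b' hb' htr' hS' hψ
  -- the kernel and its character
  set Z : Subgroup Y' := b'.ker with hZ
  set ϑ : Z → ℂ := fun z => tr (ι z) with hϑ
  have hϑirr : IsIrrCharacter Z ϑ := by
    apply isIrrCharacter_of_classInner_self_eq_one
    · exact isCharacter_restrict htr' Z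
    · have h1 := hS' 1
      unfold classInner
      simp only [one_mul] at h1
      rw [h1]
      have : (Fintype.card Z : ℂ) ≠ 0 := Nat.cast_ne_zero.2 Fintype.card_ne_zero
      rw [Nat.card_eq_fintype_card]
      field_simp
  have hξ : IsIrrCharacter Y' (fun y => ψ (a' y)) := isIrrCharacter_comp_surjective hψ a' ha'
  have hξZ : IsCharacter Z (fun z : Z => ψ (a' z)) := isCharacter_restrict (isCharacter_of_isIrrCharacter hξ) Z
  have hξ1 : (fun z : Z => ψ (a' z)) 1 ≠ 0 := by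
    show ψ (a' (1 : Y')) ≠ 0
    rw [map_one]
    exact irr_apply_one_ne_zero hψ
  obtain ⟨ϑ', hϑ', hc⟩ := exists_irr_constituent hξZ hξ1
  have hf : IsCharacter Y' (fun y => χ (i (a' y))) := isCharacter_comp_hom hχ (i.comp a')
  have h1 : classInner (fun y => χ (i (a' y))) (fun y => ψ (a' y)) ≠ 0 := by
    have := classInner_comp_surj a' ha' (fun j => χ (i j)) ψ
    rw [this]
    exact h
  have h2 := constituent_trans Z hf hξ hϑ' h1 hc
  -- the restriction is a multiple of `ϑ`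
  have h3 : (fun z : Z => χ (i (a' z))) = β 1 • ϑ := by
    funext z
    have hz : b' (z : Y') = 1 := z.2
    have h4 : b (ι z) = 1 := by
      rw [← hbb, hz]
      rfl
    show χ (i (a' z)) = β 1 * tr (ι z)
    rw [hia, hχβ, h4]
    ring
  rw [h3, classInner_smul_left] at h2
  have h4 : classInner ϑ ϑ' ≠ 0 := right_ne_zero_of_mul h2
  have h5 : ϑ = ϑ' := by
    by_contra hne
    exact h4 (classInner_irr_of_ne hϑirr hϑ' hne)
  rw [← h5] at hc
  exact hc

end Transfer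

section Main

variable {Y Y' E G J : Type u} {S : Type v} [Group Y] [Group Y'] [Group E] [Group G] [Group J] [Group S]
  [Fintype Y] [Fintype Y'] [Fintype E] [Fintype G] [Fintype J] [Fintype S]

/-- **Transfer of the central correspondence.** -/
theorem transfer (σ : S →* MulAut E) (hodd : Odd (Nat.card E)) (hcop : (Nat.card E).Coprime (Fintype.card S))
    (K C : Subgroup E) [K.Normal] [Fintype K] [Fintype C]
    (hC : ∀ x, x ∈ C ↔ ∀ s, σ s x = x) (hKS : ∀ s, ∀ k ∈ K, σ s k ∈ K)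
    (hKC : ∀ g, ∃ k ∈ K, ∃ c ∈ C, g = k * c)
    (hU : ∀ u ∈ K, u ∈ C → ∀ g, u * g = g * u)
    (hcc : ∀ x ∈ K, ∀ y ∈ K, x * y * x⁻¹ * y⁻¹ ∈ C)
    (a : Y →* G) (ha : Function.Surjective a) (b : Y →* E) (hb : Function.Surjective b)
    (tr : Y → ℂ) (htr : IsCharacter Y tr) (hS : SchCond b tr)
    (ι : Y' →* Y) (a' : Y' →* J) (ha' : Function.Surjective a') (b' : Y' →* C) (hb' : Function.Surjective b')
    (i : J →* G) (hia : ∀ y, i (a' y) = a (ι y)) (hbb : ∀ y, (b' y : E) = b (ι y))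
    (hS' : SchCond b' (fun y => tr (ι y)))
    (hker : ∀ y, a y = 1 → b y ∈ C ∧ ∀ x, b y * x = x * b y)
    (hιr : ∀ y, a y = 1 → ∃ y', ι y' = y ∧ a' y' = 1)
    (c : S → G → G) (sg : S → Y → Y) (hσa : ∀ s y, a (sg s y) = c s (a y)) (hσb : ∀ s y, b (sg s y) = σ s (b y))
    (hσt : ∀ s y, tr (sg s y) = tr y) :
    (∀ χ : IrrCharacter G, (∀ s g, (χ : G → ℂ) (c s g) = (χ : G → ℂ) g) →
      (∃ β : E → ℂ, IsIrrCharacter E β ∧ ∀ y, (χ : G → ℂ) (a y) = tr y * β (b y)) →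
      ∃ ψ : IrrCharacter J, (∃ γ : C → ℂ, IsIrrCharacter C γ ∧ ∀ y, (ψ : J → ℂ) (a' y) = tr (ι y) * γ (b' y)) ∧
        PRel 2 (fun j => (χ : G → ℂ) (i j)) ψ) ∧
    (∀ χ χ' : IrrCharacter G, (∀ s g, (χ : G → ℂ) (c s g) = (χ : G → ℂ) g) →
      (∀ s g, (χ' : G → ℂ) (c s g) = (χ' : G → ℂ) g) →
      (∃ β : E → ℂ, IsIrrCharacter E β ∧ ∀ y, (χ : G → ℂ) (a y) = tr y * β (b y)) →
      (∃ β : E → ℂ, IsIrrCharacter E β ∧ ∀ y, (χ' : G → ℂ) (a y) = tr y * β (b y)) →
      ∀ ψ : IrrCharacter J, PRel 2 (fun j => (χ : G → ℂ) (i j)) ψ → PRel 2 (fun j => (χ' : G → ℂ) (i j)) ψ → χ = χ') ∧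
    (∀ ψ : IrrCharacter J, (∃ γ : C → ℂ, IsIrrCharacter C γ ∧ ∀ y, (ψ : J → ℂ) (a' y) = tr (ι y) * γ (b' y)) →
      ∃ χ : IrrCharacter G, (∀ s g, (χ : G → ℂ) (c s g) = (χ : G → ℂ) g) ∧
        (∃ β : E → ℂ, IsIrrCharacter E β ∧ ∀ y, (χ : G → ℂ) (a y) = tr y * β (b y)) ∧
        PRel 2 (fun j => (χ : G → ℂ) (i j)) ψ) := by
  classical
  obtain ⟨L1, L2, L3⟩ := level1 σ hodd hcop K C hC hKS hKC hU hcc
  have htr' : IsCharacter Y' (fun y => tr (ι y)) := isCharacter_comp_hom htr ι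
  -- invariance
  have inv_down : ∀ (χ : G → ℂ) (β : E → ℂ), IsIrrCharacter G χ → IsIrrCharacter E β →
      (∀ s g, χ (c s g) = χ g) → (∀ y, χ (a y) = tr y * β (b y)) → ∀ s g, β (σ s g) = β g := by
    intro χ β hχ hβ hinv hχβ s
    have hβs : IsIrrCharacter E (fun x => β (σ s x)) :=
      isIrrCharacter_comp_surjective hβ (σ s).toMonoidHom (σ s).surjective
    have h1 : (fun y => tr y * (fun x => β (σ s x)) (b y)) = (fun y => tr y * β (b y)) := by
      funext y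
      show tr y * β (σ s (b y)) = tr y * β (b y)
      rw [← hσb, ← hχβ, ← hσt s y, ← hχβ, hσa, hinv]
    have h2 := classInner_tr b hb tr hS (fun x => β (σ s x)) β
    rw [h1, classInner_tr b hb tr hS β β, classInner_irr_self hβ] at h2
    by_contra hne
    push Not at hne
    obtain ⟨g, hg⟩ := hne
    have h3 : (fun x => β (σ s x)) ≠ β := fun h => hg (congrFun h g)
    rw [classInner_irr_of_ne hβs hβ h3] at h2
    exact one_ne_zero h2
  have inv_up : ∀ (χ : G → ℂ) (β : E → ℂ), (∀ s g, β (σ s g) = β g) → (∀ y, χ (a y) = tr y * β (b y)) →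
      ∀ s g, χ (c s g) = χ g := by
    intro χ β hβ hχβ s g
    obtain ⟨y, rfl⟩ := ha g
    rw [← hσa, hχβ, hχβ, hσb, hσt, hβ]
  have hG1 : ∀ (χ : G → ℂ) (β : E → ℂ), (∀ y, χ (a y) = tr y * β (b y)) → ∀ y, a y = 1 → tr y * β (b y) = tr 1 * β 1 := by
    intro χ β hχβ y hy
    rw [← hχβ, hy]
    have := hχβ 1
    rwa [map_one, map_one] at this
  have gamma_unique : ∀ {γ₁ γ₂ : C → ℂ}, (fun y => tr (ι y) * γ₁ (b' y)) = (fun y => tr (ι y) * γ₂ (b' y)) →
      IsIrrCharacter C γ₁ → IsIrrCharacter C γ₂ → γ₁ = γ₂ := by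
    intro γ₁ γ₂ h hγ₁ hγ₂
    have h4 := classInner_tr b' hb' (fun y => tr (ι y)) hS' γ₁ γ₂
    rw [h, classInner_tr b' hb' (fun y => tr (ι y)) hS' γ₂ γ₂, classInner_irr_self hγ₂] at h4
    by_contra hne2
    rw [classInner_irr_of_ne hγ₁ hγ₂ hne2] at h4
    exact one_ne_zero h4
  -- `PRel` upstairs from `PRel` downstairs
  have up : ∀ (χ : IrrCharacter G) (β : E → ℂ), (∀ y, (χ : G → ℂ) (a y) = tr y * β (b y)) →
      ∀ (ψ : IrrCharacter J) (γ : IrrCharacter C), (∀ y, (ψ : J → ℂ) (a' y) = tr (ι y) * (γ : C → ℂ) (b' y)) →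
      PRel 2 (fun c : C => β c) γ → PRel 2 (fun j => (χ : G → ℂ) (i j)) ψ := by
    intro χ β hχβ ψ γ hψγ hrel
    obtain ⟨ε, hε, H⟩ := hrel
    refine ⟨ε, hε, fun ψ' => ?_⟩
    by_cases h0 : classInner (fun j => (χ : G → ℂ) (i j)) (ψ' : J → ℂ) = 0
    · by_cases hψ' : ψ' = ψ
      · subst hψ'
        obtain ⟨m, hm, hc⟩ := H γ
        rw [mult_eq C a b tr ι a' b' i ha' hb' hia hbb hS' _ β hχβ _ γ hψγ] at h0
        refine ⟨m, ?_, ?_⟩
        · rw [mult_eq C a b tr ι a' b' i ha' hb' hia hbb hS' _ β hχβ _ γ hψγ]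
          exact hm
        · rwa [if_pos rfl] at hc ⊢
      · refine ⟨0, by simpa using h0, ?_⟩
        rw [if_neg hψ']
        simp [Int.ModEq]
    · obtain ⟨γ', hγ', hψγ'⟩ := ov_of_constituent C a b tr ι a' b' i ha' hb' hia hbb htr' hS'
        (isCharacter_of_isIrrCharacter χ.2) β hχβ ψ'.2 h0
      obtain ⟨m, hm, hc⟩ := H ⟨γ', hγ'⟩
      refine ⟨m, ?_, ?_⟩
      · rw [mult_eq C a b tr ι a' b' i ha' hb' hia hbb hS' _ β hχβ _ γ' hψγ']
        exact hm
      · by_cases hψ' : ψ' = ψ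
        · subst hψ'
          have h5 : (fun y => tr (ι y) * γ' (b' y)) = (fun y => tr (ι y) * (γ : C → ℂ) (b' y)) := by
            funext y
            rw [← hψγ', hψγ]
          have : (⟨γ', hγ'⟩ : IrrCharacter C) = γ := Subtype.ext (gamma_unique h5 hγ' γ.2)
          rw [this, if_pos rfl] at hc
          rw [if_pos rfl]
          exact hc
        · have : (⟨γ', hγ'⟩ : IrrCharacter C) ≠ γ := by
            intro h
            apply hψ'
            have h1 : γ' = (γ : C → ℂ) := congrArg Subtype.val h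
            apply Subtype.ext
            funext j
            obtain ⟨y, rfl⟩ := ha' j
            rw [hψγ, hψγ', h1]
          rw [if_neg this] at hc
          rw [if_neg hψ']
          exact hc
  refine ⟨?_, ?_, ?_⟩
  · rintro χ hχ ⟨β, hβ, hχβ⟩
    have hβinv := inv_down χ β χ.2 hβ hχ hχβ
    obtain ⟨γ, hγ⟩ := L1 ⟨β, hβ⟩ hβinv
    have hγ0 : classInner (fun c : C => β c) (γ : C → ℂ) ≠ 0 := by
      obtain ⟨m, hm, hnd, -⟩ := hγ.exists_not_dvd Nat.prime_two
      rw [show classInner (fun c : C => β c) (γ : C → ℂ) = m from hm]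
      intro h0
      apply hnd
      have : m = 0 := by exact_mod_cast h0
      rw [this]
      exact dvd_zero _
    obtain ⟨ψ, hψ, hψγ⟩ := lift_irr a' ha' b' hb' htr' hS' γ.2 (by
      intro y hy
      have hay : a (ι y) = 1 := by rw [← hia, hy, map_one]
      have hz := (hker _ hay).2
      have h1 := central_of_constituent C hβ γ.2 (b' y) (by
        intro x
        rw [hbb]
        exact hz x) hγ0
      have h2 := hG1 χ β hχβ (ι y) hay
      have hβ1 := irr_apply_one_ne_zero hβ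
      simp only [map_one]
      apply mul_right_cancel₀ hβ1
      rw [hbb] at h1
      calc tr (ι y) * (γ : C → ℂ) (b' y) * β 1 = tr (ι y) * ((γ : C → ℂ) (b' y) * β 1) := by ring
        _ = tr (ι y) * (β (b (ι y)) * (γ : C → ℂ) 1) := by rw [h1]
        _ = (tr (ι y) * β (b (ι y))) * (γ : C → ℂ) 1 := by ring
        _ = tr 1 * β 1 * (γ : C → ℂ) 1 := by rw [h2]
        _ = tr 1 * (γ : C → ℂ) 1 * β 1 := by ring)
    refine ⟨⟨ψ, hψ⟩, ⟨γ, γ.2, hψγ⟩, ?_⟩
    exact up χ β hχβ ⟨ψ, hψ⟩ γ hψγ hγ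
  · rintro χ χ' hχ hχ' ⟨β, hβ, hχβ⟩ ⟨β', hβ', hχβ'⟩ ψ hrel hrel'
    have hβinv := inv_down χ β χ.2 hβ hχ hχβ
    have hβinv' := inv_down χ' β' χ'.2 hβ' hχ' hχβ'
    obtain ⟨m, hm, hnd, -⟩ := hrel.exists_not_dvd Nat.prime_two
    have hm0 : classInner (fun j => (χ : G → ℂ) (i j)) (ψ : J → ℂ) ≠ 0 := by
      rw [show classInner (fun j => (χ : G → ℂ) (i j)) (ψ : J → ℂ) = m from hm]
      intro h0
      apply hnd
      have : m = 0 := by exact_mod_cast h0
      rw [this]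
      exact dvd_zero _
    obtain ⟨m', hm', hnd', -⟩ := hrel'.exists_not_dvd Nat.prime_two
    obtain ⟨γ, hγ, hψγ⟩ := ov_of_constituent C a b tr ι a' b' i ha' hb' hia hbb htr' hS'
      (isCharacter_of_isIrrCharacter χ.2) β hχβ ψ.2 hm0
    obtain ⟨γ₀, hγ₀⟩ := L1 ⟨β, hβ⟩ hβinv
    obtain ⟨γ₁, hγ₁⟩ := L1 ⟨β', hβ'⟩ hβinv'
    have e1 : (⟨γ, hγ⟩ : IrrCharacter C) = γ₀ := hγ₀.eq_of_not_dvd (m := m) (by
      rw [← mult_eq C a b tr ι a' b' i ha' hb' hia hbb hS' _ β hχβ _ γ hψγ]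
      exact hm) hnd
    have e2 : (⟨γ, hγ⟩ : IrrCharacter C) = γ₁ := hγ₁.eq_of_not_dvd (m := m') (by
      rw [← mult_eq C a b tr ι a' b' i ha' hb' hia hbb hS' _ β' hχβ' _ γ hψγ]
      exact hm') hnd'
    rw [← e1] at hγ₀
    rw [← e2] at hγ₁
    have e3 := L2 ⟨β, hβ⟩ ⟨β', hβ'⟩ hβinv hβinv' _ hγ₀ hγ₁
    have e4 : β = β' := congrArg Subtype.val e3
    apply Subtype.ext
    funext g
    obtain ⟨y, rfl⟩ := ha g
    rw [hχβ, hχβ', e4]
  · rintro ψ ⟨γ, hγ, hψγ⟩
    obtain ⟨β, hβinv, hrel⟩ := L3 ⟨γ, hγ⟩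
    have hγ0 : classInner (fun c : C => (β : E → ℂ) c) γ ≠ 0 := by
      obtain ⟨m, hm, hnd, -⟩ := hrel.exists_not_dvd Nat.prime_two
      rw [show classInner (fun c : C => (β : E → ℂ) c) γ = m from hm]
      intro h0
      apply hnd
      have : m = 0 := by exact_mod_cast h0
      rw [this]
      exact dvd_zero _
    obtain ⟨χ, hχ, hχβ⟩ := lift_irr a ha b hb htr hS β.2 (by
      intro y hy
      obtain ⟨y', rfl, hy'⟩ := hιr y hy
      have hz := (hker _ hy).2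
      have h1 := central_of_constituent C β.2 hγ (b' y') (by
        intro x
        rw [hbb]
        exact hz x) hγ0
      have h2 := hψγ y'
      have h3 := hψγ 1
      rw [hy'] at h2
      rw [map_one, map_one, map_one] at h3
      rw [h3] at h2
      have hγ1 := irr_apply_one_ne_zero hγ
      apply mul_right_cancel₀ hγ1
      rw [hbb] at h1
      calc tr (ι y') * (β : E → ℂ) (b (ι y')) * γ 1 = tr (ι y') * ((β : E → ℂ) (b (ι y')) * γ 1) := by ring
        _ = (tr (ι y') * γ (b' y')) * (β : E → ℂ) 1 := by rw [h1]; ring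
        _ = (tr 1 * γ 1) * (β : E → ℂ) 1 := by rw [← h2]
        _ = _ := by ring)
    refine ⟨⟨χ, hχ⟩, inv_up χ β hβinv hχβ, ⟨β, β.2, hχβ⟩, ?_⟩
    exact up ⟨χ, hχ⟩ β hχβ ψ ⟨γ, hγ⟩ hψγ hrel

end Main

end Cfsg.Agent.Lib.Char.IsaacsG
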