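import Mathlib
import Cfsg.Agent.Lib.Char.IsaacsG

/-!
# The action of `S` on the group of lifts
-/

set_option autoImplicit false
set_option linter.style.longLine false
set_option linter.unusedSectionVars false
set_option linter.unusedVariables false
set_option linter.style.haveILetI false

namespace Cfsg.Agent.Lib.Char.IsaacsH

open Cfsg Module Cfsg.Agent.Lib.Char.Basic Cfsg.Agent.Lib.Char.Ortho Cfsg.Agent.Lib.Char.Clifford
  Cfsg.Agent.Lib.Char.CliffordCorr Cfsg.Agent.Lib.Char.IsaacsE Cfsg.Agent.Lib.Char.GlaubRel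
  Cfsg.Agent.Lib.Char.IsaacsF Cfsg.Agent.Lib.Char.IsaacsG Cfsg.Agent.Lib.Char.DetExt
open scoped ComplexConjugate

universe u

attribute [local instance] kerFintype

/-- The action data. -/
structure LS {Γ : Type u} [Group Γ] (D : LD Γ) where
  S : Subgroup Γ
  hSL : ∀ s ∈ S, ∀ l ∈ D.L, s * l * s⁻¹ ∈ D.L
  hSG : ∀ s ∈ S, ∀ g ∈ D.G, s * g * s⁻¹ ∈ D.G
  hinv : ∀ s ∈ S, ∀ l l' : D.L, (l' : Γ) = s * l * s⁻¹ → D.ρ.character l' = D.ρ.character l

namespace LS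

variable {Γ : Type u} [Group Γ] [Finite Γ] {D : LD Γ} (X : LS D)

theorem hSL' (s : X.S) (l : Γ) (hl : l ∈ D.L) : (s : Γ)⁻¹ * l * s ∈ D.L := by
  have := X.hSL _ (X.S.inv_mem s.2) l hl
  simpa using this

theorem exists_As (s : X.S) : ∃ A : D.U, D.Tw s A ∧ detU A = 1 :=
  D.exists_tw s (X.hSL s s.2) (X.hSL' s) (X.hinv s s.2)

/-- The chosen intertwiner. -/
noncomputable def As (s : X.S) : D.U := (X.exists_As s).choose

theorem As_tw (s : X.S) : D.Tw s (X.As s) := (X.exists_As s).choose_spec.1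

/-- Conjugation on the group of lifts. -/
noncomputable def conjT (s : X.S) : D.T →* D.T where
  toFun p := ⟨((s : Γ) * p.1.1 * (s : Γ)⁻¹, X.As s * p.1.2 * (X.As s)⁻¹), X.hSG s s.2 _ p.2.1,
    LD.Tw.mul (LD.Tw.mul (X.As_tw s) p.2.2.1 (D.hLn _ p.2.1)) (LD.Tw.inv (X.As_tw s) (X.hSL' s))
      (fun l hl => by simpa using X.hSL' s l hl), by
    have h1 := p.2.2.2
    rw [map_mul, map_mul, map_inv, mul_comm (detU (X.As s)), mul_assoc, mul_inv_cancel, mul_one]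
    exact h1⟩
  map_one' := by
    apply Subtype.ext
    apply Prod.ext
    · show (s : Γ) * 1 * (s : Γ)⁻¹ = 1
      group
    · show X.As s * 1 * (X.As s)⁻¹ = 1
      group
  map_mul' p q := by
    apply Subtype.ext
    apply Prod.ext
    · show (s : Γ) * (p.1.1 * q.1.1) * (s : Γ)⁻¹ = (s : Γ) * p.1.1 * (s : Γ)⁻¹ * ((s : Γ) * q.1.1 * (s : Γ)⁻¹)
      group
    · show X.As s * (p.1.2 * q.1.2) * (X.As s)⁻¹ = X.As s * p.1.2 * (X.As s)⁻¹ * (X.As s * q.1.2 * (X.As s)⁻¹)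
      group

@[simp] theorem conjT_fst (s : X.S) (p : D.T) : (X.conjT s p).1.1 = (s : Γ) * p.1.1 * (s : Γ)⁻¹ := rfl
@[simp] theorem conjT_snd (s : X.S) (p : D.T) : (X.conjT s p).1.2 = X.As s * p.1.2 * (X.As s)⁻¹ := rfl

theorem conj_scalar (A P : D.U) (c : ℂˣ) : (A * scalarU c) * P * (A * scalarU c)⁻¹ = A * P * A⁻¹ := by
  have h := (scalarU_comm c P).eq
  calc (A * scalarU c) * P * (A * scalarU c)⁻¹ = A * (scalarU c * P) * (scalarU c)⁻¹ * A⁻¹ := by group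
    _ = A * (P * scalarU c) * (scalarU c)⁻¹ * A⁻¹ := by rw [h]
    _ = _ := by group

theorem conjT_mul (s t : X.S) (p : D.T) : X.conjT (s * t) p = X.conjT s (X.conjT t p) := by
  apply Subtype.ext
  apply Prod.ext
  · show ((s * t : X.S) : Γ) * p.1.1 * ((s * t : X.S) : Γ)⁻¹ = (s : Γ) * ((t : Γ) * p.1.1 * (t : Γ)⁻¹) * (s : Γ)⁻¹
    rw [Subgroup.coe_mul]
    group
  · show X.As (s * t) * p.1.2 * (X.As (s * t))⁻¹ = X.As s * (X.As t * p.1.2 * (X.As t)⁻¹) * (X.As s)⁻¹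
    have h1 : D.Tw ((s * t : X.S) : Γ) (X.As s * X.As t) :=
      LD.Tw.mul (X.As_tw s) (X.As_tw t) (X.hSL t t.2)
    obtain ⟨c, hc⟩ := D.exists_scalar_of_tw h1 (X.As_tw (s * t)) (X.hSL _ (s * t).2)
    rw [hc, conj_scalar]
    group

theorem conjT_one (p : D.T) : X.conjT 1 p = p := by
  apply Subtype.ext
  apply Prod.ext
  · show ((1 : X.S) : Γ) * p.1.1 * ((1 : X.S) : Γ)⁻¹ = p.1.1
    rw [Subgroup.coe_one]
    group
  · show X.As 1 * p.1.2 * (X.As 1)⁻¹ = p.1.2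
    obtain ⟨c, hc⟩ := D.exists_scalar_of_tw (LD.Tw.one D) (X.As_tw 1) (by
      intro l hl
      simpa using hl)
    rw [hc]
    have := conj_scalar (D := D) 1 p.1.2 c
    simpa using this

/-- Conjugation as an automorphism. -/
noncomputable def sigT (s : X.S) : MulAut D.T :=
  { toFun := X.conjT s
    invFun := X.conjT s⁻¹
    left_inv := fun p => by rw [← conjT_mul, inv_mul_cancel, conjT_one]
    right_inv := fun p => by rw [← conjT_mul, mul_inv_cancel, conjT_one]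
    map_mul' := map_mul _ }

@[simp] theorem sigT_apply (s : X.S) (p : D.T) : X.sigT s p = X.conjT s p := rfl

theorem conjT_lt (s : X.S) (l : D.L) :
    X.conjT s (D.lt l) = D.lt ⟨(s : Γ) * l * (s : Γ)⁻¹, X.hSL s s.2 l l.2⟩ := by
  apply Subtype.ext
  apply Prod.ext
  · rfl
  · show X.As s * D.R l * (X.As s)⁻¹ = D.R ⟨(s : Γ) * l * (s : Γ)⁻¹, X.hSL s s.2 l l.2⟩
    rw [X.As_tw s l ⟨(s : Γ) * l * (s : Γ)⁻¹, X.hSL s s.2 l l.2⟩ rfl]
    group

theorem map_Lt (s : X.S) : D.Lt.map (X.sigT s).toMonoidHom = D.Lt := by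
  apply le_antisymm
  · rintro _ ⟨_, ⟨l, rfl⟩, rfl⟩
    exact ⟨_, (X.conjT_lt s l).symm⟩
  · rintro _ ⟨l, rfl⟩
    refine ⟨D.lt ⟨(s : Γ)⁻¹ * l * s, X.hSL' s l l.2⟩, ⟨_, rfl⟩, ?_⟩
    show X.conjT s _ = _
    rw [conjT_lt]
    congr 1
    apply Subtype.ext
    show (s : Γ) * ((s : Γ)⁻¹ * l * s) * (s : Γ)⁻¹ = l
    group

/-- The quotient group. -/
abbrev E (D : LD Γ) := D.T ⧸ D.Lt

/-- The quotient map. -/
noncomputable abbrev q (D : LD Γ) : D.T →* E D := QuotientGroup.mk' D.Lt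

theorem q_surjective (D : LD Γ) : Function.Surjective (q D) := QuotientGroup.mk'_surjective _

theorem q_eq_one_iff (p : D.T) : q D p = 1 ↔ ∃ l, D.lt l = p := by
  rw [QuotientGroup.mk'_apply, QuotientGroup.eq_one_iff]
  exact D.mem_Lt p

theorem q_lt (l : D.L) : q D (D.lt l) = 1 := (q_eq_one_iff _).2 ⟨l, rfl⟩

/-- The action on the quotient. -/
noncomputable def sigE : X.S →* MulAut (E D) :=
  MonoidHom.mk' (fun s => QuotientGroup.congr D.Lt D.Lt (X.sigT s) (X.map_Lt s)) (by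
    intro s t
    apply MulEquiv.ext
    intro x
    induction x using QuotientGroup.induction_on with
    | H p =>
      show ((X.conjT (s * t) p : D.T) : E D) = ((X.conjT s (X.conjT t p) : D.T) : E D)
      rw [conjT_mul])

theorem sigE_q (s : X.S) (p : D.T) : X.sigE s (q D p) = q D (X.conjT s p) := rfl

end LS

/-- The subgroup configuration. -/
structure LK {Γ : Type u} [Group Γ] {D : LD Γ} (X : LS D) where
  C : Subgroup Γ
  K : Subgroup Γ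
  H : Subgroup Γ
  hcop : (Nat.card D.G).Coprime (Nat.card X.S)
  hsolv : Group.IsSolvable D.G
  hodd : Odd (Nat.card D.G)
  hC : C = D.G ⊓ Subgroup.centralizer (X.S : Set Γ)
  hLK : D.L ≤ K
  hKG : K ≤ D.G
  hKn : ∀ g ∈ D.G, ∀ k ∈ K, g * k * g⁻¹ ∈ K
  hKS : ∀ s ∈ X.S, ∀ k ∈ K, s * k * s⁻¹ ∈ K
  hab : ∀ a ∈ K, ∀ b ∈ K, a * b * a⁻¹ * b⁻¹ ∈ D.L
  hGKC : K ⊔ C = D.G
  hH : H = D.L ⊔ C
  hKH : K ⊓ H ≤ D.L

namespace LK

open LS

variable {Γ : Type u} [Group Γ] [Finite Γ] {D : LD Γ} {X : LS D} (Z : LK X)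

theorem hCG : Z.C ≤ D.G := by
  rw [Z.hC]
  exact inf_le_left

theorem hLH : D.L ≤ Z.H := by
  rw [Z.hH]
  exact le_sup_left

theorem hCH : Z.C ≤ Z.H := by
  rw [Z.hH]
  exact le_sup_right

theorem hHG : Z.H ≤ D.G := by
  rw [Z.hH]
  exact sup_le D.hLG Z.hCG

theorem cent (s : X.S) (c : Γ) (hc : c ∈ Z.C) : (s : Γ) * c * (s : Γ)⁻¹ = c := by
  rw [Z.hC] at hc
  have h1 : c ∈ Subgroup.centralizer (X.S : Set Γ) := hc.2
  rw [Subgroup.mem_centralizer_iff] at h1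
  rw [h1 s s.2]
  group

omit [Finite Γ] in
theorem n_dvd' [Finite Γ] (D : LD Γ) : D.n ∣ Nat.card D.G := by
  have h1 := Cfsg.Agent.Lib.Char.Integrality.finrank_dvd_card D.ρ
  rw [finrank_fin_fun] at h1
  exact h1.trans (Subgroup.card_dvd_of_le D.hLG)

include Z in
theorem n_cop : D.n.Coprime (Nat.card X.S) := Nat.Coprime.coprime_dvd_left (n_dvd' D) Z.hcop

/-- An element above the fixed points is fixed. -/
theorem conjT_fix (s : X.S) (p : D.T) (hp : p.1.1 ∈ Z.C) : X.conjT s p = p := by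
  have hs := Z.cent s p.1.1 hp
  have htw : D.Tw p.1.1 (X.As s * p.1.2 * (X.As s)⁻¹) := by
    have := (X.conjT s p).2.2.1
    rwa [conjT_fst, hs, conjT_snd] at this
  obtain ⟨ζ, hζ⟩ := D.exists_scalar_of_tw p.2.2.1 htw (D.hLn _ (Z.hCG hp))
  have hdet : ζ ^ D.n = 1 := by
    have h1 := congrArg detU hζ
    rw [map_mul, map_mul, map_inv, map_mul, detU_scalarU, finrank_fin_fun, mul_comm (detU (X.As s)), mul_assoc,
      mul_inv_cancel, mul_one] at h1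
    exact mul_left_cancel (a := detU p.1.2) (by rw [← h1, mul_one])
  have hpow : ∀ k : ℕ, (X.conjT (s ^ k) p).1.2 = p.1.2 * scalarU (ζ ^ k) := by
    intro k
    induction k with
    | zero =>
      rw [pow_zero, conjT_one, pow_zero, Cfsg.Agent.Lib.Char.ExtSplit.scalarU_one, mul_one]
    | succ k ih =>
      rw [pow_succ', conjT_mul, conjT_snd, ih]
      have h1 := (scalarU_comm (ζ ^ k) (X.As s)⁻¹ (V := Fin D.n → ℂ)).eq
      rw [pow_succ', Cfsg.Agent.Lib.Char.ExtSplit.scalarU_mul]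
      calc X.As s * (p.1.2 * scalarU (ζ ^ k)) * (X.As s)⁻¹
          = X.As s * p.1.2 * (scalarU (ζ ^ k) * (X.As s)⁻¹) := by group
        _ = X.As s * p.1.2 * ((X.As s)⁻¹ * scalarU (ζ ^ k)) := by rw [h1]
        _ = (X.As s * p.1.2 * (X.As s)⁻¹) * scalarU (ζ ^ k) := by group
        _ = _ := by rw [hζ]; group
  have hk : ζ ^ Nat.card X.S = 1 := by
    have h1 := hpow (Nat.card X.S)
    rw [pow_card_eq_one', conjT_one] at h1
    have h2 : scalarU (ζ ^ Nat.card X.S) = (1 : D.U) := by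
      have : p.1.2 * scalarU (ζ ^ Nat.card X.S) = p.1.2 * 1 := by rw [← h1, mul_one]
      exact mul_left_cancel this
    haveI hV := Cfsg.Agent.Lib.Char.Integrality.nontrivial_of_isIrreducible D.ρ
    apply Cfsg.Agent.Lib.Char.ExtSplit.scalarU_injective (V := Fin D.n → ℂ)
    rw [h2, Cfsg.Agent.Lib.Char.ExtSplit.scalarU_one]
  have hz : ζ = 1 := by
    have h1 := (pow_gcd_eq_one).2 ⟨hdet, hk⟩
    rw [Nat.Coprime.gcd_eq_one Z.n_cop, pow_one] at h1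
    exact h1
  apply Subtype.ext
  apply Prod.ext
  · exact hs
  · show X.As s * p.1.2 * (X.As s)⁻¹ = p.1.2
    rw [hζ, hz, Cfsg.Agent.Lib.Char.ExtSplit.scalarU_one, mul_one]

/-- The preimage of a subgroup. -/
def YY (D : LD Γ) (A : Subgroup Γ) : Subgroup D.T := A.comap D.fstΓ

theorem mem_YY (A : Subgroup Γ) (p : D.T) : p ∈ YY D A ↔ p.1.1 ∈ A := Iff.rfl

/-- The images in the quotient. -/
noncomputable def EE (D : LD Γ) (A : Subgroup Γ) : Subgroup (E D) := (YY D A).map (q D)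

theorem mem_EE (A : Subgroup Γ) (x : E D) : x ∈ EE D A ↔ ∃ p : D.T, p.1.1 ∈ A ∧ q D p = x := Iff.rfl

theorem q_eq_iff (p p' : D.T) : q D p = q D p' ↔ ∃ l, p' = p * D.lt l := by
  have h1 : q D p = q D p' ↔ q D (p⁻¹ * p') = 1 := by
    rw [map_mul, map_inv, inv_mul_eq_one]
  rw [h1, q_eq_one_iff]
  constructor
  · rintro ⟨l, hl⟩
    exact ⟨l, by rw [hl]; group⟩
  · rintro ⟨l, hl⟩
    exact ⟨l, by rw [hl]; group⟩

theorem mem_sup (x : Γ) (hx : x ∈ Z.H) : ∃ l ∈ D.L, ∃ c ∈ Z.C, l * c = x := by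
  rw [Z.hH] at hx
  refine (Cfsg.Agent.Lib.Coprime.Coset.mem_sup_iff_of_le_normalizer ?_ x).1 hx
  rw [Subgroup.le_normalizer_iff]
  intro c hc l hl
  exact D.hLn c (Z.hCG hc) l hl

/-- Elements above `H` are fixed. -/
theorem sigE_fix (p : D.T) (hp : p.1.1 ∈ Z.H) (s : X.S) : X.sigE s (q D p) = q D p := by
  obtain ⟨l, hl, c, hc, hlc⟩ := Z.mem_sup _ hp
  set p₀ : D.T := (D.lt ⟨l, hl⟩)⁻¹ * p with hp₀
  have h1 : p₀.1.1 ∈ Z.C := by
    have : p₀.1.1 = c := by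
      show l⁻¹ * p.1.1 = c
      rw [← hlc]
      group
    rw [this]
    exact hc
  have h2 : q D p₀ = q D p := by
    rw [hp₀, map_mul, map_inv, q_lt, inv_one, one_mul]
  rw [← h2, sigE_q, Z.conjT_fix s p₀ h1]

/-- Fixed elements lie above `H`. -/
theorem mem_H_of_fix (p : D.T) (h : ∀ s, X.sigE s (q D p) = q D p) : p.1.1 ∈ Z.H := by
  have hAK : X.S ≤ Subgroup.normalizer (D.G : Set Γ) := Subgroup.le_normalizer_iff.2 X.hSG
  have hAN : X.S ≤ Subgroup.normalizer (D.L : Set Γ) := Subgroup.le_normalizer_iff.2 X.hSL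
  obtain ⟨c, hc, hl⟩ := Cfsg.Agent.Lib.Coprime.Coset.exists_centralizer_mem_coset hAK Z.hcop.symm
    (Or.inr Z.hsolv) D.hLG hAN p.1.1 p.2.1 (by
      intro a ha
      have h1 := h ⟨a, ha⟩
      rw [sigE_q, eq_comm, q_eq_iff] at h1
      obtain ⟨l, hl⟩ := h1
      have h2 : (a : Γ) * p.1.1 * (a : Γ)⁻¹ = p.1.1 * l := congrArg (fun x : D.T => x.1.1) hl
      rw [h2, inv_mul_cancel_left]
      exact l.2)
  rw [← Z.hC] at hc
  have h3 : p.1.1 = c * (p.1.1⁻¹ * c)⁻¹ := by group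
  rw [h3]
  exact Z.H.mul_mem (Z.hCH hc) (Z.H.inv_mem (Z.hLH hl))

theorem hC' (x : E D) : x ∈ EE D Z.H ↔ ∀ s, X.sigE s x = x := by
  constructor
  · rintro ⟨p, hp, rfl⟩ s
    exact Z.sigE_fix p hp s
  · intro h
    obtain ⟨p, rfl⟩ := q_surjective D x
    exact ⟨p, Z.mem_H_of_fix p h, rfl⟩

theorem hKS' (s : X.S) (k : E D) (hk : k ∈ EE D Z.K) : X.sigE s k ∈ EE D Z.K := by
  obtain ⟨p, hp, rfl⟩ := hk
  exact ⟨X.conjT s p, Z.hKS s s.2 _ hp, rfl⟩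

instance instKE : (EE D Z.K).Normal := by
  apply Subgroup.Normal.map _ _ (q_surjective D)
  refine ⟨fun p hp x => ?_⟩
  exact Z.hKn _ x.2.1 _ hp

theorem hKC' (g : E D) : ∃ k ∈ EE D Z.K, ∃ c ∈ EE D Z.H, g = k * c := by
  obtain ⟨p, rfl⟩ := q_surjective D g
  have h1 : p.1.1 ∈ Z.K ⊔ Z.C := by
    rw [Z.hGKC]
    exact p.2.1
  obtain ⟨k, hk, c, hc, hkc⟩ := (Cfsg.Agent.Lib.Coprime.Coset.mem_sup_iff_of_le_normalizer (by
    rw [Subgroup.le_normalizer_iff]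
    intro c hc l hl
    exact Z.hKn c (Z.hCG hc) l hl) _).1 h1
  obtain ⟨p₁, hp₁⟩ := D.exists_lift c (Z.hCG hc)
  refine ⟨q D (p * p₁⁻¹), ⟨p * p₁⁻¹, ?_, rfl⟩, q D p₁, ⟨p₁, ?_, rfl⟩, ?_⟩
  · show p.1.1 * p₁.1.1⁻¹ ∈ Z.K
    rw [hp₁, ← hkc]
    simpa using hk
  · show p₁.1.1 ∈ Z.H
    rw [hp₁]
    exact Z.hCH hc
  · rw [map_mul, map_inv]
    group

theorem hU' (u : E D) (hu : u ∈ EE D Z.K) (hu' : u ∈ EE D Z.H) (g : E D) : u * g = g * u := by
  obtain ⟨p, hp, rfl⟩ := hu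
  obtain ⟨p', hp', he⟩ := hu'
  obtain ⟨l, hl⟩ := (q_eq_iff _ _).1 he
  have h1 : p.1.1 ∈ Z.H := by
    have : p.1.1 = p'.1.1 * l := congrArg (fun x : D.T => x.1.1) hl
    rw [this]
    exact Z.H.mul_mem hp' (Z.hLH l.2)
  have h2 : p.1.1 ∈ D.L := Z.hKH ⟨hp, h1⟩
  set p₀ : D.T := (D.lt ⟨p.1.1, h2⟩)⁻¹ * p with hp₀
  have h3 : p₀.1.1 = 1 := by
    show (p.1.1)⁻¹ * p.1.1 = 1
    group
  obtain ⟨c, hc⟩ := D.exists_scal_of_fst p₀ h3
  have h4 : q D p = q D (D.scal c) := by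
    rw [hc, hp₀, map_mul, map_inv, q_lt, inv_one, one_mul]
  rw [h4]
  obtain ⟨y, rfl⟩ := q_surjective D g
  rw [← map_mul, ← map_mul, D.scal_central]

theorem hcc' (x : E D) (hx : x ∈ EE D Z.K) (y : E D) (hy : y ∈ EE D Z.K) : x * y * x⁻¹ * y⁻¹ ∈ EE D Z.H := by
  obtain ⟨p, hp, rfl⟩ := hx
  obtain ⟨p', hp', rfl⟩ := hy
  refine ⟨p * p' * p⁻¹ * p'⁻¹, Z.hLH (Z.hab _ hp _ hp'), ?_⟩
  simp only [map_mul, map_inv]

theorem card_E_dvd (D : LD Γ) : Nat.card (E D) ∣ Nat.card D.G ^ 3 := by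
  have h1 : Nat.card (E D) ∣ Nat.card D.T := by
    haveI : Fintype (E D) := Fintype.ofFinite _
    rw [card_eq_mul_ker (q D) (q_surjective D)]
    exact dvd_mul_left _ _
  refine h1.trans (D.card_T_dvd.trans ?_)
  have h2 : Nat.card D.L ∣ Nat.card D.G := Subgroup.card_dvd_of_le D.hLG
  rw [pow_succ, pow_two]
  exact Nat.mul_dvd_mul_right (Nat.mul_dvd_mul (n_dvd' D) h2) _

include Z in
theorem odd_E : Odd (Nat.card (E D)) :=
  Odd.of_dvd_nat (Z.hodd.pow) (card_E_dvd D)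

include Z in
theorem cop_E : (Nat.card (E D)).Coprime (Nat.card X.S) :=
  Nat.Coprime.coprime_dvd_left (card_E_dvd D) (Nat.Coprime.pow_left _ Z.hcop)

end LK

end Cfsg.Agent.Lib.Char.IsaacsH
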