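import Mathlib
import Cfsg.Agent.Lib.Char.IsaacsH

/-!
# The correspondence over an invariant character of `L`
-/

set_option autoImplicit false
set_option linter.style.longLine false
set_option linter.unusedSectionVars false
set_option linter.unusedVariables false
set_option linter.style.haveILetI false

namespace Cfsg.Agent.Lib.Char.IsaacsI

open Cfsg Module Cfsg.Agent.Lib.Char.Basic Cfsg.Agent.Lib.Char.Ortho Cfsg.Agent.Lib.Char.Clifford
  Cfsg.Agent.Lib.Char.CliffordCorr Cfsg.Agent.Lib.Char.IsaacsE Cfsg.Agent.Lib.Char.GlaubRel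
  Cfsg.Agent.Lib.Char.IsaacsF Cfsg.Agent.Lib.Char.IsaacsG Cfsg.Agent.Lib.Char.IsaacsH
  Cfsg.Agent.Lib.Char.DetExt
open scoped ComplexConjugate
open Cfsg.Agent.Lib.Char.IsaacsH.LS Cfsg.Agent.Lib.Char.IsaacsH.LK

universe u

attribute [local instance] kerFintype

section Over

variable {Γ : Type u} [Group Γ] [Finite Γ] (D : LD Γ)

/-- Lying over is being a product with the trace. -/
theorem over_iff [Fintype D.L] {Y B J : Type u} [Group Y] [Group B] [Group J] [Fintype Y] [Fintype B] [Fintype J]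
    (i : Y →* D.T) (b : Y →* B) (hb : Function.Surjective b) (a : Y →* J) (ha : Function.Surjective a)
    (f : D.L →* J) (e : D.L ≃* b.ker) (he : ∀ l, i (e l) = D.lt l) (hae : ∀ l, a (e l) = f l)
    {χ : J → ℂ} (hχ : IsIrrCharacter J χ) :
    classInner (fun l => χ (f l)) D.ρ.character ≠ 0 ↔
      ∃ β : B → ℂ, IsIrrCharacter B β ∧ ∀ y, χ (a y) = D.tr (i y) * β (b y) := by
  have hS : SchCond b (fun y => D.tr (i y)) := D.sch_of i b e.toEquiv he
  have hθ : IsIrrCharacter D.L D.ρ.character := ⟨D.n, D.ρ, D.hirr, rfl⟩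
  constructor
  · intro h
    refine lower_irr a ha b hb (isCharacter_comp_hom D.isCharacter_tr i) hS hχ ?_
    have h1 := classInner_comp_equiv e (fun z : b.ker => χ (a z)) (fun z : b.ker => D.tr (i z))
    rw [← h1]
    convert h using 2
    · funext l
      rw [hae]
    · funext l
      show D.tr (i (e l)) = D.ρ.character l
      rw [he]
      rfl
  · rintro ⟨β, hβ, h⟩
    have h1 : (fun l => χ (f l)) = β 1 • D.ρ.character := by
      funext l
      have h2 := h (e l)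
      rw [hae, he] at h2
      have h3 : b ((e l : b.ker) : Y) = 1 := (e l).2
      rw [h2, h3]
      show D.tr (D.lt l) * β 1 = β 1 * D.ρ.character l
      rw [mul_comm]
      rfl
    rw [h1, classInner_smul_left, classInner_irr_self hθ, mul_one]
    exact irr_apply_one_ne_zero hβ

end Over

section Main

variable {Γ : Type u} [Group Γ] [Finite Γ] {D : LD Γ} {X : LS D} (Z : LK X)

noncomputable instance instE (D : LD Γ) : Fintype (E D) := Fintype.ofFinite _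

/-- The map from the preimage of `H` to `H`. -/
def aH : YY D Z.H →* Z.H where
  toFun p := ⟨p.1.1.1, p.2⟩
  map_one' := rfl
  map_mul' _ _ := rfl

theorem aH_surjective : Function.Surjective (aH Z) := by
  rintro ⟨h, hh⟩
  obtain ⟨p, hp⟩ := D.exists_lift h (Z.hHG hh)
  exact ⟨⟨p, by
    show p.1.1 ∈ Z.H
    rw [hp]
    exact hh⟩, Subtype.ext hp⟩

/-- The map from the preimage of `H` to the fixed points. -/
noncomputable def bH : YY D Z.H →* EE D Z.H := (q D).subgroupMap (YY D Z.H)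

theorem bH_surjective : Function.Surjective (bH Z) := (q D).subgroupMap_surjective _

@[simp] theorem coe_bH (y : YY D Z.H) : (bH Z y : E D) = q D y := rfl

/-- The copy of `L` in the kernel. -/
noncomputable def eK (D : LD Γ) : D.L ≃* (q D).ker :=
  MulEquiv.ofBijective (D.lt.codRestrict (q D).ker (fun l => q_lt l)) (by
    constructor
    · intro a b h
      exact D.lt_injective (congrArg Subtype.val h)
    · rintro ⟨z, hz⟩
      obtain ⟨l, hl⟩ := (q_eq_one_iff z).1 hz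
      exact ⟨l, Subtype.ext hl⟩)

@[simp] theorem coe_eK (l : D.L) : (eK D l : D.T) = D.lt l := rfl

/-- The copy of `L` in the kernel, in the preimage of `H`. -/
noncomputable def eKH : D.L ≃* (bH Z).ker :=
  MulEquiv.ofBijective
    ((D.lt.codRestrict (YY D Z.H) (fun l => Z.hLH l.2)).codRestrict (bH Z).ker (fun l => by
      apply Subtype.ext
      exact q_lt l)) (by
    constructor
    · intro a b h
      apply D.lt_injective
      exact congrArg (fun x : (bH Z).ker => ((x : YY D Z.H) : D.T)) h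
    · rintro ⟨⟨z, hzY⟩, hz⟩
      have h1 : q D z = 1 := congrArg Subtype.val hz
      obtain ⟨l, hl⟩ := (q_eq_one_iff z).1 h1
      exact ⟨l, Subtype.ext (Subtype.ext hl)⟩)

@[simp] theorem coe_eKH (l : D.L) : (((eKH Z l : (bH Z).ker) : YY D Z.H) : D.T) = D.lt l := rfl

theorem tr_conjT (s : X.S) (p : D.T) : D.tr (X.conjT s p) = D.tr p := by
  show LinearMap.trace ℂ _ ((X.As s * p.1.2 * (X.As s)⁻¹ : D.U) : Module.End ℂ (Fin D.n → ℂ)) =
    LinearMap.trace ℂ _ (p.1.2 : Module.End ℂ (Fin D.n → ℂ))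
  rw [Units.val_mul, LinearMap.trace_mul_comm, Units.val_mul, ← mul_assoc, Units.inv_mul, one_mul]

theorem hHS (s : X.S) (h : Γ) (hh : h ∈ Z.H) : (s : Γ) * h * (s : Γ)⁻¹ ∈ Z.H := by
  obtain ⟨l, hl, c, hc, rfl⟩ := Z.mem_sup h hh
  have h1 : (s : Γ) * (l * c) * (s : Γ)⁻¹ = ((s : Γ) * l * (s : Γ)⁻¹) * ((s : Γ) * c * (s : Γ)⁻¹) := by group
  rw [h1, Z.cent s c hc]
  exact Z.H.mul_mem (Z.hLH (X.hSL s s.2 l hl)) (Z.hCH hc)

theorem level2Z [Fintype D.G] [Fintype Z.H] [Fintype D.L] :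
    (∀ χ : IrrCharacter D.G, (∀ (s : X.S) (g : D.G), (χ : D.G → ℂ) ⟨s * g * (s : Γ)⁻¹, X.hSG s s.2 g g.2⟩ = (χ : D.G → ℂ) g) →
      classInner (fun l : D.L => (χ : D.G → ℂ) ⟨l, D.hLG l.2⟩) D.ρ.character ≠ 0 →
      ∃ ψ : IrrCharacter Z.H, classInner (fun l : D.L => (ψ : Z.H → ℂ) ⟨l, Z.hLH l.2⟩) D.ρ.character ≠ 0 ∧
        PRel 2 (fun h : Z.H => (χ : D.G → ℂ) ⟨h, Z.hHG h.2⟩) ψ) ∧
    (∀ χ χ' : IrrCharacter D.G, (∀ (s : X.S) (g : D.G), (χ : D.G → ℂ) ⟨s * g * (s : Γ)⁻¹, X.hSG s s.2 g g.2⟩ = (χ : D.G → ℂ) g) →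
      (∀ (s : X.S) (g : D.G), (χ' : D.G → ℂ) ⟨s * g * (s : Γ)⁻¹, X.hSG s s.2 g g.2⟩ = (χ' : D.G → ℂ) g) →
      classInner (fun l : D.L => (χ : D.G → ℂ) ⟨l, D.hLG l.2⟩) D.ρ.character ≠ 0 →
      classInner (fun l : D.L => (χ' : D.G → ℂ) ⟨l, D.hLG l.2⟩) D.ρ.character ≠ 0 →
      ∀ ψ : IrrCharacter Z.H, PRel 2 (fun h : Z.H => (χ : D.G → ℂ) ⟨h, Z.hHG h.2⟩) ψ →
        PRel 2 (fun h : Z.H => (χ' : D.G → ℂ) ⟨h, Z.hHG h.2⟩) ψ → χ = χ') ∧
    (∀ ψ : IrrCharacter Z.H, classInner (fun l : D.L => (ψ : Z.H → ℂ) ⟨l, Z.hLH l.2⟩) D.ρ.character ≠ 0 →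
      ∃ χ : IrrCharacter D.G, (∀ (s : X.S) (g : D.G), (χ : D.G → ℂ) ⟨s * g * (s : Γ)⁻¹, X.hSG s s.2 g g.2⟩ = (χ : D.G → ℂ) g) ∧
        classInner (fun l : D.L => (χ : D.G → ℂ) ⟨l, D.hLG l.2⟩) D.ρ.character ≠ 0 ∧
        PRel 2 (fun h : Z.H => (χ : D.G → ℂ) ⟨h, Z.hHG h.2⟩) ψ) ∧
    (∀ ψ : IrrCharacter Z.H, classInner (fun l : D.L => (ψ : Z.H → ℂ) ⟨l, Z.hLH l.2⟩) D.ρ.character ≠ 0 →
      ∀ (s : X.S) (h : Z.H), (ψ : Z.H → ℂ) ⟨s * h * (s : Γ)⁻¹, hHS Z s h h.2⟩ = (ψ : Z.H → ℂ) h) := by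
  classical
  haveI : Fintype X.S := Fintype.ofFinite _
  haveI : Fintype (EE D Z.K) := Fintype.ofFinite _
  haveI : Fintype (EE D Z.H) := Fintype.ofFinite _
  haveI : Fintype (YY D Z.H) := Fintype.ofFinite _
  haveI : (EE D Z.K).Normal := Z.instKE
  have hS : SchCond (q D) D.tr := D.sch_of (MonoidHom.id _) (q D) (eK D).toEquiv (fun l => rfl)
  have hS' : SchCond (bH Z) (fun y : YY D Z.H => D.tr ((YY D Z.H).subtype y)) :=
    D.sch_of (YY D Z.H).subtype (bH Z) (eKH Z).toEquiv (fun l => rfl)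
  let cG : X.S → D.G → D.G := fun s g => ⟨s * g * (s : Γ)⁻¹, X.hSG s s.2 g g.2⟩
  have hT := transfer (S := X.S) X.sigE Z.odd_E (by
      rw [← Nat.card_eq_fintype_card]
      exact Z.cop_E) (EE D Z.K) (EE D Z.H) Z.hC' (fun s k hk => Z.hKS' s k hk) Z.hKC' Z.hU' Z.hcc'
    D.fstG D.fstG_surjective (q D) (q_surjective D) D.tr D.isCharacter_tr hS
    (YY D Z.H).subtype (aH Z) (aH_surjective Z) (bH Z) (bH_surjective Z)
    (Subgroup.inclusion Z.hHG) (fun y => rfl) (fun y => rfl) hS'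
    (fun y hy => by
      have h1 : y.1.1 = 1 := congrArg Subtype.val hy
      obtain ⟨c, rfl⟩ := D.exists_scal_of_fst y h1
      refine ⟨⟨D.scal c, by
        show (1 : Γ) ∈ Z.H
        exact Z.H.one_mem, rfl⟩, fun x => ?_⟩
      obtain ⟨z, rfl⟩ := q_surjective D x
      rw [← map_mul, ← map_mul, D.scal_central])
    (fun y hy => by
      have h1 : y.1.1 = 1 := congrArg Subtype.val hy
      refine ⟨⟨y, by
        show y.1.1 ∈ Z.H
        rw [h1]
        exact Z.H.one_mem⟩, rfl, Subtype.ext h1⟩)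
    cG (fun s => X.conjT s) (fun s y => rfl) (fun s y => rfl) (fun s y => tr_conjT s y)
  obtain ⟨T1, T2, T3⟩ := hT
  -- the translations of `over`
  have ovG : ∀ {χ : D.G → ℂ} (hχ : IsIrrCharacter D.G χ), classInner (fun l : D.L => χ ⟨l, D.hLG l.2⟩) D.ρ.character ≠ 0 ↔
      ∃ β : E D → ℂ, IsIrrCharacter (E D) β ∧ ∀ y, χ (D.fstG y) = D.tr y * β (q D y) := by
    intro χ hχ
    exact over_iff D (MonoidHom.id _) (q D) (q_surjective D) D.fstG D.fstG_surjective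
      (Subgroup.inclusion D.hLG) (eK D) (fun l => rfl) (fun l => rfl) hχ
  have ovH : ∀ {ψ : Z.H → ℂ} (hψ : IsIrrCharacter Z.H ψ), classInner (fun l : D.L => ψ ⟨l, Z.hLH l.2⟩) D.ρ.character ≠ 0 ↔
      ∃ γ : EE D Z.H → ℂ, IsIrrCharacter (EE D Z.H) γ ∧ ∀ y : YY D Z.H, ψ (aH Z y) = D.tr ((YY D Z.H).subtype y) * γ (bH Z y) := by
    intro ψ hψ
    exact over_iff D (YY D Z.H).subtype (bH Z) (bH_surjective Z) (aH Z) (aH_surjective Z)
      (Subgroup.inclusion Z.hLH) (eKH Z) (fun l => rfl) (fun l => rfl) hψ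
  refine ⟨?_, ?_, ?_, ?_⟩
  · intro χ hχ hov
    obtain ⟨ψ, hψ, hrel⟩ := T1 χ hχ ((ovG χ.2).1 hov)
    exact ⟨ψ, (ovH ψ.2).2 hψ, hrel⟩
  · intro χ χ' hχ hχ' hov hov' ψ hrel hrel'
    exact T2 χ χ' hχ hχ' ((ovG χ.2).1 hov) ((ovG χ'.2).1 hov') ψ hrel hrel'
  · intro ψ hov
    obtain ⟨χ, hχ, hβ, hrel⟩ := T3 ψ ((ovH ψ.2).1 hov)
    exact ⟨χ, hχ, (ovG χ.2).2 hβ, hrel⟩
  · intro ψ hov s h
    obtain ⟨γ, hγ, hψγ⟩ := (ovH ψ.2).1 hov
    obtain ⟨y, rfl⟩ := aH_surjective Z h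
    let y₂ : YY D Z.H := ⟨X.conjT s y, hHS Z s _ y.2⟩
    have h1 : bH Z y₂ = bH Z y := by
      apply Subtype.ext
      show q D (X.conjT s y) = q D y
      rw [← sigE_q]
      exact Z.sigE_fix y y.2 s
    have h2 : ((⟨s * (aH Z y : Z.H) * (s : Γ)⁻¹, hHS Z s _ (aH Z y).2⟩ : Z.H)) = aH Z y₂ := rfl
    rw [h2, hψγ, hψγ, h1]
    congr 1
    exact tr_conjT s _

end Main

end Cfsg.Agent.Lib.Char.IsaacsI
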