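import Mathlib
import Cfsg.Agent.Lib.Char.IsaacsI

/-!
# The Clifford correspondence inside an ambient group
-/

set_option autoImplicit false
set_option linter.style.longLine false
set_option linter.unusedSectionVars false
set_option linter.unusedVariables false
set_option linter.style.haveILetI false

namespace Cfsg.Agent.Lib.Char.IsaacsJ

open Cfsg Module Cfsg.Agent.Lib.Char.Basic Cfsg.Agent.Lib.Char.Ortho Cfsg.Agent.Lib.Char.Clifford
  Cfsg.Agent.Lib.Char.CliffordCorr Cfsg.Agent.Lib.Char.GlaubRel Cfsg.Agent.Lib.Char.GlaubP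
  Cfsg.Agent.Lib.Char.Induced Cfsg.Agent.Lib.Char.IndRep
open scoped ComplexConjugate

universe u

variable {Γ : Type u} [Group Γ] [Finite Γ]

/-- The Clifford correspondence, as Frobenius reciprocity. -/
def Cor {X I : Subgroup Γ} [Fintype X] [Fintype I] (hIX : I ≤ X) (τ : I → ℂ) (χ : X → ℂ) : Prop :=
  ∀ f : X → ℂ, IsClassFunction X f → classInner f χ = classInner (resC hIX f) τ

/-- The correspondent is unique. -/
theorem Cor.unique_right {X I : Subgroup Γ} [Fintype X] [Fintype I] {hIX : I ≤ X} {τ : I → ℂ} {χ χ' : X → ℂ}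
    (h : Cor hIX τ χ) (h' : Cor hIX τ χ') (hχ : IsIrrCharacter X χ) (hχ' : IsIrrCharacter X χ') : χ = χ' := by
  by_contra hne
  have h1 := h χ (isClassFunction_of_isCharacter (isCharacter_of_isIrrCharacter hχ))
  have h2 := h' χ (isClassFunction_of_isCharacter (isCharacter_of_isIrrCharacter hχ))
  rw [classInner_irr_self hχ, ← h2, classInner_irr_of_ne hχ hχ' hne] at h1
  exact one_ne_zero h1

section Ambient

variable (X L I : Subgroup Γ) [Fintype X] [Fintype L] [Fintype I] (hLI : L ≤ I) (hIX : I ≤ X)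
  (hLX : L ≤ X)
  (hLn : ∀ g ∈ X, ∀ l ∈ L, g * l * g⁻¹ ∈ L) {θ : L → ℂ} (hθ : IsIrrCharacter L θ)
  (hI : ∀ g ∈ X, (g ∈ I ↔ ∀ l l' : L, (l' : Γ) = g * l * g⁻¹ → θ l' = θ l))

include hLI hIX hLn hθ hI

/-- The Clifford correspondence in an ambient group. -/
theorem ambient :
    (∀ χ : X → ℂ, IsIrrCharacter X χ → classInner (resC hLX χ) θ ≠ 0 →
      ∃ τ : I → ℂ, IsIrrCharacter I τ ∧ classInner (resC hLI τ) θ ≠ 0 ∧ Cor hIX τ χ) ∧
    (∀ τ : I → ℂ, IsIrrCharacter I τ → classInner (resC hLI τ) θ ≠ 0 →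
      ∃ χ : X → ℂ, IsIrrCharacter X χ ∧ classInner (resC hLX χ) θ ≠ 0 ∧ Cor hIX τ χ) ∧
    (∀ (τ τ' : I → ℂ) (χ : X → ℂ), IsIrrCharacter I τ → IsIrrCharacter I τ' → IsIrrCharacter X χ →
      classInner (resC hLI τ) θ ≠ 0 → classInner (resC hLI τ') θ ≠ 0 → Cor hIX τ χ → Cor hIX τ' χ → τ = τ') ∧
    (∀ (τ : I → ℂ) (χ : X → ℂ), IsIrrCharacter I τ → IsIrrCharacter X χ →
      classInner (resC hLI τ) θ ≠ 0 → Cor hIX τ χ →
      ∃ ρ : I → ℂ, IsCharacter I ρ ∧ resC hIX χ = τ + ρ ∧ classInner (resC hLI ρ) θ = 0) := by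
  classical
  haveI hN : (L.subgroupOf X).Normal := ⟨fun n hn g => by
    rw [Subgroup.mem_subgroupOf] at hn ⊢
    exact hLn g g.2 n hn⟩
  haveI : Fintype (L.subgroupOf X) := Fintype.ofFinite _
  haveI : Fintype (I.subgroupOf X) := Fintype.ofFinite _
  have hHT : L.subgroupOf X ≤ I.subgroupOf X := fun x hx => hLI hx
  let eL : L.subgroupOf X ≃* L := Subgroup.subgroupOfEquivOfLe hLX
  let eI : I.subgroupOf X ≃* I := Subgroup.subgroupOfEquivOfLe hIX
  let θ₀ : L.subgroupOf X → ℂ := fun n => θ (eL n)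
  have hθ₀ : IsIrrCharacter (L.subgroupOf X) θ₀ := isIrrCharacter_comp_surjective hθ eL.toMonoidHom eL.surjective
  have hT : ∀ g : X, g ∈ I.subgroupOf X ↔ ∀ n : L.subgroupOf X, θ₀ ⟨g * n * g⁻¹, hN.conj_mem (n : X) n.2 g⟩ = θ₀ n := by
    intro g
    rw [Subgroup.mem_subgroupOf, hI g g.2]
    constructor
    · intro h n
      exact h (eL n) (eL ⟨g * n * g⁻¹, hN.conj_mem (n : X) n.2 g⟩) rfl
    · intro h l l' hl'
      have h1 := h (eL.symm l)
      have h2 : (⟨g * (eL.symm l : L.subgroupOf X) * g⁻¹, hN.conj_mem _ (eL.symm l).2 g⟩ : L.subgroupOf X) = eL.symm l' := by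
        apply eL.injective
        rw [eL.apply_symm_apply]
        apply Subtype.ext
        rw [hl']
        show ((g : Γ) * ((eL (eL.symm l) : L) : Γ) * (g : Γ)⁻¹) = _
        rw [eL.apply_symm_apply]
      rw [h2] at h1
      simpa [θ₀] using h1
  -- from characters of the two forms of `I`
  have hresT : ∀ (τ₀ : I.subgroupOf X → ℂ), classInner (resT (L.subgroupOf X) (I.subgroupOf X) hHT τ₀) θ₀ =
      classInner (resC hLI (fun i : I => τ₀ (eI.symm i))) θ := by
    intro τ₀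
    have h1 := classInner_comp_equiv eL (resC hLI (fun i : I => τ₀ (eI.symm i))) θ
    rw [← h1]
    congr 1
  have hresX : ∀ (χ : X → ℂ), classInner (fun n : L.subgroupOf X => χ n) θ₀ = classInner (resC hLX χ) θ := by
    intro χ
    have h1 := classInner_comp_equiv eL (resC hLX χ) θ
    rw [← h1]
    congr 1
  have hirrI : ∀ {τ₀ : I.subgroupOf X → ℂ}, IsIrrCharacter (I.subgroupOf X) τ₀ → IsIrrCharacter I (fun i : I => τ₀ (eI.symm i)) := by
    intro τ₀ h
    exact isIrrCharacter_comp_surjective h eI.symm.toMonoidHom eI.symm.surjective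
  have hcor : ∀ τ₀ : I.subgroupOf X → ℂ, Cor hIX (fun i : I => τ₀ (eI.symm i)) (indFun (I.subgroupOf X) τ₀) := by
    intro τ₀ f hf
    rw [← classInner_conj_symm, frobenius_reciprocity _ τ₀ f hf, classInner_conj_symm]
    have h1 := classInner_comp_equiv eI (resC hIX f) (fun i : I => τ₀ (eI.symm i))
    rw [← h1]
    congr 1
  -- an element of `Irr(I | θ)` in the form of the type
  have hback : ∀ τ : I → ℂ, (fun i : I => (fun x : I.subgroupOf X => τ (eI x)) (eI.symm i)) = τ := by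
    intro τ
    funext i
    simp
  have hirrI' : ∀ {τ : I → ℂ}, IsIrrCharacter I τ → IsIrrCharacter (I.subgroupOf X) (fun x => τ (eI x)) := by
    intro τ h
    exact isIrrCharacter_comp_surjective h eI.toMonoidHom eI.surjective
  have hcor' : ∀ τ : I → ℂ, Cor hIX τ (indFun (I.subgroupOf X) (fun x => τ (eI x))) := by
    intro τ
    have := hcor (fun x => τ (eI x))
    rwa [hback] at this
  have hover' : ∀ {τ : I → ℂ}, classInner (resC hLI τ) θ ≠ 0 →
      classInner (resT (L.subgroupOf X) (I.subgroupOf X) hHT (fun x => τ (eI x))) θ₀ ≠ 0 := by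
    intro τ h
    rw [hresT, hback]
    exact h
  have hirrInd : ∀ {τ : I → ℂ}, IsIrrCharacter I τ → classInner (resC hLI τ) θ ≠ 0 →
      IsIrrCharacter X (indFun (I.subgroupOf X) (fun x => τ (eI x))) := by
    intro τ h h2
    exact isIrr_indFun (L.subgroupOf X) θ₀ (I.subgroupOf X) hHT hθ₀ hT (hirrI' h) (hover' h2)
  have hind : ∀ {τ : I → ℂ} {χ : X → ℂ}, IsIrrCharacter I τ → IsIrrCharacter X χ → classInner (resC hLI τ) θ ≠ 0 →
      Cor hIX τ χ → indFun (I.subgroupOf X) (fun x => τ (eI x)) = χ := by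
    intro τ χ h hχ h2 hc
    exact (hcor' τ).unique_right hc (hirrInd h h2) hχ
  refine ⟨?_, ?_, ?_, ?_⟩
  · intro χ hχ hov
    obtain ⟨ψ, hψ, h1, h2⟩ := exists_indFun_eq (L.subgroupOf X) θ₀ (I.subgroupOf X) hHT hθ₀ hT hχ (by
      rw [hresX]
      exact hov)
    refine ⟨fun i => ψ (eI.symm i), hirrI hψ, ?_, ?_⟩
    · rw [← hresT, h2, hresX]
      exact hov
    · rw [← h1]
      exact hcor ψ
  · intro τ hτ hov
    refine ⟨_, hirrInd hτ hov, ?_, hcor' τ⟩
    have hχ := hirrInd hτ hov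
    have hself : classInner (indFun (I.subgroupOf X) (fun x => τ (eI x))) (indFun (I.subgroupOf X) (fun x => τ (eI x))) ≠ 0 := by
      rw [classInner_irr_self hχ]
      exact one_ne_zero
    have h3 := (core (L.subgroupOf X) θ₀ (I.subgroupOf X) hHT hθ₀ hT (hirrI' hτ) (hover' hov) hχ hself).2
    rw [← hresX, ← h3]
    exact hover' hov
  · intro τ τ' χ hτ hτ' hχ hov hov' hc hc'
    have h1 := hind hτ hχ hov hc
    have h2 := hind hτ' hχ hov' hc'
    have h3 := eq_of_indFun_eq (L.subgroupOf X) θ₀ (I.subgroupOf X) hHT hθ₀ hT (hirrI' hτ) (hirrI' hτ') (hover' hov) (hover' hov') (h1.trans h2.symm)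
    rw [← hback τ, ← hback τ', h3]
  · intro τ χ hτ hχ hov hc
    have h1 := hind hτ hχ hov hc
    have hχc := isCharacter_of_isIrrCharacter hχ
    have hne : classInner (resC hIX χ) τ ≠ 0 := by
      rw [← hc χ (isClassFunction_of_isCharacter hχc), classInner_irr_self hχ]
      exact one_ne_zero
    obtain ⟨ρ, hρ, hsum⟩ := exists_char_add (isCharacter_comp_hom hχc (Subgroup.inclusion hIX)) hτ hne
    refine ⟨ρ, hρ, hsum, ?_⟩
    have hself : classInner (indFun (I.subgroupOf X) (fun x => τ (eI x))) χ ≠ 0 := by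
      rw [h1, classInner_irr_self hχ]
      exact one_ne_zero
    have h3 := (core (L.subgroupOf X) θ₀ (I.subgroupOf X) hHT hθ₀ hT (hirrI' hτ) (hover' hov) hχ hself).2
    rw [hresX, hresT, hback] at h3
    have h4 : resC hLX χ = resC hLI τ + resC hLI ρ := by
      funext l
      exact congrFun hsum ⟨l, hLI l.2⟩
    rw [h4, classInner_add_left] at h3
    exact (add_eq_left.1 h3.symm)

end Ambient

end Cfsg.Agent.Lib.Char.IsaacsJ
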