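import Mathlib
import Cfsg.Agent.Lib.Char.IsaacsJ
import Cfsg.Agent.Lib.Coprime.Coset
import Cfsg.Agent.Lib.Char.GlaubClif

/-!
# The correspondence over an `S`-invariant character of `L`
-/

set_option autoImplicit false
set_option linter.style.longLine false
set_option linter.unusedSectionVars false
set_option linter.unusedVariables false
set_option linter.style.haveILetI false

namespace Cfsg.Agent.Lib.Char.IsaacsK

open Cfsg Module Cfsg.Agent.Lib.Char.Basic Cfsg.Agent.Lib.Char.Ortho Cfsg.Agent.Lib.Char.Clifford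
  Cfsg.Agent.Lib.Char.CliffordCorr Cfsg.Agent.Lib.Char.GlaubRel Cfsg.Agent.Lib.Char.GlaubP
  Cfsg.Agent.Lib.Char.IsaacsF Cfsg.Agent.Lib.Char.IsaacsH Cfsg.Agent.Lib.Char.IsaacsI
  Cfsg.Agent.Lib.Char.IsaacsJ
open scoped ComplexConjugate

universe u

variable {Γ : Type u} [Group Γ] [Finite Γ]

/-- The configuration. -/
structure Cfg (Γ : Type u) [Group Γ] where
  G : Subgroup Γ
  S : Subgroup Γ
  C : Subgroup Γ
  K : Subgroup Γ
  L : Subgroup Γ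
  H : Subgroup Γ
  hnorm : ∀ s ∈ S, ∀ g ∈ G, s * g * s⁻¹ ∈ G
  hcop : (Nat.card G).Coprime (Nat.card S)
  hGsolv : Group.IsSolvable G
  hodd : Odd (Nat.card G)
  hC : C = G ⊓ Subgroup.centralizer (S : Set Γ)
  hLK : L ≤ K
  hKG : K ≤ G
  hKn : ∀ g ∈ G, ∀ k ∈ K, g * k * g⁻¹ ∈ K
  hLn : ∀ g ∈ G, ∀ l ∈ L, g * l * g⁻¹ ∈ L
  hKS : ∀ s ∈ S, ∀ k ∈ K, s * k * s⁻¹ ∈ K
  hLS : ∀ s ∈ S, ∀ l ∈ L, s * l * s⁻¹ ∈ L
  hab : ∀ a ∈ K, ∀ b ∈ K, a * b * a⁻¹ * b⁻¹ ∈ L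
  hGKC : K ⊔ C = G
  hH : H = L ⊔ C
  hKH : K ⊓ H ≤ L

namespace Cfg

variable (Z : Cfg Γ)

theorem hLG : Z.L ≤ Z.G := Z.hLK.trans Z.hKG

theorem hCG : Z.C ≤ Z.G := by
  rw [Z.hC]
  exact inf_le_left

theorem hLH : Z.L ≤ Z.H := by
  rw [Z.hH]
  exact le_sup_left

theorem hCH : Z.C ≤ Z.H := by
  rw [Z.hH]
  exact le_sup_right

theorem hHG : Z.H ≤ Z.G := by
  rw [Z.hH]
  exact sup_le Z.hLG Z.hCG

/-- The correspondence over an invariant character. -/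
theorem level2 [Fintype Z.G] [Fintype Z.H] [Fintype Z.L] (θ : IrrCharacter Z.L)
    (hθG : ∀ g ∈ Z.G, ∀ l l' : Z.L, (l' : Γ) = g * l * g⁻¹ → (θ : Z.L → ℂ) l' = (θ : Z.L → ℂ) l)
    (hθS : ∀ s ∈ Z.S, ∀ l l' : Z.L, (l' : Γ) = s * l * s⁻¹ → (θ : Z.L → ℂ) l' = (θ : Z.L → ℂ) l) :
    (∀ χ : IrrCharacter Z.G, SInv Z.S (χ : Z.G → ℂ) → classInner (resC Z.hLG (χ : Z.G → ℂ)) (θ : Z.L → ℂ) ≠ 0 →
      ∃ ψ : IrrCharacter Z.H, classInner (resC Z.hLH (ψ : Z.H → ℂ)) (θ : Z.L → ℂ) ≠ 0 ∧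
        PRel 2 (resC Z.hHG (χ : Z.G → ℂ)) ψ) ∧
    (∀ χ χ' : IrrCharacter Z.G, SInv Z.S (χ : Z.G → ℂ) → SInv Z.S (χ' : Z.G → ℂ) →
      classInner (resC Z.hLG (χ : Z.G → ℂ)) (θ : Z.L → ℂ) ≠ 0 →
      classInner (resC Z.hLG (χ' : Z.G → ℂ)) (θ : Z.L → ℂ) ≠ 0 →
      ∀ ψ : IrrCharacter Z.H, PRel 2 (resC Z.hHG (χ : Z.G → ℂ)) ψ → PRel 2 (resC Z.hHG (χ' : Z.G → ℂ)) ψ → χ = χ') ∧
    (∀ ψ : IrrCharacter Z.H, classInner (resC Z.hLH (ψ : Z.H → ℂ)) (θ : Z.L → ℂ) ≠ 0 →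
      ∃ χ : IrrCharacter Z.G, SInv Z.S (χ : Z.G → ℂ) ∧
        classInner (resC Z.hLG (χ : Z.G → ℂ)) (θ : Z.L → ℂ) ≠ 0 ∧ PRel 2 (resC Z.hHG (χ : Z.G → ℂ)) ψ) ∧
    (∀ ψ : IrrCharacter Z.H, classInner (resC Z.hLH (ψ : Z.H → ℂ)) (θ : Z.L → ℂ) ≠ 0 → SInv Z.S (ψ : Z.H → ℂ)) := by
  rcases θ with ⟨_, n, ρ, hρ, rfl⟩
  let D : LD Γ := { G := Z.G, L := Z.L, n := n, ρ := ρ, hirr := hρ, hLG := Z.hLG, hLn := Z.hLn, hinv := hθG }
  let X : LS D := { S := Z.S, hSL := Z.hLS, hSG := Z.hnorm, hinv := hθS }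
  let Y : LK X := { C := Z.C, K := Z.K, H := Z.H, hcop := Z.hcop, hsolv := Z.hGsolv, hodd := Z.hodd,
                    hC := Z.hC, hLK := Z.hLK, hKG := Z.hKG, hKn := Z.hKn, hKS := Z.hKS, hab := Z.hab,
                    hGKC := Z.hGKC, hH := Z.hH, hKH := Z.hKH }
  obtain ⟨R1, R2, R3, R4⟩ := @level2Z Γ _ _ D X Y ‹_› ‹_› ‹_›
  have inv_of : ∀ χ : Z.G → ℂ, (∀ (s : X.S) (g : D.G), χ ⟨s * g * (s : Γ)⁻¹, X.hSG s s.2 g g.2⟩ = χ g) → SInv Z.S χ := by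
    intro χ h s hs g g' hg'
    have h1 : g' = ⟨s * g * s⁻¹, Z.hnorm s hs g g.2⟩ := Subtype.ext hg'
    rw [h1]
    exact h ⟨s, hs⟩ g
  have of_inv : ∀ χ : Z.G → ℂ, SInv Z.S χ → (∀ (s : X.S) (g : D.G), χ ⟨s * g * (s : Γ)⁻¹, X.hSG s s.2 g g.2⟩ = χ g) := by
    intro χ h s g
    exact h s s.2 g _ rfl
  refine ⟨?_, ?_, ?_, ?_⟩
  · intro χ hχ hov
    exact R1 χ (of_inv _ hχ) hov
  · intro χ χ' hχ hχ' hov hov' ψ h1 h2
    exact R2 χ χ' (of_inv _ hχ) (of_inv _ hχ') hov hov' ψ h1 h2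
  · intro ψ hov
    obtain ⟨χ, h1, h2, h3⟩ := R3 ψ hov
    exact ⟨χ, inv_of _ h1, h2, h3⟩
  · intro ψ hov s hs g g' hg'
    have h1 : g' = ⟨s * g * s⁻¹, hHS Y ⟨s, hs⟩ g g.2⟩ := Subtype.ext hg'
    rw [h1]
    exact R4 ψ hov ⟨s, hs⟩ g

end Cfg

/-- Conjugation preserves the correspondence. -/
theorem Cor.conj {X I : Subgroup Γ} [Fintype X] [Fintype I] {hIX : I ≤ X} {τ : I → ℂ} {χ : X → ℂ}
    (h : Cor hIX τ χ) (a : Γ) (haX : ∀ g ∈ X, a * g * a⁻¹ ∈ X) (haI : ∀ g ∈ I, a * g * a⁻¹ ∈ I) :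
    Cor hIX (fun i => τ (conjE I a haI i)) (fun x => χ (conjE X a haX x)) := by
  intro f hf
  let eX := conjE X a haX
  let eI := conjE I a haI
  let g : X → ℂ := fun x => f (eX.symm x)
  have hg : IsClassFunction X g := by
    intro x y
    show f (eX.symm (y * x * y⁻¹)) = f (eX.symm x)
    rw [map_mul, map_mul, map_inv]
    exact hf _ _
  have h1 := classInner_comp_equiv eX g χ
  have h2 := classInner_comp_equiv eI (resC hIX g) τ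
  have h3 := h g hg
  have e1 : (fun x => g (eX x)) = f := by
    funext x
    simp [g]
  have e2 : (fun i => resC hIX g (eI i)) = resC hIX f := by
    funext i
    show f (eX.symm ⟨eI i, hIX (eI i).2⟩) = f ⟨i, hIX i.2⟩
    congr 1
    apply Subtype.ext
    show a⁻¹ * (a * (i : Γ) * a⁻¹) * a = i
    group
  rw [e1] at h1
  rw [e2] at h2
  rw [h1, h2, h3]

/-- Constituents, in the ambient form. -/
theorem constituent_trans' {A B : Subgroup Γ} [Fintype A] [Fintype B] (hBA : B ≤ A) {f : A → ℂ} (hf : IsCharacter A f)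
    {ξ : A → ℂ} (hξ : IsIrrCharacter A ξ) {ϑ : B → ℂ} (hϑ : IsIrrCharacter B ϑ)
    (h1 : classInner f ξ ≠ 0) (h2 : classInner (resC hBA ξ) ϑ ≠ 0) : classInner (resC hBA f) ϑ ≠ 0 := by
  classical
  haveI : Fintype (B.subgroupOf A) := Fintype.ofFinite _
  let e : B.subgroupOf A ≃* B := Subgroup.subgroupOfEquivOfLe hBA
  have hϑ' : IsIrrCharacter (B.subgroupOf A) (fun x => ϑ (e x)) :=
    isIrrCharacter_comp_surjective hϑ e.toMonoidHom e.surjective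
  have h3 := Cfsg.Agent.Lib.Char.IsaacsC.constituent_trans (B.subgroupOf A) hf hξ hϑ' h1 (by
    have h4 := classInner_comp_equiv e (resC hBA ξ) ϑ
    rw [← h4] at h2
    exact h2)
  have h4 := classInner_comp_equiv e (resC hBA f) ϑ
  rw [← h4]
  exact h3

section Inv

variable {X I L S : Subgroup Γ} [Fintype X] [Fintype I] [Fintype L] (hLI : L ≤ I) (hIX : I ≤ X) (hLX : L ≤ X)
  (hLn : ∀ g ∈ X, ∀ l ∈ L, g * l * g⁻¹ ∈ L) {θ : L → ℂ} (hθ : IsIrrCharacter L θ)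
  (hI : ∀ g ∈ X, (g ∈ I ↔ ∀ l l' : L, (l' : Γ) = g * l * g⁻¹ → θ l' = θ l))
  (hSX : ∀ s ∈ S, ∀ g ∈ X, s * g * s⁻¹ ∈ X) (hSI : ∀ s ∈ S, ∀ g ∈ I, s * g * s⁻¹ ∈ I)
  (hSL : ∀ s ∈ S, ∀ l ∈ L, s * l * s⁻¹ ∈ L) (hθS : SInv S θ)

include hLI hIX hLX hLn hθ hI hSX hSI hSL hθS

/-- Invariance goes down the correspondence. -/
theorem inv_down {τ : I → ℂ} {χ : X → ℂ} (hτ : IsIrrCharacter I τ) (hχ : IsIrrCharacter X χ)
    (hov : classInner (resC hLI τ) θ ≠ 0) (hc : Cor hIX τ χ) (hχS : SInv S χ) : SInv S τ := by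
  intro s hs g g' hg'
  have h1 := Cor.conj hc s (hSX s hs) (hSI s hs)
  have h2 : (fun x => χ (conjE X s (hSX s hs) x)) = χ := by
    funext x
    exact hχS s hs x _ rfl
  rw [h2] at h1
  have hτs : IsIrrCharacter I (fun i => τ (conjE I s (hSI s hs) i)) :=
    isIrrCharacter_comp_surjective hτ (conjE I s (hSI s hs)).toMonoidHom (conjE I s (hSI s hs)).surjective
  have hovs : classInner (resC hLI (fun i => τ (conjE I s (hSI s hs) i))) θ ≠ 0 := by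
    have h3 := classInner_comp_equiv (conjE L s (hSL s hs)) (resC hLI τ) θ
    have h4 : (fun a => θ (conjE L s (hSL s hs) a)) = θ := by
      funext a
      exact hθS s hs a _ rfl
    rw [h4] at h3
    rw [← h3] at hov
    exact hov
  have h5 := (ambient X L I hLI hIX hLX hLn hθ hI).2.2.1 _ _ χ hτs hτ hχ hovs hov h1 hc
  have h6 : g' = conjE I s (hSI s hs) g := Subtype.ext hg'
  rw [h6]
  exact congrFun h5 g

/-- Invariance goes up the correspondence. -/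
theorem inv_up {τ : I → ℂ} {χ : X → ℂ} (hτ : IsIrrCharacter I τ) (hχ : IsIrrCharacter X χ)
    (hc : Cor hIX τ χ) (hτS : SInv S τ) : SInv S χ := by
  intro s hs g g' hg'
  have h1 := Cor.conj hc s (hSX s hs) (hSI s hs)
  have h2 : (fun x => τ (conjE I s (hSI s hs) x)) = τ := by
    funext x
    exact hτS s hs x _ rfl
  rw [h2] at h1
  have hχs : IsIrrCharacter X (fun i => χ (conjE X s (hSX s hs) i)) :=
    isIrrCharacter_comp_surjective hχ (conjE X s (hSX s hs)).toMonoidHom (conjE X s (hSX s hs)).surjective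
  have h5 := h1.unique_right hc hχs hχ
  have h6 : g' = conjE X s (hSX s hs) g := Subtype.ext hg'
  rw [h6]
  exact congrFun h5 g

end Inv

/-- The multiplicities in the correspondence. -/
theorem mult_formula {G H T TH L : Subgroup Γ} [Fintype G] [Fintype H] [Fintype T] [Fintype TH] [Fintype L]
    (hTG : T ≤ G) (hHG : H ≤ G) (hTHT : TH ≤ T) (hTHH : TH ≤ H) (hLTH : L ≤ TH) (hLT : L ≤ T)
    {θ : L → ℂ} (hθ : IsIrrCharacter L θ) {χ : G → ℂ} (hχ : IsClassFunction G χ) {τ ρ : T → ℂ}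
    (hsum : resC hTG χ = τ + ρ) (hρ : IsCharacter T ρ) (hρ0 : classInner (resC hLT ρ) θ = 0)
    {ψ : H → ℂ} {ψ₀ : TH → ℂ} (hψ₀ : IsIrrCharacter TH ψ₀) (hov : classInner (resC hLTH ψ₀) θ ≠ 0)
    (hc : Cor hTHH ψ₀ ψ) :
    classInner (resC hHG χ) ψ = classInner (resC hTHT τ) ψ₀ := by
  have h1 : IsClassFunction H (resC hHG χ) := by
    intro g h
    exact hχ ⟨g, hHG g.2⟩ ⟨h, hHG h.2⟩
  rw [hc _ h1]
  have h2 : resC hTHH (resC hHG χ) = resC hTHT τ + resC hTHT ρ := by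
    funext x
    exact congrFun hsum ⟨x, hTHT x.2⟩
  rw [h2, classInner_add_left]
  have h3 : classInner (resC hTHT ρ) ψ₀ = 0 := by
    by_contra hne
    have h4 := constituent_trans' hLTH (isCharacter_comp_hom hρ (Subgroup.inclusion hTHT)) hψ₀ hθ hne hov
    exact h4 hρ0
  rw [h3, add_zero]

end Cfsg.Agent.Lib.Char.IsaacsK
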