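import Mathlib
import Cfsg.Agent.Lib.Char.IsaacsK

/-!
# The correspondence for a coprime action and an abelian section
-/

set_option autoImplicit false
set_option linter.style.longLine false
set_option linter.unusedSectionVars false
set_option linter.unusedVariables false
set_option linter.style.haveILetI false

namespace Cfsg.Agent.Lib.Char.IsaacsK

open Cfsg Module Cfsg.Agent.Lib.Char.Basic Cfsg.Agent.Lib.Char.Ortho Cfsg.Agent.Lib.Char.Clifford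
  Cfsg.Agent.Lib.Char.CliffordCorr Cfsg.Agent.Lib.Char.GlaubRel Cfsg.Agent.Lib.Char.GlaubP
  Cfsg.Agent.Lib.Char.GlaubClif
  Cfsg.Agent.Lib.Char.IsaacsJ Cfsg.Agent.Lib.Char.IsaacsK
open scoped ComplexConjugate

universe u

variable {Γ : Type u} [Group Γ] [Finite Γ]

/-- The inertia group. -/
def Inert (G L : Subgroup Γ) (hLn : ∀ g ∈ G, ∀ l ∈ L, g * l * g⁻¹ ∈ L) (θ : L → ℂ) : Subgroup Γ where
  carrier := {g | g ∈ G ∧ ∀ l l' : L, (l' : Γ) = g * l * g⁻¹ → θ l' = θ l}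
  mul_mem' := by
    rintro a b ⟨ha, ha'⟩ ⟨hb, hb'⟩
    refine ⟨G.mul_mem ha hb, fun l l' h => ?_⟩
    rw [ha' ⟨b * l * b⁻¹, hLn b hb l l.2⟩ l' (by rw [h]; simp only; group), hb' l _ rfl]
  one_mem' := ⟨G.one_mem, fun l l' h => by
    have : l' = l := Subtype.ext (by simpa using h)
    rw [this]⟩
  inv_mem' := by
    rintro a ⟨ha, ha'⟩
    refine ⟨G.inv_mem ha, fun l l' h => ?_⟩
    exact (ha' l' l (by rw [h]; group)).symm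

theorem mem_Inert {G L : Subgroup Γ} {hLn : ∀ g ∈ G, ∀ l ∈ L, g * l * g⁻¹ ∈ L} {θ : L → ℂ} {g : Γ} :
    g ∈ Inert G L hLn θ ↔ g ∈ G ∧ ∀ l l' : L, (l' : Γ) = g * l * g⁻¹ → θ l' = θ l := Iff.rfl

namespace Cfg

variable (Z : Cfg Γ)

theorem hSG' (s : Γ) (hs : s ∈ Z.S) (g : Γ) (hg : g ∈ Z.G) : s⁻¹ * g * s ∈ Z.G := by
  simpa using Z.hnorm s⁻¹ (Z.S.inv_mem hs) g hg

/-- The element of `L` above a conjugate. -/
theorem conj_inv_L (g : Γ) (hg : g ∈ Z.G) (l : Γ) (hl : l ∈ Z.L) : g⁻¹ * l * g ∈ Z.L := by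
  simpa using Z.hLn g⁻¹ (Z.G.inv_mem hg) l hl

theorem S_conj_inv_L (s : Γ) (hs : s ∈ Z.S) (l : Γ) (hl : l ∈ Z.L) : s⁻¹ * l * s ∈ Z.L := by
  simpa using Z.hLS s⁻¹ (Z.S.inv_mem hs) l hl

variable {θ : Z.L → ℂ} (hθS : SInv Z.S θ)

include hθS in
/-- Inertia is stable under `S`. -/
theorem hST (s : Γ) (hs : s ∈ Z.S) (t : Γ) (ht : t ∈ Inert Z.G Z.L Z.hLn θ) :
    s * t * s⁻¹ ∈ Inert Z.G Z.L Z.hLn θ := by
  refine ⟨Z.hnorm s hs t ht.1, fun l l' h => ?_⟩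
  -- `l' = s t s⁻¹ l s t⁻¹ s⁻¹`
  have h1 := Z.S_conj_inv_L s hs l l.2
  have h2 := Z.hLn t ht.1 _ h1
  have h3 := Z.S_conj_inv_L s hs l' l'.2
  have e1 : θ l' = θ ⟨s⁻¹ * l' * s, h3⟩ := (hθS s hs ⟨s⁻¹ * l' * s, h3⟩ l' (by
    show (l' : Γ) = s * (s⁻¹ * l' * s) * s⁻¹
    group))
  have e2 : θ ⟨s⁻¹ * l' * s, h3⟩ = θ ⟨s⁻¹ * l * s, h1⟩ := ht.2 ⟨s⁻¹ * l * s, h1⟩ ⟨s⁻¹ * l' * s, h3⟩ (by
    show s⁻¹ * (l' : Γ) * s = t * (s⁻¹ * l * s) * t⁻¹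
    rw [h]
    group)
  have e3 : θ ⟨s⁻¹ * l * s, h1⟩ = θ l := (hθS s hs ⟨s⁻¹ * l * s, h1⟩ l (by
    show (l : Γ) = s * (s⁻¹ * l * s) * s⁻¹
    group)).symm
  rw [e1, e2, e3]

/-- The coset argument. -/
theorem coset_key (hθS : SInv Z.S θ) (k : Γ) (hk : k ∈ Z.K)
    (h : ∀ s ∈ Z.S, ∀ l l₁ l₂ : Z.L, (l₁ : Γ) = k * (s * l * s⁻¹) * k⁻¹ → (l₂ : Γ) = k * l * k⁻¹ → θ l₁ = θ l₂) :
    ∃ c ∈ Z.K ⊓ Subgroup.centralizer (Z.S : Set Γ), k * c ∈ Inert Z.G Z.L Z.hLn θ := by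
  have hkG := Z.hKG hk
  have hAK : Z.S ≤ Subgroup.normalizer (Z.K : Set Γ) := Subgroup.le_normalizer_iff.2 Z.hKS
  have hcop : (Nat.card Z.S).Coprime (Nat.card Z.K) :=
    (Nat.Coprime.coprime_dvd_left (Subgroup.card_dvd_of_le Z.hKG) Z.hcop).symm
  have hsolv : Group.IsSolvable Z.S ∨ Group.IsSolvable Z.K := by
    right
    haveI := Z.hGsolv
    exact solvable_of_solvable_injective (Subgroup.inclusion_injective Z.hKG)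
  have hNA : Z.S ≤ Subgroup.normalizer ((Z.K ⊓ Inert Z.G Z.L Z.hLn θ : Subgroup Γ) : Set Γ) := by
    apply Subgroup.le_normalizer_iff.2
    intro s hs x hx
    exact ⟨Z.hKS s hs x hx.1, Z.hST hθS s hs x hx.2⟩
  obtain ⟨c, hc, hc2⟩ := Cfsg.Agent.Lib.Coprime.Coset.exists_centralizer_mem_coset hAK hcop hsolv
    (N := Z.K ⊓ Inert Z.G Z.L Z.hLn θ) inf_le_left hNA k⁻¹ (Z.K.inv_mem hk) (by
      intro a ha
      rw [inv_inv]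
      refine ⟨Z.K.mul_mem hk (Z.hKS a ha _ (Z.K.inv_mem hk)), Z.G.mul_mem hkG (Z.hnorm a ha _ (Z.G.inv_mem hkG)), ?_⟩
      intro l l' hl'
      have h4 := Z.S_conj_inv_L a ha l l.2
      have h5 := Z.conj_inv_L k hkG _ h4
      have e1 := h a ha ⟨k⁻¹ * (a⁻¹ * l * a) * k, h5⟩ l' ⟨a⁻¹ * l * a, h4⟩ (by
        rw [hl']
        show _ = k * (a * (k⁻¹ * (a⁻¹ * l * a) * k) * a⁻¹) * k⁻¹
        group) (by
        show a⁻¹ * (l : Γ) * a = k * (k⁻¹ * (a⁻¹ * l * a) * k) * k⁻¹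
        group)
      have e2 : θ ⟨a⁻¹ * l * a, h4⟩ = θ l := (hθS a ha ⟨a⁻¹ * l * a, h4⟩ l (by
        show (l : Γ) = a * (a⁻¹ * l * a) * a⁻¹
        group)).symm
      rw [e1, e2])
  refine ⟨c, hc, ?_⟩
  rw [inv_inv] at hc2
  exact hc2.2

/-- Invariant characters conjugate under `G` are conjugate under `C`. -/
theorem exists_conj_C {θ₂ : Z.L → ℂ} (hθS : SInv Z.S θ) (hθ₂S : SInv Z.S θ₂) (g : Γ) (hg : g ∈ Z.G)
    (h : ∀ n : Z.L, θ₂ n = θ ⟨g * n * g⁻¹, Z.hLn g hg n n.2⟩) :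
    ∃ c ∈ Z.C, ∃ hc : ∀ l ∈ Z.L, c * l * c⁻¹ ∈ Z.L, ∀ n : Z.L, θ₂ n = θ ⟨c * n * c⁻¹, hc n n.2⟩ := by
  have hg' : g ∈ Z.K ⊔ Z.C := by
    rw [Z.hGKC]
    exact hg
  obtain ⟨k, hk, c, hc, rfl⟩ := (Cfsg.Agent.Lib.Coprime.Coset.mem_sup_iff_of_le_normalizer (by
    rw [Subgroup.le_normalizer_iff]
    intro c hc l hl
    exact Z.hKn c (Z.hCG hc) l hl) _).1 hg'
  have hcG := Z.hCG hc
  have hkG := Z.hKG hk
  have hcS : ∀ s ∈ Z.S, s * c = c * s := by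
    intro s hs
    rw [Z.hC] at hc
    have h1 : c ∈ Subgroup.centralizer (Z.S : Set Γ) := hc.2
    rw [Subgroup.mem_centralizer_iff] at h1
    exact h1 s hs
  obtain ⟨c', hc', hc'2⟩ := Z.coset_key hθS k hk (by
    intro s hs l l₁ l₂ h₁ h₂
    have hl := Z.hLS s hs l l.2
    have hn₁ := Z.conj_inv_L c hcG _ hl
    have hn₂ := Z.conj_inv_L c hcG _ l.2
    have e1 := h ⟨c⁻¹ * (s * l * s⁻¹) * c, hn₁⟩
    have e2 := h ⟨c⁻¹ * l * c, hn₂⟩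
    have e3 : (⟨k * c * ((⟨c⁻¹ * (s * l * s⁻¹) * c, hn₁⟩ : Z.L) : Γ) * (k * c)⁻¹, Z.hLn _ hg _ hn₁⟩ : Z.L) = l₁ := by
      apply Subtype.ext
      rw [h₁]
      show k * c * (c⁻¹ * (s * l * s⁻¹) * c) * (k * c)⁻¹ = _
      group
    have e4 : (⟨k * c * ((⟨c⁻¹ * l * c, hn₂⟩ : Z.L) : Γ) * (k * c)⁻¹, Z.hLn _ hg _ hn₂⟩ : Z.L) = l₂ := by
      apply Subtype.ext
      rw [h₂]
      show k * c * (c⁻¹ * l * c) * (k * c)⁻¹ = _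
      group
    rw [e3] at e1
    rw [e4] at e2
    rw [← e1, ← e2]
    refine hθ₂S s hs ⟨c⁻¹ * l * c, hn₂⟩ ⟨c⁻¹ * (s * l * s⁻¹) * c, hn₁⟩ ?_
    show c⁻¹ * (s * l * s⁻¹) * c = s * (c⁻¹ * l * c) * s⁻¹
    have h5 : s⁻¹ * c = c * s⁻¹ := hcS s⁻¹ (Z.S.inv_mem hs)
    have h6 : c⁻¹ * s = s * c⁻¹ := by
      have := hcS s hs
      calc c⁻¹ * s = c⁻¹ * (s * c) * c⁻¹ := by group
        _ = c⁻¹ * (c * s) * c⁻¹ := by rw [this]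
        _ = s * c⁻¹ := by group
    calc c⁻¹ * (s * l * s⁻¹) * c = (c⁻¹ * s) * l * (s⁻¹ * c) := by group
      _ = (s * c⁻¹) * l * (c * s⁻¹) := by rw [h6, h5]
      _ = _ := by group)
  have hc'C : c' ∈ Z.C := by
    rw [Z.hC]
    exact ⟨Z.hKG hc'.1, hc'.2⟩
  have hc₀ := Z.C.mul_mem (Z.C.inv_mem hc'C) hc
  refine ⟨c'⁻¹ * c, hc₀, fun l hl => Z.hLn _ (Z.hCG hc₀) l hl, fun n => ?_⟩
  rw [h n]
  refine (hc'2.2 ⟨c'⁻¹ * c * n * (c'⁻¹ * c)⁻¹, Z.hLn _ (Z.hCG hc₀) n n.2⟩ _ ?_)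
  show k * c * n * (k * c)⁻¹ = k * c' * (c'⁻¹ * c * n * (c'⁻¹ * c)⁻¹) * (k * c')⁻¹
  group

/-- The configuration inside the inertia group. -/
def sub (hθc : IsClassFunction Z.L θ) (hθS : SInv Z.S θ) : Cfg Γ where
  G := Inert Z.G Z.L Z.hLn θ
  S := Z.S
  C := Z.C ⊓ Inert Z.G Z.L Z.hLn θ
  K := Z.K ⊓ Inert Z.G Z.L Z.hLn θ
  L := Z.L
  H := Z.H ⊓ Inert Z.G Z.L Z.hLn θ
  hnorm := fun s hs g hg => Z.hST hθS s hs g hg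
  hcop := Nat.Coprime.coprime_dvd_left (Subgroup.card_dvd_of_le (fun x hx => hx.1)) Z.hcop
  hGsolv := by
    haveI := Z.hGsolv
    have h : Inert Z.G Z.L Z.hLn θ ≤ Z.G := fun x hx => hx.1
    exact solvable_of_solvable_injective (Subgroup.inclusion_injective h)
  hodd := Odd.of_dvd_nat Z.hodd (Subgroup.card_dvd_of_le (fun x hx => hx.1))
  hC := by
    rw [Z.hC]
    apply le_antisymm
    · rintro x ⟨⟨h1, h2⟩, h3⟩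
      exact ⟨h3, h2⟩
    · rintro x ⟨h3, h2⟩
      exact ⟨⟨h3.1, h2⟩, h3⟩
  hLK := by
    refine le_inf Z.hLK (fun l hl => ⟨Z.hLG hl, fun n n' h => ?_⟩)
    have h1 : n' = (⟨l, hl⟩ : Z.L) * n * (⟨l, hl⟩ : Z.L)⁻¹ := Subtype.ext h
    rw [h1]
    exact hθc n ⟨l, hl⟩
  hKG := inf_le_right
  hKn := fun g hg k hk => ⟨Z.hKn g hg.1 k hk.1, Subgroup.mul_mem _ (Subgroup.mul_mem _ hg hk.2) (Subgroup.inv_mem _ hg)⟩
  hLn := fun g hg => Z.hLn g hg.1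
  hKS := fun s hs k hk => ⟨Z.hKS s hs k hk.1, Z.hST hθS s hs k hk.2⟩
  hLS := Z.hLS
  hab := fun a ha b hb => Z.hab a ha.1 b hb.1
  hGKC := by
    apply le_antisymm
    · exact sup_le inf_le_right inf_le_right
    · intro t ht
      have hg' : t ∈ Z.K ⊔ Z.C := by
        rw [Z.hGKC]
        exact ht.1
      obtain ⟨k, hk, c, hc, rfl⟩ := (Cfsg.Agent.Lib.Coprime.Coset.mem_sup_iff_of_le_normalizer (by
        rw [Subgroup.le_normalizer_iff]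
        intro c hc l hl
        exact Z.hKn c (Z.hCG hc) l hl) _).1 hg'
      have hcS : ∀ s ∈ Z.S, s * c = c * s := by
        intro s hs
        rw [Z.hC] at hc
        have h1 : c ∈ Subgroup.centralizer (Z.S : Set Γ) := hc.2
        rw [Subgroup.mem_centralizer_iff] at h1
        exact h1 s hs
      have hcG := Z.hCG hc
      obtain ⟨c', hc', hc'2⟩ := Z.coset_key hθS k hk (by
        intro s hs l l₁ l₂ h₁ h₂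
        have hl := Z.hLS s hs l l.2
        have hn₁ := Z.conj_inv_L c hcG _ hl
        have hn₂ := Z.conj_inv_L c hcG _ l.2
        have e1 := ht.2 ⟨c⁻¹ * (s * l * s⁻¹) * c, hn₁⟩ l₁ (by
          rw [h₁]
          show _ = k * c * (c⁻¹ * (s * l * s⁻¹) * c) * (k * c)⁻¹
          group)
        have e2 := ht.2 ⟨c⁻¹ * l * c, hn₂⟩ l₂ (by
          rw [h₂]
          show _ = k * c * (c⁻¹ * l * c) * (k * c)⁻¹
          group)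
        rw [e1, e2]
        refine hθS s hs ⟨c⁻¹ * l * c, hn₂⟩ ⟨c⁻¹ * (s * l * s⁻¹) * c, hn₁⟩ ?_
        show c⁻¹ * (s * l * s⁻¹) * c = s * (c⁻¹ * l * c) * s⁻¹
        have h5 : s⁻¹ * c = c * s⁻¹ := hcS s⁻¹ (Z.S.inv_mem hs)
        have h6 : c⁻¹ * s = s * c⁻¹ := by
          have := hcS s hs
          calc c⁻¹ * s = c⁻¹ * (s * c) * c⁻¹ := by group
            _ = c⁻¹ * (c * s) * c⁻¹ := by rw [this]
            _ = s * c⁻¹ := by group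
        calc c⁻¹ * (s * l * s⁻¹) * c = (c⁻¹ * s) * l * (s⁻¹ * c) := by group
          _ = (s * c⁻¹) * l * (c * s⁻¹) := by rw [h6, h5]
          _ = _ := by group)
      have hc'C : c' ∈ Z.C := by
        rw [Z.hC]
        exact ⟨Z.hKG hc'.1, hc'.2⟩
      have hk₁ : k * c' ∈ Z.K ⊓ Inert Z.G Z.L Z.hLn θ := ⟨Z.K.mul_mem hk hc'.1, hc'2⟩
      have hc₀ : c'⁻¹ * c ∈ Z.C ⊓ Inert Z.G Z.L Z.hLn θ := by
        refine ⟨Z.C.mul_mem (Z.C.inv_mem hc'C) hc, ?_⟩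
        have : c'⁻¹ * c = (k * c')⁻¹ * (k * c) := by group
        rw [this]
        exact Subgroup.mul_mem _ (Subgroup.inv_mem _ hc'2) ht
      have : k * c = (k * c') * (c'⁻¹ * c) := by group
      rw [this]
      exact Subgroup.mul_mem _ (Subgroup.mem_sup_left hk₁) (Subgroup.mem_sup_right hc₀)
  hH := by
    apply le_antisymm
    · rintro x ⟨hx, hxT⟩
      rw [Z.hH] at hx
      obtain ⟨l, hl, c, hc, rfl⟩ := (Cfsg.Agent.Lib.Coprime.Coset.mem_sup_iff_of_le_normalizer (by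
        rw [Subgroup.le_normalizer_iff]
        intro c hc l hl
        exact Z.hLn c (Z.hCG hc) l hl) _).1 hx
      have hlT : l ∈ Inert Z.G Z.L Z.hLn θ := by
        refine ⟨Z.hLG hl, fun n n' h => ?_⟩
        have h1 : n' = (⟨l, hl⟩ : Z.L) * n * (⟨l, hl⟩ : Z.L)⁻¹ := Subtype.ext h
        rw [h1]
        exact hθc n ⟨l, hl⟩
      have hcT : c ∈ Inert Z.G Z.L Z.hLn θ := by
        have : c = l⁻¹ * (l * c) := by group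
        rw [this]
        exact Subgroup.mul_mem _ (Subgroup.inv_mem _ hlT) hxT
      exact Subgroup.mul_mem _ (Subgroup.mem_sup_left hl) (Subgroup.mem_sup_right ⟨hc, hcT⟩)
    · refine sup_le (le_inf Z.hLH (fun l hl => ⟨Z.hLG hl, fun n n' h => ?_⟩)) (fun x hx => ⟨Z.hCH hx.1, hx.2⟩)
      have h1 : n' = (⟨l, hl⟩ : Z.L) * n * (⟨l, hl⟩ : Z.L)⁻¹ := Subtype.ext h
      rw [h1]
      exact hθc n ⟨l, hl⟩
  hKH := fun x hx => Z.hKH ⟨hx.1.1, hx.2.1⟩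

/-- An odd natural number in the `PRel` language. -/
theorem odd_of_PRel {C : Type u} [Group C] [Fintype C] {f : C → ℂ} {β : IrrCharacter C} (h : PRel 2 f β) :
    ∃ m : ℕ, classInner f (β : C → ℂ) = m ∧ Odd m := by
  obtain ⟨m, hm, hnd, -⟩ := h.exists_not_dvd Nat.prime_two
  exact ⟨m, hm, Nat.odd_iff.2 (by omega)⟩

set_option maxHeartbeats 2000000 in
/-- The correspondence over an invariant character of `L`. -/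
theorem localC [Fintype Z.G] [Fintype Z.H] [Fintype Z.L] (θ : IrrCharacter Z.L) (hθS : SInv Z.S (θ : Z.L → ℂ)) :
    (∀ χ : IrrCharacter Z.G, SInv Z.S (χ : Z.G → ℂ) → classInner (resC Z.hLG (χ : Z.G → ℂ)) (θ : Z.L → ℂ) ≠ 0 →
      ∃ ψ : IrrCharacter Z.H, SInv Z.S (ψ : Z.H → ℂ) ∧ classInner (resC Z.hLH (ψ : Z.H → ℂ)) (θ : Z.L → ℂ) ≠ 0 ∧
        (∃ m : ℕ, classInner (resC Z.hHG (χ : Z.G → ℂ)) (ψ : Z.H → ℂ) = m ∧ Odd m) ∧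
        ∀ ψ' : IrrCharacter Z.H, classInner (resC Z.hLH (ψ' : Z.H → ℂ)) (θ : Z.L → ℂ) ≠ 0 →
          (∃ m : ℕ, classInner (resC Z.hHG (χ : Z.G → ℂ)) (ψ' : Z.H → ℂ) = m ∧ Odd m) → ψ' = ψ) ∧
    (∀ χ χ' : IrrCharacter Z.G, SInv Z.S (χ : Z.G → ℂ) → SInv Z.S (χ' : Z.G → ℂ) →
      classInner (resC Z.hLG (χ : Z.G → ℂ)) (θ : Z.L → ℂ) ≠ 0 →
      classInner (resC Z.hLG (χ' : Z.G → ℂ)) (θ : Z.L → ℂ) ≠ 0 →
      ∀ ψ : IrrCharacter Z.H, classInner (resC Z.hLH (ψ : Z.H → ℂ)) (θ : Z.L → ℂ) ≠ 0 →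
        (∃ m : ℕ, classInner (resC Z.hHG (χ : Z.G → ℂ)) (ψ : Z.H → ℂ) = m ∧ Odd m) →
        (∃ m : ℕ, classInner (resC Z.hHG (χ' : Z.G → ℂ)) (ψ : Z.H → ℂ) = m ∧ Odd m) → χ = χ') ∧
    (∀ ψ : IrrCharacter Z.H, classInner (resC Z.hLH (ψ : Z.H → ℂ)) (θ : Z.L → ℂ) ≠ 0 →
      ∃ χ : IrrCharacter Z.G, SInv Z.S (χ : Z.G → ℂ) ∧ classInner (resC Z.hLG (χ : Z.G → ℂ)) (θ : Z.L → ℂ) ≠ 0 ∧
        ∃ m : ℕ, classInner (resC Z.hHG (χ : Z.G → ℂ)) (ψ : Z.H → ℂ) = m ∧ Odd m) := by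
  classical
  have hθc : IsClassFunction Z.L (θ : Z.L → ℂ) := isClassFunction_of_isCharacter (isCharacter_of_isIrrCharacter θ.2)
  set T : Subgroup Γ := Inert Z.G Z.L Z.hLn (θ : Z.L → ℂ) with hT
  set TH : Subgroup Γ := Z.H ⊓ T with hTH
  haveI : Fintype T := Fintype.ofFinite _
  haveI : Fintype TH := Fintype.ofFinite _
  have hTG : T ≤ Z.G := fun x hx => hx.1
  have hLT : Z.L ≤ T := (Z.sub hθc hθS).hLG
  have hLTH : Z.L ≤ TH := (Z.sub hθc hθS).hLH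
  have hTHT : TH ≤ T := inf_le_right
  have hTHH : TH ≤ Z.H := inf_le_left
  have hLnH : ∀ g ∈ Z.H, ∀ l ∈ Z.L, g * l * g⁻¹ ∈ Z.L := fun g hg => Z.hLn g (Z.hHG hg)
  have hI_G : ∀ g ∈ Z.G, (g ∈ T ↔ ∀ l l' : Z.L, (l' : Γ) = g * l * g⁻¹ → (θ : Z.L → ℂ) l' = (θ : Z.L → ℂ) l) :=
    fun g hg => ⟨fun h => h.2, fun h => ⟨hg, h⟩⟩
  have hI_H : ∀ g ∈ Z.H, (g ∈ TH ↔ ∀ l l' : Z.L, (l' : Γ) = g * l * g⁻¹ → (θ : Z.L → ℂ) l' = (θ : Z.L → ℂ) l) :=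
    fun g hg => ⟨fun h => h.2.2, fun h => ⟨hg, Z.hHG hg, h⟩⟩
  have hSG := Z.hnorm
  have hST' : ∀ s ∈ Z.S, ∀ g ∈ T, s * g * s⁻¹ ∈ T := fun s hs g hg => Z.hST hθS s hs g hg
  have hSH : ∀ s ∈ Z.S, ∀ g ∈ Z.H, s * g * s⁻¹ ∈ Z.H := by
    intro s hs g hg
    have h1 : Z.H ≤ Subgroup.comap (MulAut.conj s).toMonoidHom Z.H := by
      conv_lhs => rw [Z.hH]
      apply sup_le
      · intro l hl
        exact Z.hLH (Z.hLS s hs l hl)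
      · intro c hc
        have h2 : s * c * s⁻¹ = c := by
          have hc2 := hc
          rw [Z.hC] at hc2
          have h3 : c ∈ Subgroup.centralizer (Z.S : Set Γ) := hc2.2
          rw [Subgroup.mem_centralizer_iff] at h3
          rw [h3 s hs]
          group
        show s * c * s⁻¹ ∈ Z.H
        rw [h2]
        exact Z.hCH hc
    exact h1 hg
  have hSTH : ∀ s ∈ Z.S, ∀ g ∈ TH, s * g * s⁻¹ ∈ TH := fun s hs g hg => ⟨hSH s hs g hg.1, hST' s hs g hg.2⟩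
  have hθG : ∀ g ∈ T, ∀ l l' : Z.L, (l' : Γ) = g * l * g⁻¹ → (θ : Z.L → ℂ) l' = (θ : Z.L → ℂ) l := fun g hg => hg.2
  -- the statements for the inertia group
  obtain ⟨L1, L2, L3, L4⟩ : _ ∧ _ ∧ _ ∧ _ := @Cfg.level2 Γ _ _ (Z.sub hθc hθS) (‹Fintype T›) (‹Fintype TH›) ‹_› θ hθG hθS
  change (∀ χ : IrrCharacter T, SInv Z.S (χ : T → ℂ) → classInner (resC hLT (χ : T → ℂ)) (θ : Z.L → ℂ) ≠ 0 →
      ∃ ψ : IrrCharacter TH, classInner (resC hLTH (ψ : TH → ℂ)) (θ : Z.L → ℂ) ≠ 0 ∧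
        PRel 2 (resC hTHT (χ : T → ℂ)) ψ) at L1
  change (∀ χ χ' : IrrCharacter T, SInv Z.S (χ : T → ℂ) → SInv Z.S (χ' : T → ℂ) →
      classInner (resC hLT (χ : T → ℂ)) (θ : Z.L → ℂ) ≠ 0 →
      classInner (resC hLT (χ' : T → ℂ)) (θ : Z.L → ℂ) ≠ 0 →
      ∀ ψ : IrrCharacter TH, PRel 2 (resC hTHT (χ : T → ℂ)) ψ → PRel 2 (resC hTHT (χ' : T → ℂ)) ψ → χ = χ') at L2
  change (∀ ψ : IrrCharacter TH, classInner (resC hLTH (ψ : TH → ℂ)) (θ : Z.L → ℂ) ≠ 0 →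
      ∃ χ : IrrCharacter T, SInv Z.S (χ : T → ℂ) ∧
        classInner (resC hLT (χ : T → ℂ)) (θ : Z.L → ℂ) ≠ 0 ∧ PRel 2 (resC hTHT (χ : T → ℂ)) ψ) at L3
  change (∀ ψ : IrrCharacter TH, classInner (resC hLTH (ψ : TH → ℂ)) (θ : Z.L → ℂ) ≠ 0 → SInv Z.S (ψ : TH → ℂ)) at L4
  obtain ⟨A1, A2, A3, A4⟩ := ambient Z.G Z.L T hLT hTG Z.hLG Z.hLn θ.2 hI_G
  obtain ⟨B1, B2, B3, B4⟩ := ambient Z.H Z.L TH hLTH hTHH Z.hLH hLnH θ.2 hI_H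
  have hclass : ∀ χ : IrrCharacter Z.G, IsClassFunction Z.G (χ : Z.G → ℂ) :=
    fun χ => isClassFunction_of_isCharacter (isCharacter_of_isIrrCharacter χ.2)
  -- the multiplicity formula
  have hmult : ∀ (χ : IrrCharacter Z.G) (τ : T → ℂ) (ψ : Z.H → ℂ) (ψ₀ : TH → ℂ), IsIrrCharacter T τ →
      classInner (resC hLT τ) (θ : Z.L → ℂ) ≠ 0 → Cor hTG τ (χ : Z.G → ℂ) → IsIrrCharacter TH ψ₀ →
      classInner (resC hLTH ψ₀) (θ : Z.L → ℂ) ≠ 0 → Cor hTHH ψ₀ ψ →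
      classInner (resC Z.hHG (χ : Z.G → ℂ)) ψ = classInner (resC hTHT τ) ψ₀ := by
    intro χ τ ψ ψ₀ hτ hτov hc hψ₀ hψ₀ov hcψ
    obtain ⟨ρ, hρ, hsum, hρ0⟩ := A4 τ χ hτ χ.2 hτov hc
    exact mult_formula hTG Z.hHG hTHT hTHH hLTH hLT θ.2 (hclass χ) hsum hρ hρ0 hψ₀ hψ₀ov hcψ
  have hτS : ∀ (χ : IrrCharacter Z.G) (τ : T → ℂ), IsIrrCharacter T τ → classInner (resC hLT τ) (θ : Z.L → ℂ) ≠ 0 →
      Cor hTG τ (χ : Z.G → ℂ) → SInv Z.S (χ : Z.G → ℂ) → SInv Z.S τ := by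
    intro χ τ hτ hov hc hχ
    exact inv_down hLT hTG Z.hLG Z.hLn θ.2 hI_G hSG hST' Z.hLS hθS hτ χ.2 hov hc hχ
  -- from an odd multiplicity to `PRel`
  have hrelOf : ∀ (τ : IrrCharacter T) (ψ₀ : IrrCharacter TH), SInv Z.S (τ : T → ℂ) →
      classInner (resC hLT (τ : T → ℂ)) (θ : Z.L → ℂ) ≠ 0 →
      (∃ m : ℕ, classInner (resC hTHT (τ : T → ℂ)) (ψ₀ : TH → ℂ) = m ∧ Odd m) →
      PRel 2 (resC hTHT (τ : T → ℂ)) ψ₀ := by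
    rintro τ ψ₀ hτS hτov ⟨m, hm, hodd⟩
    obtain ⟨ψ₁, -, hrel⟩ := L1 τ hτS hτov
    have h1 : ψ₀ = ψ₁ := hrel.eq_of_not_dvd hm (by
      rw [Nat.odd_iff] at hodd
      omega)
    rw [h1]
    exact hrel
  refine ⟨?_, ?_, ?_⟩
  · intro χ hχ hov
    obtain ⟨τ, hτ, hτov, hc⟩ := A1 χ χ.2 hov
    have hS₁ := hτS χ τ hτ hτov hc hχ
    obtain ⟨ψ₀, hψ₀ov, hrel⟩ := L1 ⟨τ, hτ⟩ hS₁ hτov
    obtain ⟨ψ, hψ, hψov, hcψ⟩ := B2 ψ₀ ψ₀.2 hψ₀ov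
    refine ⟨⟨ψ, hψ⟩, ?_, hψov, ?_, ?_⟩
    · exact inv_up hLTH hTHH Z.hLH hLnH θ.2 hI_H hSH hSTH Z.hLS hθS ψ₀.2 hψ hcψ (L4 ψ₀ hψ₀ov)
    · rw [hmult χ τ ψ ψ₀ hτ hτov hc ψ₀.2 hψ₀ov hcψ]
      exact odd_of_PRel hrel
    · rintro ψ' hψ'ov ⟨m, hm, hodd⟩
      obtain ⟨ψ₀', hψ₀', hψ₀'ov, hc'⟩ := B1 ψ' ψ'.2 hψ'ov
      rw [hmult χ τ ψ' ψ₀' hτ hτov hc hψ₀' hψ₀'ov hc'] at hm
      have h1 : (⟨ψ₀', hψ₀'⟩ : IrrCharacter TH) = ψ₀ := hrel.eq_of_not_dvd hm (by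
        rw [Nat.odd_iff] at hodd
        omega)
      have h2 : ψ₀' = ψ₀ := congrArg Subtype.val h1
      rw [h2] at hc'
      exact Subtype.ext (hc'.unique_right hcψ ψ'.2 hψ)
  · intro χ χ' hχ hχ' hov hov' ψ hψov hm hm'
    obtain ⟨τ, hτ, hτov, hc⟩ := A1 χ χ.2 hov
    obtain ⟨τ', hτ', hτov', hc'⟩ := A1 χ' χ'.2 hov'
    obtain ⟨ψ₀, hψ₀, hψ₀ov, hcψ⟩ := B1 ψ ψ.2 hψov
    rw [hmult χ τ ψ ψ₀ hτ hτov hc hψ₀ hψ₀ov hcψ] at hm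
    rw [hmult χ' τ' ψ ψ₀ hτ' hτov' hc' hψ₀ hψ₀ov hcψ] at hm'
    have hS₁ := hτS χ τ hτ hτov hc hχ
    have hS₂ := hτS χ' τ' hτ' hτov' hc' hχ'
    have h1 := hrelOf ⟨τ, hτ⟩ ⟨ψ₀, hψ₀⟩ hS₁ hτov hm
    have h2 := hrelOf ⟨τ', hτ'⟩ ⟨ψ₀, hψ₀⟩ hS₂ hτov' hm'
    have h3 := L2 ⟨τ, hτ⟩ ⟨τ', hτ'⟩ hS₁ hS₂ hτov hτov' ⟨ψ₀, hψ₀⟩ h1 h2
    have h4 : τ = τ' := congrArg Subtype.val h3
    rw [← h4] at hc'
    exact Subtype.ext (hc.unique_right hc' χ.2 χ'.2)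
  · intro ψ hψov
    obtain ⟨ψ₀, hψ₀, hψ₀ov, hcψ⟩ := B1 ψ ψ.2 hψov
    obtain ⟨⟨τ, hτ⟩, hτS', hτov, hrel⟩ := L3 ⟨ψ₀, hψ₀⟩ hψ₀ov
    obtain ⟨χ, hχ, hχov, hc⟩ := A2 τ hτ hτov
    refine ⟨⟨χ, hχ⟩, ?_, hχov, ?_⟩
    · exact inv_up hLT hTG Z.hLG Z.hLn θ.2 hI_G hSG hST' Z.hLS hθS hτ hχ hc hτS'
    · have h5 := hmult ⟨χ, hχ⟩ τ ψ ψ₀ hτ hτov hc hψ₀ hψ₀ov hcψ
      rw [h5]
      exact odd_of_PRel hrel

/-- The correspondence for a coprime action and an abelian section. -/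
theorem main_cfg [Fintype Z.G] [Fintype Z.H] :
    (∀ χ : IrrCharacter Z.G, SInv Z.S (χ : Z.G → ℂ) → ∃! ψ : IrrCharacter Z.H, SInv Z.S (ψ : Z.H → ℂ) ∧
      ∃ m : ℕ, classInner (resC Z.hHG (χ : Z.G → ℂ)) (ψ : Z.H → ℂ) = m ∧ Odd m) ∧
    (∀ χ χ' : IrrCharacter Z.G, SInv Z.S (χ : Z.G → ℂ) → SInv Z.S (χ' : Z.G → ℂ) →
      ∀ ψ : IrrCharacter Z.H, SInv Z.S (ψ : Z.H → ℂ) → ∀ m m' : ℕ,
        classInner (resC Z.hHG (χ : Z.G → ℂ)) (ψ : Z.H → ℂ) = m → Odd m →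
        classInner (resC Z.hHG (χ' : Z.G → ℂ)) (ψ : Z.H → ℂ) = m' → Odd m' → χ = χ') ∧
    (∀ ψ : IrrCharacter Z.H, SInv Z.S (ψ : Z.H → ℂ) → ∃ χ : IrrCharacter Z.G, SInv Z.S (χ : Z.G → ℂ) ∧
      ∃ m : ℕ, classInner (resC Z.hHG (χ : Z.G → ℂ)) (ψ : Z.H → ℂ) = m ∧ Odd m) := by
  classical
  haveI : Fintype Z.L := Fintype.ofFinite _
  haveI hGs := Z.hGsolv
  have hHsolv : Group.IsSolvable Z.H := solvable_of_solvable_injective (Subgroup.inclusion_injective Z.hHG)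
  haveI := hHsolv
  have hSH : ∀ s ∈ Z.S, ∀ g ∈ Z.H, s * g * s⁻¹ ∈ Z.H := by
    intro s hs g hg
    have h1 : Z.H ≤ Subgroup.comap (MulAut.conj s).toMonoidHom Z.H := by
      conv_lhs => rw [Z.hH]
      apply sup_le
      · intro l hl
        exact Z.hLH (Z.hLS s hs l hl)
      · intro c hc
        have h2 : s * c * s⁻¹ = c := by
          have hc2 := hc
          rw [Z.hC] at hc2
          have h3 : c ∈ Subgroup.centralizer (Z.S : Set Γ) := hc2.2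
          rw [Subgroup.mem_centralizer_iff] at h3
          rw [h3 s hs]
          group
        show s * c * s⁻¹ ∈ Z.H
        rw [h2]
        exact Z.hCH hc
    exact h1 hg
  have under_G : ∀ χ : IrrCharacter Z.G, SInv Z.S (χ : Z.G → ℂ) → ∃ θ : IrrCharacter Z.L,
      classInner (resC Z.hLG (χ : Z.G → ℂ)) (θ : Z.L → ℂ) ≠ 0 ∧ SInv Z.S (θ : Z.L → ℂ) := by
    intro χ hχ
    haveI hN : (Z.L.subgroupOf Z.G).Normal := ⟨fun n hn g => by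
      rw [Subgroup.mem_subgroupOf] at hn ⊢
      exact Z.hLn g g.2 n hn⟩
    refine exists_inv_constituent Z.hnorm Z.hLG Z.hLS ?_ (Or.inr inferInstance) χ hχ
    exact Nat.Coprime.coprime_dvd_left (Subgroup.index_dvd_card _) Z.hcop
  have under_H : ∀ ψ : IrrCharacter Z.H, SInv Z.S (ψ : Z.H → ℂ) → ∃ θ : IrrCharacter Z.L,
      classInner (resC Z.hLH (ψ : Z.H → ℂ)) (θ : Z.L → ℂ) ≠ 0 ∧ SInv Z.S (θ : Z.L → ℂ) := by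
    intro χ hχ
    haveI hN : (Z.L.subgroupOf Z.H).Normal := ⟨fun n hn g => by
      rw [Subgroup.mem_subgroupOf] at hn ⊢
      exact Z.hLn g (Z.hHG g.2) n hn⟩
    refine exists_inv_constituent hSH Z.hLH Z.hLS ?_ (Or.inr inferInstance) χ hχ
    exact Nat.Coprime.coprime_dvd_left ((Subgroup.index_dvd_card _).trans (Subgroup.card_dvd_of_le Z.hHG)) Z.hcop
  have trans : ∀ (χ : IrrCharacter Z.G) (ψ : IrrCharacter Z.H) (θ : IrrCharacter Z.L),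
      classInner (resC Z.hHG (χ : Z.G → ℂ)) (ψ : Z.H → ℂ) ≠ 0 →
      classInner (resC Z.hLH (ψ : Z.H → ℂ)) (θ : Z.L → ℂ) ≠ 0 →
      classInner (resC Z.hLG (χ : Z.G → ℂ)) (θ : Z.L → ℂ) ≠ 0 := by
    intro χ ψ θ h1 h2
    exact constituent_trans' Z.hLH (isCharacter_comp_hom (isCharacter_of_isIrrCharacter χ.2) (Subgroup.inclusion Z.hHG)) ψ.2 θ.2 h1 h2
  have ne0 : ∀ {c : ℂ} {m : ℕ}, c = m → Odd m → c ≠ 0 := by
    intro c m h hm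
    rw [h]
    intro h0
    have h1 : m = 0 := by exact_mod_cast h0
    rw [h1] at hm
    exact Nat.not_odd_zero hm
  refine ⟨?_, ?_, ?_⟩
  · intro χ hχ
    obtain ⟨θ, hθ, hθS⟩ := under_G χ hχ
    obtain ⟨C1, C2, C3⟩ := Z.localC θ hθS
    obtain ⟨ψ, hψS, hψov, hm, huniq⟩ := C1 χ hχ hθ
    refine ⟨ψ, ⟨hψS, hm⟩, ?_⟩
    rintro ψ' ⟨hψ'S, m, hm', hodd⟩
    apply huniq ψ' _ ⟨m, hm', hodd⟩
    obtain ⟨θ', hθ', hθ'S⟩ := under_H ψ' hψ'S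
    have h1 := trans χ ψ' θ' (ne0 hm' hodd) hθ'
    obtain ⟨g, hg, hgc⟩ := clifford_conj Z.hLG Z.hLn hθ h1
    obtain ⟨c, hc, hcL, hcc⟩ := Z.exists_conj_C hθS hθ'S g hg hgc
    have h2 := classInner_conj_of_inv Z.hLH hcL (χ := (ψ' : Z.H → ℂ)) (by
      intro n
      have := isClassFunction_of_isCharacter (isCharacter_of_isIrrCharacter ψ'.2) ⟨n, Z.hLH n.2⟩ ⟨c, Z.hCH hc⟩
      exact this) (θ : Z.L → ℂ)
    have h3 : (fun n : Z.L => (θ : Z.L → ℂ) (conjE Z.L c hcL n)) = (θ' : Z.L → ℂ) := by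
      funext n
      exact (hcc n).symm
    rw [h3] at h2
    rw [← h2]
    exact hθ'
  · intro χ χ' hχ hχ' ψ hψS m m' hm hodd hm' hodd'
    obtain ⟨θ, hθ, hθS⟩ := under_H ψ hψS
    exact (Z.localC θ hθS).2.1 χ χ' hχ hχ' (trans χ ψ θ (ne0 hm hodd) hθ) (trans χ' ψ θ (ne0 hm' hodd') hθ) ψ hθ ⟨m, hm, hodd⟩ ⟨m', hm', hodd'⟩
  · intro ψ hψS
    obtain ⟨θ, hθ, hθS⟩ := under_H ψ hψS
    obtain ⟨χ, hχ, -, hm⟩ := (Z.localC θ hθS).2.2 ψ hθ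
    exact ⟨χ, hχ, hm⟩

end Cfg

end Cfsg.Agent.Lib.Char.IsaacsK
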