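import Mathlib

/-!
# Landau's theorem: finitely many finite groups with a given number of conjugacy classes

`exists_bound`: for every `k` there is `N` such that every finite group with at most `k` conjugacy classes has
order at most `N`.
-/

set_option autoImplicit false

namespace Cfsg.Agent.Lib.Char.Landau

/-- The arithmetic core: the solutions of `∑ 1/x = r` with `k` positive integers are bounded. -/
theorem exists_bound_multiset (k : ℕ) : ∀ r : ℚ, ∃ N : ℕ, ∀ m : Multiset ℕ, Multiset.card m = k →
    (∀ x ∈ m, 0 < x) → (m.map fun x : ℕ => ((x : ℚ))⁻¹).sum = r → ∀ x ∈ m, x ≤ N := by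
  induction k with
  | zero =>
    intro r
    refine ⟨0, fun m hm _ _ x hx => ?_⟩
    rw [Multiset.card_eq_zero] at hm
    rw [hm] at hx
    simp at hx
  | succ k ih =>
    intro r
    choose N hN using ih
    -- the candidates for the smallest member
    set V : ℕ := ⌈((k + 1 : ℚ)) / r⌉₊ with hV
    refine ⟨V + ∑ v ∈ Finset.range (V + 1), N (r - ((v : ℚ))⁻¹), fun m hm hpos hsum x hx => ?_⟩
    have hne : m ≠ 0 := by
      rintro rfl
      simp at hm
    obtain ⟨v, hv, hmin⟩ : ∃ v ∈ m, ∀ y ∈ m, v ≤ y := by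
      obtain ⟨a, ha⟩ := Multiset.exists_mem_of_ne_zero hne
      obtain ⟨v, hv, hmin⟩ := Finset.exists_min_image m.toFinset id ⟨a, Multiset.mem_toFinset.mpr ha⟩
      exact ⟨v, Multiset.mem_toFinset.mp hv, fun y hy => hmin y (Multiset.mem_toFinset.mpr hy)⟩
    have hv0 : 0 < v := hpos v hv
    have hv0' : (0 : ℚ) < v := by exact_mod_cast hv0
    obtain ⟨m', rfl⟩ := Multiset.exists_cons_of_mem hv
    have hcard : Multiset.card m' = k := by
      simpa using hm
    rw [Multiset.map_cons, Multiset.sum_cons] at hsum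
    -- each term is at most `1 / v`
    have hle : (m'.map fun x : ℕ => ((x : ℚ))⁻¹).sum ≤ k * (v : ℚ)⁻¹ := by
      have h1 : ∀ y ∈ m'.map (fun x : ℕ => ((x : ℚ))⁻¹), y ≤ (v : ℚ)⁻¹ := by
        intro y hy
        obtain ⟨w, hw, rfl⟩ := Multiset.mem_map.mp hy
        have hw' : w ∈ v ::ₘ m' := Multiset.mem_cons_of_mem hw
        have h2 : (v : ℚ) ≤ w := by exact_mod_cast hmin w hw'
        exact inv_anti₀ hv0' h2
      have h3 := Multiset.sum_le_card_nsmul _ _ h1
      simpa [hcard] using h3
    have hrpos : 0 < r := by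
      have h1 : 0 ≤ (m'.map fun x : ℕ => ((x : ℚ))⁻¹).sum := by
        apply Multiset.sum_nonneg
        intro y hy
        obtain ⟨w, _, rfl⟩ := Multiset.mem_map.mp hy
        positivity
      have h2 : 0 < (v : ℚ)⁻¹ := by positivity
      rw [← hsum]
      linarith
    have hvV : v ≤ V := by
      rw [hV]
      have h1 : r ≤ (k + 1) * (v : ℚ)⁻¹ := by
        rw [← hsum]
        linarith
      have h2 : (v : ℚ) ≤ (k + 1) / r := by
        rw [le_div_iff₀ hrpos]
        have h3 : (v : ℚ) * r ≤ v * ((k + 1) * (v : ℚ)⁻¹) := mul_le_mul_of_nonneg_left h1 hv0'.le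
        have h4 : (v : ℚ) * ((k + 1) * (v : ℚ)⁻¹) = k + 1 := by
          field_simp
        linarith
      have h5 := Nat.le_ceil (((k + 1 : ℚ)) / r)
      exact_mod_cast h2.trans h5
    rcases Multiset.mem_cons.mp hx with rfl | hx
    · exact hvV.trans (Nat.le_add_right _ _)
    · have h1 : (m'.map fun x : ℕ => ((x : ℚ))⁻¹).sum = r - (v : ℚ)⁻¹ := by
        rw [← hsum]
        ring
      have h2 := hN (r - (v : ℚ)⁻¹) m' hcard (fun y hy => hpos y (Multiset.mem_cons_of_mem hy)) h1 x hx
      have h3 : N (r - (v : ℚ)⁻¹) ≤ ∑ v ∈ Finset.range (V + 1), N (r - ((v : ℚ))⁻¹) :=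
        Finset.single_le_sum (f := fun v : ℕ => N (r - ((v : ℚ))⁻¹)) (fun _ _ => Nat.zero_le _)
          (Finset.mem_range.mpr (Nat.lt_succ_of_le hvV))
      omega

lemma ncard_carrier_mul_card_centralizer {G : Type*} [Group G] [Finite G] (g : G) :
    (ConjClasses.mk g).carrier.ncard * Nat.card (Subgroup.centralizer ({g} : Set G)) = Nat.card G := by
  have h1 := MulAction.index_stabilizer (ConjAct G) g
  rw [ConjAct.orbit_eq_carrier_conjClasses] at h1
  have h2 : Nat.card (ConjAct G) = Nat.card G := rfl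
  have h3 := Subgroup.index_mul_card (MulAction.stabilizer (ConjAct G) g)
  rw [h1] at h3
  have e : Subgroup.centralizer ({g} : Set G) ≃ MulAction.stabilizer (ConjAct G) g :=
    Equiv.subtypeEquiv ConjAct.toConjAct.toEquiv (by
      intro a
      rw [Subgroup.centralizer_eq_comap_stabilizer]
      rfl)
  rw [Nat.card_congr e, h3, h2]

/-- The class equation in reciprocal form. -/
theorem sum_inv_card_centralizer (G : Type*) [Group G] [Fintype G] [Fintype (ConjClasses G)] :
    ∑ c : ConjClasses G, (((Nat.card (Subgroup.centralizer ({Quotient.out c} : Set G)) : ℕ) : ℚ))⁻¹ = 1 := by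
  classical
  have hG : (Nat.card G : ℚ) ≠ 0 := by exact_mod_cast Nat.card_pos.ne'
  have h1 : ∀ c : ConjClasses G, (((Nat.card (Subgroup.centralizer ({Quotient.out c} : Set G)) : ℕ) : ℚ))⁻¹ =
      (c.carrier.ncard : ℚ) / (Nat.card G : ℚ) := by
    intro c
    have h2 := ncard_carrier_mul_card_centralizer (Quotient.out c)
    have h6 : ConjClasses.mk (Quotient.out c) = c := Quotient.out_eq c
    rw [h6] at h2
    have h4 : ((Nat.card (Subgroup.centralizer ({Quotient.out c} : Set G)) : ℕ) : ℚ) ≠ 0 := by
      exact_mod_cast Nat.card_pos.ne'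
    rw [← h2]
    push_cast
    have h5 : (c.carrier.ncard : ℚ) ≠ 0 := by
      intro h7
      apply hG
      rw [← h2]
      push_cast
      rw [h7, zero_mul]
    field_simp
  rw [Finset.sum_congr rfl fun c _ => h1 c, ← Finset.sum_div]
  have h2 := Group.sum_card_conj_classes_eq_card (G := G)
  rw [finsum_eq_sum_of_fintype] at h2
  have h3 : ∑ c : ConjClasses G, ((c.carrier.ncard : ℕ) : ℚ) = (Nat.card G : ℚ) := by
    rw [← h2]
    push_cast
    rfl
  rw [h3, div_self hG]

universe u

/-- **Landau's theorem**. -/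
theorem exists_bound (k : ℕ) : ∃ N : ℕ, ∀ (G : Type u) [Group G] [Finite G], Nat.card (ConjClasses G) ≤ k →
    Nat.card G ≤ N := by
  classical
  choose N hN using fun j : ℕ => exists_bound_multiset j 1
  refine ⟨∑ j ∈ Finset.range (k + 1), N j, fun G _ _ hk => ?_⟩
  cases nonempty_fintype G
  haveI : Fintype (ConjClasses G) := Fintype.ofFinite _
  set f : ConjClasses G → ℕ := fun c => Nat.card (Subgroup.centralizer ({Quotient.out c} : Set G)) with hf
  have h1 := hN (Nat.card (ConjClasses G)) ((Finset.univ : Finset (ConjClasses G)).val.map f)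
    (by simp [Nat.card_eq_fintype_card]) (by
      intro x hx
      obtain ⟨c, -, rfl⟩ := Multiset.mem_map.mp hx
      exact Nat.card_pos) (by
      rw [Multiset.map_map]
      exact sum_inv_card_centralizer G)
  have h2 : Nat.card G ≤ N (Nat.card (ConjClasses G)) := by
    have h3 := h1 (f (ConjClasses.mk (1 : G))) (Multiset.mem_map_of_mem _ (Finset.mem_univ _))
    have h4 : Quotient.out (ConjClasses.mk (1 : G)) = 1 := by
      have h5 : ConjClasses.mk (Quotient.out (ConjClasses.mk (1 : G))) = ConjClasses.mk (1 : G) := Quotient.out_eq _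
      rw [ConjClasses.mk_eq_mk_iff_isConj] at h5
      exact isConj_one_right.mp h5.symm
    have h6 : f (ConjClasses.mk (1 : G)) = Nat.card G := by
      rw [hf]
      simp only
      rw [h4]
      have h7 : Subgroup.centralizer ({1} : Set G) = ⊤ := by
        ext x
        simp [Subgroup.mem_centralizer_iff]
      rw [h7]
      exact Nat.card_congr Subgroup.topEquiv.toEquiv
    rwa [h6] at h3
  exact h2.trans (Finset.single_le_sum (f := N) (fun _ _ => Nat.zero_le _)
    (Finset.mem_range.mpr (Nat.lt_succ_of_le hk)))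

end Cfsg.Agent.Lib.Char.Landau
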