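import Mathlib

/-!
# Jordan's theorem: the subgroup generated by the elements close to a scalar is abelian

Let `U : G →* E` be an injective homomorphism of a finite group into a complex normed algebra
with `‖U g‖ ≤ 1` for all `g`.  The elements `x` with `‖U x - s‖ < 1/2` for some scalar `s` generate
an abelian normal subgroup of `G`.
-/

set_option autoImplicit false
set_option linter.unusedSectionVars false

namespace Cfsg.Agent.Lib.Char.LinearBound

section Core

variable {G : Type*} [Group G] {E : Type*} [NormedRing E] [NormedAlgebra ℂ E]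

/-- The elements whose image lies within `1/2` of a scalar. -/
def nearScalar (U : G →* E) : Set G :=
  {x | ∃ s : ℂ, ‖U x - algebraMap ℂ E s‖ < 1 / 2}

variable (U : G →* E)

theorem unit_mul_inv (g : G) : U g * U g⁻¹ = 1 := by
  rw [← map_mul, mul_inv_cancel, map_one]

theorem unit_inv_mul (g : G) : U g⁻¹ * U g = 1 := by
  rw [← map_mul, inv_mul_cancel, map_one]

variable {U}

theorem conj_mem_nearScalar (hU : ∀ g, ‖U g‖ ≤ 1) {x : G} (hx : x ∈ nearScalar U) (g : G) :
    g * x * g⁻¹ ∈ nearScalar U := by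
  obtain ⟨s, hs⟩ := hx
  refine ⟨s, lt_of_le_of_lt ?_ hs⟩
  have h : U (g * x * g⁻¹) - algebraMap ℂ E s
      = U g * (U x - algebraMap ℂ E s) * U g⁻¹ := by
    rw [map_mul, map_mul, mul_sub, sub_mul, ← Algebra.commutes s (U g), mul_assoc (algebraMap ℂ E s),
      unit_mul_inv, mul_one]
  rw [h]
  calc ‖U g * (U x - algebraMap ℂ E s) * U g⁻¹‖
      ≤ ‖U g‖ * ‖U x - algebraMap ℂ E s‖ * ‖U g⁻¹‖ := norm_mul₃_le
    _ ≤ 1 * ‖U x - algebraMap ℂ E s‖ * 1 := by
        gcongr
        · exact hU g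
        · exact hU g⁻¹
    _ = _ := by ring

/-- The commutator in terms of the difference of products. -/
theorem comm_sub_one (x c : G) :
    U (x * c * x⁻¹ * c⁻¹) - 1 = (U x * U c - U c * U x) * (U x⁻¹ * U c⁻¹) := by
  rw [sub_mul]
  have h2 : U c * U x * (U x⁻¹ * U c⁻¹) = 1 := by
    rw [mul_assoc, ← mul_assoc (U x), unit_mul_inv, one_mul, unit_mul_inv]
  rw [h2]
  simp only [map_mul, mul_assoc]

theorem norm_comm_le (hU : ∀ g, ‖U g‖ ≤ 1) (x c : G) :
    ‖U (x * c * x⁻¹ * c⁻¹) - 1‖ ≤ ‖U x * U c - U c * U x‖ := by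
  rw [comm_sub_one]
  calc ‖(U x * U c - U c * U x) * (U x⁻¹ * U c⁻¹)‖
      ≤ ‖U x * U c - U c * U x‖ * ‖U x⁻¹ * U c⁻¹‖ := norm_mul_le _ _
    _ ≤ ‖U x * U c - U c * U x‖ * 1 := by
        gcongr
        calc ‖U x⁻¹ * U c⁻¹‖ ≤ ‖U x⁻¹‖ * ‖U c⁻¹‖ := norm_mul_le _ _
          _ ≤ 1 * 1 := by
            gcongr
            · exact hU _
            · exact hU _
          _ = 1 := one_mul 1
    _ = _ := mul_one _

/-- Contraction of the distance to the identity. -/
theorem norm_comm_le_of_sub_one (hU : ∀ g, ‖U g‖ ≤ 1) (x c : G) (s : ℂ) :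
    ‖U (x * c * x⁻¹ * c⁻¹) - 1‖ ≤ 2 * ‖U x - algebraMap ℂ E s‖ * ‖U c - 1‖ := by
  refine (norm_comm_le hU x c).trans ?_
  have h : U x * U c - U c * U x
      = (U x - algebraMap ℂ E s) * (U c - 1) - (U c - 1) * (U x - algebraMap ℂ E s) := by
    have h1 := Algebra.commutes s (U c)
    simp only [mul_sub, sub_mul, mul_one, one_mul]
    rw [h1]
    abel
  rw [h]
  calc ‖(U x - algebraMap ℂ E s) * (U c - 1) - (U c - 1) * (U x - algebraMap ℂ E s)‖
      ≤ ‖(U x - algebraMap ℂ E s) * (U c - 1)‖ + ‖(U c - 1) * (U x - algebraMap ℂ E s)‖ :=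
        norm_sub_le _ _
    _ ≤ ‖U x - algebraMap ℂ E s‖ * ‖U c - 1‖ + ‖U c - 1‖ * ‖U x - algebraMap ℂ E s‖ := by
        gcongr <;> exact norm_mul_le _ _
    _ = _ := by ring

/-- Bound of a commutator in terms of the distance of one entry to a scalar. -/
theorem norm_comm_le_of_scalar (hU : ∀ g, ‖U g‖ ≤ 1) (x c : G) (s : ℂ) :
    ‖U (x * c * x⁻¹ * c⁻¹) - 1‖ ≤ 2 * ‖U x - algebraMap ℂ E s‖ := by
  refine (norm_comm_le hU x c).trans ?_
  have h : U x * U c - U c * U x
      = (U x - algebraMap ℂ E s) * U c - U c * (U x - algebraMap ℂ E s) := by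
    have h1 := Algebra.commutes s (U c)
    simp only [mul_sub, sub_mul]
    rw [h1]
    abel
  rw [h]
  calc ‖(U x - algebraMap ℂ E s) * U c - U c * (U x - algebraMap ℂ E s)‖
      ≤ ‖(U x - algebraMap ℂ E s) * U c‖ + ‖U c * (U x - algebraMap ℂ E s)‖ := norm_sub_le _ _
    _ ≤ ‖U x - algebraMap ℂ E s‖ * ‖U c‖ + ‖U c‖ * ‖U x - algebraMap ℂ E s‖ := by
        gcongr <;> exact norm_mul_le _ _
    _ ≤ ‖U x - algebraMap ℂ E s‖ * 1 + 1 * ‖U x - algebraMap ℂ E s‖ := by
        gcongr <;> exact hU c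
    _ = _ := by ring

/-- A finite order element all of whose powers are within distance `< 1` of the identity is the
identity. -/
theorem eq_one_of_forall_pow (D : E) {N : ℕ} (hN : 0 < N) (hD : D ^ N = 1) {κ : ℝ} (hκ : κ < 1)
    (h : ∀ k : ℕ, ‖D ^ k - 1‖ ≤ κ) : D = 1 := by
  set c : ℂ := (N : ℂ)⁻¹ with hc
  have hNC : (N : ℂ) ≠ 0 := by exact_mod_cast hN.ne'
  set S : E := ∑ k ∈ Finset.range N, D ^ k with hS
  have hDS : D * S = S := by
    have h1 : D * S = ∑ k ∈ Finset.range N, D ^ (k + 1) := by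
      rw [hS, Finset.mul_sum]
      exact Finset.sum_congr rfl fun k _ => (pow_succ' D k).symm
    have h2 := Finset.sum_range_succ (fun k => D ^ k) N
    have h3 := Finset.sum_range_succ' (fun k => D ^ k) N
    rw [h1, hS]
    rw [h2, hD] at h3
    simpa using h3.symm
  have hDkS : ∀ k : ℕ, D ^ k * S = S := by
    intro k
    induction k with
    | zero => simp
    | succ k ih => rw [pow_succ, mul_assoc, hDS, ih]
  have hSS : S * S = (N : ℂ) • S := by
    conv_lhs => rw [hS, Finset.sum_mul]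
    rw [Finset.sum_congr rfl fun k _ => hDkS k]
    simp [Nat.cast_smul_eq_nsmul]
  set Q : E := 1 - c • S with hQ
  have hQQ : Q * Q = Q := by
    have : (c • S) * (c • S) = c • S := by
      rw [smul_mul_smul_comm, hSS, smul_smul, mul_assoc, inv_mul_cancel₀ hNC, mul_one]
    simp only [hQ, mul_sub, sub_mul, mul_one, one_mul, this]
    abel
  have hQsum : Q = c • ∑ k ∈ Finset.range N, (1 - D ^ k) := by
    rw [hQ, Finset.sum_sub_distrib, smul_sub]
    congr 1
    simp only [Finset.sum_const, Finset.card_range, ← Nat.cast_smul_eq_nsmul ℂ N, smul_smul, hc,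
      inv_mul_cancel₀ hNC, one_smul]
  have hκ0 : 0 ≤ κ := (norm_nonneg _).trans (h 0)
  have hQnorm : ‖Q‖ ≤ κ := by
    rw [hQsum, norm_smul]
    have h1 : ‖∑ k ∈ Finset.range N, (1 - D ^ k)‖ ≤ N * κ := by
      refine (norm_sum_le _ _).trans ?_
      calc ∑ k ∈ Finset.range N, ‖1 - D ^ k‖ ≤ ∑ k ∈ Finset.range N, κ :=
            Finset.sum_le_sum fun k _ => by rw [norm_sub_rev]; exact h k
        _ = N * κ := by simp
    have hcn : ‖c‖ = (N : ℝ)⁻¹ := by simp [hc]
    rw [hcn]
    have hNR : (0 : ℝ) < N := by exact_mod_cast hN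
    calc (N : ℝ)⁻¹ * ‖∑ k ∈ Finset.range N, (1 - D ^ k)‖ ≤ (N : ℝ)⁻¹ * (N * κ) := by gcongr
      _ = κ := by field_simp
  have hQ0 : Q = 0 := by
    have h1 : ‖Q‖ ≤ ‖Q‖ * ‖Q‖ := by
      calc ‖Q‖ = ‖Q * Q‖ := by rw [hQQ]
        _ ≤ _ := norm_mul_le _ _
    have h2 : ‖Q‖ < 1 := lt_of_le_of_lt hQnorm hκ
    have h3 : ‖Q‖ ≤ 0 := by nlinarith [norm_nonneg Q]
    exact norm_le_zero_iff.1 h3
  have hcS : c • S = 1 := (sub_eq_zero.1 hQ0).symm
  calc D = D * (c • S) := by rw [hcS, mul_one]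
    _ = c • (D * S) := by rw [mul_smul_comm]
    _ = c • S := by rw [hDS]
    _ = 1 := hcS

end Core

section Abelian

variable {G : Type*} [Group G] [Finite G] {E : Type*} [NormedRing E] [NormedAlgebra ℂ E]
  {U : G →* E}

/-- The subgroup generated by the elements close to a scalar. -/
def nearSubgroup (U : G →* E) : Subgroup G := Subgroup.closure (nearScalar U)

theorem nearSubgroup_normal (hU : ∀ g, ‖U g‖ ≤ 1) : (nearSubgroup U).Normal := by
  refine ⟨fun a ha g => ?_⟩
  induction ha using Subgroup.closure_induction with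
  | mem x hx => exact Subgroup.subset_closure (conj_mem_nearScalar hU hx g)
  | one => simp
  | mul x y _ _ hx hy =>
      have : g * (x * y) * g⁻¹ = (g * x * g⁻¹) * (g * y * g⁻¹) := by group
      rw [this]
      exact Subgroup.mul_mem _ hx hy
  | inv x _ hx =>
      have : g * x⁻¹ * g⁻¹ = (g * x * g⁻¹)⁻¹ := by group
      rw [this]
      exact Subgroup.inv_mem _ hx

/-- **Jordan's theorem, the core**: the elements close to scalars generate an abelian subgroup. -/
theorem nearSubgroup_comm (hU : ∀ g, ‖U g‖ ≤ 1) (hinj : Function.Injective U) :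
    ∀ a ∈ nearSubgroup U, ∀ b ∈ nearSubgroup U, a * b = b * a := by
  classical
  by_contra hcon
  push Not at hcon
  obtain ⟨a₀, ha₀, b₀, hb₀, hab₀⟩ := hcon
  set A := nearSubgroup U with hA
  let X : Set G := {c | c ∈ A ∧ ∃ a ∈ A, a * c ≠ c * a}
  have hXne : X.Nonempty := ⟨b₀, hb₀, a₀, ha₀, hab₀⟩
  obtain ⟨c, hcX, hcmin⟩ := Set.exists_min_image X (fun c => ‖U c - 1‖) (Set.toFinite X) hXne
  obtain ⟨hcA, a₁, ha₁, hac⟩ := hcX
  -- `c` does not commute with some generator
  obtain ⟨x, hx, hxc⟩ : ∃ x ∈ nearScalar U, x * c ≠ c * x := by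
    by_contra hall
    push Not at hall
    have hle : A ≤ Subgroup.centralizer ({c} : Set G) := by
      rw [hA, nearSubgroup, Subgroup.closure_le]
      intro y hy
      rw [SetLike.mem_coe, Subgroup.mem_centralizer_iff]
      intro z hz
      rw [Set.mem_singleton_iff] at hz
      rw [hz]
      exact (hall y hy).symm
    have h1 := hle ha₁
    rw [Subgroup.mem_centralizer_iff] at h1
    exact hac (h1 c rfl).symm
  obtain ⟨s, hs⟩ := hx
  set d := x * c * x⁻¹ * c⁻¹ with hd
  have hxA : x ∈ A := Subgroup.subset_closure ⟨s, hs⟩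
  have hdA : d ∈ A := A.mul_mem (A.mul_mem (A.mul_mem hxA hcA) (A.inv_mem hxA)) (A.inv_mem hcA)
  have hd1 : d ≠ 1 := by
    intro h
    apply hxc
    have : x * c * x⁻¹ * c⁻¹ * (c * x) = c * x := by rw [← hd, h, one_mul]
    simpa [mul_assoc] using this
  have hc1 : c ≠ 1 := by
    rintro rfl
    simp at hxc
  have hUc : 0 < ‖U c - 1‖ := by
    rw [norm_pos_iff, sub_ne_zero]
    intro h
    exact hc1 (hinj (by rw [h, map_one]))
  have hlt : ‖U d - 1‖ < ‖U c - 1‖ := by
    calc ‖U d - 1‖ ≤ 2 * ‖U x - algebraMap ℂ E s‖ * ‖U c - 1‖ := norm_comm_le_of_sub_one hU x c s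
      _ < 1 * ‖U c - 1‖ := by
          apply mul_lt_mul_of_pos_right _ hUc
          linarith
      _ = _ := one_mul _
  have hdcentral : ∀ a ∈ A, a * d = d * a := by
    by_contra hn
    push Not at hn
    obtain ⟨a, ha, had⟩ := hn
    have := hcmin d ⟨hdA, a, ha, had⟩
    exact absurd hlt (not_lt.2 this)
  have hdc : d * c = c * d := (hdcentral c hcA).symm
  -- the powers of `d` are commutators
  have hpow : ∀ k : ℕ, x * c ^ k * x⁻¹ * (c ^ k)⁻¹ = d ^ k := by
    intro k
    induction k with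
    | zero => simp
    | succ k ih =>
        have h1 : x * c ^ k * x⁻¹ = d ^ k * c ^ k := by
          rw [← ih]; group
        have h2 : x * c * x⁻¹ = d * c := by rw [hd]; group
        have hcomm : Commute d c := hdc
        calc x * c ^ (k + 1) * x⁻¹ * (c ^ (k + 1))⁻¹
            = (x * c ^ k * x⁻¹) * (x * c * x⁻¹) * (c ^ (k + 1))⁻¹ := by
              rw [pow_succ]; group
          _ = d ^ k * c ^ k * (d * c) * (c ^ (k + 1))⁻¹ := by rw [h1, h2]
          _ = d ^ k * (c ^ k * d) * c * (c ^ (k + 1))⁻¹ := by group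
          _ = d ^ k * (d * c ^ k) * c * (c ^ (k + 1))⁻¹ := by
              rw [((hcomm.pow_right k).eq).symm]
          _ = d ^ (k + 1) := by
              rw [pow_succ c k, pow_succ d k]; group
  have hUd : U d = 1 := by
    refine eq_one_of_forall_pow (U d) (orderOf_pos d) ?_ (κ := 2 * ‖U x - algebraMap ℂ E s‖)
      (by linarith) fun k => ?_
    · rw [← map_pow, pow_orderOf_eq_one, map_one]
    · rw [← map_pow, ← hpow k]
      exact norm_comm_le_of_scalar hU x (c ^ k) s
  exact hd1 (hinj (by rw [hUd, map_one]))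

end Abelian

end Cfsg.Agent.Lib.Char.LinearBound
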