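import Mathlib
import Cfsg.Prelude.Def_Blocks
import Cfsg.Agent.Lib.Char.LinearBound
import Cfsg.Agent.Lib.Char.Basic
import Cfsg.Agent.Lib.Char.OrthoBasic
import Cfsg.Agent.Lib.Char.Ortho
import Cfsg.Agent.Lib.Char.LinearChars
import Cfsg.Agent.Lib.Char.GL2Irr
import Cfsg.Agent.Lib.Char.GaloisC

/-!
# Jordan's theorem: unitary form of a representation and the pigeonhole argument
-/

set_option autoImplicit false
set_option linter.unusedSectionVars false
set_option linter.style.haveILetI false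

namespace Cfsg.Agent.Lib.Char.LinearBound

open Matrix Cfsg
open scoped ComplexOrder

section Unitary

variable {G : Type*} [Group G] [Finite G] {n : ℕ}

/-- Matrix form of a representation on a coordinate space. -/
noncomputable def matRep (ρ : Representation ℂ G (Fin n → ℂ)) : G →* Matrix (Fin n) (Fin n) ℂ :=
  ((LinearMap.toMatrixAlgEquiv' : ((Fin n → ℂ) →ₗ[ℂ] (Fin n → ℂ)) ≃ₐ[ℂ] _).toAlgHom :
    ((Fin n → ℂ) →ₗ[ℂ] (Fin n → ℂ)) →* Matrix (Fin n) (Fin n) ℂ).comp ρ

theorem trace_matRep (ρ : Representation ℂ G (Fin n → ℂ)) (g : G) :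
    (matRep ρ g).trace = ρ.character g := by
  have h : matRep ρ g = LinearMap.toMatrix' (ρ g) := rfl
  rw [h, Representation.character, LinearMap.trace_eq_matrix_trace ℂ (Pi.basisFun ℂ (Fin n))]
  rfl

theorem exists_unitary (ρ : Representation ℂ G (Fin n → ℂ)) :
    ∃ U : G →* Matrix (Fin n) (Fin n) ℂ, (∀ g, (U g)ᴴ * U g = 1) ∧
      ∀ g, (U g).trace = ρ.character g := by
  classical
  haveI := Fintype.ofFinite G
  set M := matRep ρ with hM
  set A : Matrix (Fin n) (Fin n) ℂ := ∑ g : G, (M g)ᴴ * M g with hA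
  have hApos : A.PosDef := by
    have h1 : A = 1 + ∑ g ∈ Finset.univ.erase (1 : G), (M g)ᴴ * M g := by
      rw [hA, ← Finset.add_sum_erase _ _ (Finset.mem_univ (1 : G)), map_one]
      simp
    rw [h1]
    exact Matrix.PosDef.one.add_posSemidef
      (Matrix.posSemidef_sum _ fun g _ => Matrix.posSemidef_conjTranspose_mul_self _)
  obtain ⟨B, hB⟩ : ∃ B : Matrix (Fin n) (Fin n) ℂ, A = Bᴴ * B := by
    open scoped MatrixOrder in
    open scoped Matrix.Norms.L2Operator in
    obtain ⟨B, hB⟩ := CStarAlgebra.nonneg_iff_eq_star_mul_self.mp hApos.posSemidef.nonneg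
    exact ⟨B, hB⟩
  have hdet : IsUnit B.det := by
    have h1 : IsUnit A.det := (Matrix.isUnit_iff_isUnit_det A).1 hApos.isUnit
    rw [hB, Matrix.det_mul] at h1
    exact isUnit_of_mul_isUnit_right h1
  have hBinv : B * B⁻¹ = 1 := Matrix.mul_nonsing_inv B hdet
  have hBinv' : B⁻¹ * B = 1 := Matrix.nonsing_inv_mul B hdet
  have hinv : ∀ g, (M g)ᴴ * A * M g = A := by
    intro g
    rw [hA, Finset.mul_sum, Finset.sum_mul]
    refine Fintype.sum_equiv (Equiv.mulRight g) _ _ fun h => ?_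
    simp only [Equiv.coe_mulRight, map_mul, Matrix.conjTranspose_mul]
    simp only [Matrix.mul_assoc]
  let U : G →* Matrix (Fin n) (Fin n) ℂ :=
    { toFun := fun g => B * M g * B⁻¹
      map_one' := by rw [map_one, Matrix.mul_one, hBinv]
      map_mul' := fun g h => by
        rw [map_mul]
        calc B * (M g * M h) * B⁻¹ = B * M g * (B⁻¹ * B) * M h * B⁻¹ := by
              rw [hBinv', Matrix.mul_one]; simp only [Matrix.mul_assoc]
          _ = _ := by simp only [Matrix.mul_assoc] }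
  refine ⟨U, fun g => ?_, fun g => ?_⟩
  · change (B * M g * B⁻¹)ᴴ * (B * M g * B⁻¹) = 1
    have h2 : (B⁻¹)ᴴ * Bᴴ = 1 := by
      rw [← Matrix.conjTranspose_mul, hBinv, Matrix.conjTranspose_one]
    calc (B * M g * B⁻¹)ᴴ * (B * M g * B⁻¹)
        = (B⁻¹)ᴴ * ((M g)ᴴ * (Bᴴ * B) * M g) * B⁻¹ := by
          simp only [Matrix.conjTranspose_mul, Matrix.mul_assoc]
      _ = (B⁻¹)ᴴ * (Bᴴ * B) * B⁻¹ := by rw [← hB, hinv]
      _ = ((B⁻¹)ᴴ * Bᴴ) * (B * B⁻¹) := by simp only [Matrix.mul_assoc]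
      _ = 1 := by rw [h2, hBinv, Matrix.mul_one]
  · change (B * M g * B⁻¹).trace = _
    rw [Matrix.trace_mul_comm, ← Matrix.mul_assoc, hBinv', Matrix.one_mul, hM, trace_matRep]

end Unitary

section Spectral

variable {E : Type*} [CStarAlgebra E] [Nontrivial E]

theorem norm_sub_scalar_lt (u : E) (hu : Commute (star u) u) (s : ℂ) {r : ℝ}
    (hr : ∀ z ∈ spectrum ℂ u, ‖z - s‖ < r) : ‖u - algebraMap ℂ E s‖ < r := by
  set a := u - algebraMap ℂ E s with ha
  haveI : IsStarNormal a := by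
    refine ⟨?_⟩
    have h1 : star a = star u - algebraMap ℂ E (star s) := by
      rw [ha, star_sub, algebraMap_star_comm]
    rw [h1, ha]
    refine Commute.sub_left (Commute.sub_right hu ?_) (Commute.sub_right ?_ ?_)
    · exact (Algebra.commutes s (star u)).symm
    · exact Algebra.commutes _ _
    · exact Algebra.commutes _ _
  obtain ⟨z, hz, hz2⟩ := spectrum.exists_nnnorm_eq_spectralRadius a
  rw [IsStarNormal.spectralRadius_eq_nnnorm a] at hz2
  have h3 : ‖a‖ = ‖z‖ := by
    have : ‖z‖₊ = ‖a‖₊ := by exact_mod_cast hz2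
    exact (congrArg NNReal.toReal this).symm
  rw [h3]
  have h4 : z + s ∈ spectrum ℂ u := by
    rw [spectrum.mem_iff] at hz ⊢
    have : algebraMap ℂ E (z + s) - u = algebraMap ℂ E z - a := by
      rw [ha, map_add]; abel
    rwa [this]
  have := hr _ h4
  simpa using this

end Spectral

section Eigen

variable {V : Type*} [AddCommGroup V] [Module ℂ V] [FiniteDimensional ℂ V]

theorem geom_root (w : ℂ) {N : ℕ} (hw : w ^ N = 1) (h1 : w ≠ 1) :
    ∑ k ∈ Finset.range N, w ^ k = 0 := by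
  have := mul_neg_geom_sum w N
  rw [hw, sub_self] at this
  rcases mul_eq_zero.1 this with h | h
  · exact absurd (sub_eq_zero.1 h).symm h1
  · exact h

/-- Eigenvalues of a finite order operator are read off from the traces of its powers. -/
theorem eigen_mem_of_trace (T : Module.End ℂ V) {N : ℕ} (hN : 0 < N) (hT : T ^ N = 1)
    {ι : Type*} [Fintype ι] (L : ι → ℂ) (hL : ∀ j, L j ^ N = 1)
    (htr : ∀ k, LinearMap.trace ℂ V (T ^ k) = ∑ j, L j ^ k) {μ : ℂ} (hμ : T.HasEigenvalue μ) :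
    ∃ j, L j = μ := by
  classical
  obtain ⟨ι', hι', _, b, ζ, h1, h2⟩ := OrthoBasic.exists_eigenbasis T hN hT
  obtain ⟨v, hv⟩ := hμ.exists_hasEigenvector
  -- `μ` is one of the `ζ i`
  have hex : ∃ i, ζ i = μ := by
    by_contra hno
    push Not at hno
    apply hv.2
    have hrepr : ∀ i, b.repr v i = 0 := by
      intro i
      have e1 : T v = μ • v := hv.apply_eq_smul
      have e2 : b.repr (T v) i = ζ i * b.repr v i := by
        have hlin : (b.coord i) ∘ₗ T = ζ i • b.coord i := by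
          refine b.ext fun j => ?_
          by_cases hij : j = i
          · subst hij
            simp [h1]
          · simp [h1, hij]
        have := LinearMap.congr_fun hlin v
        simpa using this
      rw [e1, map_smul, Finsupp.smul_apply, smul_eq_mul] at e2
      have : (μ - ζ i) * b.repr v i = 0 := by rw [sub_mul, e2, sub_self]
      rcases mul_eq_zero.1 this with h | h
      · exact absurd (sub_eq_zero.1 h).symm (hno i)
      · exact h
    rw [← b.sum_repr v]
    simp [hrepr]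
  obtain ⟨i₀, hi₀⟩ := hex
  have hμN : μ ^ N = 1 := by rw [← hi₀]; exact h2 i₀
  have hμ0 : μ ≠ 0 := by
    rintro rfl
    rw [zero_pow hN.ne'] at hμN
    exact zero_ne_one hμN
  by_contra hno
  push Not at hno
  -- the two expressions for the multiplicity
  have htr2 : ∀ k, LinearMap.trace ℂ V (T ^ k) = ∑ i, ζ i ^ k := by
    intro k
    refine OrthoBasic.trace_eq_sum_of_eigenbasis (T ^ k) b (fun i => ζ i ^ k) fun i => ?_
    have hv : T.HasEigenvector (ζ i) (b i) :=
      ⟨Module.End.mem_eigenspace_iff.2 (h1 i), b.ne_zero i⟩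
    exact hv.pow_apply k
  have e1 : ∑ k ∈ Finset.range N, (μ⁻¹) ^ k * LinearMap.trace ℂ V (T ^ k) = 0 := by
    simp_rw [htr, Finset.mul_sum]
    rw [Finset.sum_comm]
    refine Finset.sum_eq_zero fun j _ => ?_
    have : ∀ k, (μ⁻¹) ^ k * L j ^ k = (μ⁻¹ * L j) ^ k := fun k => (mul_pow _ _ _).symm
    simp_rw [this]
    refine geom_root _ ?_ ?_
    · rw [mul_pow, inv_pow, hμN, hL j]; simp
    · intro h
      apply hno j
      field_simp at h
      exact h
  have e2 : ∑ k ∈ Finset.range N, (μ⁻¹) ^ k * LinearMap.trace ℂ V (T ^ k)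
      = ((Finset.univ.filter fun i => ζ i = μ).card : ℂ) * N := by
    simp_rw [htr2, Finset.mul_sum]
    rw [Finset.sum_comm]
    have : ∀ i, ∑ k ∈ Finset.range N, (μ⁻¹) ^ k * ζ i ^ k = if ζ i = μ then (N : ℂ) else 0 := by
      intro i
      have h3 : ∀ k, (μ⁻¹) ^ k * ζ i ^ k = (μ⁻¹ * ζ i) ^ k := fun k => (mul_pow _ _ _).symm
      simp_rw [h3]
      split_ifs with h
      · rw [h, inv_mul_cancel₀ hμ0]; simp
      · refine geom_root _ ?_ ?_
        · rw [mul_pow, inv_pow, hμN, h2 i]; simp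
        · intro h4
          apply h
          field_simp at h4
          exact h4
    simp_rw [this]
    rw [Finset.sum_ite, Finset.sum_const_zero, add_zero, Finset.sum_const, nsmul_eq_mul]
  rw [e2] at e1
  have hcard : (Finset.univ.filter fun i => ζ i = μ).card ≠ 0 := by
    apply Finset.card_ne_zero.2
    exact ⟨i₀, by simp [hi₀]⟩
  have hNC : (N : ℂ) ≠ 0 := by exact_mod_cast hN.ne'
  have hcC : ((Finset.univ.filter fun i => ζ i = μ).card : ℂ) ≠ 0 := by exact_mod_cast hcard
  exact (mul_ne_zero hcC hNC) e1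

end Eigen

section Decomp

variable {H : Type*} [Group H] [Finite H]

theorem irr_apply_one_of_comm (hc : ∀ x y : H, x * y = y * x) {ψ : H → ℂ}
    (hψ : IsIrrCharacter H ψ) : ψ 1 = 1 := by
  classical
  haveI := Fintype.ofFinite H
  obtain ⟨d, hd0, hd⟩ := Ortho.irr_degree_pos hψ
  have h1 : ∀ h, ‖ψ h‖ = ‖ψ 1‖ := fun h =>
    Cfsg.Agent.Lib.Char.GL2Irr.norm_of_central hψ h fun g => hc g h
  have h2 := Cfsg.Agent.Lib.Char.GaloisC.sum_norm_sq_of_isIrr hψ
  simp_rw [h1] at h2
  rw [Finset.sum_const, nsmul_eq_mul, hd, Finset.card_univ, ← Nat.card_eq_fintype_card] at h2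
  have hpos : (0 : ℝ) < Nat.card H := by exact_mod_cast Nat.card_pos
  have h3 : ‖(d : ℂ)‖ ^ 2 = 1 := by
    have := mul_left_cancel₀ hpos.ne' (h2.trans (mul_one _).symm)
    exact this
  rw [Complex.norm_natCast] at h3
  have h4 : (d : ℝ) = 1 := by
    have hd' : (0 : ℝ) ≤ d := by positivity
    nlinarith
  rw [hd]
  exact_mod_cast h4

/-- A character of an abelian group is a sum of linear characters. -/
theorem exists_linear_decomp (hc : ∀ x y : H, x * y = y * x) {ψ : H → ℂ}
    (hψ : IsCharacter H ψ) :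
    ∃ (ι : Type) (_ : Fintype ι) (L : ι → (H →* ℂˣ)), (Fintype.card ι : ℂ) = ψ 1 ∧
      ∀ h, ψ h = ∑ j, ((L j h : ℂˣ) : ℂ) := by
  classical
  refine Basic.isCharacter_induction_on_irr (P := fun ψ => ∃ (ι : Type) (_ : Fintype ι)
    (L : ι → (H →* ℂˣ)), (Fintype.card ι : ℂ) = ψ 1 ∧ ∀ h, ψ h = ∑ j, ((L j h : ℂˣ) : ℂ))
    ?_ ?_ ?_ hψ
  · exact ⟨Empty, inferInstance, fun x => x.elim, by simp, by simp⟩
  · intro ψ hψ
    obtain ⟨φ, hφ⟩ := LinearChars.exists_hom_of_isCharacter_one
      (Basic.isCharacter_of_isIrrCharacter hψ) (irr_apply_one_of_comm hc hψ)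
    refine ⟨Unit, inferInstance, fun _ => φ, ?_, fun h => ?_⟩
    · rw [irr_apply_one_of_comm hc hψ]; simp
    · rw [hφ]; simp
  · intro χ ψ _ _ h1 h2
    obtain ⟨ι₁, i₁, L₁, c₁, e₁⟩ := h1
    obtain ⟨ι₂, i₂, L₂, c₂, e₂⟩ := h2
    refine ⟨ι₁ ⊕ ι₂, inferInstance, Sum.elim L₁ L₂, ?_, fun h => ?_⟩
    · rw [Fintype.card_sum, Pi.add_apply, ← c₁, ← c₂]; push_cast; ring
    · rw [Pi.add_apply, e₁, e₂, Fintype.sum_sum_type]; simp

end Decomp

section Box

open Real

/-- The arc of length `π/6` containing a complex number. -/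
noncomputable def box (z : ℂ) : Fin 12 :=
  ⟨⌈(Complex.arg z + π) * (6 / π)⌉₊ - 1, by
    have h1 : (Complex.arg z + π) * (6 / π) ≤ (12 : ℕ) := by
      have h2 := Complex.arg_le_pi z
      have h3 : (Complex.arg z + π) * (6 / π) ≤ (π + π) * (6 / π) := by
        gcongr
      have h4 : (π + π) * (6 / π) = 12 := by
        field_simp
        norm_num
      rw [h4] at h3
      exact_mod_cast h3
    have h5 := Nat.ceil_le.2 h1
    omega⟩

theorem box_eq {z w : ℂ} (h : box z = box w) : |Complex.arg w - Complex.arg z| < π / 6 := by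
  have hz := Complex.neg_pi_lt_arg z
  have hw := Complex.neg_pi_lt_arg w
  set a := (Complex.arg z + π) * (6 / π) with ha
  set b := (Complex.arg w + π) * (6 / π) with hb
  have hpi := Real.pi_pos
  have ha0 : 0 < a := by
    rw [ha]; apply mul_pos; linarith; positivity
  have hb0 : 0 < b := by
    rw [hb]; apply mul_pos; linarith; positivity
  have hca : 0 < ⌈a⌉₊ := Nat.ceil_pos.2 ha0
  have hcb : 0 < ⌈b⌉₊ := Nat.ceil_pos.2 hb0
  have h1 : ⌈a⌉₊ - 1 = ⌈b⌉₊ - 1 := congrArg Fin.val h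
  have h2 : ⌈a⌉₊ = ⌈b⌉₊ := by omega
  have e1 := Nat.le_ceil a
  have e2 := Nat.ceil_lt_add_one ha0.le
  have e3 := Nat.le_ceil b
  have e4 := Nat.ceil_lt_add_one hb0.le
  rw [← h2] at e3 e4
  have hdiff : |b - a| < 1 := by
    rw [abs_lt]
    constructor <;> linarith
  have hba : b - a = (Complex.arg w - Complex.arg z) * (6 / π) := by
    rw [ha, hb]; ring
  rw [hba, abs_mul, abs_of_pos (by positivity : (0 : ℝ) < 6 / π)] at hdiff
  have : |Complex.arg w - Complex.arg z| * (6 / π) * (π / 6) < 1 * (π / 6) := by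
    apply mul_lt_mul_of_pos_right hdiff (by positivity)
  have h6 : |Complex.arg w - Complex.arg z| * (6 / π) * (π / 6)
      = |Complex.arg w - Complex.arg z| := by
    field_simp
  rw [h6, one_mul] at this
  exact this

/-- Two unit complex numbers in the same arc have quotient close to one. -/
theorem norm_div_sub_lt {z w : ℂ} (hz : ‖z‖ = 1) (hw : ‖w‖ = 1) (h : box z = box w) :
    ‖w / z - ((√3 / 2 : ℝ) : ℂ)‖ < 1 / 2 := by
  have h1 := box_eq h
  set t := Complex.arg w - Complex.arg z with ht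
  have hzne : z ≠ 0 := by
    intro h0; rw [h0, norm_zero] at hz; exact zero_ne_one hz
  have e1 : z = Complex.exp (Complex.arg z * Complex.I) := by
    have := Complex.norm_mul_exp_arg_mul_I z
    rw [hz] at this
    simpa using this.symm
  have e2 : w = Complex.exp (Complex.arg w * Complex.I) := by
    have := Complex.norm_mul_exp_arg_mul_I w
    rw [hw] at this
    simpa using this.symm
  have e3 : w / z = Complex.exp ((t : ℂ) * Complex.I) := by
    conv_lhs => rw [e1, e2]
    rw [← Complex.exp_sub, ht]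
    push_cast
    ring_nf
  have hre : (w / z).re = Real.cos t := by
    rw [e3, Complex.exp_ofReal_mul_I_re]
  have him : (w / z).im = Real.sin t := by
    rw [e3, Complex.exp_ofReal_mul_I_im]
  have hcos : √3 / 2 < Real.cos t := by
    rw [← Real.cos_pi_div_six, ← Real.cos_abs t]
    apply Real.cos_lt_cos_of_nonneg_of_le_pi (abs_nonneg t) (by linarith [Real.pi_pos]) h1
  have hsq : (√3 : ℝ) ^ 2 = 3 := Real.sq_sqrt (by norm_num)
  have hs3 : (0 : ℝ) < √3 := by positivity
  have hnorm : ‖w / z - ((√3 / 2 : ℝ) : ℂ)‖ ^ 2 < (1 / 2) ^ 2 := by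
    rw [← Complex.normSq_eq_norm_sq, Complex.normSq_apply]
    simp only [Complex.sub_re, Complex.ofReal_re, Complex.sub_im, Complex.ofReal_im, sub_zero,
      hre, him]
    have := Real.sin_sq_add_cos_sq t
    nlinarith
  exact lt_of_pow_lt_pow_left₀ 2 (by norm_num) hnorm

end Box

section Main

open scoped Matrix.Norms.L2Operator

variable {G : Type*} [Group G] [Finite G] {n : ℕ}

theorem norm_le_one_of_unitary [NeZero n] {u : Matrix (Fin n) (Fin n) ℂ} (hu : uᴴ * u = 1) :
    ‖u‖ ≤ 1 := by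
  haveI : Nonempty (Fin n) := ⟨⟨0, Nat.pos_of_ne_zero (NeZero.ne n)⟩⟩
  have hmem : u ∈ unitary (Matrix (Fin n) (Fin n) ℂ) := by
    rw [Unitary.mem_iff]
    refine ⟨hu, ?_⟩
    exact mul_eq_one_comm.1 hu
  exact (CStarRing.norm_of_mem_unitary hmem).le

/-- **The bound on abelian subgroups.** -/
theorem exists_normal_abelian (ρ : Representation ℂ G (Fin n → ℂ))
    (hfaith : ∀ g : G, ρ.character g = ρ.character 1 → g = 1) :
    ∃ A : Subgroup G, A.Normal ∧ (∀ x ∈ A, ∀ y ∈ A, x * y = y * x) ∧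
      ∀ H : Subgroup G, (∀ x ∈ H, ∀ y ∈ H, x * y = y * x) → (A.subgroupOf H).index ≤ 12 ^ n := by
  classical
  by_cases hn : n = 0
  · subst hn
    have hG : ∀ g : G, g = 1 := by
      intro g
      apply hfaith
      have h0 : ∀ g : G, ρ g = 0 := fun g => Subsingleton.elim _ _
      simp [Representation.character, h0]
    refine ⟨⊤, inferInstance, fun x _ y _ => by rw [hG x, hG y], fun H _ => ?_⟩
    simp
  haveI : NeZero n := ⟨hn⟩
  haveI : Nonempty (Fin n) := ⟨⟨0, Nat.pos_of_ne_zero hn⟩⟩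
  obtain ⟨U, hU1, hU2⟩ := exists_unitary ρ
  have hU : ∀ g, ‖U g‖ ≤ 1 := fun g => norm_le_one_of_unitary (hU1 g)
  have hinj : Function.Injective U := by
    rw [injective_iff_map_eq_one]
    intro g hg
    apply hfaith
    rw [← hU2, ← hU2, hg, map_one]
  refine ⟨nearSubgroup U, nearSubgroup_normal hU, nearSubgroup_comm hU hinj, fun H hH => ?_⟩
  -- the eigencharacters of `H`
  have hcomm : ∀ x y : H, x * y = y * x := fun x y => Subtype.ext (hH x x.2 y y.2)
  have hψ : IsCharacter H (fun h : H => ρ.character (h : G)) :=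
    Basic.isCharacter_restrict ⟨n, ρ, rfl⟩ H
  obtain ⟨ι, hι, L, hL1, hL2⟩ := exists_linear_decomp hcomm hψ
  have hcard : Fintype.card ι = n := by
    have h1 : ρ.character (((1 : H) : G)) = n := by
      rw [Subgroup.coe_one, Representation.char_one]
      simp
    have : (Fintype.card ι : ℂ) = n := by rw [hL1, h1]
    exact_mod_cast this
  let f : H → ι → Fin 12 := fun h j => box ((L j h : ℂˣ) : ℂ)
  have hkey : ∀ h₁ h₂ : H, f h₁ = f h₂ → ((h₁⁻¹ * h₂ : H) : G) ∈ nearSubgroup U := by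
    intro h₁ h₂ hf
    set h : H := h₁⁻¹ * h₂ with hh
    apply Subgroup.subset_closure
    refine ⟨((√3 / 2 : ℝ) : ℂ), ?_⟩
    have hcommS : Commute (star (U (h : G))) (U (h : G)) := by
      have e1 : star (U (h : G)) * U (h : G) = 1 := hU1 _
      have e2 : U (h : G) * star (U (h : G)) = 1 := mul_eq_one_comm.1 e1
      show _ = _
      rw [e1, e2]
    refine norm_sub_scalar_lt (U (h : G)) hcommS _ fun z hz => ?_
    -- every eigenvalue is a value of an eigencharacter
    have hroot : ∀ (a : H) j, ((L j a : ℂˣ) : ℂ) ^ orderOf a = 1 := by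
      intro a j
      have : (L j a) ^ orderOf a = 1 := by rw [← map_pow, pow_orderOf_eq_one, map_one]
      rw [← Units.val_pow_eq_pow_val, this, Units.val_one]
    have hnormL : ∀ (a : H) j, ‖((L j a : ℂˣ) : ℂ)‖ = 1 := fun a j =>
      Complex.norm_eq_one_of_pow_eq_one (hroot a j) (orderOf_pos a).ne'
    set T : Module.End ℂ (Fin n → ℂ) := Matrix.toLinAlgEquiv' (U (h : G)) with hTdef
    have hTk : ∀ k : ℕ, T ^ k = Matrix.toLin' (U ((h ^ k : H) : G)) := by
      intro k
      rw [hTdef, ← map_pow, ← map_pow, Subgroup.coe_pow, map_pow]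
      rfl
    have hT : T ^ orderOf h = 1 := by
      rw [hTk, pow_orderOf_eq_one, Subgroup.coe_one, map_one]
      simp only [Matrix.toLin'_one]
      rfl
    have htr : ∀ k, LinearMap.trace ℂ (Fin n → ℂ) (T ^ k) = ∑ j, ((L j h : ℂˣ) : ℂ) ^ k := by
      intro k
      rw [hTk, Matrix.trace_toLin'_eq, hU2, hL2]
      simp
    have hμ : T.HasEigenvalue z := by
      apply Module.End.HasEigenvalue.of_mem_spectrum
      have : spectrum ℂ T = spectrum ℂ (U (h : G)) := Matrix.spectrum_toLin' _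
      rw [this]
      exact hz
    obtain ⟨j, hj⟩ := eigen_mem_of_trace T (orderOf_pos h) hT _ (fun j => hroot h j) htr hμ
    have hbox : box ((L j h₁ : ℂˣ) : ℂ) = box ((L j h₂ : ℂˣ) : ℂ) := congrFun hf j
    have hval : ((L j h : ℂˣ) : ℂ) = ((L j h₂ : ℂˣ) : ℂ) / ((L j h₁ : ℂˣ) : ℂ) := by
      rw [hh, map_mul, map_inv, Units.val_mul, Units.val_inv_eq_inv_val, div_eq_inv_mul]
    rw [← hj, hval]
    exact norm_div_sub_lt (hnormL _ _) (hnormL _ _) hbox
  -- the count
  let g : H ⧸ (nearSubgroup U).subgroupOf H → ι → Fin 12 := fun q => f q.out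
  have hginj : Function.Injective g := by
    intro q₁ q₂ hq
    have h1 := hkey _ _ hq
    rw [← Quotient.out_eq' q₁, ← Quotient.out_eq' q₂]
    exact QuotientGroup.eq.2 (Subgroup.mem_subgroupOf.2 h1)
  calc ((nearSubgroup U).subgroupOf H).index
      = Nat.card (H ⧸ (nearSubgroup U).subgroupOf H) := rfl
    _ ≤ Nat.card (ι → Fin 12) := Nat.card_le_card_of_injective g hginj
    _ = 12 ^ n := by
      rw [Nat.card_eq_fintype_card, Fintype.card_fun, Fintype.card_fin, hcard]

end Main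

end Cfsg.Agent.Lib.Char.LinearBound
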