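import Mathlib
import Cfsg.Prelude.Def_Characters
import Cfsg.Agent.Lib.Char.Monomial
import Cfsg.Agent.Lib.Char.Basic

/-!
# Nilpotent linear groups of degree `n` have an abelian subgroup whose index divides `n!`
-/

set_option autoImplicit false
set_option linter.unusedSectionVars false
set_option linter.style.haveILetI false

namespace Cfsg.Agent.Lib.Char.LinearMono

open Cfsg

universe u

variable {P : Type u} [Group P] [Fintype P]

theorem extendByZero_coe (U : Subgroup P) (θ : U → ℂ) (h : U) :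
    extendByZero U θ (h : P) = θ h :=
  Subtype.val_injective.extend_apply θ 0 h

theorem indFun_hom_one (U : Subgroup P) (lam : U →* ℂˣ) :
    indFun U (fun h => ((lam h : ℂˣ) : ℂ)) 1 = U.index := by
  unfold indFun
  have h1 : ∀ x : P, extendByZero U (fun h => ((lam h : ℂˣ) : ℂ)) (x⁻¹ * 1 * x) = 1 := by
    intro x
    have : x⁻¹ * 1 * x = ((1 : U) : P) := by simp
    rw [this, extendByZero_coe]
    simp
  simp_rw [h1]
  rw [Finset.sum_const, nsmul_eq_mul, mul_one, Finset.card_univ, ← Nat.card_eq_fintype_card]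
  have h2 := Subgroup.card_mul_index U
  have hne : (Nat.card U : ℂ) ≠ 0 := by exact_mod_cast Nat.card_pos.ne'
  rw [← h2]
  push_cast
  field_simp

/-- An element of the kernel of the action on the cosets of `U` has all conjugates in `U`. -/
theorem value_eq_of_forall_conj (U : Subgroup P) (lam : U →* ℂˣ) {c : P}
    (h : ∀ g : P, ∃ hc : g⁻¹ * c * g ∈ U, lam ⟨g⁻¹ * c * g, hc⟩ = 1) :
    indFun U (fun h => ((lam h : ℂˣ) : ℂ)) c = indFun U (fun h => ((lam h : ℂˣ) : ℂ)) 1 := by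
  unfold indFun
  congr 1
  refine Finset.sum_congr rfl fun g _ => ?_
  obtain ⟨hc, hl⟩ := h g
  have e1 : g⁻¹ * c * g = ((⟨g⁻¹ * c * g, hc⟩ : U) : P) := rfl
  have e2 : g⁻¹ * 1 * g = ((1 : U) : P) := by simp
  rw [e1, e2, extendByZero_coe, extendByZero_coe, hl]
  simp

variable [Group.IsNilpotent P]

/-- Monomial decomposition of a character of a nilpotent group. -/
theorem exists_monomial_decomp {χ : P → ℂ} (hχ : IsCharacter P χ) :
    ∃ (ι : Type) (_ : Fintype ι) (U : ι → Subgroup P) (lam : ∀ i, U i →* ℂˣ),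
      χ = ∑ i, indFun (U i) (fun h => ((lam i h : ℂˣ) : ℂ)) := by
  classical
  refine Cfsg.Agent.Lib.Char.Basic.isCharacter_induction_on_irr (P := fun χ =>
    ∃ (ι : Type) (_ : Fintype ι) (U : ι → Subgroup P) (lam : ∀ i, U i →* ℂˣ),
      χ = ∑ i, indFun (U i) (fun h => ((lam i h : ℂˣ) : ℂ))) ?_ ?_ ?_ hχ
  · exact ⟨Empty, inferInstance, fun x => x.elim, fun x => x.elim, by simp⟩
  · intro ψ hψ
    obtain ⟨H, lam, hH⟩ := Cfsg.Agent.Lib.Char.Monomial.exists_monomial_of_nilpotent _ P rfl ψ hψ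
    exact ⟨Unit, inferInstance, fun _ => H, fun _ => lam, by simpa using hH⟩
  · rintro χ ψ - - ⟨ι₁, i₁, U₁, lam₁, rfl⟩ ⟨ι₂, i₂, U₂, lam₂, rfl⟩
    refine ⟨ι₁ ⊕ ι₂, inferInstance, Sum.elim U₁ U₂, ?_, ?_⟩
    · rintro (i | i)
      · exact lam₁ i
      · exact lam₂ i
    · rw [Fintype.sum_sum_type]
      rfl

/-- **Nilpotent linear groups.** A nilpotent group with a faithful character of degree `n` has an
abelian subgroup whose index divides `n!`. -/
theorem exists_abelian_index_dvd {χ : P → ℂ} (hχ : IsCharacter P χ)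
    (hfaith : ∀ g : P, χ g = χ 1 → g = 1) (n : ℕ) (hn : χ 1 = n) :
    ∃ B : Subgroup P, (∀ x ∈ B, ∀ y ∈ B, x * y = y * x) ∧ B.index ∣ n.factorial := by
  classical
  obtain ⟨ι, hι, U, lam, hdec⟩ := exists_monomial_decomp hχ
  let Ω : Type u := Σ i, P ⧸ U i
  have hcardΩ : Nat.card Ω = n := by
    have h1 : (n : ℂ) = ∑ i, ((U i).index : ℂ) := by
      rw [← hn, hdec, Finset.sum_apply]
      exact Finset.sum_congr rfl fun i _ => indFun_hom_one _ _
    have h2 : Nat.card Ω = ∑ i, (U i).index := by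
      rw [Nat.card_sigma]
      rfl
    rw [h2]
    exact_mod_cast h1.symm
  let φ : P →* Equiv.Perm Ω := MulAction.toPermHom P Ω
  refine ⟨φ.ker, ?_, ?_⟩
  · -- the kernel is abelian
    intro x hx y hy
    have hmem : ∀ z ∈ φ.ker, ∀ (i : ι) (g : P), g⁻¹ * z * g ∈ U i := by
      intro z hz i g
      have h1 : φ z (⟨i, (g : P ⧸ U i)⟩ : Ω) = ⟨i, (g : P ⧸ U i)⟩ := by
        rw [MonoidHom.mem_ker.1 hz]; rfl
      have h2 : (z • (g : P ⧸ U i) : P ⧸ U i) = (g : P ⧸ U i) := by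
        have h3 : (⟨i, z • (g : P ⧸ U i)⟩ : Ω) = ⟨i, (g : P ⧸ U i)⟩ := h1
        simpa using h3
      have h4 : ((z * g : P) : P ⧸ U i) = (g : P ⧸ U i) := h2
      have h5 := QuotientGroup.eq.1 h4.symm
      rwa [← mul_assoc] at h5
    set c := x * y * x⁻¹ * y⁻¹ with hc
    have hc1 : c = 1 := by
      apply hfaith
      rw [hdec, Finset.sum_apply, Finset.sum_apply]
      refine Finset.sum_congr rfl fun i _ => ?_
      refine value_eq_of_forall_conj _ _ fun g => ?_
      have hxU := hmem x hx i g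
      have hyU := hmem y hy i g
      have hcg : g⁻¹ * c * g = (g⁻¹ * x * g) * (g⁻¹ * y * g) * (g⁻¹ * x * g)⁻¹ * (g⁻¹ * y * g)⁻¹ := by
        rw [hc]; group
      have hcU : g⁻¹ * c * g ∈ U i := by
        rw [hcg]
        exact (U i).mul_mem ((U i).mul_mem ((U i).mul_mem hxU hyU) ((U i).inv_mem hxU))
          ((U i).inv_mem hyU)
      refine ⟨hcU, ?_⟩
      have hel : (⟨g⁻¹ * c * g, hcU⟩ : U i)
          = ⟨g⁻¹ * x * g, hxU⟩ * ⟨g⁻¹ * y * g, hyU⟩ * ⟨g⁻¹ * x * g, hxU⟩⁻¹ * ⟨g⁻¹ * y * g, hyU⟩⁻¹ :=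
        Subtype.ext hcg
      rw [hel, map_mul, map_mul, map_mul, map_inv, map_inv]
      rw [mul_comm (lam i _) (lam i _)]
      group
    have : x * y * x⁻¹ * y⁻¹ * (y * x) = y * x := by rw [← hc, hc1, one_mul]
    simpa [mul_assoc] using this
  · rw [Subgroup.index_ker]
    have h1 : Nat.card φ.range ∣ Nat.card (Equiv.Perm Ω) := Subgroup.card_subgroup_dvd_card _
    haveI : Finite Ω := inferInstanceAs (Finite (Σ i, P ⧸ U i))
    haveI : Fintype Ω := Fintype.ofFinite Ω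
    rw [Nat.card_eq_fintype_card (α := Equiv.Perm Ω), Fintype.card_perm,
      ← Nat.card_eq_fintype_card, hcardΩ] at h1
    exact h1

end Cfsg.Agent.Lib.Char.LinearMono
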