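import Mathlib
import Cfsg.Prelude.Def_Characters
import Cfsg.Agent.Lib.Char.Clifford
import Cfsg.Agent.Lib.Char.Codegree
import Cfsg.Agent.Lib.Char.QuotRep
import Cfsg.Agent.Lib.Char.BlichfeldtB
import Cfsg.Agent.Lib.Char.GL2Irr
import Cfsg.Agent.Lib.Char.GaloisC
import Cfsg.Agent.Lib.Char.LinearChars
import Cfsg.Agent.Lib.Char.LinearBound2
import Cfsg.Agent.Lib.Char.LinearHall3

/-!
# `p`-elements acting on `r`-subgroups of linear groups of small degree

An element `x` of `p`-power order acting nontrivially on an `r`-group `R` in a faithful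
representation of degree `d < p` forces `d = p - 1` and `d` a power of `2`.  (An elementary case of
Hall-Higman's Theorem B.)
-/

set_option autoImplicit false
set_option linter.unusedSectionVars false
set_option linter.style.haveILetI false

namespace Cfsg.Agent.Lib.Char.LinearPS

open Cfsg Module
open scoped commutatorElement
open Cfsg.Agent.Lib.Char.Codegree Cfsg.Agent.Lib.Char.QuotRep Cfsg.Agent.Lib.Char.Ortho

universe u v

variable {R : Type u} [Group R] [Finite R]

/-- The pointwise fixed subgroup of an automorphism. -/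
def fixedSub (α : MulAut R) : Subgroup R where
  carrier := {u | α u = u}
  mul_mem' := by
    intro a b ha hb
    simp only [Set.mem_ofPred_eq] at ha hb ⊢
    rw [map_mul, ha, hb]
  one_mem' := by simp
  inv_mem' := by
    intro a ha
    simp only [Set.mem_ofPred_eq] at ha ⊢
    rw [map_inv, ha]

theorem mem_fixedSub (α : MulAut R) (u : R) : u ∈ fixedSub α ↔ α u = u := Iff.rfl

/-- Irreducible constituents of an invariant character of small degree are invariant. -/
theorem constituent_invariant [Fintype R] {χ : R → ℂ} (hχ : IsCharacter R χ) {θ : R → ℂ}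
    (hθ : IsIrrCharacter R θ) (hne : classInner χ θ ≠ 0) (α : MulAut R)
    (hαχ : ∀ u, χ (α u) = χ u) {p a d : ℕ} (hp : p.Prime) (hα : α ^ (p ^ a) = 1) (hd : χ 1 = d)
    (hdp : d < p) : ∀ u, θ (α u) = θ u := by
  classical
  let Irr := IrrCharacter R
  let e : R →* R := (α : R ≃* R).toMonoidHom
  have he : Function.Surjective e := (α : R ≃* R).surjective
  let f : Irr → Irr := fun ψ => ⟨ψ.1 ∘ e, Basic.isIrrCharacter_comp_surjective ψ.2 e he⟩
  have hfcoe : ∀ ψ : Irr, ∀ u, (f ψ).1 u = ψ.1 (α u) := fun ψ u => rfl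
  have hiter : ∀ (k : ℕ) (ψ : Irr) (u : R), (f^[k] ψ).1 u = ψ.1 ((α ^ k) u) := by
    intro k
    induction k with
    | zero => intro ψ u; simp
    | succ k ih =>
        intro ψ u
        rw [Function.iterate_succ_apply', hfcoe, ih, pow_succ]
        rfl
  -- multiplicities are preserved
  have hmult : ∀ ψ : Irr, classInner χ (f ψ).1 = classInner χ ψ.1 := by
    intro ψ
    have h1 := Cfsg.Agent.Lib.Char.Clifford.classInner_comp_equiv (α : R ≃* R) χ ψ.1
    have h2 : (fun a => χ ((α : R ≃* R) a)) = χ := funext hαχ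
    rw [h2] at h1
    exact h1
  let θ' : Irr := ⟨θ, hθ⟩
  have hper : Function.IsPeriodicPt f (p ^ a) θ' := by
    apply Subtype.ext
    funext u
    show (f^[p ^ a] θ').1 u = θ u
    rw [hiter, hα]
    rfl
  by_contra hcon
  push Not at hcon
  obtain ⟨u₀, hu₀⟩ := hcon
  have hne1 : Function.minimalPeriod f θ' ≠ 1 := by
    intro h1
    have h2 : Function.IsFixedPt f θ' := by
      rw [← Function.minimalPeriod_eq_one_iff_isFixedPt]
      exact h1
    have h3 : (f θ').1 u₀ = θ'.1 u₀ := by rw [h2]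
    exact hu₀ h3
  have hdvd : Function.minimalPeriod f θ' ∣ p ^ a := hper.minimalPeriod_dvd
  obtain ⟨j, -, hj⟩ := (Nat.dvd_prime_pow hp).1 hdvd
  have hj0 : j ≠ 0 := by
    rintro rfl
    rw [pow_zero] at hj
    exact hne1 hj
  have hple : p ≤ Function.minimalPeriod f θ' := by
    rw [hj]
    exact Nat.le_self_pow hj0 p
  -- the first `p` iterates are distinct constituents
  have hinj : Set.InjOn (fun i => f^[i] θ') (Set.Iio p) := by
    have h1 := Function.iterate_injOn_Iio_minimalPeriod (f := f) (x := θ')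
    exact h1.mono (fun i hi => lt_of_lt_of_le hi hple)
  let S : Finset Irr := (Finset.range p).image fun i => f^[i] θ'
  have hS : S.card = p := by
    rw [Finset.card_image_of_injOn, Finset.card_range]
    intro i hi k hk h
    exact hinj (by simpa using hi) (by simpa using hk) h
  have hiterm : ∀ i : ℕ, classInner χ (f^[i] θ').1 ≠ 0 := by
    intro i
    induction i with
    | zero => simpa using hne
    | succ k ih =>
        rw [Function.iterate_succ_apply', hmult]
        exact ih
  have hmS : ∀ ψ ∈ S, classInner χ ψ.1 ≠ 0 := by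
    intro ψ hψ
    obtain ⟨i, -, rfl⟩ := Finset.mem_image.1 hψ
    exact hiterm i
  obtain ⟨m, hm⟩ := exists_nat_decomp hχ
  have hmc : ∀ ψ : Irr, classInner χ ψ.1 = m ψ := by
    intro ψ
    have := classInner_sum_irr (fun χ => (m χ : ℂ)) ψ
    simp only [Nat.cast_smul_eq_nsmul] at this
    rw [← hm] at this
    exact this
  have hsum : (d : ℂ) = ∑ ψ, (m ψ : ℂ) * ψ.1 1 := by
    rw [← hd, hm]
    simp [Finset.sum_apply]
  choose deg hdeg0 hdeg using fun ψ : Irr => irr_degree_pos ψ.2
  have hsum' : d = ∑ ψ, m ψ * deg ψ := by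
    have : (d : ℂ) = ((∑ ψ, m ψ * deg ψ : ℕ) : ℂ) := by
      rw [hsum]
      push_cast
      exact Finset.sum_congr rfl fun ψ _ => by rw [hdeg]
    exact_mod_cast this
  have hle : p ≤ d := by
    rw [hsum', ← hS]
    calc S.card = ∑ ψ ∈ S, 1 := by simp
      _ ≤ ∑ ψ ∈ S, m ψ * deg ψ := by
          apply Finset.sum_le_sum
          intro ψ hψ
          have h1 : m ψ ≠ 0 := by
            intro h0
            apply hmS ψ hψ
            rw [hmc, h0]
            simp
          exact Nat.mul_pos (Nat.pos_of_ne_zero h1) (hdeg0 ψ)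
      _ ≤ ∑ ψ, m ψ * deg ψ := Finset.sum_le_sum_of_subset (Finset.subset_univ S)
  omega

theorem eq_one_of_two_pow {c : R} {r p m a : ℕ} (hr : r.Prime) (hp : p.Prime) (hrp : r ≠ p)
    (h1 : c ^ (r ^ m) = 1) (h2 : c ^ (p ^ a) = 1) : c = 1 := by
  have hd1 := orderOf_dvd_of_pow_eq_one h1
  have hd2 := orderOf_dvd_of_pow_eq_one h2
  have hcop : Nat.Coprime (r ^ m) (p ^ a) :=
    Nat.Coprime.pow _ _ ((Nat.coprime_primes hr hp).2 hrp)
  exact orderOf_eq_one_iff.1 (Nat.eq_one_of_dvd_coprimes hcop hd1 hd2)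

/-- If `α u = u c` with `c` fixed, then `u` is fixed. -/
theorem fixed_of_mul {α : MulAut R} {r p a : ℕ} (hr : r.Prime) (hp : p.Prime) (hrp : r ≠ p)
    (hR : IsPGroup r R) (hα : α ^ (p ^ a) = 1) {u c : R} (huc : α u = u * c) (hc : α c = c) :
    α u = u := by
  have h1 : ∀ k : ℕ, (α ^ k) u = u * c ^ k := by
    intro k
    induction k with
    | zero => simp
    | succ k ih =>
        rw [pow_succ', MulAut.mul_apply, ih, map_mul, huc, map_pow, hc, pow_succ']
        group
  have h2 := h1 (p ^ a)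
  rw [hα] at h2
  have h3 : c ^ (p ^ a) = 1 := by
    have : u * c ^ (p ^ a) = u * 1 := by rw [← h2, mul_one]; rfl
    exact mul_left_cancel this
  obtain ⟨m, hm⟩ := hR c
  rw [eq_one_of_two_pow hr hp hrp hm h3] at huc
  simpa using huc

/-- `|R| ≡ |C_R(α)| mod p`. -/
theorem card_modEq_fixedSub (α : MulAut R) {p a : ℕ} (hp : p.Prime) (hα : α ^ (p ^ a) = 1) :
    Nat.card R ≡ Nat.card (fixedSub α) [MOD p] := by
  classical
  haveI : Fact p.Prime := ⟨hp⟩
  let A : Subgroup (MulAut R) := Subgroup.zpowers α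
  have hA : IsPGroup p A := by
    rintro ⟨g, hg⟩
    refine ⟨a, ?_⟩
    obtain ⟨k, rfl⟩ := Subgroup.mem_zpowers_iff.1 hg
    apply Subtype.ext
    show (α ^ k) ^ (p ^ a) = 1
    rw [← zpow_natCast, ← zpow_mul, mul_comm, zpow_mul, zpow_natCast, hα, one_zpow]
  have h := hA.card_modEq_card_fixedPoints R
  have hfix : MulAction.fixedPoints A R = (fixedSub α : Set R) := by
    ext u
    constructor
    · intro hu
      exact hu ⟨α, Subgroup.mem_zpowers α⟩
    · intro hu g
      obtain ⟨g, hg⟩ := g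
      obtain ⟨k, rfl⟩ := Subgroup.mem_zpowers_iff.1 hg
      have h1 : α ∈ MulAction.stabilizer (MulAut R) u := hu
      exact Subgroup.zpow_mem _ h1 k
  rw [hfix] at h
  exact h

section Rep

variable {V : Type v} [AddCommGroup V] [Module ℂ V] [FiniteDimensional ℂ V]

/-- A nonlinear invariant constituent exists when `α ≠ 1`. -/
theorem exists_nonlinear_constituent [Fintype R] (ρ : Representation ℂ R V)
    (hinj : Function.Injective ρ) (α : MulAut R) (hαχ : ∀ u, ρ.character (α u) = ρ.character u)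
    {p a : ℕ} (hp : p.Prime) (hα : α ^ (p ^ a) = 1) (hdp : finrank ℂ V < p)
    (hne : ∃ u, α u ≠ u) :
    ∃ θ : R → ℂ, IsIrrCharacter R θ ∧ classInner ρ.character θ ≠ 0 ∧ θ 1 ≠ 1 ∧
      ∀ u, θ (α u) = θ u := by
  classical
  have hχ : IsCharacter R ρ.character := Cfsg.Agent.Lib.Char.Basic.isCharacter_of_rep ρ
  have h1d : ρ.character 1 = (finrank ℂ V : ℕ) := by rw [Representation.char_one]
  by_contra hcon
  push Not at hcon
  obtain ⟨u, hu⟩ := hne
  apply hu
  have hlin : ∀ θ : R → ℂ, IsIrrCharacter R θ → classInner ρ.character θ ≠ 0 →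
      θ (α u * u⁻¹) = θ 1 := by
    intro θ hθ hθ0
    have hinv := constituent_invariant hχ hθ hθ0 α hαχ hp hα h1d hdp
    have h1 : θ 1 = 1 := by
      by_contra h1
      obtain ⟨v, hv⟩ := hcon θ hθ hθ0 h1
      exact hv (hinv v)
    obtain ⟨φ, rfl⟩ := Cfsg.Agent.Lib.Char.LinearChars.exists_hom_of_isCharacter_one
      (Cfsg.Agent.Lib.Char.Basic.isCharacter_of_isIrrCharacter hθ) h1
    have h2 := hinv u
    simp only [map_mul, map_inv, map_one, Units.val_inj] at h2 ⊢
    rw [h2]
    simp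
  have hdec := decomp_eq_sum_classInner hχ
  have hval : ρ.character (α u * u⁻¹) = ρ.character 1 := by
    rw [hdec]
    simp only [Finset.sum_apply, Pi.smul_apply, smul_eq_mul]
    refine Finset.sum_congr rfl fun ψ _ => ?_
    by_cases h0 : classInner ρ.character ψ.1 = 0
    · rw [h0, zero_mul, zero_mul]
    · rw [hlin ψ.1 ψ.2 h0]
  have hker := (Cfsg.Agent.Lib.Char.Codegree.character_eq_one_iff ρ _).1 hval
  rw [mem_repKer] at hker
  have h3 : α u * u⁻¹ = 1 := hinj (by rw [hker, map_one])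
  exact mul_inv_eq_one.1 h3

variable {α : MulAut R}

/-- Fixed elements are central under the minimality hypothesis. -/
theorem fixed_central {r p a : ℕ} (hr : r.Prime) (hp : p.Prime) (hrp : r ≠ p)
    (hR : IsPGroup r R) (hα : α ^ (p ^ a) = 1) (hne : ∃ u, α u ≠ u)
    (hF1 : ∀ T : Subgroup R, T ≠ ⊤ → (∀ u ∈ T, α u ∈ T) → ∀ u ∈ T, α u = u)
    (hcomm : ∀ u ∈ commutator R, α u = u) {w : R} (hw : α w = w) (u : R) : u * w = w * u := by
  let D : Subgroup R := Subgroup.centralizer (fixedSub α : Set R)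
  have hDinv : ∀ x ∈ D, α x ∈ D := by
    intro x hx
    rw [Subgroup.mem_centralizer_iff] at hx ⊢
    intro h hh
    have e : α h = h := hh
    have := hx h hh
    calc h * α x = α h * α x := by rw [e]
      _ = α (h * x) := (map_mul α h x).symm
      _ = α (x * h) := by rw [this]
      _ = α x * α h := map_mul α x h
      _ = α x * h := by rw [e]
  have hDtop : D = ⊤ := by
    by_contra hD
    have hfix := hF1 D hD hDinv
    obtain ⟨u₀, hu₀⟩ := hne
    apply hu₀
    have hmem : u₀⁻¹ * α u₀ ∈ D := by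
      rw [Subgroup.mem_centralizer_iff]
      intro w' hw'
      have e : α w' = w' := hw'
      have hc : ⁅u₀, w'⁆ ∈ commutator R :=
        Subgroup.commutator_mem_commutator (Subgroup.mem_top _) (Subgroup.mem_top _)
      have h1 := hcomm _ hc
      rw [commutatorElement_def, map_mul, map_mul, map_mul, map_inv, map_inv, e] at h1
      have h2 : α u₀ * w' * (α u₀)⁻¹ = u₀ * w' * u₀⁻¹ := mul_right_cancel h1
      have h3 : w' * (u₀⁻¹ * α u₀) = (u₀⁻¹ * α u₀) * w' := by
        calc w' * (u₀⁻¹ * α u₀) = u₀⁻¹ * (u₀ * w' * u₀⁻¹) * α u₀ := by group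
          _ = u₀⁻¹ * (α u₀ * w' * (α u₀)⁻¹) * α u₀ := by rw [h2]
          _ = (u₀⁻¹ * α u₀) * w' := by group
      exact h3
    exact fixed_of_mul hr hp hrp hR hα (c := u₀⁻¹ * α u₀) (by group) (hfix _ hmem)
  have hu : u ∈ D := by rw [hDtop]; trivial
  exact ((Subgroup.mem_centralizer_iff.1 hu) w hw).symm

/-- An irreducible nonlinear invariant character vanishes off the fixed points. -/
theorem vanish_off_fixed {W : Type v} [AddCommGroup W] [Module ℂ W] [FiniteDimensional ℂ W]
    (σ : Representation ℂ R W) [hσ : σ.IsIrreducible] (hθ1 : σ.character 1 ≠ 1)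
    (hαθ : ∀ u, σ.character (α u) = σ.character u)
    (hF1 : ∀ T : Subgroup R, T ≠ ⊤ → (∀ u ∈ T, α u ∈ T) → ∀ u ∈ T, α u = u)
    (hcomm : ∀ u ∈ commutator R, α u = u) (hcent : ∀ w, α w = w → ∀ u, u * w = w * u)
    {u : R} (hu : α u ≠ u) : σ.character u = 0 := by
  classical
  have hK : ∀ k, σ k = 1 → σ (α k) = 1 := by
    intro k hk
    have h1 : σ.character k = σ.character 1 := (character_eq_one_iff σ k).2 hk
    have h2 : σ.character (α k) = σ.character 1 := by rw [hαθ, h1]
    exact (character_eq_one_iff σ (α k)).1 h2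
  have hsw : ∀ a b : R, σ (a * b * a⁻¹ * b⁻¹) = 1 → σ a * σ b = σ b * σ a := by
    intro a b h
    have e : a * b = (a * b * a⁻¹ * b⁻¹) * (b * a) := by group
    rw [← map_mul, e, map_mul, h, one_mul, map_mul]
  have hsw' : ∀ a b : R, σ a * σ b = σ b * σ a → σ (a * b * a⁻¹ * b⁻¹) = 1 := by
    intro a b h
    have e : (a * b * a⁻¹ * b⁻¹) = (a * b) * (b * a)⁻¹ := by group
    rw [e, map_mul, map_mul, h, ← map_mul, ← map_mul, mul_inv_cancel, map_one]
  let K := repKer σ
  let q := quotRep σ K (fun g hg => (mem_repKer σ g).1 hg)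
  have hq : Function.Injective q := Cfsg.Agent.Lib.Char.LinearHall.quot_injective σ
  let Y : Subgroup R := (Subgroup.center (R ⧸ K)).comap (QuotientGroup.mk' K)
  have hYmem : ∀ x, x ∈ Y ↔ ∀ v, σ v * σ x = σ x * σ v := by
    intro x
    show QuotientGroup.mk' K x ∈ Subgroup.center (R ⧸ K) ↔ _
    rw [Subgroup.mem_center_iff]
    constructor
    · intro h v
      have := congrArg q (h (QuotientGroup.mk' K v))
      simpa [q, map_mul] using this
    · intro h y
      obtain ⟨v, rfl⟩ := QuotientGroup.mk_surjective y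
      apply hq
      simpa [q, map_mul] using h v
  have hYne : Y ≠ ⊤ := by
    intro hY
    have hc : ∀ a b : R ⧸ K, a * b = b * a := by
      intro a b
      obtain ⟨v, rfl⟩ := QuotientGroup.mk_surjective b
      have hv : v ∈ Y := by rw [hY]; trivial
      exact (Subgroup.mem_center_iff.1 hv) a
    haveI : q.IsIrreducible := quotRep_isIrreducible σ K _
    have h1 := Cfsg.Agent.Lib.Char.LinearBound.irr_apply_one_of_comm hc
      (Cfsg.Agent.Lib.Char.Basic.isIrrCharacter_of_rep q)
    apply hθ1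
    rw [Representation.char_one] at h1 ⊢
    exact h1
  have hYinv : ∀ x ∈ Y, α x ∈ Y := by
    intro x hx
    rw [hYmem] at hx ⊢
    intro v
    obtain ⟨w, rfl⟩ := (α : R ≃* R).surjective v
    have h1 := hK _ (hsw' w x (hx w))
    have e : α (w * x * w⁻¹ * x⁻¹) = α w * α x * (α w)⁻¹ * (α x)⁻¹ := by
      simp only [map_mul, map_inv]
    rw [e] at h1
    exact hsw _ _ h1
  have hYfix := hF1 Y hYne hYinv
  have huY : u ∉ Y := fun h => hu (hYfix u h)
  rw [hYmem] at huY
  push Not at huY
  obtain ⟨v, hv⟩ := huY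
  let z := v * u * v⁻¹ * u⁻¹
  have hzc : z ∈ commutator R :=
    Subgroup.commutator_mem_commutator (Subgroup.mem_top _) (Subgroup.mem_top _)
  have hzfix := hcomm z hzc
  obtain ⟨a, ha⟩ := Cfsg.Agent.Lib.Char.Integrality.exists_smul_id_of_commute σ (σ z) (fun g => by
    show σ z * σ g = σ g * σ z
    rw [← map_mul, ← map_mul, hcent z hzfix g])
  have ha1 : a ≠ 1 := by
    rintro rfl
    apply hv
    apply hsw
    rw [ha, one_smul]
    rfl
  have h3 : σ.character u = a * σ.character u := by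
    have e : v * u * v⁻¹ = z * u := by
      show v * u * v⁻¹ = v * u * v⁻¹ * u⁻¹ * u
      group
    have h4 : σ.character (v * u * v⁻¹) = σ.character u := Representation.char_conj σ u v
    rw [e] at h4
    rw [← h4]
    conv_rhs => rw [h4]
    show LinearMap.trace ℂ W (σ (z * u)) = a * _
    rw [map_mul, ha]
    show LinearMap.trace ℂ W (a • (σ u)) = _
    rw [map_smul, smul_eq_mul]
    rfl
  have h5 : (1 - a) * σ.character u = 0 := by
    rw [sub_mul, one_mul, ← h3, sub_self]
  rcases mul_eq_zero.1 h5 with h | h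
  · exact absurd (sub_eq_zero.1 h).symm ha1
  · exact h

/-- `|R| = |C| t²`. -/
theorem card_eq_of_vanish [Fintype R] {θ : R → ℂ} (hθ : IsIrrCharacter R θ) {t : ℕ} (ht : θ 1 = t)
    (hcent : ∀ w, α w = w → ∀ u, u * w = w * u) (hv : ∀ u, α u ≠ u → θ u = 0) :
    Nat.card R = Nat.card (fixedSub α) * t ^ 2 := by
  classical
  have h := Cfsg.Agent.Lib.Char.GaloisC.sum_norm_sq_of_isIrr hθ
  have h1 : ∀ g : R, ‖θ g‖ ^ 2 = if g ∈ fixedSub α then (t : ℝ) ^ 2 else 0 := by
    intro g
    by_cases hg : g ∈ fixedSub α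
    · rw [if_pos hg, Cfsg.Agent.Lib.Char.GL2Irr.norm_of_central hθ g (fun u => hcent g hg u), ht]
      simp
    · rw [if_neg hg, hv g hg]
      simp
  simp_rw [h1] at h
  rw [Finset.sum_ite, Finset.sum_const, Finset.sum_const_zero, add_zero, nsmul_eq_mul] at h
  have h2 : (Finset.univ.filter fun g => g ∈ fixedSub α).card = Nat.card (fixedSub α) := by
    rw [Nat.card_eq_fintype_card, Fintype.card_subtype]
  rw [h2] at h
  have h3 : ((Nat.card (fixedSub α) * t ^ 2 : ℕ) : ℝ) = Nat.card R := by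
    push_cast
    exact h
  exact_mod_cast h3.symm

/-- The arithmetic at the end of the critical case. -/
theorem arith_end {r p m t d c : ℕ} (hr : r.Prime) (hp : p.Prime) (hrp : r ≠ p)
    (hcard : c * t ^ 2 = r ^ m) (hmod : c * t ^ 2 ≡ c [MOD p]) (ht : 2 ≤ t) (htd : t ≤ d)
    (hd : d + 1 ≤ p) : d + 1 = p ∧ ∃ k, d = 2 ^ k := by
  have hc : c ∣ r ^ m := Dvd.intro _ hcard
  have hcop : Nat.Coprime p c := by
    apply Nat.Coprime.coprime_dvd_right hc
    exact Nat.Coprime.pow_right _ ((Nat.coprime_primes hp hr).2 hrp.symm)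
  have h1 : t ^ 2 ≡ 1 [MOD p] := by
    apply Nat.ModEq.cancel_left_of_coprime (c := c) hcop
    rw [mul_one]
    exact hmod
  have h2 : p ∣ t ^ 2 - 1 := (Nat.modEq_iff_dvd' (by nlinarith)).1 h1.symm
  have h3 : t ^ 2 - 1 = (t - 1) * (t + 1) := by
    obtain ⟨s, rfl⟩ : ∃ s, t = s + 1 := ⟨t - 1, by omega⟩
    have : (s + 1) ^ 2 = s * (s + 1 + 1) + 1 := by ring
    rw [this]
    simp
  rw [h3] at h2
  have h4 : p ∣ t + 1 := by
    rcases (Nat.Prime.dvd_mul hp).1 h2 with h | h
    · exact absurd (Nat.le_of_dvd (by omega) h) (by omega)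
    · exact h
  have h5 : t + 1 = p := by
    have := Nat.le_of_dvd (by omega) h4
    omega
  have h6 : d = t := by omega
  refine ⟨by omega, ?_⟩
  have ht2 : t ∣ r ^ m := by
    rw [← hcard]
    exact Dvd.dvd.mul_left (dvd_pow_self t (by norm_num)) c
  obtain ⟨j, -, hj⟩ := (Nat.dvd_prime_pow hr).1 ht2
  have hj0 : j ≠ 0 := by
    rintro rfl
    simp at hj
    omega
  have hodd : p ≠ 2 := by omega
  have heven : 2 ∣ t := by
    have := hp.eq_one_or_self_of_dvd 2
    have h7 : ¬ 2 ∣ p := fun h => hodd (((Nat.prime_dvd_prime_iff_eq Nat.prime_two hp).1 h).symm)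
    omega
  have hr2 : r = 2 := by
    rw [hj] at heven
    exact ((Nat.prime_dvd_prime_iff_eq Nat.prime_two hr).1 (Nat.prime_two.dvd_of_dvd_pow heven)).symm
  exact ⟨j, by rw [h6, hj, hr2]⟩

/-- The critical case: every proper invariant subgroup is centralised. -/
theorem critical_core {r p a : ℕ} (hr : r.Prime) (hp : p.Prime) (hrp : r ≠ p)
    (hR : IsPGroup r R) (hα : α ^ (p ^ a) = 1) (ρ : Representation ℂ R V)
    (hinj : Function.Injective ρ) (hαχ : ∀ u, ρ.character (α u) = ρ.character u)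
    (hd : finrank ℂ V + 1 ≤ p) (hne : ∃ u, α u ≠ u)
    (hF1 : ∀ T : Subgroup R, T ≠ ⊤ → (∀ u ∈ T, α u ∈ T) → ∀ u ∈ T, α u = u) :
    finrank ℂ V + 1 = p ∧ ∃ k, finrank ℂ V = 2 ^ k := by
  classical
  haveI := Fintype.ofFinite R
  haveI : Fact r.Prime := ⟨hr⟩
  haveI : Nontrivial R := by
    obtain ⟨u, hu⟩ := hne
    refine ⟨u, 1, fun h => hu ?_⟩
    rw [h, map_one]
  haveI : Group.IsNilpotent R := hR.isNilpotent
  have hct : commutator R ≠ ⊤ := (Group.IsSolvable.commutator_lt_top_of_nontrivial R).ne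
  have hcomm : ∀ u ∈ commutator R, α u = u := by
    apply hF1 _ hct
    intro u hu
    have h := (inferInstance : (commutator R).Characteristic).fixed (α : R ≃* R)
    rw [← h] at hu
    exact hu
  have hcent : ∀ w, α w = w → ∀ u, u * w = w * u := fun w hw u =>
    fixed_central hr hp hrp hR hα hne hF1 hcomm hw u
  obtain ⟨θ, hθ, hθ0, hθ1, hθα⟩ := exists_nonlinear_constituent ρ hinj α hαχ hp hα (by omega) hne
  obtain ⟨Ξ, hΞ, hadd⟩ := Cfsg.Agent.Lib.Char.Clifford.exists_char_add
    (Cfsg.Agent.Lib.Char.Basic.isCharacter_of_rep ρ) hθ hθ0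
  obtain ⟨n, σ, hσ, rfl⟩ := hθ
  obtain ⟨m, ρ', rfl⟩ := hΞ
  have hn1 : σ.character 1 = (n : ℂ) := by
    rw [Representation.char_one]
    simp
  have hnne : n ≠ 1 := by
    rintro rfl
    exact hθ1 (by rw [hn1]; simp)
  have hn0 : n ≠ 0 := by
    rintro rfl
    have hnt : Nontrivial (Fin 0 → ℂ) :=
      Cfsg.Agent.Lib.Char.Integrality.nontrivial_of_isIrreducible σ
    exact not_subsingleton _ (inferInstance : Subsingleton (Fin 0 → ℂ))
  have hnd : n ≤ finrank ℂ V := by
    have h1 := congrFun hadd 1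
    rw [Pi.add_apply, Representation.char_one, hn1, Representation.char_one] at h1
    have h2 : finrank ℂ V = n + m := by
      simp only [Module.finrank_fin_fun] at h1
      exact_mod_cast h1
    omega
  have hv : ∀ u, α u ≠ u → σ.character u = 0 := fun u hu =>
    vanish_off_fixed σ hθ1 hθα hF1 hcomm hcent hu
  have hcard := card_eq_of_vanish ⟨n, σ, hσ, rfl⟩ hn1 hcent hv
  have hmod := card_modEq_fixedSub α hp hα
  obtain ⟨M, hM⟩ := IsPGroup.iff_card.1 hR
  rw [hcard] at hmod
  rw [hcard] at hM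
  exact arith_end hr hp hrp hM hmod (by omega) hnd hd

/-- The restriction of an automorphism to an invariant subgroup. -/
noncomputable def restrictAut (α : MulAut R) (T : Subgroup R) (hT : ∀ u ∈ T, α u ∈ T) : MulAut T :=
  MulEquiv.ofBijective
    (((α : R ≃* R).toMonoidHom.comp T.subtype).codRestrict T (fun u => hT u u.2))
    (Finite.injective_iff_bijective.1 (by
      intro a b hab
      have : α (a : R) = α (b : R) := congrArg Subtype.val hab
      exact Subtype.ext ((α : R ≃* R).injective this)))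

theorem restrictAut_coe (α : MulAut R) (T : Subgroup R) (hT : ∀ u ∈ T, α u ∈ T) (u : T) :
    ((restrictAut α T hT u : T) : R) = α u := rfl

theorem restrictAut_pow_coe (α : MulAut R) (T : Subgroup R) (hT : ∀ u ∈ T, α u ∈ T) (k : ℕ)
    (u : T) : (((restrictAut α T hT) ^ k) u : R) = (α ^ k) u := by
  induction k generalizing u with
  | zero => simp
  | succ k ih =>
      rw [pow_succ, MulAut.mul_apply, ih, restrictAut_coe, pow_succ, MulAut.mul_apply]

/-- **Critical lemma.**  An automorphism of `p`-power order of an `r`-group preserving a faithful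
character of degree `< p` is trivial unless the degree is `p - 1` and a power of `2`. -/
theorem critical {r p : ℕ} (hr : r.Prime) (hp : p.Prime) (hrp : r ≠ p) (n : ℕ) :
    ∀ (R : Type u) [Group R] [Finite R], Nat.card R = n → IsPGroup r R →
      ∀ (α : MulAut R) (a : ℕ), α ^ (p ^ a) = 1 → ∀ ρ : Representation ℂ R V,
        Function.Injective ρ → (∀ u, ρ.character (α u) = ρ.character u) →
        finrank ℂ V + 1 ≤ p → (∃ u, α u ≠ u) → finrank ℂ V + 1 = p ∧ ∃ k, finrank ℂ V = 2 ^ k := by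
  induction n using Nat.strong_induction_on with
  | _ n IH =>
    intro R _ _ hn hR α a hα ρ hinj hαχ hd hne
    by_cases hF1 : ∀ T : Subgroup R, T ≠ ⊤ → (∀ u ∈ T, α u ∈ T) → ∀ u ∈ T, α u = u
    · exact critical_core hr hp hrp hR hα ρ hinj hαχ hd hne hF1
    · push Not at hF1
      obtain ⟨T, hT, hTinv, u, huT, hu⟩ := hF1
      have hlt : Nat.card T < n := by
        rw [← hn]
        exact Cfsg.Agent.Lib.Char.Monomial.card_lt_of_ne_top hT
      refine IH _ hlt T rfl (hR.to_subgroup T) (restrictAut α T hTinv) a ?_ (ρ.comp T.subtype)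
        (Cfsg.Agent.Lib.Char.LinearHall.comp_subtype_injective ρ hinj T) ?_ hd
        ⟨⟨u, huT⟩, fun h => hu (congrArg Subtype.val h)⟩
      · ext v
        rw [restrictAut_pow_coe, hα]
        rfl
      · intro v
        exact hαχ v

end Rep

/-- The subgroup form of the critical lemma. -/
theorem critical_sub {G : Type u} [Group G] [Finite G] {V : Type v} [AddCommGroup V] [Module ℂ V]
    [FiniteDimensional ℂ V] {r p a : ℕ} (hr : r.Prime) (hp : p.Prime) (hrp : r ≠ p)
    (ρ : Representation ℂ G V) (hinj : Function.Injective ρ) (hd : finrank ℂ V + 1 ≤ p)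
    (hcon : ¬ (finrank ℂ V + 1 = p ∧ ∃ k, finrank ℂ V = 2 ^ k)) {T : Subgroup G}
    (hT : IsPGroup r T) {x : G} (hx : x ^ (p ^ a) = 1)
    (hxT : ∀ u ∈ T, x * u * x⁻¹ ∈ T) {u : G} (hu : u ∈ T) : x * u * x⁻¹ = u := by
  by_contra hne
  apply hcon
  have hTinv : ∀ u ∈ T, MulAut.conj x u ∈ T := hxT
  refine critical hr hp hrp _ T rfl hT (restrictAut (MulAut.conj x) T hTinv) a ?_
    (ρ.comp T.subtype) (Cfsg.Agent.Lib.Char.LinearHall.comp_subtype_injective ρ hinj T) ?_ hd
    ⟨⟨u, hu⟩, fun h => hne (congrArg Subtype.val h)⟩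
  · ext v
    rw [restrictAut_pow_coe, ← map_pow, hx, map_one]
    rfl
  · intro v
    show ρ.character (x * (v : G) * x⁻¹) = ρ.character (v : G)
    exact Representation.char_conj ρ _ _

end Cfsg.Agent.Lib.Char.LinearPS
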