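import Mathlib
import Cfsg.Prelude.Def_Local
import Cfsg.Agent.Lib.Char.LinearPS
import Cfsg.Agent.Lib.Coprime.InvSylow
import Cfsg.Agent.Lib.Solvable.PSeries
import Cfsg.Agent.Lib.Components.PComponent
import Cfsg.Agent.Lib.Basic.PCore
import Cfsg.Agent.Lib.Char.SmallDeg

/-!
# `p`-soluble linear groups of degree `< p`

Hall-Higman type theorem: a `p`-soluble linear group of degree `d < p` has a normal Sylow
`p`-subgroup, unless `d = p - 1` is a power of `2` and the representation is irreducible.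
-/

set_option autoImplicit false
set_option linter.unusedSectionVars false
set_option linter.style.haveILetI false

namespace Cfsg.Agent.Lib.Char.LinearPS

open Cfsg Module
open Cfsg.Agent.Lib.Char.Codegree Cfsg.Agent.Lib.Char.QuotRep

universe u v

variable {G : Type u} [Group G] [Finite G]
variable {V : Type v} [AddCommGroup V] [Module ℂ V] [FiniteDimensional ℂ V]

/-- Without the exceptional shape, every `p`-element centralises `O_{p'}(G)`. -/
theorem commute_core {p a : ℕ} (hp : p.Prime) (ρ : Representation ℂ G V)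
    (hinj : Function.Injective ρ) (hd : finrank ℂ V + 1 ≤ p)
    (hcon : ¬ (finrank ℂ V + 1 = p ∧ ∃ k, finrank ℂ V = 2 ^ k)) {x : G} (hx : x ^ (p ^ a) = 1)
    {k : G} (hk : k ∈ pPrimeCore p G) : x * k * x⁻¹ = k := by
  classical
  haveI : Fact p.Prime := ⟨hp⟩
  set K := pPrimeCore p G with hK
  haveI hKn : K.Normal := pPrimeCore_normal p G
  have hKcop : (Nat.card K).Coprime p := Cfsg.Agent.Lib.Solvable.PSeries.pPrimeCore_coprime p
  let A : Subgroup G := Subgroup.zpowers x
  have hAcard : Nat.card A ∣ p ^ a := by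
    rw [Nat.card_zpowers]
    exact orderOf_dvd_of_pow_eq_one hx
  have hcop : (Nat.card A).Coprime (Nat.card K) := by
    apply Nat.Coprime.coprime_dvd_left hAcard
    exact Nat.Coprime.pow_left _ hKcop.symm
  have hsolvA : Group.IsSolvable A ∨ Group.IsSolvable K := by
    left
    exact Group.isSolvable_of_comm (fun a b => Subtype.ext (by
      obtain ⟨a, ha⟩ := a
      obtain ⟨b, hb⟩ := b
      obtain ⟨i, rfl⟩ := Subgroup.mem_zpowers_iff.1 ha
      obtain ⟨j, rfl⟩ := Subgroup.mem_zpowers_iff.1 hb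
      show x ^ i * x ^ j = x ^ j * x ^ i
      rw [← zpow_add, ← zpow_add, add_comm]))
  have hAK : A ≤ Subgroup.normalizer (K : Set G) := by
    rw [Subgroup.normalizer_eq_top K]
    exact le_top
  let H : Subgroup K := (Subgroup.centralizer ({x} : Set G)).subgroupOf K
  have hHtop : H = ⊤ := by
    rw [← Subgroup.index_eq_one]
    by_contra hne
    obtain ⟨r, hr, hrd⟩ := Nat.exists_prime_and_dvd hne
    haveI : Fact r.Prime := ⟨hr⟩
    have hrK : r ∣ Nat.card K := hrd.trans (Subgroup.index_dvd_card H)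
    have hrp : r ≠ p := by
      rintro rfl
      exact hr.one_lt.ne' (Nat.eq_one_of_dvd_coprimes hKcop hrK (dvd_refl r))
    obtain ⟨Q, hQ⟩ := Cfsg.Agent.Lib.Coprime.InvSylow.exists_invariant_sylow hAK hcop hsolvA r
    have hQH : (Q : Subgroup K) ≤ H := by
      intro q hq
      have hT : IsPGroup r ((Q : Subgroup K).map K.subtype : Subgroup G) := Q.isPGroup'.map K.subtype
      have hxT : ∀ u ∈ ((Q : Subgroup K).map K.subtype : Subgroup G),
          x * u * x⁻¹ ∈ ((Q : Subgroup K).map K.subtype : Subgroup G) := by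
        intro u hu
        exact (Subgroup.mem_normalizer_iff.1 (hQ (Subgroup.mem_zpowers x)) u).1 hu
      have h1 := critical_sub hr hp hrp ρ hinj hd hcon hT hx hxT
        (Subgroup.mem_map_of_mem K.subtype hq)
      show (q : G) ∈ Subgroup.centralizer ({x} : Set G)
      rw [Subgroup.mem_centralizer_iff]
      intro h hh
      rw [Set.mem_singleton_iff] at hh
      rw [hh]
      have h2 : x * (q : G) * x⁻¹ = q := h1
      exact (mul_inv_eq_iff_eq_mul.1 h2)
    exact Q.not_dvd_index (hrd.trans (Subgroup.index_dvd_of_le hQH))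
  have hk' : (⟨k, hk⟩ : K) ∈ H := by rw [hHtop]; trivial
  have h3 : k ∈ Subgroup.centralizer ({x} : Set G) := hk'
  rw [Subgroup.mem_centralizer_iff] at h3
  have h4 := h3 x rfl
  rw [h4]
  group

/-- **Hall-Higman type theorem.** -/
theorem sylow_normal_of_small {p : ℕ} (hp : p.Prime) (hsolv : IsPSolvable p G)
    (ρ : Representation ℂ G V) (hinj : Function.Injective ρ) (hd : finrank ℂ V + 1 ≤ p)
    (hcon : ¬ (finrank ℂ V + 1 = p ∧ ∃ k, finrank ℂ V = 2 ^ k)) (P : Sylow p G) :
    (P : Subgroup G).Normal := by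
  classical
  haveI : Fact p.Prime := ⟨hp⟩
  set K := pPrimeCore p G with hK
  haveI hKn : K.Normal := pPrimeCore_normal p G
  have hKcop : (Nat.card K).Coprime p := Cfsg.Agent.Lib.Solvable.PSeries.pPrimeCore_coprime p
  -- `P` is abelian
  have hPab : ∀ a b : (P : Subgroup G), a * b = b * a := by
    apply Cfsg.Agent.Lib.Char.SmallDeg.mul_comm_of_faithful_of_finrank_lt
      (ρ.comp (P : Subgroup G).subtype)
      (Cfsg.Agent.Lib.Char.LinearHall.comp_subtype_injective ρ hinj _)
    intro q hq hqd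
    obtain ⟨m, hm⟩ := IsPGroup.iff_card.1 P.isPGroup'
    rw [hm] at hqd
    have : q = p := (Nat.prime_dvd_prime_iff_eq hq hp).1 (hq.dvd_of_dvd_pow hqd)
    omega
  -- the image of `P` in `G / K`
  let q : G →* G ⧸ K := QuotientGroup.mk' K
  have hq : Function.Surjective q := QuotientGroup.mk'_surjective K
  let Pb : Sylow p (G ⧸ K) := P.mapSurjective hq
  have hPb : (Pb : Subgroup (G ⧸ K)) = (P : Subgroup G).map q := Sylow.coe_mapSurjective hq P
  have hO := Cfsg.Agent.Lib.Basic.PCore.pCore_le_sylow (p := p) Pb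
  have hcent := Cfsg.Agent.Lib.Solvable.PSeries.centralizer_pCore_le
    (Cfsg.Agent.Lib.Solvable.PSeries.isPSolvable_quotient hsolv K)
    (Cfsg.Agent.Lib.Components.PComponent.pPrimeCore_quotient_eq_bot p)
  have hPbO : (Pb : Subgroup (G ⧸ K)) ≤ pCore p (G ⧸ K) := by
    intro y hy
    apply hcent
    rw [Subgroup.mem_centralizer_iff]
    intro w hw
    have hw' := hO hw
    rw [hPb] at hy hw'
    obtain ⟨y', hy', rfl⟩ := hy
    obtain ⟨w', hw'', rfl⟩ := hw'
    rw [← map_mul, ← map_mul]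
    have := hPab ⟨w', hw''⟩ ⟨y', hy'⟩
    rw [show w' * y' = y' * w' from congrArg Subtype.val this]
  have hPbn : (P : Subgroup G).map q = pCore p (G ⧸ K) := by
    rw [← hPb]
    exact le_antisymm hPbO hO
  constructor
  intro y hy g
  set w := g * y * g⁻¹ with hw
  -- `q w` lies in the image of `P`
  have h1 : q w ∈ (P : Subgroup G).map q := by
    rw [hPbn]
    have hn : (pCore p (G ⧸ K)).Normal := pCore_normal p _
    have h2 : q y ∈ pCore p (G ⧸ K) := by
      rw [← hPbn]
      exact Subgroup.mem_map_of_mem q hy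
    have h3 := hn.conj_mem _ h2 (q g)
    rw [hw, map_mul, map_mul, map_inv]
    exact h3
  obtain ⟨y', hy', hyw⟩ := h1
  have hk : y'⁻¹ * w ∈ K := by
    rw [← QuotientGroup.eq_one_iff]
    show q (y'⁻¹ * w) = 1
    rw [map_mul, map_inv, hyw, inv_mul_cancel]
  set k := y'⁻¹ * w with hkdef
  obtain ⟨e, he⟩ := P.isPGroup' ⟨y, hy⟩
  have he' : y ^ (p ^ e) = 1 := congrArg Subtype.val he
  obtain ⟨f, hf⟩ := P.isPGroup' ⟨y', hy'⟩
  have hf' : y' ^ (p ^ f) = 1 := congrArg Subtype.val hf
  have hcomm : y' * k * y'⁻¹ = k := commute_core hp ρ hinj hd hcon hf' hk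
  have hcomm' : Commute y' k := mul_inv_eq_iff_eq_mul.1 hcomm
  have hwpow : w ^ (p ^ e) = 1 := by
    rw [hw, conj_pow, he']
    group
  have hEp : ∀ z : G, z ^ (p ^ e) = 1 → z ^ (p ^ (e + f)) = 1 := by
    intro z hz
    rw [pow_add, pow_mul, hz, one_pow]
  have hFp : ∀ z : G, z ^ (p ^ f) = 1 → z ^ (p ^ (e + f)) = 1 := by
    intro z hz
    rw [add_comm, pow_add, pow_mul, hz, one_pow]
  have hwk : w = y' * k := by rw [hkdef]; group
  have hkpow : k ^ (p ^ (e + f)) = 1 := by
    have h2 := hEp w hwpow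
    rw [hwk, hcomm'.mul_pow, hFp y' hf', one_mul] at h2
    exact h2
  have hkone : k = 1 := by
    have h5 : orderOf k ∣ p ^ (e + f) := orderOf_dvd_of_pow_eq_one hkpow
    have h6 : orderOf k ∣ Nat.card K := by
      have : orderOf (⟨k, hk⟩ : K) ∣ Nat.card K := orderOf_dvd_natCard _
      rwa [Subgroup.orderOf_mk] at this
    exact orderOf_eq_one_iff.1 (Nat.eq_one_of_dvd_coprimes (Nat.Coprime.pow_left _ hKcop.symm) h5 h6)
  rw [hwk, hkone, mul_one]
  exact hy'

/-- A smaller representation of a `p`-soluble group: the Sylow image in the quotient is normal. -/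
theorem comap_isPGroup_of_small {p : ℕ} (hp : p.Prime) (hsolv : IsPSolvable p G)
    {W : Type v} [AddCommGroup W] [Module ℂ W] [FiniteDimensional ℂ W]
    (σ : Representation ℂ G W) (hW : finrank ℂ W + 2 ≤ p) (P : Sylow p G) :
    ∃ E : Subgroup G, E.Normal ∧ (P : Subgroup G) ≤ E ∧
      ∀ w ∈ E, ∃ e : ℕ, σ (w ^ (p ^ e)) = 1 := by
  classical
  haveI : Fact p.Prime := ⟨hp⟩
  let K := repKer σ
  let q : G →* G ⧸ K := QuotientGroup.mk' K
  have hq : Function.Surjective q := QuotientGroup.mk'_surjective K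
  let Pb : Sylow p (G ⧸ K) := P.mapSurjective hq
  have hPb : (Pb : Subgroup (G ⧸ K)) = (P : Subgroup G).map q := Sylow.coe_mapSurjective hq P
  have hn : (Pb : Subgroup (G ⧸ K)).Normal :=
    sylow_normal_of_small hp (Cfsg.Agent.Lib.Solvable.PSeries.isPSolvable_quotient hsolv K)
      (quotRep σ K (fun g hg => (mem_repKer σ g).1 hg))
      (Cfsg.Agent.Lib.Char.LinearHall.quot_injective σ) (by omega) (fun h => by omega) Pb
  refine ⟨(Pb : Subgroup (G ⧸ K)).comap q, Subgroup.Normal.comap hn q, ?_, ?_⟩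
  · intro y hy
    show q y ∈ (Pb : Subgroup (G ⧸ K))
    rw [hPb]
    exact Subgroup.mem_map_of_mem q hy
  · intro w hw
    obtain ⟨e, he⟩ := Pb.isPGroup' ⟨q w, hw⟩
    refine ⟨e, ?_⟩
    have h1 : q (w ^ (p ^ e)) = 1 := by
      rw [map_pow]
      exact congrArg Subtype.val he
    have h2 : w ^ (p ^ e) ∈ K := (QuotientGroup.eq_one_iff _).1 h1
    exact h2

/-- **The reducible case.** -/
theorem isIrreducible_of_small {p : ℕ} (hp : p.Prime) (hsolv : IsPSolvable p G)
    (ρ : Representation ℂ G V) (hinj : Function.Injective ρ) (hd : finrank ℂ V + 1 ≤ p)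
    (P : Sylow p G) (hP : ¬ (P : Subgroup G).Normal) : ρ.IsIrreducible := by
  classical
  haveI : Fact p.Prime := ⟨hp⟩
  have hB : finrank ℂ V + 1 = p ∧ ∃ k, finrank ℂ V = 2 ^ k := by
    by_contra hcon
    exact hP (sylow_normal_of_small hp hsolv ρ hinj hd hcon P)
  have hV0 : 0 < finrank ℂ V := by
    obtain ⟨k, hk⟩ := hB.2
    rw [hk]
    positivity
  have hV : Nontrivial V := Module.nontrivial_of_finrank_pos (R := ℂ) hV0
  by_contra hirr
  obtain ⟨S, hS0, hS1⟩ : ∃ S : Subrepresentation ρ, S ≠ ⊥ ∧ S ≠ ⊤ := by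
    have hnt : Nontrivial (Subrepresentation ρ) := by
      refine ⟨⟨⊥, ⊤, fun h => ?_⟩⟩
      have h2 : (⊥ : Submodule ℂ V) = ⊤ := congrArg Subrepresentation.toSubmodule h
      exact bot_ne_top h2
    by_contra hcon
    push Not at hcon
    apply hirr
    exact { eq_bot_or_eq_top := fun a => by
              by_cases h : a = ⊥
              · exact Or.inl h
              · exact Or.inr (hcon a h) }
  obtain ⟨T, hST⟩ := Cfsg.Agent.Lib.Char.Basic.exists_isCompl ρ S
  have hT0 : T ≠ ⊥ := by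
    rintro rfl
    exact hS1 (by simpa using hST.sup_eq_top)
  have hSs : S.toSubmodule ≠ ⊥ := fun h => hS0 (Subrepresentation.toSubmodule_injective h)
  have hTs : T.toSubmodule ≠ ⊥ := fun h => hT0 (Subrepresentation.toSubmodule_injective h)
  have hc : IsCompl S.toSubmodule T.toSubmodule := by
    constructor
    · rw [disjoint_iff]
      exact congrArg Subrepresentation.toSubmodule hST.inf_eq_bot
    · rw [codisjoint_iff]
      exact congrArg Subrepresentation.toSubmodule hST.sup_eq_top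
  have hdim := Submodule.finrank_add_eq_of_isCompl hc
  have h1 : 1 ≤ finrank ℂ S.toSubmodule := Submodule.one_le_finrank_iff.mpr hSs
  have h2 : 1 ≤ finrank ℂ T.toSubmodule := Submodule.one_le_finrank_iff.mpr hTs
  obtain ⟨E₁, hE₁n, hPE₁, hE₁⟩ := comap_isPGroup_of_small hp hsolv S.toRepresentation (by
    show finrank ℂ S.toSubmodule + 2 ≤ p
    omega) P
  obtain ⟨E₂, hE₂n, hPE₂, hE₂⟩ := comap_isPGroup_of_small hp hsolv T.toRepresentation (by
    show finrank ℂ T.toSubmodule + 2 ≤ p
    omega) P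
  have hker : ∀ g, S.toRepresentation g = 1 → T.toRepresentation g = 1 → g = 1 := by
    intro g hg1 hg2
    apply hinj
    rw [map_one]
    apply LinearMap.ext
    intro v
    have hv : v ∈ S.toSubmodule ⊔ T.toSubmodule := by rw [hc.sup_eq_top]; trivial
    obtain ⟨a, ha, b, hb, rfl⟩ := Submodule.mem_sup.1 hv
    have e1 : ρ g a = a := by
      have := LinearMap.congr_fun hg1 ⟨a, ha⟩
      exact congrArg Subtype.val this
    have e2 : ρ g b = b := by
      have := LinearMap.congr_fun hg2 ⟨b, hb⟩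
      exact congrArg Subtype.val this
    rw [map_add, e1, e2]
    rfl
  have hEp : IsPGroup p (E₁ ⊓ E₂ : Subgroup G) := by
    rintro ⟨w, hw1, hw2⟩
    obtain ⟨e, he⟩ := hE₁ w hw1
    obtain ⟨f, hf⟩ := hE₂ w hw2
    refine ⟨e + f, Subtype.ext ?_⟩
    show w ^ (p ^ (e + f)) = 1
    apply hker
    · rw [pow_add, pow_mul, map_pow, he, one_pow]
    · rw [add_comm, pow_add, pow_mul, map_pow, hf, one_pow]
  have hle : (P : Subgroup G) ≤ E₁ ⊓ E₂ := le_inf hPE₁ hPE₂
  have heq : (P : Subgroup G) = E₁ ⊓ E₂ := (P.is_maximal' hEp hle).symm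
  apply hP
  rw [heq]
  exact Subgroup.normal_inf_normal _ _ 

end Cfsg.Agent.Lib.Char.LinearPS
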