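import Mathlib
import Cfsg.Prelude.Def_Characters
import Cfsg.Agent.Lib.Char.Basic
import Cfsg.Agent.Lib.Char.Ortho
import Cfsg.Agent.Lib.Char.RepEquiv
import Cfsg.Agent.Lib.Char.Commutant

set_option autoImplicit false
set_option linter.unusedSectionVars false

/-!
# Trace of an operator commuting with a representation

For a finite dimensional complex representation `ρ` of a finite group on `V` and an operator `T`
commuting with `ρ`:
`tr_V(T) = ∑ χ, χ(1) * tr(T ∘ - on Hom_G(S_χ, V))` (`trace_eq_sum_irr`), where `S_χ = irrRep χ` is a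
chosen coordinate representation affording `χ`.  Also: `isIntegral_trace_of_aeval_eq_zero`, the
trace of an operator annihilated by a monic integer polynomial is an algebraic integer.
-/

namespace Cfsg.Agent.Lib.Char.TraceFormula

open Cfsg Module Representation Cfsg.Agent.Lib.Char.Basic Cfsg.Agent.Lib.Char.Ortho
  Cfsg.Agent.Lib.Char.Commutant
open scoped TensorProduct

universe u

variable {G : Type u} [Group G]

/-- Dimension of the chosen coordinate representation of an irreducible character. -/
noncomputable def irrDim (χ : IrrCharacter G) : ℕ := χ.2.choose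

/-- A chosen coordinate representation affording an irreducible character. -/
noncomputable def irrRep (χ : IrrCharacter G) : Representation ℂ G (Fin (irrDim χ) → ℂ) :=
  χ.2.choose_spec.choose

theorem irrRep_irr (χ : IrrCharacter G) : (irrRep χ).IsIrreducible :=
  χ.2.choose_spec.choose_spec.1

theorem irrRep_char (χ : IrrCharacter G) : (irrRep χ).character = χ :=
  χ.2.choose_spec.choose_spec.2

theorem irr_one_eq (χ : IrrCharacter G) : (χ : G → ℂ) 1 = irrDim χ := by
  rw [← irrRep_char χ, Representation.char_one]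
  simp

instance instIrrRepIrr (χ : IrrCharacter G) : (irrRep χ).IsIrreducible := irrRep_irr χ

variable {V : Type*} [AddCommGroup V] [Module ℂ V] [FiniteDimensional ℂ V]
  {W : Type*} [AddCommGroup W] [Module ℂ W] [FiniteDimensional ℂ W]

/-- Post-composition by an operator commuting with the representation. -/
noncomputable def postComp (ρ : Representation ℂ G V) (σ : Representation ℂ G W) (T : V →ₗ[ℂ] V)
    (hT : ∀ g, T ∘ₗ ρ g = ρ g ∘ₗ T) : IntertwiningMap σ ρ →ₗ[ℂ] IntertwiningMap σ ρ where
  toFun f := IntertwiningMap.comp (ofCommute ρ T hT) f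
  map_add' f g := by
    ext w
    simp [IntertwiningMap.comp_apply, ofCommute]
  map_smul' c f := by
    ext w
    simp [IntertwiningMap.comp_apply, ofCommute]

@[simp] lemma postComp_apply (ρ : Representation ℂ G V) (σ : Representation ℂ G W) (T : V →ₗ[ℂ] V)
    (hT : ∀ g, T ∘ₗ ρ g = ρ g ∘ₗ T) (f : IntertwiningMap σ ρ) (w : W) :
    postComp ρ σ T hT f w = T (f w) := rfl

/-- Evaluation `Hom_G(S, V) ⊗ S → V`. -/
noncomputable def ev (ρ : Representation ℂ G V) (σ : Representation ℂ G W) :
    IntertwiningMap σ ρ ⊗[ℂ] W →ₗ[ℂ] V :=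
  TensorProduct.lift (IntertwiningMap.toLinearMapl σ ρ)

@[simp] lemma ev_tmul (ρ : Representation ℂ G V) (σ : Representation ℂ G W)
    (f : IntertwiningMap σ ρ) (w : W) : ev ρ σ (f ⊗ₜ w) = f w := by
  simp [ev]

lemma comp_ev (ρ : Representation ℂ G V) (σ : Representation ℂ G W) (T : V →ₗ[ℂ] V)
    (hT : ∀ g, T ∘ₗ ρ g = ρ g ∘ₗ T) :
    T ∘ₗ ev ρ σ = ev ρ σ ∘ₗ TensorProduct.map (postComp ρ σ T hT) LinearMap.id := by
  apply TensorProduct.ext'
  intro f w
  simp

section Integrality

open Polynomial

variable {X : Type*} [AddCommGroup X] [Module ℂ X] [FiniteDimensional ℂ X]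

/-- The trace of an operator annihilated by a monic integer polynomial is an algebraic integer. -/
theorem isIntegral_trace_of_aeval_eq_zero (B : X →ₗ[ℂ] X) (p : ℤ[X]) (hp : p.Monic)
    (h : aeval B p = 0) : IsIntegral ℤ (LinearMap.trace ℂ X B) := by
  rw [Module.End.trace_eq_sum_roots_charpoly_of_splits (IsAlgClosed.splits _)]
  refine IsIntegral.multiset_sum fun μ hμ => ?_
  have hroot : (LinearMap.charpoly B).IsRoot μ := by
    have hne : LinearMap.charpoly B ≠ 0 := (LinearMap.charpoly_monic B).ne_zero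
    exact (Polynomial.mem_roots hne).mp hμ
  have hev : Module.End.HasEigenvalue B μ := (Module.End.hasEigenvalue_iff_isRoot_charpoly B μ).mpr hroot
  obtain ⟨x, hx⟩ := hev.exists_hasEigenvector
  have h1 : aeval B (p.map (algebraMap ℤ ℂ)) = 0 := by
    rw [aeval_map_algebraMap]; exact h
  have h2 := Module.End.aeval_apply_of_hasEigenvector (p := p.map (algebraMap ℤ ℂ)) hx
  rw [h1, LinearMap.zero_apply] at h2
  have h3 : (p.map (algebraMap ℤ ℂ)).eval μ = 0 := by
    have := h2.symm
    rw [smul_eq_zero] at this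
    exact this.resolve_right hx.2
  refine ⟨p, hp, ?_⟩
  rw [← h3, Polynomial.eval_map]

/-- `aeval` of the post-composition operator. -/
lemma aeval_postComp_apply (ρ : Representation ℂ G V) (σ : Representation ℂ G W) (T : V →ₗ[ℂ] V)
    (hT : ∀ g, T ∘ₗ ρ g = ρ g ∘ₗ T) (p : ℤ[X]) (f : IntertwiningMap σ ρ) (w : W) :
    (aeval (postComp ρ σ T hT) p) f w = (aeval T p) (f w) := by
  induction p using Polynomial.induction_on generalizing f with
  | C a =>
    simp only [aeval_C]
    rw [Module.algebraMap_end_apply, Module.algebraMap_end_apply]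
    simp
  | add p q hp hq =>
    simp only [map_add, LinearMap.add_apply]
    rw [← hp, ← hq]
    rfl
  | monomial n a h =>
    have e : (C a * X ^ (n + 1) : ℤ[X]) = (C a * X ^ n) * X := by ring
    rw [e, map_mul (aeval (postComp ρ σ T hT)) (C a * X ^ n) X, aeval_X,
      map_mul (aeval T) (C a * X ^ n) X, aeval_X]
    show (aeval (postComp ρ σ T hT) (C a * X ^ n)) (postComp ρ σ T hT f) w = _
    rw [h]
    rfl

/-- The trace of a post-composition by an operator annihilated by a monic integer polynomial is an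
algebraic integer. -/
theorem isIntegral_trace_postComp (ρ : Representation ℂ G V) (σ : Representation ℂ G W)
    (T : V →ₗ[ℂ] V) (hT : ∀ g, T ∘ₗ ρ g = ρ g ∘ₗ T) (p : ℤ[X]) (hp : p.Monic)
    (h : aeval T p = 0) [FiniteDimensional ℂ (IntertwiningMap σ ρ)] :
    IsIntegral ℤ (LinearMap.trace ℂ (IntertwiningMap σ ρ) (postComp ρ σ T hT)) := by
  refine isIntegral_trace_of_aeval_eq_zero _ p hp ?_
  ext f w
  exact (aeval_postComp_apply ρ σ T hT p f w).trans (by rw [h]; rfl)

end Integrality

variable [Fintype G]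

/-- The total evaluation map. -/
noncomputable def totalEv (ρ : Representation ℂ G V) :
    (Π χ : IrrCharacter G, IntertwiningMap (irrRep χ) ρ ⊗[ℂ] (Fin (irrDim χ) → ℂ)) →ₗ[ℂ] V :=
  ∑ χ, ev ρ (irrRep χ) ∘ₗ LinearMap.proj χ

lemma totalEv_single (ρ : Representation ℂ G V) (χ : IrrCharacter G)
    (x : IntertwiningMap (irrRep χ) ρ ⊗[ℂ] (Fin (irrDim χ) → ℂ)) :
    totalEv ρ (Pi.single χ x) = ev ρ (irrRep χ) x := by
  classical
  simp only [totalEv, LinearMap.sum_apply, LinearMap.comp_apply, LinearMap.proj_apply]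
  rw [Finset.sum_eq_single χ]
  · simp
  · intro b _ hb
    simp [Pi.single_eq_of_ne hb]
  · simp

lemma totalEv_surjective (ρ : Representation ℂ G V) :
    Function.Surjective (totalEv ρ) := by
  classical
  -- the span of all images
  let R₀ : Submodule ℂ V := Submodule.span ℂ
    {v | ∃ (χ : IrrCharacter G) (f : IntertwiningMap (irrRep χ) ρ) (w : Fin (irrDim χ) → ℂ), v = f w}
  have hR₀ : R₀ ≤ LinearMap.range (totalEv ρ) := by
    refine Submodule.span_le.mpr ?_
    rintro _ ⟨χ, f, w, rfl⟩
    exact ⟨Pi.single χ (f ⊗ₜ w), by rw [totalEv_single, ev_tmul]⟩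
  let R : Subrepresentation ρ := ⟨R₀, fun g v hv => by
    induction hv using Submodule.span_induction with
    | mem v hv =>
      obtain ⟨χ, f, w, rfl⟩ := hv
      exact Submodule.subset_span ⟨χ, f, irrRep χ g w,
        (IntertwiningMap.isIntertwining _ _ f g w).symm⟩
    | zero => simp
    | add x y _ _ hx hy =>
      rw [map_add]
      exact R₀.add_mem hx hy
    | smul c x _ hx =>
      rw [map_smul]
      exact R₀.smul_mem c hx⟩
  obtain ⟨C, hC⟩ := exists_isCompl ρ R
  have hCbot : C = ⊥ := by
    by_contra hne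
    have hnt : Nontrivial C.toSubmodule := by
      rw [Submodule.nontrivial_iff_ne_bot]
      intro h
      exact hne (Subrepresentation.toSubmodule_injective h)
    obtain ⟨W', hirr, hW'⟩ := Cfsg.Agent.Lib.Char.RepEquiv.exists_irreducible_subrep C.toRepresentation
    let χ : IrrCharacter G := ⟨W'.toRepresentation.character, isIrrCharacter_of_rep _⟩
    obtain ⟨e⟩ := equiv_of_character_eq_of_irr (irrRep χ) W'.toRepresentation (irrRep_char χ)
    let f : IntertwiningMap (irrRep χ) ρ :=
      ⟨C.toSubmodule.subtype ∘ₗ W'.toSubmodule.subtype ∘ₗ e.toLinearEquiv.toLinearMap, fun g =>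
        LinearMap.ext fun x => by
        have := IntertwiningMap.isIntertwining _ _ e.toIntertwiningMap g x
        simp only [LinearMap.comp_apply, Submodule.subtype_apply]
        exact congrArg (fun y : W'.toSubmodule => ((y : C.toSubmodule) : V)) this⟩
    have hW'nt : Nontrivial W'.toSubmodule := by
      rw [Submodule.nontrivial_iff_ne_bot]
      intro h
      exact hW' (Subrepresentation.toSubmodule_injective h)
    obtain ⟨w, hw⟩ := exists_ne (0 : W'.toSubmodule)
    have hmem : ((w : C.toSubmodule) : V) ∈ (R ⊓ C).toSubmodule := by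
      refine ⟨?_, (w : C.toSubmodule).2⟩
      refine Submodule.subset_span ⟨χ, f, e.toLinearEquiv.symm w, ?_⟩
      have h3 : e.toLinearEquiv (e.toLinearEquiv.symm w) = w := e.toLinearEquiv.apply_symm_apply w
      change ((w : C.toSubmodule) : V) = ((e.toLinearEquiv (e.toLinearEquiv.symm w) : W'.toSubmodule) : C.toSubmodule)
      rw [h3]
    rw [hC.inf_eq_bot] at hmem
    have h0 : ((w : C.toSubmodule) : V) = 0 := hmem
    exact hw (Subtype.ext (Subtype.ext h0))
  have hRtop : R = ⊤ := by simpa [hCbot] using hC.sup_eq_top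
  intro v
  have : v ∈ R₀ := by
    have h1 : v ∈ (⊤ : Subrepresentation ρ).toSubmodule := Submodule.mem_top
    rw [← hRtop] at h1
    exact h1
  exact hR₀ this

lemma finrank_total (ρ : Representation ℂ G V) :
    finrank ℂ (Π χ : IrrCharacter G, IntertwiningMap (irrRep χ) ρ ⊗[ℂ] (Fin (irrDim χ) → ℂ)) =
      finrank ℂ V := by
  classical
  rw [Module.finrank_pi_fintype]
  apply Nat.cast_injective (R := ℂ)
  have h1 : (finrank ℂ V : ℂ) = ρ.character 1 := by simp
  rw [h1, decomp_eq_sum_classInner (isCharacter_of_rep ρ)]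
  push_cast
  rw [Finset.sum_apply]
  refine Finset.sum_congr rfl fun χ _ => ?_
  rw [Module.finrank_tensorProduct, Module.finrank_fin_fun]
  push_cast
  rw [Pi.smul_apply, smul_eq_mul, ← irrRep_char χ, classInner_character_eq_finrank ρ (irrRep χ),
    Representation.char_one]
  simp

lemma totalEv_bijective (ρ : Representation ℂ G V) : Function.Bijective (totalEv ρ) := by
  refine ⟨?_, totalEv_surjective ρ⟩
  exact (LinearMap.injective_iff_surjective_of_finrank_eq_finrank (finrank_total ρ)).mpr
    (totalEv_surjective ρ)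

/-- **The trace formula.** -/
theorem trace_eq_sum_irr (ρ : Representation ℂ G V) (T : V →ₗ[ℂ] V)
    (hT : ∀ g, T ∘ₗ ρ g = ρ g ∘ₗ T) :
    LinearMap.trace ℂ V T = ∑ χ : IrrCharacter G, (χ : G → ℂ) 1 *
      LinearMap.trace ℂ (IntertwiningMap (irrRep χ) ρ) (postComp ρ (irrRep χ) T hT) := by
  classical
  let X := Π χ : IrrCharacter G, IntertwiningMap (irrRep χ) ρ ⊗[ℂ] (Fin (irrDim χ) → ℂ)
  let Dχ : (χ : IrrCharacter G) → (IntertwiningMap (irrRep χ) ρ ⊗[ℂ] (Fin (irrDim χ) → ℂ)) →ₗ[ℂ]
      (IntertwiningMap (irrRep χ) ρ ⊗[ℂ] (Fin (irrDim χ) → ℂ)) :=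
    fun χ => TensorProduct.map (postComp ρ (irrRep χ) T hT) LinearMap.id
  let D : X →ₗ[ℂ] X := ∑ χ, LinearMap.single ℂ _ χ ∘ₗ Dχ χ ∘ₗ LinearMap.proj χ
  have hD : ∀ (x : X) (χ : IrrCharacter G), D x χ = Dχ χ (x χ) := by
    intro x χ
    simp only [D, LinearMap.sum_apply, LinearMap.comp_apply]
    rw [Finset.sum_apply, Finset.sum_eq_single χ]
    · exact Pi.single_eq_same _ _
    · intro b _ hb
      exact Pi.single_eq_of_ne hb.symm _
    · simp
  -- intertwining
  have hcomm : T ∘ₗ totalEv ρ = totalEv ρ ∘ₗ D := by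
    refine LinearMap.ext fun x => ?_
    simp only [LinearMap.comp_apply, totalEv, LinearMap.sum_apply, LinearMap.proj_apply, map_sum]
    refine Finset.sum_congr rfl fun χ _ => ?_
    rw [hD]
    have := LinearMap.congr_fun (comp_ev ρ (irrRep χ) T hT) (x χ)
    simpa using this
  let e : X ≃ₗ[ℂ] V := LinearEquiv.ofBijective (totalEv ρ) (totalEv_bijective ρ)
  have hconj : e.conj D = T := by
    ext v
    obtain ⟨x, rfl⟩ := e.surjective v
    have h1 := LinearMap.congr_fun hcomm x
    simp only [LinearEquiv.conj_apply, LinearMap.comp_apply, LinearEquiv.coe_coe,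
      LinearEquiv.symm_apply_apply]
    exact h1.symm
  have hTr : LinearMap.trace ℂ V T = LinearMap.trace ℂ V (e.conj D) := by rw [hconj]
  rw [hTr, LinearMap.trace_conj']
  simp only [D, map_sum]
  refine Finset.sum_congr rfl fun χ _ => ?_
  rw [LinearMap.trace_comp_comm']
  have hid : (Dχ χ ∘ₗ LinearMap.proj χ) ∘ₗ LinearMap.single ℂ
      (fun χ : IrrCharacter G => IntertwiningMap (irrRep χ) ρ ⊗[ℂ] (Fin (irrDim χ) → ℂ)) χ = Dχ χ := by
    ext x
    simp
  rw [hid]
  simp only [Dχ]
  rw [LinearMap.trace_tensorProduct', LinearMap.trace_id, Module.finrank_fin_fun, irr_one_eq, mul_comm]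

end Cfsg.Agent.Lib.Char.TraceFormula
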