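import Mathlib
import Cfsg.Prelude.Def_Characters
import Cfsg.Prelude.Def_Perm
import Cfsg.Agent.Lib.Char.Basic
import Cfsg.Agent.Lib.Char.Ortho
import Cfsg.Agent.Lib.Char.Values
import Cfsg.Agent.Lib.Char.PermChar
import Cfsg.Agent.Lib.Char.TraceFormula
import Cfsg.Agent.Lib.Char.Burnside2

set_option autoImplicit false
set_option linter.unusedSectionVars false

/-!
# Orbital matrices and the trace formula on the permutation module

* `zOp A` : the operator on `Ω → ℂ` of an integer matrix `A`.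
* `IsInv G A` : the matrix is invariant under the diagonal action.
* `orbMat G a b` : the orbital matrix of the pair `(a, b)`.
* `trace_eq_add_sum` : the trace of an invariant matrix with row sums `d` is
  `d + ∑_{χ ≠ 1} χ(1) tr_χ`, the `tr_χ` being algebraic integers.
-/

namespace Cfsg.Agent.Lib.Char.Orbital

open Cfsg MulAction Module Representation Matrix Polynomial Cfsg.Agent.Lib.Char.Basic
  Cfsg.Agent.Lib.Char.Ortho Cfsg.Agent.Lib.Char.PermChar Cfsg.Agent.Lib.Char.TraceFormula

variable {G : Type*} [Group G] {Ω : Type*} [Fintype Ω] [MulAction G Ω]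

/-- The operator on `Ω → ℂ` of an integer matrix. -/
noncomputable abbrev zOp (A : Matrix Ω Ω ℤ) : (Ω → ℂ) →ₗ[ℂ] (Ω → ℂ) :=
  (A.map (Int.cast : ℤ → ℂ)).mulVecLin

lemma zOp_apply (A : Matrix Ω Ω ℤ) (v : Ω → ℂ) (x : Ω) :
    zOp A v x = ∑ y, (A x y : ℂ) * v y := rfl

lemma zOp_mul (A B : Matrix Ω Ω ℤ) : zOp (A * B) = zOp A ∘ₗ zOp B := by
  rw [← Matrix.mulVecLin_mul]
  have h : (A * B).map (Int.cast : ℤ → ℂ) = A.map Int.cast * B.map Int.cast :=
    Matrix.map_mul (L := A) (M := B) (f := Int.castRingHom ℂ)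
  simp only [zOp, h]

lemma zOp_add (A B : Matrix Ω Ω ℤ) : zOp (A + B) = zOp A + zOp B := by
  refine LinearMap.ext fun v => funext fun x => ?_
  simp only [LinearMap.add_apply, Pi.add_apply, zOp_apply, Matrix.add_apply]
  push_cast
  rw [← Finset.sum_add_distrib]
  exact Finset.sum_congr rfl fun y _ => by ring

lemma zOp_one [DecidableEq Ω] : zOp (1 : Matrix Ω Ω ℤ) = LinearMap.id := by
  refine LinearMap.ext fun v => funext fun x => ?_
  simp [zOp_apply, Matrix.one_apply]

lemma zOp_smul (n : ℤ) (A : Matrix Ω Ω ℤ) : zOp (n • A) = (n : ℂ) • zOp A := by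
  refine LinearMap.ext fun v => funext fun x => ?_
  simp only [zOp_apply, LinearMap.smul_apply, Pi.smul_apply, smul_eq_mul, Matrix.smul_apply,
    Finset.mul_sum]
  refine Finset.sum_congr rfl fun y _ => ?_
  push_cast
  ring

/-- Invariant matrices. -/
def IsInv (G : Type*) [Group G] {Ω : Type*} [MulAction G Ω] (A : Matrix Ω Ω ℤ) : Prop :=
  ∀ (g : G) (x y : Ω), A (g • x) (g • y) = A x y

lemma zOp_comm {A : Matrix Ω Ω ℤ} (hA : IsInv G A) (g : G) :
    zOp A ∘ₗ permRep ℂ G Ω g = permRep ℂ G Ω g ∘ₗ zOp A := by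
  refine LinearMap.ext fun f => funext fun x => ?_
  show zOp A (permRep ℂ G Ω g f) x = zOp A f (g⁻¹ • x)
  rw [zOp_apply, zOp_apply]
  rw [← Equiv.sum_comp (MulAction.toPerm g⁻¹) (fun y => (A (g⁻¹ • x) y : ℂ) * f y)]
  refine Finset.sum_congr rfl fun y _ => ?_
  have h := hA g⁻¹ x y
  simp only [MulAction.toPerm_apply]
  rw [h]
  rfl

lemma IsInv.mul {A B : Matrix Ω Ω ℤ} (hA : IsInv G A) (hB : IsInv G B) : IsInv G (A * B) := by
  intro g x y
  simp only [Matrix.mul_apply]
  rw [← Equiv.sum_comp (MulAction.toPerm g) (fun z => A (g • x) z * B z (g • y))]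
  refine Finset.sum_congr rfl fun z _ => ?_
  simp only [MulAction.toPerm_apply]
  rw [hA, hB]

lemma IsInv.add {A B : Matrix Ω Ω ℤ} (hA : IsInv G A) (hB : IsInv G B) : IsInv G (A + B) := by
  intro g x y
  simp only [Matrix.add_apply]
  rw [hA, hB]

lemma aeval_zOp_charpoly (A : Matrix Ω Ω ℤ) [DecidableEq Ω] : aeval (zOp A) A.charpoly = 0 := by
  let φ : Matrix Ω Ω ℤ →ₐ[ℤ] ((Ω → ℂ) →ₗ[ℂ] (Ω → ℂ)) :=
    ((Matrix.toLinAlgEquiv' (R := ℂ) (n := Ω)).toAlgHom.restrictScalars ℤ).comp
      ((Int.castRingHom ℂ).mapMatrix.toIntAlgHom)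
  have hφ : φ A = zOp A := by
    show Matrix.toLin' (A.map _) = _
    rw [Matrix.toLin'_apply']
    rfl
  rw [← hφ, Polynomial.aeval_algHom_apply, Matrix.aeval_self_charpoly, map_zero]

lemma trace_zOp (A : Matrix Ω Ω ℤ) : LinearMap.trace ℂ (Ω → ℂ) (zOp A) = ∑ x, (A x x : ℂ) := by
  classical
  have h : zOp A = Matrix.toLin' (A.map (Int.cast : ℤ → ℂ)) := (Matrix.toLin'_apply' _).symm
  rw [h, Matrix.trace_toLin'_eq]
  rfl

/-- The orbital matrix of the pair `(a, b)`. -/
noncomputable def orbMat (G : Type*) [Group G] {Ω : Type*} [MulAction G Ω] (a b : Ω) :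
    Matrix Ω Ω ℤ :=
  open Classical in fun x y => if ∃ g : G, g • a = x ∧ g • b = y then 1 else 0

lemma orbMat_eq_one {a b x y : Ω} (h : ∃ g : G, g • a = x ∧ g • b = y) :
    orbMat G a b x y = 1 := by
  classical
  simp only [orbMat]
  rw [if_pos h]

lemma orbMat_eq_zero {a b x y : Ω} (h : ¬ ∃ g : G, g • a = x ∧ g • b = y) :
    orbMat G a b x y = 0 := by
  classical
  simp only [orbMat]
  rw [if_neg h]

lemma orbMat_self (a b : Ω) : orbMat G a b a b = 1 :=
  orbMat_eq_one ⟨1, one_smul _ _, one_smul _ _⟩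

lemma orbMat_inv (a b : Ω) : IsInv G (orbMat G a b) := by
  intro g x y
  by_cases h : ∃ t : G, t • a = x ∧ t • b = y
  · rw [orbMat_eq_one h]
    obtain ⟨t, rfl, rfl⟩ := h
    exact orbMat_eq_one ⟨g * t, mul_smul _ _ _, mul_smul _ _ _⟩
  · rw [orbMat_eq_zero h]
    refine orbMat_eq_zero ?_
    rintro ⟨t, h1, h2⟩
    refine h ⟨g⁻¹ * t, ?_, ?_⟩
    · rw [mul_smul, h1, inv_smul_smul]
    · rw [mul_smul, h2, inv_smul_smul]

lemma orbMat_diag {a b : Ω} (hab : b ≠ a) (x : Ω) : orbMat G a b x x = 0 := by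
  refine orbMat_eq_zero ?_
  rintro ⟨g, h1, h2⟩
  exact hab (MulAction.injective g (h2.trans h1.symm))

/-- The row sum at `a`. -/
lemma orbMat_rowSum_base (a b : Ω) :
    ∑ y, orbMat G a b a y = Nat.card (orbit (stabilizer G a) b) := by
  classical
  have hterm : ∀ y, orbMat G a b a y = if y ∈ orbit (stabilizer G a) b then (1 : ℤ) else 0 := by
    intro y
    by_cases h : y ∈ orbit (stabilizer G a) b
    · rw [if_pos h]
      obtain ⟨⟨g, hg⟩, rfl⟩ := h
      exact orbMat_eq_one ⟨g, mem_stabilizer_iff.mp hg, rfl⟩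
    · rw [if_neg h]
      refine orbMat_eq_zero ?_
      rintro ⟨g, h1, h2⟩
      exact h ⟨⟨g, mem_stabilizer_iff.mpr h1⟩, h2⟩
  simp_rw [hterm]
  rw [Finset.sum_boole]
  congr 1
  symm
  exact Nat.subtype_card _ (by simp)

lemma rowSum_smul {A : Matrix Ω Ω ℤ} (hA : IsInv G A) (g : G) (x : Ω) :
    ∑ y, A (g • x) y = ∑ y, A x y := by
  rw [← Equiv.sum_comp (MulAction.toPerm g) (fun y => A (g • x) y)]
  refine Finset.sum_congr rfl fun y _ => ?_
  simp only [MulAction.toPerm_apply]
  rw [hA]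

/-- The row sums of an orbital matrix of a transitive action are the suborbit length. -/
lemma orbMat_rowSum [IsPretransitive G Ω] (a b x : Ω) :
    ∑ y, orbMat G a b x y = Nat.card (orbit (stabilizer G a) b) := by
  obtain ⟨g, rfl⟩ := exists_smul_eq G a x
  rw [rowSum_smul (orbMat_inv a b), orbMat_rowSum_base]

variable [Fintype G]

/-- The principal character as a member of `IrrCharacter`. -/
def oneChar (G : Type*) [Group G] : IrrCharacter G :=
  ⟨fun _ => 1, Cfsg.Agent.Lib.Char.Burnside2.isIrrCharacter_one⟩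

@[simp] lemma oneChar_apply (g : G) : (oneChar G : G → ℂ) g = 1 := rfl

lemma irrRep_one_apply (g : G) : irrRep (oneChar G) g = LinearMap.id := by
  rw [← Cfsg.Agent.Lib.Char.Values.character_eq_finrank_iff, irrRep_char]
  have h : (oneChar G : G → ℂ) 1 = irrDim (oneChar G) := irr_one_eq _
  simp only [oneChar_apply] at h ⊢
  rw [Module.finrank_fin_fun]
  exact h

/-- An intertwining map from the principal representation has constant values. -/
lemma const_of_principal [IsPretransitive G Ω]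
    (f : IntertwiningMap (irrRep (oneChar G)) (permRep ℂ G Ω)) (w) (x y : Ω) : f w x = f w y := by
  obtain ⟨g, rfl⟩ := exists_smul_eq G y x
  have h1 := IntertwiningMap.isIntertwining _ _ f g⁻¹ w
  rw [irrRep_one_apply] at h1
  have h2 := congrFun h1 y
  simpa [permRep] using h2.symm

/-- The multiplicity space of `χ` in the permutation module has dimension `⟨π, χ⟩`. -/
lemma finrank_eq_classInner (χ : IrrCharacter G) :
    (finrank ℂ (IntertwiningMap (irrRep χ) (permRep ℂ G Ω)) : ℂ) =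
      classInner (permChar G Ω) (χ : G → ℂ) := by
  rw [← classInner_character_eq_finrank, irrRep_char, permChar_eq]

lemma finrank_principal [IsPretransitive G Ω] [Nonempty Ω] :
    finrank ℂ (IntertwiningMap (irrRep (oneChar G)) (permRep ℂ G Ω)) = 1 := by
  have h := finrank_eq_classInner (Ω := Ω) (oneChar G)
  have h2 : classInner (permChar G Ω) ((oneChar G : IrrCharacter G) : G → ℂ) = 1 :=
    classInner_perm_one_of_transitive
  rw [h2] at h
  exact_mod_cast h

/-- The operator of `A` on the multiplicity space of `χ` in the permutation module. -/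
noncomputable abbrev mOp (χ : IrrCharacter G) (A : Matrix Ω Ω ℤ) (hA : IsInv G A) :
    IntertwiningMap (irrRep χ) (permRep ℂ G Ω) →ₗ[ℂ] IntertwiningMap (irrRep χ) (permRep ℂ G Ω) :=
  postComp (permRep ℂ G Ω) (irrRep χ) (zOp A) (zOp_comm hA)

/-- The trace of `A` on a multiplicity space is an algebraic integer. -/
lemma isIntegral_trace_mOp (χ : IrrCharacter G) (A : Matrix Ω Ω ℤ) (hA : IsInv G A) :
    IsIntegral ℤ (LinearMap.trace ℂ _ (mOp χ A hA)) := by
  classical
  exact isIntegral_trace_postComp _ _ _ _ A.charpoly (Matrix.charpoly_monic A) (aeval_zOp_charpoly A)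

/-- Only constituents contribute to the trace formula. -/
lemma trace_mOp_eq_zero (χ : IrrCharacter G) (A : Matrix Ω Ω ℤ) (hA : IsInv G A)
    (h : classInner (permChar G Ω) (χ : G → ℂ) = 0) :
    LinearMap.trace ℂ _ (mOp χ A hA) = 0 := by
  have h1 := finrank_eq_classInner (Ω := Ω) χ
  rw [h] at h1
  have h2 : finrank ℂ (IntertwiningMap (irrRep χ) (permRep ℂ G Ω)) = 0 := by exact_mod_cast h1
  have := finrank_zero_iff.mp h2
  have h3 : mOp χ A hA = 0 := Subsingleton.elim _ _
  rw [h3, map_zero]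

/-- The principal constituent contributes the row sum. -/
lemma trace_mOp_principal [IsPretransitive G Ω] [Nonempty Ω] (A : Matrix Ω Ω ℤ) (hA : IsInv G A)
    (d : ℤ) (hd : ∀ x, ∑ y, A x y = d) :
    LinearMap.trace ℂ _ (mOp (oneChar G) A hA) = d := by
  have h : mOp (oneChar G) A hA = (d : ℂ) • LinearMap.id := by
    refine LinearMap.ext fun f => IntertwiningMap.ext (LinearMap.ext fun w => funext fun x => ?_)
    show zOp A (f w) x = (d : ℂ) * f w x
    rw [zOp_apply, ← hd x]
    push_cast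
    rw [Finset.sum_mul]
    refine Finset.sum_congr rfl fun y _ => ?_
    rw [const_of_principal f w y x]
  rw [h, map_smul, LinearMap.trace_id, finrank_principal, smul_eq_mul]
  simp

/-- The trace formula for an invariant integer matrix on a transitive `G`-set. -/
theorem sum_diag_eq [IsPretransitive G Ω] [Nonempty Ω] (A : Matrix Ω Ω ℤ) (hA : IsInv G A)
    (d : ℤ) (hd : ∀ x, ∑ y, A x y = d) :
    ∑ x, (A x x : ℂ) = d + ∑ χ ∈ Finset.univ.erase (oneChar G), (χ : G → ℂ) 1 *
      LinearMap.trace ℂ _ (mOp χ A hA) := by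
  classical
  rw [← trace_zOp, trace_eq_sum_irr (permRep ℂ G Ω) (zOp A) (zOp_comm hA),
    ← Finset.add_sum_erase _ _ (Finset.mem_univ (oneChar G))]
  congr 1
  rw [trace_mOp_principal A hA d hd]
  simp

end Cfsg.Agent.Lib.Char.Orbital
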