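import Mathlib
import Cfsg.Prelude.Def_Characters
import Cfsg.Prelude.Def_Perm
import Cfsg.Agent.Lib.Char.Orbital
import Cfsg.Agent.Lib.Char.Commutant
import Cfsg.Agent.Lib.Char.Complete
import Cfsg.Agent.Lib.Char.IndNormal

set_option autoImplicit false
set_option linter.unusedSectionVars false

/-!
# Symmetric operators in the commutant of the permutation module

* `span_image_eq_top` : a representation is spanned by the images of the intertwining maps from the
  chosen irreducible representations.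
* `classOp_intertwine`, `classOp_commute` : properties of the class function operators.
* `transpose_classOp` : the transpose of `∑ θ g • ρ g` on the permutation module is
  `∑ θ g⁻¹ • ρ g`.
* `exists_scalar_all` : an operator in the commutant acts as a scalar on the isotypic part of a
  constituent of multiplicity one.
* `eq_sum_classOp` : an operator in the commutant of a multiplicity free representation is a
  combination of the operators `classOp ρ (conj χ)`.
-/

namespace Cfsg.Agent.Lib.Char.PermSym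

open Cfsg MulAction Module Representation Matrix Cfsg.Agent.Lib.Char.Basic
  Cfsg.Agent.Lib.Char.Ortho Cfsg.Agent.Lib.Char.PermChar Cfsg.Agent.Lib.Char.TraceFormula
  Cfsg.Agent.Lib.Char.Orbital Cfsg.Agent.Lib.Char.Commutant Cfsg.Agent.Lib.Char.Complete
open scoped TensorProduct ComplexConjugate

variable {G : Type*} [Group G] [Fintype G]

section General

variable {V : Type*} [AddCommGroup V] [Module ℂ V] [FiniteDimensional ℂ V]
  {W : Type*} [AddCommGroup W] [Module ℂ W] [FiniteDimensional ℂ W]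

/-- A representation is spanned by the images of the intertwining maps from the chosen irreducible
representations. -/
lemma span_image_eq_top (ρ : Representation ℂ G V) :
    Submodule.span ℂ {v | ∃ (χ : IrrCharacter G) (f : IntertwiningMap (irrRep χ) ρ)
      (w : Fin (irrDim χ) → ℂ), v = f w} = ⊤ := by
  rw [eq_top_iff]
  intro v _
  obtain ⟨x, rfl⟩ := totalEv_surjective ρ v
  simp only [totalEv, LinearMap.sum_apply, LinearMap.comp_apply, LinearMap.proj_apply]
  refine Submodule.sum_mem _ fun χ _ => ?_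
  induction x χ using TensorProduct.induction_on with
  | zero => simp
  | tmul f w =>
    rw [ev_tmul]
    exact Submodule.subset_span ⟨χ, f, w, rfl⟩
  | add a b ha hb =>
    rw [map_add]
    exact Submodule.add_mem _ ha hb

lemma classOp_intertwine (ρ : Representation ℂ G V) (σ : Representation ℂ G W)
    (f : IntertwiningMap σ ρ) (θ : G → ℂ) (w : W) :
    classOp ρ θ (f w) = f (classOp σ θ w) := by
  rw [classOp_apply, classOp_apply, map_sum]
  refine Finset.sum_congr rfl fun g _ => ?_
  rw [map_smul, IntertwiningMap.isIntertwining]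

lemma classOp_commute (ρ : Representation ℂ G V) (θ : G → ℂ) (hθ : IsClassFunction G θ) (g : G) :
    classOp ρ θ ∘ₗ ρ g = ρ g ∘ₗ classOp ρ θ :=
  LinearMap.ext fun v => classOp_comm ρ θ hθ g v

/-- An operator commuting with `G` acts as a scalar on the isotypic part of a multiplicity one
constituent. -/
lemma exists_scalar_all (ρ : Representation ℂ G V) (σ : Representation ℂ G W)
    (hone : finrank ℂ (IntertwiningMap σ ρ) = 1) (T : V →ₗ[ℂ] V)
    (hT : ∀ g, T ∘ₗ ρ g = ρ g ∘ₗ T) :
    ∃ c : ℂ, ∀ (f : IntertwiningMap σ ρ) (w : W), T (f w) = c • f w := by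
  obtain ⟨f₀, hf₀⟩ := (finrank_pos_iff_exists_ne_zero (R := ℂ)).mp
    (by omega : 0 < finrank ℂ (IntertwiningMap σ ρ))
  obtain ⟨c, hc⟩ := exists_scalar_comp ρ σ f₀ hf₀ hone T hT
  refine ⟨c, fun f w => ?_⟩
  obtain ⟨k, rfl⟩ := (finrank_eq_one_iff_of_nonzero' f₀ hf₀).mp hone f
  show T (k • f₀ w) = c • (k • f₀ w)
  rw [map_smul, hc, smul_comm]

end General

section Conj

variable {χ : G → ℂ}

lemma isClassFunction_conj (hχ : IsClassFunction G χ) : IsClassFunction G (fun g => conj (χ g)) := by
  intro g h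
  simp only
  rw [hχ g h]

/-- Orthogonality in the bilinear form. -/
lemma sum_conj_mul_eq (χ ψ : G → ℂ) :
    ∑ g, conj (χ g) * ψ g = (Nat.card G : ℂ) * classInner ψ χ := by
  have hG : (Nat.card G : ℂ) ≠ 0 := by exact_mod_cast (Nat.card_pos (α := G)).ne'
  rw [classInner, ← mul_assoc, mul_inv_cancel₀ hG, one_mul]
  exact Finset.sum_congr rfl fun g _ => mul_comm _ _

end Conj

section Perm

variable {Ω : Type*} [Fintype Ω] [MulAction G Ω] [DecidableEq Ω]

lemma perm_single (g : G) (y : Ω) :
    permRep ℂ G Ω g (Pi.single y 1) = Pi.single (g • y) 1 := by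
  funext z
  show (Pi.single y (1 : ℂ) : Ω → ℂ) (g⁻¹ • z) = _
  simp [Pi.single_apply, inv_smul_eq_iff]

/-- The matrix of an operator commuting with the action is invariant. -/
lemma mat_inv (T : (Ω → ℂ) →ₗ[ℂ] (Ω → ℂ)) (hT : ∀ g, T ∘ₗ permRep ℂ G Ω g = permRep ℂ G Ω g ∘ₗ T)
    (g : G) (x y : Ω) : LinearMap.toMatrix' T (g • x) (g • y) = LinearMap.toMatrix' T x y := by
  rw [LinearMap.toMatrix'_apply, LinearMap.toMatrix'_apply, ← perm_single]
  have h := LinearMap.congr_fun (hT g) (Pi.single y 1)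
  simp only [LinearMap.comp_apply] at h
  rw [h]
  show (T _) (g⁻¹ • g • x) = _
  rw [inv_smul_smul]

lemma mat_permRep (g : G) (x y : Ω) :
    LinearMap.toMatrix' (permRep ℂ G Ω g) x y = if g⁻¹ • x = y then 1 else 0 := by
  rw [LinearMap.toMatrix'_apply]
  show (Pi.single y (1 : ℂ) : Ω → ℂ) (g⁻¹ • x) = _
  rw [Pi.single_apply]

lemma mat_classOp (θ : G → ℂ) (x y : Ω) :
    LinearMap.toMatrix' (classOp (permRep ℂ G Ω) θ) x y =
      ∑ g, θ g * if g⁻¹ • x = y then 1 else 0 := by
  rw [classOp, map_sum, Matrix.sum_apply]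
  refine Finset.sum_congr rfl fun g _ => ?_
  rw [map_smul, Matrix.smul_apply, mat_permRep, smul_eq_mul]

/-- The transpose of a class operator. -/
lemma transpose_classOp (θ : G → ℂ) :
    (LinearMap.toMatrix' (classOp (permRep ℂ G Ω) θ))ᵀ =
      LinearMap.toMatrix' (classOp (permRep ℂ G Ω) (fun g => θ g⁻¹)) := by
  ext x y
  rw [Matrix.transpose_apply, mat_classOp, mat_classOp]
  rw [← Equiv.sum_comp (Equiv.inv G) (fun g => θ g⁻¹ * if g⁻¹ • x = y then (1 : ℂ) else 0)]
  refine Finset.sum_congr rfl fun g _ => ?_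
  simp only [Equiv.inv_apply, inv_inv]
  congr 1
  by_cases h : g⁻¹ • y = x
  · rw [if_pos h, if_pos]
    rw [← h, smul_inv_smul]
  · rw [if_neg h, if_neg]
    intro h2
    apply h
    rw [← h2, inv_smul_smul]

/-- If any two points can be interchanged, every operator in the commutant has a symmetric matrix. -/
lemma symm_of_swap (h : ∀ a b : Ω, ∃ g : G, g • a = b ∧ g • b = a)
    (T : (Ω → ℂ) →ₗ[ℂ] (Ω → ℂ)) (hT : ∀ g, T ∘ₗ permRep ℂ G Ω g = permRep ℂ G Ω g ∘ₗ T) :
    (LinearMap.toMatrix' T)ᵀ = LinearMap.toMatrix' T := by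
  ext x y
  obtain ⟨g, h1, h2⟩ := h x y
  rw [Matrix.transpose_apply]
  have := mat_inv T hT g x y
  rwa [h1, h2] at this

/-- If any two points can be interchanged, the commutant is commutative. -/
lemma comm_of_swap (h : ∀ a b : Ω, ∃ g : G, g • a = b ∧ g • b = a)
    (S T : (Ω → ℂ) →ₗ[ℂ] (Ω → ℂ)) (hS : ∀ g, S ∘ₗ permRep ℂ G Ω g = permRep ℂ G Ω g ∘ₗ S)
    (hT : ∀ g, T ∘ₗ permRep ℂ G Ω g = permRep ℂ G Ω g ∘ₗ T) : S ∘ₗ T = T ∘ₗ S := by
  apply LinearMap.toMatrix'.injective
  have h1 := symm_of_swap h S hS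
  have h2 := symm_of_swap h T hT
  have h3 := symm_of_swap h (S ∘ₗ T) (fun g => by
    rw [LinearMap.comp_assoc, hT, ← LinearMap.comp_assoc, hS, LinearMap.comp_assoc])
  rw [LinearMap.toMatrix'_comp] at h3
  rw [LinearMap.toMatrix'_comp, LinearMap.toMatrix'_comp, ← h3, Matrix.transpose_mul, h1, h2]

end Perm

section Decomp

variable {V : Type*} [AddCommGroup V] [Module ℂ V] [FiniteDimensional ℂ V]

/-- The operator `classOp σ (conj ψ)` on the chosen irreducible representation of `χ`. -/
lemma classOp_irrRep_of_ne (χ ψ : IrrCharacter G) (h : χ ≠ ψ) :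
    classOp (irrRep χ) (fun g => conj ((ψ : G → ℂ) g)) = 0 := by
  refine classOp_eq_zero _ _ (isClassFunction_conj (isClassFunction_of_isCharacter
    (isCharacter_of_isIrrCharacter ψ.2))) ?_
  rw [irrRep_char, sum_conj_mul_eq, classInner_irr_of_ne χ.2 ψ.2 (fun e => h (Subtype.ext e)),
    mul_zero]

lemma classOp_irrRep_self (χ : IrrCharacter G) (w : Fin (irrDim χ) → ℂ) :
    classOp (irrRep χ) (fun g => conj ((χ : G → ℂ) g)) w =
      ((Nat.card G : ℂ) / (irrDim χ : ℂ)) • w := by
  have hcl := isClassFunction_conj (isClassFunction_of_isCharacter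
    (isCharacter_of_isIrrCharacter χ.2))
  obtain ⟨c, hc⟩ := exists_scalar (irrRep χ)
    ((classOp (irrRep χ) (fun g => conj ((χ : G → ℂ) g))).intertwiningMap_of_isIntertwiningMap _ _
      (classOp_comm _ _ hcl))
  have hc' : classOp (irrRep χ) (fun g => conj ((χ : G → ℂ) g)) = c • LinearMap.id :=
    LinearMap.ext fun w => hc w
  have htr := trace_classOp (irrRep χ) (fun g => conj ((χ : G → ℂ) g))
  rw [hc', map_smul, LinearMap.trace_id, irrRep_char, sum_conj_mul_eq, classInner_irr_self χ.2,
    mul_one, Module.finrank_fin_fun, smul_eq_mul] at htr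
  have hd : (irrDim χ : ℂ) ≠ 0 := by
    rw [← irr_one_eq]
    exact irr_apply_one_ne_zero χ.2
  rw [hc', LinearMap.smul_apply, LinearMap.id_apply, ← htr]
  congr 1
  field_simp

/-- An operator in the commutant acting as scalars `t χ` on the isotypic parts is a combination of the
class operators. -/
theorem eq_sum_classOp (ρ : Representation ℂ G V) (T : V →ₗ[ℂ] V) (t : IrrCharacter G → ℂ)
    (ht : ∀ (χ : IrrCharacter G) (f : IntertwiningMap (irrRep χ) ρ) (w : Fin (irrDim χ) → ℂ),
      T (f w) = t χ • f w) :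
    T = ∑ χ : IrrCharacter G, (t χ * (irrDim χ : ℂ) / (Nat.card G : ℂ)) •
      classOp ρ (fun g => conj ((χ : G → ℂ) g)) := by
  classical
  refine LinearMap.ext_on (span_image_eq_top ρ) ?_
  rintro _ ⟨ψ, f, w, rfl⟩
  rw [ht, LinearMap.sum_apply]
  simp only [LinearMap.smul_apply, classOp_intertwine ρ (irrRep ψ) f]
  rw [Finset.sum_eq_single ψ]
  · rw [classOp_irrRep_self, map_smul, smul_smul]
    congr 1
    have hG : (Nat.card G : ℂ) ≠ 0 := by exact_mod_cast (Nat.card_pos (α := G)).ne'
    have hd : (irrDim ψ : ℂ) ≠ 0 := by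
      rw [← irr_one_eq]
      exact irr_apply_one_ne_zero ψ.2
    field_simp
  · intro χ _ hχ
    rw [classOp_irrRep_of_ne ψ χ hχ.symm]
    simp
  · simp

end Decomp

end Cfsg.Agent.Lib.Char.PermSym
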