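import Mathlib
import Cfsg.Prelude.Def_Characters
import Cfsg.Prelude.Def_Blocks
import Cfsg.Agent.Lib.Char.Basic
import Cfsg.Agent.Lib.Char.Ortho
import Cfsg.Agent.Lib.Char.SL2Half
import Cfsg.Agent.Lib.Char.GlaubOver
import Cfsg.Agent.Lib.Char.Values
import Cfsg.Agent.Lib.Coprime.KGVAb

/-!
# Split class functions on `H × L`, and the "Weil data" used by the real vector criterion
-/

set_option autoImplicit false
set_option linter.style.haveILetI false
set_option linter.unusedSectionVars false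

namespace Cfsg.Agent.Lib.Char.RVA

open Cfsg Cfsg.Agent.Lib.Char.Basic Cfsg.Agent.Lib.Char.Ortho
open scoped ComplexConjugate

universe u v

section Split

variable {H : Type u} [Group H] {L : Type v} [CommGroup L]

/-- A function on `H × L` which is a sum of products of a character of `H` and a linear character
of `L`. -/
def IsSplit (Ψ : H → L → ℂ) : Prop :=
  ∃ (I : Type) (_ : Fintype I) (γ : I → H → ℂ) (lam : I → L →* ℂˣ),
    (∀ i, IsCharacter H (γ i)) ∧ ∀ c l, Ψ c l = ∑ i, γ i c * ((lam i l : ℂˣ) : ℂ)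

theorem IsSplit.mul {L' : Type*} [CommGroup L'] {Ψ : H → L → ℂ} {Ψ' : H → L' → ℂ} (h : IsSplit Ψ)
    (h' : IsSplit Ψ') : IsSplit (fun c (l : L × L') => Ψ c l.1 * Ψ' c l.2) := by
  obtain ⟨I, hI, γ, lam, hγ, hΨ⟩ := h
  obtain ⟨J, hJ, γ', lam', hγ', hΨ'⟩ := h'
  refine ⟨I × J, inferInstance, fun q c => γ q.1 c * γ' q.2 c,
    fun q => (lam q.1).comp (MonoidHom.fst L L') * (lam' q.2).comp (MonoidHom.snd L L'),
    fun q => isCharacter_mul (hγ q.1) (hγ' q.2), fun c l => ?_⟩
  show Ψ c l.1 * Ψ' c l.2 = _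
  rw [hΨ, hΨ', Finset.sum_mul_sum, Fintype.sum_prod_type]
  refine Finset.sum_congr rfl fun i _ => Finset.sum_congr rfl fun j _ => ?_
  simp only [MonoidHom.mul_apply, MonoidHom.comp_apply, MonoidHom.coe_fst, MonoidHom.coe_snd,
    Units.val_mul]
  ring

theorem IsSplit.const {L : Type*} [CommGroup L] [Finite H] : IsSplit (fun (_ : H) (_ : L) => (1 : ℂ)) := by
  refine ⟨Unit, inferInstance, fun _ _ => 1, fun _ => 1, fun _ => isCharacter_one, fun c l => ?_⟩
  simp

variable [Finite H] [Finite L]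

/-- A character of `H × L` is split. -/
theorem isSplit_of_isCharacter {Φ : H × L → ℂ} (hΦ : IsCharacter (H × L) Φ) :
    IsSplit (fun c l => Φ (c, l)) := by
  refine isCharacter_induction_on_irr
    (P := fun Φ : H × L → ℂ => IsSplit (fun c l => Φ (c, l))) ?_ ?_ ?_ hΦ
  · exact ⟨Empty, inferInstance, fun e => e.elim, fun e => e.elim, fun e => e.elim, fun c l => by simp⟩
  · intro ξ hξ
    obtain ⟨d, hd, hd0, -⟩ := Cfsg.Agent.Lib.Char.GlaubOver.exists_degree_dvd hξ
    have hd1 : ξ 1 ≠ 0 := by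
      rw [hd]
      exact_mod_cast hd0
    have hcen : ∀ (l : L) (g : H × L), g * ((1 : H), l) = ((1 : H), l) * g := by
      rintro l ⟨a, b⟩
      ext
      · simp
      · simp [mul_comm]
    have hcm : ∀ (l : L) (g : H × L), ξ (((1 : H), l) * g) * ξ 1 = ξ ((1 : H), l) * ξ g := by
      intro l g
      exact Cfsg.Agent.Lib.Char.SL2Half.central_mul hξ ((1 : H), l) (fun g => hcen l g) g
    let μ₀ : L →* ℂ :=
      { toFun := fun l => ξ ((1 : H), l) / ξ 1
        map_one' := div_self hd1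
        map_mul' := by
          intro a b
          have h1 := hcm a ((1 : H), b)
          have h2 : ((1 : H), a) * ((1 : H), b) = ((1 : H), a * b) := by simp
          rw [h2] at h1
          field_simp
          linear_combination h1 }
    refine ⟨Unit, inferInstance, fun _ c => ξ (c, 1), fun _ => μ₀.toHomUnits,
      fun _ => ?_, fun c l => ?_⟩
    · exact isCharacter_comp_hom (isCharacter_of_isIrrCharacter hξ) (MonoidHom.inl H L)
    · have h1 := hcm l (c, 1)
      have h2 : ((1 : H), l) * (c, (1 : L)) = (c, l) := by simp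
      rw [h2] at h1
      simp only [Fintype.sum_unique, MonoidHom.coe_toHomUnits]
      show ξ (c, l) = ξ (c, 1) * (ξ ((1 : H), l) / ξ 1)
      field_simp
      linear_combination h1
  · rintro χ ψ - - ⟨I, hI, γ, lam, hγ, hχ⟩ ⟨J, hJ, γ', lam', hγ', hψ⟩
    refine ⟨I ⊕ J, inferInstance, Sum.elim γ γ', Sum.elim lam lam', ?_, fun c l => ?_⟩
    · rintro (i | j)
      · exact hγ i
      · exact hγ' j
    · rw [Fintype.sum_sum_type]
      simp only [Sum.elim_inl, Sum.elim_inr, Pi.add_apply, ← hχ, ← hψ]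

end Split

section Coeff

variable {H : Type u} [Group H] [Fintype H] {L : Type v} [CommGroup L]

/-- The coefficient of a split function, as a function of a power of `l`, is a sum of powers of
roots of unity. -/
theorem IsSplit.coeff {Ψ : H → L → ℂ} (h : IsSplit Ψ) {β : H → ℂ} (hβ : IsCharacter H β) (l : L)
    {N : ℕ} (hN : l ^ N = 1) :
    ∃ (J : Type) (_ : Fintype J) (z : J → ℂ), (∀ j, z j ^ N = 1) ∧
      ∀ k : ℕ, classInner (fun c => Ψ c (l ^ k)) β = ∑ j, z j ^ k := by
  classical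
  obtain ⟨I, hI, γ, lam, hγ, hΨ⟩ := h
  have hn : ∀ i, ∃ n : ℕ, classInner (γ i) β = n := by
    intro i
    obtain ⟨a, ρ, ha⟩ := hγ i
    obtain ⟨b, σ, hb⟩ := hβ
    rw [← ha, ← hb]
    exact ⟨_, classInner_character_eq_finrank ρ σ⟩
  choose n hn using hn
  refine ⟨Σ i, Fin (n i), inferInstance, fun q => ((lam q.1 l : ℂˣ) : ℂ), fun q => ?_, fun k => ?_⟩
  · rw [← Units.val_pow_eq_pow_val, ← map_pow, hN, map_one, Units.val_one]
  · have h1 : (fun c => Ψ c (l ^ k)) = fun c => ∑ i, ((lam i l : ℂˣ) : ℂ) ^ k * γ i c := by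
      funext c
      rw [hΨ]
      refine Finset.sum_congr rfl fun i _ => ?_
      rw [map_pow, Units.val_pow_eq_pow_val, mul_comm]
    rw [h1, Fintype.sum_sigma]
    simp only [Finset.sum_const, Finset.card_univ, Fintype.card_fin, nsmul_eq_mul]
    have h2 : (fun c => ∑ i, ((lam i l : ℂˣ) : ℂ) ^ k * γ i c) =
        fun c => ∑ i, (fun c => ((lam i l : ℂˣ) : ℂ) ^ k * γ i c) c := rfl
    simp only [classInner, Finset.sum_mul, Finset.mul_sum]
    rw [Finset.sum_comm]
    refine Finset.sum_congr rfl fun i _ => ?_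
    rw [← hn i, classInner, mul_assoc, Finset.sum_mul, Finset.mul_sum]
    refine Finset.sum_congr rfl fun c _ => ?_
    ring

end Coeff

section Misc

variable {H : Type u} [Group H] [Finite H] {L : Type v} [CommGroup L]

theorem IsSplit.isIntegral {Ψ : H → L → ℂ} (h : IsSplit Ψ) [Finite L] (c : H) (l : L) :
    IsIntegral ℤ (Ψ c l) := by
  obtain ⟨I, hI, γ, lam, hγ, hΨ⟩ := h
  rw [hΨ]
  refine IsIntegral.sum _ fun i _ => IsIntegral.mul ?_ ?_
  · exact Cfsg.Agent.Lib.Char.Values.IsCharacter.isIntegral (hγ i) c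
  · refine IsIntegral.of_pow (n := orderOf l) (orderOf_pos l) ?_
    rw [← Units.val_pow_eq_pow_val, ← map_pow, pow_orderOf_eq_one, map_one, Units.val_one]
    exact isIntegral_one

theorem IsSplit.conj_eq {Ψ : H → L → ℂ} (h : IsSplit Ψ) [Finite L] (c : H) (l : L) :
    conj (Ψ c l) = Ψ c⁻¹ l⁻¹ := by
  obtain ⟨I, hI, γ, lam, hγ, hΨ⟩ := h
  rw [hΨ, hΨ, map_sum]
  refine Finset.sum_congr rfl fun i _ => ?_
  rw [map_mul, Cfsg.Agent.Lib.Char.Values.IsCharacter.inv (hγ i) c, map_inv, Units.val_inv_eq_inv_val]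
  congr 1
  exact (Complex.inv_eq_conj (Cfsg.Agent.Lib.Coprime.KnorrLattice.norm_hom _ _)).symm

theorem IsSplit.isClass {Ψ : H → L → ℂ} (h : IsSplit Ψ) (l : L) : IsClassFunction H (fun c => Ψ c l) := by
  obtain ⟨I, hI, γ, lam, hγ, hΨ⟩ := h
  intro g x
  simp only [hΨ]
  refine Finset.sum_congr rfl fun i _ => ?_
  rw [isClassFunction_of_isCharacter (hγ i)]

end Misc

end Cfsg.Agent.Lib.Char.RVA
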