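import Mathlib
import Cfsg.Agent.Lib.Char.RVA
import Cfsg.Agent.Lib.Coprime.KGVAb
import Cfsg.Agent.Lib.Coprime.KnorrAbelian
import Cfsg.Agent.Lib.Char.Complete
import Cfsg.Agent.Lib.Char.CompleteCor

/-!
# The `k(GV)` bound from "Weil data" on the stabilizer of a vector
-/

set_option autoImplicit false
set_option linter.style.haveILetI false
set_option linter.unusedSectionVars false

namespace Cfsg.Agent.Lib.Char.RVB

open Cfsg Cfsg.Agent.Lib.Char.RVA Cfsg.Agent.Lib.Char.Basic Cfsg.Agent.Lib.Char.Ortho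
open Cfsg.Agent.Lib.Coprime.KGV
open scoped ComplexConjugate

universe u

/-- Membership in the ideal `M` of the ring of algebraic integers, for a complex number. -/
def InM (M : Ideal AlgInt) (z : ℂ) : Prop := ∃ a : AlgInt, a ∈ M ∧ (a : ℂ) = z

theorem InM.add {M : Ideal AlgInt} {z w : ℂ} (hz : InM M z) (hw : InM M w) : InM M (z + w) := by
  obtain ⟨a, ha, rfl⟩ := hz
  obtain ⟨b, hb, rfl⟩ := hw
  exact ⟨a + b, M.add_mem ha hb, by simp⟩

theorem InM.sub {M : Ideal AlgInt} {z w : ℂ} (hz : InM M z) (hw : InM M w) : InM M (z - w) := by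
  obtain ⟨a, ha, rfl⟩ := hz
  obtain ⟨b, hb, rfl⟩ := hw
  exact ⟨a - b, M.sub_mem ha hb, by simp⟩

theorem InM.zero (M : Ideal AlgInt) : InM M 0 := ⟨0, M.zero_mem, by simp⟩

theorem InM.sum {M : Ideal AlgInt} {ι : Type*} (s : Finset ι) {f : ι → ℂ} (h : ∀ i ∈ s, InM M (f i)) :
    InM M (∑ i ∈ s, f i) := by
  classical
  induction s using Finset.induction_on with
  | empty => simpa using InM.zero M
  | insert a s ha ih =>
    rw [Finset.sum_insert ha]
    exact (h a (Finset.mem_insert_self _ _)).add (ih fun i hi => h i (Finset.mem_insert_of_mem hi))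

theorem InM.mul_int {M : Ideal AlgInt} {z w : ℂ} (hz : InM M z) (hw : IsIntegral ℤ w) : InM M (z * w) := by
  obtain ⟨a, ha, rfl⟩ := hz
  exact ⟨a * ⟨w, hw⟩, M.mul_mem_right _ ha, by simp⟩

theorem InM.int_mul {M : Ideal AlgInt} {z w : ℂ} (hz : InM M z) (hw : IsIntegral ℤ w) : InM M (w * z) := by
  rw [mul_comm]
  exact hz.mul_int hw

/-- An integer in `M` is divisible by `p`. -/
theorem InM.dvd {p : ℕ} {M : Ideal AlgInt} (hM : IsPModular p M) {n : ℕ} (h : InM M (n : ℂ)) : p ∣ n := by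
  by_contra hn
  obtain ⟨a, ha, ha'⟩ := h
  have hcop : Nat.Coprime p n := (Nat.Prime.coprime_iff_not_dvd hM.1).mpr hn
  have h1 : a = (n : AlgInt) := Subtype.ext (by simpa using ha')
  have h2 : (n : AlgInt) ∈ M := h1 ▸ ha
  have h3 := Nat.gcd_eq_gcd_ab p n
  have h4 : ((Nat.gcd p n : ℤ) : AlgInt) = 1 := by
    rw [hcop]
    simp
  rw [h3] at h4
  have h5 : (1 : AlgInt) ∈ M := by
    rw [← h4]
    push_cast
    exact M.add_mem (M.mul_mem_right _ hM.2.2) (M.mul_mem_right _ h2)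
  exact hM.2.1.ne_top ((Ideal.eq_top_iff_one M).mpr h5)

/-- Maximal ideals of the algebraic integers over a prime exist. -/
theorem exists_modular (q : ℕ) (hq : q.Prime) : ∃ M : Ideal AlgInt, IsPModular q M := by
  have hne : Ideal.span {(q : AlgInt)} ≠ ⊤ := by
    intro h
    rw [Ideal.span_singleton_eq_top] at h
    obtain ⟨b, hb⟩ := h.exists_right_inv
    have hb' : (q : ℂ) * (b : ℂ) = 1 := by
      have := congrArg (Subtype.val) hb
      simpa using this
    have hq0 : (q : ℂ) ≠ 0 := by exact_mod_cast hq.ne_zero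
    have hz : ((1 : ℕ) : ℂ) / (q : ℂ) = (b : ℂ) := by
      field_simp
      simpa [mul_comm] using hb'.symm
    have hint : IsIntegral ℤ (((1 : ℕ) : ℂ) / (q : ℂ)) := by
      rw [hz]; exact b.2
    have := Cfsg.Agent.Lib.Char.Integrality.natCast_dvd_of_isIntegral_div hq.ne_zero hint
    exact hq.one_lt.ne' (Nat.dvd_one.mp this)
  obtain ⟨M, hM, hle⟩ := Ideal.exists_le_maximal _ hne
  exact ⟨M, hq, hM, hle (Ideal.mem_span_singleton_self _)⟩

/-- A `p`-power root of unity is congruent to `1`. -/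
theorem inM_root_sub_one {p : ℕ} {M : Ideal AlgInt} (hM : IsPModular p M) {j : ℕ} :
    ∀ {z : ℂ}, z ^ (p ^ j) = 1 → InM M (z - 1) := by
  have hp := hM.1
  haveI : M.IsPrime := hM.2.1.isPrime
  induction j with
  | zero =>
    intro z hz
    rw [pow_zero, pow_one] at hz
    rw [hz, sub_self]
    exact InM.zero M
  | succ j ih =>
    intro z hz
    have hzi : IsIntegral ℤ z := by
      refine IsIntegral.of_pow (n := p ^ (j + 1)) (pow_pos hp.pos _) ?_
      rw [hz]
      exact isIntegral_one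
    have h1 : (z ^ p) ^ (p ^ j) = 1 := by
      rw [← pow_mul, ← pow_succ']
      exact hz
    obtain ⟨b, hb, hb'⟩ := ih h1
    let a : AlgInt := ⟨z, hzi⟩
    obtain ⟨r, hr⟩ := exists_add_pow_prime_eq hp a (-1)
    have h2 : b = a ^ p - 1 := Subtype.ext (by simpa [a] using hb')
    have h3 : (1 : AlgInt) + (-1) ^ p ∈ M := by
      rcases hp.eq_two_or_odd' with h | h
      · subst h
        have := hM.2.2
        norm_num at this ⊢
        exact this
      · rw [h.neg_one_pow]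
        simp
    have h4 : (a + -1) ^ p ∈ M := by
      rw [hr]
      have h5 : a ^ p + (-1) ^ p + (p : AlgInt) * a * (-1) * r =
          (a ^ p - 1) + ((1 : AlgInt) + (-1) ^ p) + (p : AlgInt) * (a * (-1) * r) := by ring
      rw [h5]
      exact M.add_mem (M.add_mem (h2 ▸ hb) h3) (M.mul_mem_right _ hM.2.2)
    have h6 := Ideal.IsPrime.mem_of_pow_mem inferInstance _ h4
    exact ⟨a + -1, h6, by simp [a, sub_eq_add_neg]⟩

/-- The Weil data attached to a weight function `W`. -/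
def HasWeil (p : ℕ) (H : Type u) [Group H] (W : H → ℕ) : Prop :=
  ∃ (L : Type) (_ : CommGroup L) (_ : Finite L) (s : L) (Ψ : H → L → ℂ), IsSplit Ψ ∧
    (∀ c (u : ℕ), u.Coprime (Nat.card L) → ‖Ψ c (s ^ u)‖ ^ 2 = (W c : ℝ)) ∧
    (∀ M : Ideal AlgInt, IsPModular p M → ∀ c, W c ≠ 1 → InM M (Ψ c s))

theorem hasWeil_one (p : ℕ) (H : Type u) [Group H] [Finite H] : HasWeil p H (fun _ => 1) := by
  refine ⟨Unit, inferInstance, inferInstance, (), fun _ _ => 1, IsSplit.const, fun c u _ => by simp,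
    fun M _ c h => absurd rfl h⟩

theorem HasWeil.mul {p : ℕ} {H : Type u} [Group H] [Finite H] {W W' : H → ℕ} (h : HasWeil p H W)
    (h' : HasWeil p H W') : HasWeil p H (fun c => W c * W' c) := by
  obtain ⟨L, iL, fL, s, Ψ, hs, hn, hm⟩ := h
  obtain ⟨L', iL', fL', s', Ψ', hs', hn', hm'⟩ := h'
  refine ⟨L × L', inferInstance, inferInstance, (s, s'), _, hs.mul hs', fun c u hu => ?_, ?_⟩
  · rw [Nat.card_prod] at hu
    have h1 : ((s, s') ^ u : L × L') = (s ^ u, s' ^ u) := by simp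
    simp only [h1]
    rw [norm_mul, mul_pow, hn c u (Nat.Coprime.coprime_dvd_right (Dvd.intro _ rfl) hu),
      hn' c u (Nat.Coprime.coprime_dvd_right (Dvd.intro_left _ rfl) hu)]
    push_cast
    ring
  · intro M hM c hc
    have hiΨ : IsIntegral ℤ (Ψ c s) := hs.isIntegral c s
    have hiΨ' : IsIntegral ℤ (Ψ' c s') := hs'.isIntegral c s'
    by_cases h1 : W c = 1
    · have h2 : W' c ≠ 1 := by
        intro h3
        apply hc
        simp only [h1, h3, one_mul]
      exact (hm' M hM c h2).int_mul hiΨ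
    · exact (hm M hM c h1).mul_int hiΨ'

/-- Parseval for class functions. -/
theorem parseval {H : Type u} [Group H] [Fintype H] [Fintype (IrrCharacter H)] (f : H → ℂ)
    (hf : IsClassFunction H f) :
    ∑ β : IrrCharacter H, ‖classInner f (β : H → ℂ)‖ ^ 2 =
      (Nat.card H : ℝ)⁻¹ * ∑ c, ‖f c‖ ^ 2 := by
  have h1 := Cfsg.Agent.Lib.Char.Complete.eq_sum_classInner f hf
  have h2 : classInner f f = ∑ β : IrrCharacter H, classInner f (β : H → ℂ) * conj (classInner f (β : H → ℂ)) := by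
    have h3 : classInner f f = classInner f (∑ β : IrrCharacter H, classInner f (β : H → ℂ) • (β : H → ℂ)) := by
      rw [← h1]
    rw [h3, Cfsg.Agent.Lib.Char.Virtual.classInner_finset_sum_right]
    refine Finset.sum_congr rfl fun β _ => ?_
    rw [Cfsg.Agent.Lib.Char.Virtual.classInner_smul_right, mul_comm]
  have h4 : classInner f f = ((((Nat.card H : ℝ)⁻¹ * ∑ c, ‖f c‖ ^ 2 : ℝ)) : ℂ) := by
    rw [classInner]
    push_cast
    congr 1
    refine Finset.sum_congr rfl fun c _ => ?_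
    rw [Complex.mul_conj, Complex.normSq_eq_norm_sq]
    push_cast
    rfl
  have h5 : ((∑ β : IrrCharacter H, ‖classInner f (β : H → ℂ)‖ ^ 2 : ℝ) : ℂ) =
      ((((Nat.card H : ℝ)⁻¹ * ∑ c, ‖f c‖ ^ 2 : ℝ)) : ℂ) := by
    rw [← h4, h2]
    push_cast
    refine Finset.sum_congr rfl fun β _ => ?_
    rw [Complex.mul_conj, Complex.normSq_eq_norm_sq]
    push_cast
    rfl
  exact_mod_cast h5

section Main

variable {X : Type u} [Group X] [Finite X]

/-- The order of the centralizer of `c v^k`. -/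
theorem card_centralizer_prod {p : ℕ} [hp : Fact p.Prime] (V : Subgroup X) [hVn : V.Normal]
    (hVp : IsPGroup p V) (hidx : ¬ p ∣ V.index) (hab : ∀ a ∈ V, ∀ b ∈ V, a * b = b * a)
    (G : Subgroup X) (hGV : Subgroup.IsComplement' V G) {v : X} (hv : v ∈ V)
    (c : ↥(G ⊓ Subgroup.centralizer ({v} : Set X))) {k : ℕ} (hk : k.Coprime (Nat.card X)) :
    Nat.card (Subgroup.centralizer ({c.1 * v ^ k} : Set X)) =
      Nat.card ↥(V ⊓ Subgroup.centralizer ({c.1} : Set X)) *
        Nat.card (Subgroup.centralizer ({c} : Set ↥(G ⊓ Subgroup.centralizer ({v} : Set X)))) := by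
  classical
  have hcv : ∀ x, x ∈ Subgroup.centralizer ({v} : Set X) ↔ x * v = v * x := fun x =>
    Subgroup.mem_centralizer_singleton_iff
  have hcc : ∀ x, x ∈ Subgroup.centralizer ({c.1} : Set X) ↔ x * c.1 = c.1 * x := fun x =>
    Subgroup.mem_centralizer_singleton_iff
  have hcvc : Commute c.1 v := (hcv c.1).mp c.2.2
  have hovk : orderOf (v ^ k) ∣ Nat.card V := Subgroup.orderOf_dvd_natCard V (V.pow_mem hv k)
  have hoc : orderOf c.1 ∣ Nat.card G := Subgroup.orderOf_dvd_natCard G c.2.1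
  have hcopVG : (Nat.card V).Coprime (Nat.card G) := by
    obtain ⟨n, hn⟩ := IsPGroup.iff_card.mp hVp
    have h2 : V.index = Nat.card G := hGV.symm.card_left.symm
    rw [hn, ← h2]
    exact Nat.Coprime.pow_left _ ((Nat.Prime.coprime_iff_not_dvd hp.out).mpr hidx)
  have hcop : (orderOf (v ^ k)).Coprime (orderOf c.1) :=
    Nat.Coprime.coprime_dvd_left hovk (Nat.Coprime.coprime_dvd_right hoc hcopVG)
  have hcm : Commute (v ^ k) c.1 := (hcvc.pow_right k).symm
  have hC : Subgroup.centralizer ({c.1 * v ^ k} : Set X) =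
      Subgroup.centralizer ({v} : Set X) ⊓ Subgroup.centralizer ({c.1} : Set X) := by
    rw [← hcm.eq, Cfsg.Agent.Lib.Coprime.KnorrAbelian.centralizer_mul_of_coprime hcm hcop,
      centralizer_pow_eq hk]
  rw [hC]
  have hconj : ∀ {g g' : X}, g ∈ G → g' ∈ G → ∀ w ∈ V, w * g = g' * w → g = g' := by
    intro g g' hg hg' w hw h
    have h1 : g'⁻¹ * w * g = w := by
      calc g'⁻¹ * w * g = g'⁻¹ * (w * g) := by group
        _ = g'⁻¹ * (g' * w) := by rw [h]
        _ = w := by group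
    have h2 : g'⁻¹ * w * g' ∈ V := by
      have := hVn.conj_mem w hw g'⁻¹
      simpa using this
    have h3 : g'⁻¹ * g ∈ V := by
      have h4 : g'⁻¹ * g = (g'⁻¹ * w * g')⁻¹ * w := by
        calc g'⁻¹ * g = g'⁻¹ * w⁻¹ * (w * g) := by group
          _ = g'⁻¹ * w⁻¹ * (g' * w) := by rw [h]
          _ = (g'⁻¹ * w * g')⁻¹ * w := by group
      rw [h4]
      exact V.mul_mem (V.inv_mem h2) hw
    have h5 : g'⁻¹ * g ∈ G := G.mul_mem (G.inv_mem hg') hg
    have h6 := Subgroup.disjoint_def.mp hGV.disjoint h3 h5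
    have : g = g' * (g'⁻¹ * g) := by group
    rw [this, h6, mul_one]
  let f : ↥(V ⊓ Subgroup.centralizer ({c.1} : Set X)) ×
      (Subgroup.centralizer ({c} : Set ↥(G ⊓ Subgroup.centralizer ({v} : Set X)))) →
      ↥(Subgroup.centralizer ({v} : Set X) ⊓ Subgroup.centralizer ({c.1} : Set X)) :=
    fun q => ⟨q.1.1 * q.2.1.1, by
      have h1 : q.1.1 * v = v * q.1.1 := hab _ q.1.2.1 _ hv
      have h2 : q.2.1.1 * v = v * q.2.1.1 := (hcv _).mp q.2.1.2.2
      have h3 : q.1.1 * c.1 = c.1 * q.1.1 := (hcc _).mp q.1.2.2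
      have h4 : q.2.1.1 * c.1 = c.1 * q.2.1.1 := by
        have h5 := Subgroup.mem_centralizer_singleton_iff.mp q.2.2
        exact congrArg Subtype.val h5
      refine ⟨(hcv _).mpr ?_, (hcc _).mpr ?_⟩
      · exact (Commute.mul_left (a := q.1.1) (b := q.2.1.1) (c := v) h1 h2).eq
      · exact (Commute.mul_left (a := q.1.1) (b := q.2.1.1) (c := c.1) h3 h4).eq⟩
  have hf : Function.Bijective f := by
    constructor
    · rintro ⟨a, b⟩ ⟨a', b'⟩ h
      have h1 : a.1 * b.1.1 = a'.1 * b'.1.1 := congrArg Subtype.val h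
      have h2 := hGV.1 (a₁ := (⟨a.1, a.2.1⟩, ⟨b.1.1, b.1.2.1⟩))
        (a₂ := (⟨a'.1, a'.2.1⟩, ⟨b'.1.1, b'.1.2.1⟩)) h1
      have h3 : a = a' := Subtype.ext (congrArg (fun q => (q.1 : X)) h2)
      have h4 : b = b' := Subtype.ext (Subtype.ext (congrArg (fun q => (q.2 : X)) h2))
      rw [h3, h4]
    · rintro ⟨x, hx1, hx2⟩
      obtain ⟨⟨w, g⟩, hwg⟩ := hGV.2 x
      have hwg' : w.1 * g.1 = x := hwg
      have hxv : x * v = v * x := (hcv _).mp hx1
      have hxc : x * c.1 = c.1 * x := (hcc _).mp hx2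
      have hwv : w.1 * v = v * w.1 := hab _ w.2 _ hv
      have hgv : g.1 * v = v * g.1 := by
        rw [← hwg'] at hxv
        have h1 : w.1 * (g.1 * v) = w.1 * (v * g.1) := by
          calc w.1 * (g.1 * v) = w.1 * g.1 * v := by group
            _ = v * (w.1 * g.1) := hxv
            _ = (v * w.1) * g.1 := by group
            _ = (w.1 * v) * g.1 := by rw [hwv]
            _ = w.1 * (v * g.1) := by group
        exact mul_left_cancel h1
      have hgH : g.1 ∈ G ⊓ Subgroup.centralizer ({v} : Set X) := ⟨g.2, (hcv _).mpr hgv⟩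
      -- the action on c
      have hconj' : g.1 * c.1 * g.1⁻¹ = c.1 := by
        have h1 : w.1 * (g.1 * c.1 * g.1⁻¹) = c.1 * w.1 := by
          rw [← hwg'] at hxc
          calc w.1 * (g.1 * c.1 * g.1⁻¹) = (w.1 * g.1 * c.1) * g.1⁻¹ := by group
            _ = (c.1 * (w.1 * g.1)) * g.1⁻¹ := by rw [hxc]
            _ = c.1 * w.1 := by group
        exact hconj (g := g.1 * c.1 * g.1⁻¹) (g' := c.1)
          (G.mul_mem (G.mul_mem g.2 c.2.1) (G.inv_mem g.2)) c.2.1 w.1 w.2 h1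
      have hgc : g.1 * c.1 = c.1 * g.1 := by
        calc g.1 * c.1 = (g.1 * c.1 * g.1⁻¹) * g.1 := by group
          _ = c.1 * g.1 := by rw [hconj']
      have hwc : w.1 * c.1 = c.1 * w.1 := by
        rw [← hwg'] at hxc
        have h1 : (w.1 * c.1) * g.1 = (c.1 * w.1) * g.1 := by
          calc (w.1 * c.1) * g.1 = w.1 * (c.1 * g.1) := by group
            _ = w.1 * (g.1 * c.1) := by rw [hgc]
            _ = w.1 * g.1 * c.1 := by group
            _ = c.1 * (w.1 * g.1) := hxc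
            _ = (c.1 * w.1) * g.1 := by group
        exact mul_right_cancel h1
      refine ⟨(⟨w.1, w.2, (hcc _).mpr hwc⟩, ⟨⟨g.1, hgH⟩, ?_⟩), Subtype.ext hwg'⟩
      exact Subgroup.mem_centralizer_singleton_iff.mpr (Subtype.ext hgc)
  rw [← Nat.card_prod]
  exact (Nat.card_congr (Equiv.ofBijective f hf)).symm

/-- The stabilizer of `v` in `G`. -/
abbrev StabG (G : Subgroup X) (v : X) : Subgroup X := G ⊓ Subgroup.centralizer ({v} : Set X)

theorem sum_norm_irr {H : Type*} [Group H] [Fintype H] {β : H → ℂ} (hβ : IsIrrCharacter H β) :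
    ∑ c, ‖β c‖ ^ 2 = (Nat.card H : ℝ) := by
  have h1 := classInner_irr_self hβ
  have h2 : (Nat.card H : ℂ) ≠ 0 := by exact_mod_cast Nat.card_pos.ne'
  rw [classInner, inv_mul_eq_div, div_eq_one_iff_eq h2] at h1
  have h3 : ((∑ c, ‖β c‖ ^ 2 : ℝ) : ℂ) = ((Nat.card H : ℝ) : ℂ) := by
    push_cast
    rw [← h1]
    refine Finset.sum_congr rfl fun c _ => ?_
    rw [Complex.mul_conj, Complex.normSq_eq_norm_sq]
    push_cast
    rfl
  exact_mod_cast h3

/-- Nonvanishing of the coefficient. -/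
theorem coeff_ne_zero {p : ℕ} [hp : Fact p.Prime] (V : Subgroup X) [hVn : V.Normal]
    (hVp : IsPGroup p V) (hidx : ¬ p ∣ V.index) (hab : ∀ a ∈ V, ∀ b ∈ V, a * b = b * a)
    (G : Subgroup X) (hGV : Subgroup.IsComplement' V G) {v : X} (hv : v ∈ V)
    [Fintype (StabG G v)] {L : Type} [CommGroup L] [Finite L] (s : L) {Ψ : StabG G v → L → ℂ}
    (hsplit : IsSplit Ψ) (h1 : ‖Ψ 1 s‖ ^ 2 = 1)
    (hmod : ∀ M : Ideal AlgInt, IsPModular p M → ∀ c, c ≠ 1 → InM M (Ψ c s))
    (τ : IrrCharacter X) (β : IrrCharacter (StabG G v)) :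
    classInner (fun c : StabG G v => Ψ c s * τ.1 (c.1 * v)) β.1 ≠ 0 := by
  classical
  obtain ⟨M, hM⟩ := exists_modular p hp.out
  intro h0
  have hτc := isCharacter_of_isIrrCharacter τ.2
  have hβc := isCharacter_of_isIrrCharacter β.2
  have hcard : (Nat.card (StabG G v) : ℂ)⁻¹ ≠ 0 :=
    inv_ne_zero (by exact_mod_cast Nat.card_pos.ne')
  rw [classInner] at h0
  have h2 := (mul_eq_zero.mp h0).resolve_left hcard
  rw [← Finset.add_sum_erase _ _ (Finset.mem_univ (1 : StabG G v))] at h2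
  have hconjI : ∀ c, IsIntegral ℤ (conj (β.1 c)) := by
    intro c
    rw [← Cfsg.Agent.Lib.Char.Values.IsCharacter.inv hβc]
    exact Cfsg.Agent.Lib.Char.Values.IsCharacter.isIntegral hβc _
  have hτI : ∀ x, IsIntegral ℤ (τ.1 x) := fun x => Cfsg.Agent.Lib.Char.Values.IsCharacter.isIntegral hτc x
  have h3 : InM M (∑ c ∈ Finset.univ.erase (1 : StabG G v), Ψ c s * τ.1 (c.1 * v) * conj (β.1 c)) := by
    refine InM.sum _ fun c hc => ?_
    exact ((hmod M hM c (Finset.ne_of_mem_erase hc)).mul_int (hτI _)).mul_int (hconjI c)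
  have h4 : InM M (Ψ 1 s * τ.1 (((1 : StabG G v) : X) * v) * conj (β.1 1)) := by
    rw [eq_neg_of_add_eq_zero_left h2]
    obtain ⟨a, ha, ha'⟩ := h3
    exact ⟨-a, M.neg_mem ha, by simp [ha']⟩
  have hvone : ((1 : StabG G v) : X) * v = v := by simp
  rw [hvone] at h4
  obtain ⟨d, hd, hd0, hddvd⟩ := Cfsg.Agent.Lib.Char.GlaubOver.exists_degree_dvd β.2
  have hconj1 : conj (β.1 1) = d := by rw [hd, Complex.conj_natCast]
  rw [hconj1] at h4
  -- cancel the unit
  have hunit : conj (Ψ 1 s) * Ψ 1 s = 1 := by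
    rw [mul_comm, Complex.mul_conj, Complex.normSq_eq_norm_sq, h1]
    simp
  have h5 : InM M (τ.1 v * d) := by
    have h6 := h4.int_mul (w := conj (Ψ 1 s)) (by
      rw [hsplit.conj_eq]
      exact hsplit.isIntegral _ _)
    have h7 : conj (Ψ 1 s) * (Ψ 1 s * τ.1 v * d) = τ.1 v * d := by
      rw [← mul_assoc, ← mul_assoc, hunit, one_mul]
    rwa [h7] at h6
  -- the value at a `p`-element
  obtain ⟨k, hk⟩ := hVp ⟨v, hv⟩
  have hk' : v ^ p ^ k = 1 := by simpa [Subtype.ext_iff] using hk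
  obtain ⟨e, μ, he, hμ, hτv⟩ := Cfsg.Agent.Lib.Char.Values.IsCharacter.exists_roots hτc v
  have h8 : InM M (τ.1 v - e) := by
    have h9 : τ.1 v - e = ∑ i, (μ i - 1) := by
      rw [hτv, Finset.sum_sub_distrib]
      simp
    rw [h9]
    refine InM.sum _ fun i _ => inM_root_sub_one hM (j := k) ?_
    obtain ⟨t, ht⟩ := orderOf_dvd_of_pow_eq_one hk'
    rw [ht, pow_mul, hμ, one_pow]
  have h10 : InM M (((e * d : ℕ) : ℂ)) := by
    have h11 := h5.sub (h8.mul_int (w := (d : ℂ)) (isIntegral_natCast d))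
    have h12 : τ.1 v * d - (τ.1 v - e) * d = ((e * d : ℕ) : ℂ) := by
      push_cast
      ring
    rwa [h12] at h11
  have h13 := InM.dvd hM h10
  rcases (Nat.Prime.dvd_mul hp.out).mp h13 with h14 | h14
  · obtain ⟨e', he', hdvd⟩ := exists_degree_dvd_index V hab τ.2
    have h15 : e = e' := by
      have : (e : ℂ) = e' := by rw [← he, he']
      exact_mod_cast this
    exact hidx (h14.trans (h15 ▸ hdvd))
  · apply hidx
    have h16 : V.index = Nat.card G := hGV.symm.card_left.symm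
    rw [h16]
    exact h14.trans (hddvd.trans (Subgroup.card_dvd_of_le inf_le_left))

/-- **The real vector bound.** -/
theorem kgv_of_hasWeil {p : ℕ} [hp : Fact p.Prime] (V : Subgroup X) [hVn : V.Normal]
    (hVp : IsPGroup p V) (hidx : ¬ p ∣ V.index) (hab : ∀ a ∈ V, ∀ b ∈ V, a * b = b * a)
    (G : Subgroup X) (hGV : Subgroup.IsComplement' V G) {v : X} (hv : v ∈ V)
    (W : StabG G v → ℕ) (hW : HasWeil p (StabG G v) W) (hW1 : W 1 = 1)
    (hne : ∀ c, c ≠ 1 → W c ≠ 1)
    (hle : ∀ c : StabG G v, W c * Nat.card ↥(V ⊓ Subgroup.centralizer ({c.1} : Set X)) ≤ Nat.card V) :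
    Nat.card (ConjClasses X) ≤ Nat.card V := by
  classical
  letI := Fintype.ofFinite X
  letI : Fintype (StabG G v) := Fintype.ofFinite _
  letI : Fintype (IrrCharacter X) := Fintype.ofFinite _
  letI : Fintype (IrrCharacter (StabG G v)) := Fintype.ofFinite _
  obtain ⟨L, iL, fL, s, Ψ, hsplit, hnorm, hmod⟩ := hW
  set N : ℕ := 2 * Nat.card X * Nat.card L with hN
  have hNpos : 0 < N := by
    have h1 : 0 < Nat.card X := Nat.card_pos
    have h2 : 0 < Nat.card L := Nat.card_pos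
    positivity
  haveI hNz : NeZero N := ⟨hNpos.ne'⟩
  haveI hN1 : Fact (1 < N) := ⟨by
    have h1 : 0 < Nat.card X := Nat.card_pos
    have h2 : 0 < Nat.card L := Nat.card_pos
    have h3 : 0 < Nat.card X * Nat.card L := Nat.mul_pos h1 h2
    rw [hN, mul_assoc]
    omega⟩
  have hsn : s ^ N = 1 := by
    rw [hN, mul_comm, pow_mul]
    simp [pow_card_eq_one']
  have hvn : v ^ N = 1 := by
    have h1 : N = Nat.card X * (2 * Nat.card L) := by rw [hN]; ring
    rw [h1, pow_mul]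
    simp [pow_card_eq_one']
  -- the cyclic group
  letI instZ : CommGroup (Subgroup.zpowers v) :=
    { (inferInstance : Group (Subgroup.zpowers v)) with
      mul_comm := by
        rintro ⟨a, ha⟩ ⟨b, hb⟩
        obtain ⟨i, rfl⟩ := Subgroup.mem_zpowers_iff.mp ha
        obtain ⟨j, rfl⟩ := Subgroup.mem_zpowers_iff.mp hb
        apply Subtype.ext
        exact ((Commute.refl v).zpow_zpow i j).eq }
  have hcv : ∀ c : StabG G v, Commute c.1 v := fun c =>
    Subgroup.mem_centralizer_singleton_iff.mp c.2.2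
  have hcommΓ : ∀ (m : StabG G v) (n : Subgroup.zpowers v),
      Commute ((StabG G v).subtype m) ((Subgroup.zpowers v).subtype n) := by
    rintro m ⟨n, hn⟩
    obtain ⟨j, rfl⟩ := Subgroup.mem_zpowers_iff.mp hn
    exact (hcv m).zpow_right j
  let φ : StabG G v × (Subgroup.zpowers v) →* X :=
    MonoidHom.noncommCoprod (StabG G v).subtype (Subgroup.zpowers v).subtype hcommΓ
  have hφ : ∀ (m : StabG G v) (n : Subgroup.zpowers v), φ (m, n) = m.1 * n.1 := fun m n => rfl
  let v₀ : Subgroup.zpowers v := ⟨v, Subgroup.mem_zpowers v⟩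
  -- the coefficients
  let A : IrrCharacter X → IrrCharacter (StabG G v) → ℕ → ℂ := fun τ β k =>
    classInner (fun c : StabG G v => Ψ c (s ^ k) * τ.1 (c.1 * v ^ k)) β.1
  have hA : ∀ τ β, ∃ (J : Type) (_ : Fintype J) (z : J → ℂ), (∀ j, z j ^ N = 1) ∧
      ∀ k : ℕ, A τ β k = ∑ j, z j ^ k := by
    intro τ β
    have hΦ := hsplit.mul (isSplit_of_isCharacter
      (isCharacter_comp_hom (isCharacter_of_isIrrCharacter τ.2) φ))
    obtain ⟨J, hJ, z, hz, hzk⟩ := hΦ.coeff (isCharacter_of_isIrrCharacter β.2) (s, v₀)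
      (N := N) (by
        ext
        · simpa using hsn
        · show v ^ N = 1
          exact hvn)
    refine ⟨J, hJ, z, hz, fun k => ?_⟩
    rw [← hzk k]
    simp only [A]
    congr 1
  have hone : ‖Ψ 1 s‖ ^ 2 = 1 := by
    have h1 := hnorm 1 1 (Nat.coprime_one_left _)
    rw [pow_one, hW1] at h1
    simpa using h1
  have hA1 : ∀ τ β, A τ β 1 ≠ 0 := by
    intro τ β
    have h1 := coeff_ne_zero V hVp hidx hab G hGV hv s hsplit hone
      (fun M hM c hc => hmod M hM c (hne c hc)) τ β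
    simpa [A] using h1
  have hB : ∀ τ β, (Fintype.card (ZMod N)ˣ : ℝ) ≤ ∑ u : (ZMod N)ˣ, ‖A τ β (u : ZMod N).val‖ ^ 2 := by
    intro τ β
    obtain ⟨J, hJ, z, hz, hzk⟩ := hA τ β
    simp_rw [hzk]
    refine Cfsg.Agent.Lib.Coprime.KnorrLattice.card_le_sum_norm_sq hz (u₀ := 1) ?_
    have h1 := hA1 τ β
    rw [hzk] at h1
    simpa [ZMod.val_one] using h1
  have hcopL : ∀ k : ℕ, k.Coprime N → k.Coprime (Nat.card L) := fun k hk =>
    Nat.Coprime.coprime_dvd_right (Dvd.intro_left _ rfl) hk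
  have hcopX : ∀ k : ℕ, k.Coprime N → k.Coprime (Nat.card X) := fun k hk =>
    Nat.Coprime.coprime_dvd_right ⟨2 * Nat.card L, by rw [hN]; ring⟩ hk
  have hHpos : (0 : ℝ) < Nat.card (StabG G v) := by exact_mod_cast Nat.card_pos
  -- Parseval
  have hP : ∀ (τ : IrrCharacter X) (k : ℕ), k.Coprime N →
      ∑ β : IrrCharacter (StabG G v), ‖A τ β k‖ ^ 2 =
        (Nat.card (StabG G v) : ℝ)⁻¹ * ∑ c : StabG G v, (W c : ℝ) * ‖τ.1 (c.1 * v ^ k)‖ ^ 2 := by
    intro τ k hk
    have hclass : IsClassFunction (StabG G v) (fun c : StabG G v => Ψ c (s ^ k) * τ.1 (c.1 * v ^ k)) := by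
      intro c g
      have h1 := hsplit.isClass (s ^ k) c g
      have h2 : ((g * c * g⁻¹ : StabG G v) : X) * v ^ k = g.1 * (c.1 * v ^ k) * g.1⁻¹ := by
        have h3 : g.1 * v ^ k = v ^ k * g.1 := ((hcv g).pow_right k).eq
        have h4 : v ^ k = g.1 * v ^ k * g.1⁻¹ := by rw [h3]; group
        simp only [Subgroup.coe_mul, Subgroup.coe_inv]
        nth_rewrite 1 [h4]
        group
      have h5 := isClassFunction_of_isCharacter (isCharacter_of_isIrrCharacter τ.2) (c.1 * v ^ k) g.1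
      simp only at h1 ⊢
      rw [h1, h2, h5]
    have h1 := parseval _ hclass
    simp only [A]
    rw [h1]
    congr 1
    refine Finset.sum_congr rfl fun c _ => ?_
    rw [norm_mul, mul_pow, hnorm c k (hcopL k hk)]
  set φN : ℝ := (Fintype.card (ZMod N)ˣ : ℝ) with hφN
  have hφpos : 0 < φN := by
    rw [hφN]
    exact_mod_cast Fintype.card_pos
  set kH : ℝ := (Fintype.card (IrrCharacter (StabG G v)) : ℝ) with hkH
  have hkHpos : 0 < kH := by
    rw [hkH]
    have h1 : 0 < Fintype.card (IrrCharacter (StabG G v)) := by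
      rw [← Nat.card_eq_fintype_card, Cfsg.Agent.Lib.Char.CompleteCor.card_irr_eq_card_conjClasses]
      exact Nat.card_pos
    exact_mod_cast h1
  have hτ : ∀ τ : IrrCharacter X, kH * φN ≤ ∑ u : (ZMod N)ˣ,
      (Nat.card (StabG G v) : ℝ)⁻¹ * ∑ c : StabG G v, (W c : ℝ) * ‖τ.1 (c.1 * v ^ (u : ZMod N).val)‖ ^ 2 := by
    intro τ
    calc kH * φN = ∑ _β : IrrCharacter (StabG G v), φN := by
          rw [Finset.sum_const, Finset.card_univ, nsmul_eq_mul]
      _ ≤ ∑ β : IrrCharacter (StabG G v), ∑ u : (ZMod N)ˣ, ‖A τ β (u : ZMod N).val‖ ^ 2 :=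
          Finset.sum_le_sum fun β _ => hB τ β
      _ = ∑ u : (ZMod N)ˣ, ∑ β : IrrCharacter (StabG G v), ‖A τ β (u : ZMod N).val‖ ^ 2 :=
          Finset.sum_comm
      _ = _ := Finset.sum_congr rfl fun u _ => hP τ _ (ZMod.val_coe_unit_coprime u)
  -- the sum of the centralizer orders
  have hCH : ∑ c : StabG G v, (Nat.card (Subgroup.centralizer ({c} : Set (StabG G v))) : ℝ) =
      (Nat.card (StabG G v) : ℝ) * kH := by
    have h1 : ∀ c : StabG G v, (Nat.card (Subgroup.centralizer ({c} : Set (StabG G v))) : ℝ) =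
        ∑ β : IrrCharacter (StabG G v), ‖β.1 c‖ ^ 2 := fun c => (sum_norm_sq c).symm
    simp_rw [h1]
    rw [Finset.sum_comm]
    have h2 : ∀ β : IrrCharacter (StabG G v), ∑ c, ‖β.1 c‖ ^ 2 = (Nat.card (StabG G v) : ℝ) :=
      fun β => sum_norm_irr β.2
    simp_rw [h2]
    rw [Finset.sum_const, Finset.card_univ, nsmul_eq_mul, hkH]
    ring
  have hcent : ∀ (u : (ZMod N)ˣ) (c : StabG G v),
      ∑ τ : IrrCharacter X, (W c : ℝ) * ‖τ.1 (c.1 * v ^ (u : ZMod N).val)‖ ^ 2 ≤
        (Nat.card V : ℝ) * (Nat.card (Subgroup.centralizer ({c} : Set (StabG G v))) : ℝ) := by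
    intro u c
    rw [← Finset.mul_sum, sum_norm_sq, card_centralizer_prod V hVp hidx hab G hGV hv c
      (hcopX _ (ZMod.val_coe_unit_coprime u))]
    push_cast
    rw [← mul_assoc]
    have h1 := hle c
    have h2 : ((W c : ℝ) * (Nat.card ↥(V ⊓ Subgroup.centralizer ({c.1} : Set X)) : ℝ)) ≤ (Nat.card V : ℝ) := by
      exact_mod_cast h1
    exact mul_le_mul_of_nonneg_right h2 (by positivity)
  set kX : ℝ := (Fintype.card (IrrCharacter X) : ℝ) with hkX
  have htotal : kX * (kH * φN) ≤ φN * ((Nat.card V : ℝ) * kH) := by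
    calc kX * (kH * φN) = ∑ _τ : IrrCharacter X, kH * φN := by
          rw [Finset.sum_const, Finset.card_univ, nsmul_eq_mul]
      _ ≤ ∑ τ : IrrCharacter X, ∑ u : (ZMod N)ˣ, (Nat.card (StabG G v) : ℝ)⁻¹ *
            ∑ c : StabG G v, (W c : ℝ) * ‖τ.1 (c.1 * v ^ (u : ZMod N).val)‖ ^ 2 :=
          Finset.sum_le_sum fun τ _ => hτ τ
      _ = ∑ u : (ZMod N)ˣ, (Nat.card (StabG G v) : ℝ)⁻¹ *
            ∑ c : StabG G v, ∑ τ : IrrCharacter X, (W c : ℝ) * ‖τ.1 (c.1 * v ^ (u : ZMod N).val)‖ ^ 2 := by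
          rw [Finset.sum_comm]
          refine Finset.sum_congr rfl fun u _ => ?_
          rw [← Finset.mul_sum, Finset.sum_comm]
      _ ≤ ∑ _u : (ZMod N)ˣ, (Nat.card (StabG G v) : ℝ)⁻¹ *
            ∑ c : StabG G v, (Nat.card V : ℝ) * (Nat.card (Subgroup.centralizer ({c} : Set (StabG G v))) : ℝ) := by
          refine Finset.sum_le_sum fun u _ => ?_
          refine mul_le_mul_of_nonneg_left ?_ (by positivity)
          exact Finset.sum_le_sum fun c _ => hcent u c
      _ = φN * ((Nat.card V : ℝ) * kH) := by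
          rw [Finset.sum_const, Finset.card_univ, nsmul_eq_mul, ← Finset.mul_sum, hCH, hφN]
          field_simp
  have h3 : kX ≤ (Nat.card V : ℝ) := by
    have h4 : kX * (kH * φN) ≤ (Nat.card V : ℝ) * (kH * φN) := by
      calc _ ≤ _ := htotal
        _ = _ := by ring
    exact le_of_mul_le_mul_right h4 (mul_pos hkHpos hφpos)
  rw [← Cfsg.Agent.Lib.Char.CompleteCor.card_irr_eq_card_conjClasses, Nat.card_eq_fintype_card]
  have h5 : (Fintype.card (IrrCharacter X) : ℝ) ≤ Nat.card V := h3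
  exact_mod_cast h5

end Main

end Cfsg.Agent.Lib.Char.RVB
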