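import Mathlib
import Cfsg.Agent.Lib.Char.RVB

/-!
# Weil data from an invariant quadratic function
-/

set_option autoImplicit false
set_option linter.style.haveILetI false
set_option linter.unusedSectionVars false

namespace Cfsg.Agent.Lib.Char.RVC

open Cfsg Cfsg.Agent.Lib.Char.RVA Cfsg.Agent.Lib.Char.RVB Cfsg.Agent.Lib.Char.Basic
open scoped ComplexConjugate

universe u v

/-- The standard additive character. -/
noncomputable abbrev eps (p : ℕ) [NeZero p] : AddChar (ZMod p) ℂ := ZMod.stdAddChar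

section Monomial

variable {K : Type*} [Group K] [Finite K] {Y : Type*} [Fintype Y] [DecidableEq Y] [MulAction K Y]
  {p : ℕ} [NeZero p]

/-- The monomial representation attached to an invariant function on a `K`-set. -/
noncomputable def monoRep (Q : Y → ZMod p) (hQ : ∀ (k : K) y, Q (k • y) = Q y) :
    Representation ℂ (K × Multiplicative (ZMod p)) (Y → ℂ) where
  toFun g :=
    { toFun := fun f y => eps p (Multiplicative.toAdd g.2 * Q y) * f (g.1⁻¹ • y)
      map_add' := fun f f' => by
        funext y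
        simp [mul_add]
      map_smul' := fun a f => by
        funext y
        simp [mul_left_comm] }
  map_one' := by
    ext f y
    simp
  map_mul' g h := by
    ext f y
    simp only [LinearMap.coe_comp, LinearEquiv.coe_coe, Function.comp_apply, LinearMap.coe_mk,
      AddHom.coe_mk, Module.End.mul_apply, Prod.fst_mul, Prod.snd_mul, toAdd_mul, add_mul,
      AddChar.map_add_eq_mul, mul_inv_rev, mul_smul, hQ, mul_assoc]

theorem isCharacter_monomial (Q : Y → ZMod p) (hQ : ∀ (k : K) y, Q (k • y) = Q y) [NeZero p] :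
    IsCharacter (K × Multiplicative (ZMod p)) (fun g =>
      ∑ y : Y, if g.1 • y = y then eps p (Multiplicative.toAdd g.2 * Q y) else 0) := by
  have h1 := isCharacter_of_rep (monoRep Q hQ)
  convert h1 using 1
  funext g
  rw [Representation.character, LinearMap.trace_eq_matrix_trace ℂ (Pi.basisFun ℂ Y), Matrix.trace]
  simp only [Matrix.diag_apply, LinearMap.toMatrix_apply, Pi.basisFun_apply, Pi.basisFun_repr]
  refine Finset.sum_congr rfl fun y _ => ?_
  show _ = eps p (Multiplicative.toAdd g.2 * Q y) * (Pi.single y (1 : ℂ) : Y → ℂ) (g.1⁻¹ • y)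
  rw [Pi.single_apply]
  have h2 : g.1⁻¹ • y = y ↔ g.1 • y = y := by
    rw [inv_smul_eq_iff, eq_comm]
  by_cases h : g.1 • y = y
  · rw [if_pos h, if_pos (h2.mpr h), mul_one]
  · rw [if_neg h, if_neg (fun h' => h (h2.mp h')), mul_zero]

end Monomial

section Gauss

variable {p : ℕ} [hp : Fact p.Prime]

instance : NeZero p := ⟨hp.out.ne_zero⟩

theorem eps_ne_one {a : ZMod p} (ha : a ≠ 0) : eps p a ≠ 1 := by
  intro h
  apply ha
  have h1 : eps p a = eps p 0 := by rw [h, AddChar.map_zero_eq_one]
  exact ZMod.injective_stdAddChar h1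

theorem norm_eps (a : ZMod p) : ‖eps p a‖ = 1 := by
  rw [ZMod.stdAddChar_apply]
  exact Circle.norm_coe _

theorem conj_eps (a : ZMod p) : conj (eps p a) = eps p (-a) := by
  rw [AddChar.map_neg_eq_inv, Complex.inv_eq_conj (norm_eps a)]

theorem eps_pow (a : ZMod p) : eps p a ^ p = 1 := by
  rw [← AddChar.map_nsmul_eq_pow]
  have h : p • a = 0 := by
    rw [nsmul_eq_mul, CharP.cast_eq_zero, zero_mul]
  rw [h, AddChar.map_zero_eq_one]

/-- The square of the absolute value of a Gauss sum. -/
theorem norm_gauss_sq {D : Type*} [AddCommGroup D] [Fintype D] (q : D → ZMod p) (b : D →+ D →+ ZMod p)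
    (hq : ∀ x y, q (x + y) = q x + q y + b x y) (hnd : ∀ x, (∀ y, b x y = 0) → x = 0) {t : ZMod p} (ht : t ≠ 0) :
    ‖∑ x : D, eps p (t * q x)‖ ^ 2 = (Nat.card D : ℝ) := by
  classical
  have hsymm : ∀ x y, b x y = b y x := by
    intro x y
    have h1 := hq x y
    have h2 := hq y x
    rw [add_comm y x] at h2
    rw [h1] at h2
    have h3 : q x + q y + b x y = q x + q y + b y x := by
      rw [h2]
      ring
    exact add_left_cancel h3
  have hq0 : q 0 = 0 := by
    have h1 := hq 0 0
    simp only [add_zero, map_zero, AddMonoidHom.zero_apply] at h1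
    exact (left_eq_add.mp h1)
  set S : ℂ := ∑ x : D, eps p (t * q x) with hS
  have hinner : ∀ h : D, h ≠ 0 → ∑ y : D, eps p (t * b y h) = 0 := by
    intro h hh
    by_contra hne
    obtain ⟨y₀, hy₀⟩ : ∃ y₀, b h y₀ ≠ 0 := by
      by_contra hcon
      push Not at hcon
      exact hh (hnd h hcon)
    have h1 : ∑ y : D, eps p (t * b y h) = eps p (t * b y₀ h) * ∑ y : D, eps p (t * b y h) := by
      rw [Finset.mul_sum, ← Equiv.sum_comp (Equiv.addLeft y₀)]
      refine Finset.sum_congr rfl fun y _ => ?_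
      simp only [Equiv.coe_addLeft, map_add, AddMonoidHom.add_apply, mul_add, AddChar.map_add_eq_mul]
    have h2 : eps p (t * b y₀ h) ≠ 1 := by
      apply eps_ne_one
      rw [hsymm]
      exact mul_ne_zero ht hy₀
    apply hne
    have h3 : (1 - eps p (t * b y₀ h)) * ∑ y : D, eps p (t * b y h) = 0 := by
      rw [sub_mul, one_mul, ← h1, sub_self]
    exact (mul_eq_zero.mp h3).resolve_left (sub_ne_zero.mpr (Ne.symm h2))
  have hmain : S * conj S = (Nat.card D : ℂ) := by
    have h1 : ∀ y : D, S * conj (eps p (t * q y)) =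
        ∑ h : D, eps p (t * q h) * eps p (t * b y h) := by
      intro y
      have h2 : S = ∑ h : D, eps p (t * q (y + h)) := by
        rw [hS, ← Equiv.sum_comp (Equiv.addLeft y)]
        rfl
      rw [h2, Finset.sum_mul]
      refine Finset.sum_congr rfl fun h _ => ?_
      rw [conj_eps, ← AddChar.map_add_eq_mul, ← AddChar.map_add_eq_mul, hq]
      congr 1
      ring
    have h3 : S * conj S = ∑ y : D, ∑ h : D, eps p (t * q h) * eps p (t * b y h) := by
      conv_lhs => rw [hS, map_sum, ← hS, Finset.mul_sum]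
      exact Finset.sum_congr rfl fun y _ => h1 y
    rw [h3, Finset.sum_comm]
    simp_rw [← Finset.mul_sum]
    rw [Finset.sum_eq_single (0 : D)]
    · simp [hq0]
    · intro h _ hh
      rw [hinner h hh, mul_zero]
    · intro hn
      exact absurd (Finset.mem_univ _) hn
  have h2 : ((‖S‖ ^ 2 : ℝ) : ℂ) = ((Nat.card D : ℝ) : ℂ) := by
    rw [Complex.ofReal_natCast, ← hmain, Complex.mul_conj, Complex.normSq_eq_norm_sq]
  exact_mod_cast h2

end Gauss

section Module

variable {H : Type u} [Group H] {M : Type v} [AddCommGroup M] [DistribMulAction H M]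

/-- `x ↦ c x - x`. -/
def subC (c : H) : M →+ M := (DistribMulAction.toAddMonoidHom M c) - AddMonoidHom.id M

@[simp] theorem subC_apply (c : H) (x : M) : subC c x = c • x - x := rfl

variable (M) in
/-- The commutator subgroup `[M, c]`. -/
def comm (c : H) : AddSubgroup M := (subC c : M →+ M).range

theorem mem_comm {c : H} {x : M} : x ∈ comm M c ↔ ∃ y, c • y - y = x := Iff.rfl

variable (M) in
/-- The weight `|[M, c]|`. -/
noncomputable def wt (c : H) : ℕ := Nat.card (comm M c)

theorem wt_one [Finite H] : wt M (1 : H) = 1 := by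
  have h : comm M (1 : H) = ⊥ := by
    ext x
    simp [mem_comm, eq_comm]
  rw [wt, h]
  simp

end Module

section Quad

variable {H : Type u} [Group H] [Finite H] {M : Type v} [AddCommGroup M] [Finite M] [DistribMulAction H M]

/-- Functions on `ℤ/m` with sum zero. -/
def YY (m : ℕ) [NeZero m] (M : Type v) [AddCommGroup M] : Type v :=
  {φ : ZMod m → M // ∑ j, φ j = 0}

variable {m : ℕ} [NeZero m]

instance : Finite (YY m M) := by
  unfold YY
  infer_instance

/-- The action of `H × ℤ/m` on `YY`. -/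
instance : MulAction (H × Multiplicative (ZMod m)) (YY m M) where
  smul g φ := ⟨fun j => g.1 • φ.1 (j - Multiplicative.toAdd g.2), by
    rw [← Finset.smul_sum]
    have h : ∑ j, φ.1 (j - Multiplicative.toAdd g.2) = ∑ j, φ.1 j :=
      Equiv.sum_comp (Equiv.subRight (Multiplicative.toAdd g.2)) φ.1
    rw [h, φ.2, smul_zero]⟩
  one_smul φ := by
    apply Subtype.ext
    funext j
    show (1 : H) • φ.1 (j - 0) = φ.1 j
    simp
  mul_smul g g' φ := by
    apply Subtype.ext
    funext j
    show (g.1 * g'.1) • φ.1 (j - (Multiplicative.toAdd g.2 + Multiplicative.toAdd g'.2)) =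
      g.1 • g'.1 • φ.1 (j - Multiplicative.toAdd g.2 - Multiplicative.toAdd g'.2)
    rw [mul_smul, sub_sub]

theorem YY_smul_apply (g : H × Multiplicative (ZMod m)) (φ : YY m M) (j : ZMod m) :
    (g • φ).1 j = g.1 • φ.1 (j - Multiplicative.toAdd g.2) := rfl

/-- The power map on `ℤ/m`. -/
def pw (c : H) (i : ZMod m) : H := c ^ i.val

theorem pw_add (hm : ∀ c : H, c ^ m = 1) (c : H) (i j : ZMod m) : pw c (i + j) = pw c i * pw c j := by
  rw [pw, ZMod.val_add, ← pow_eq_pow_mod _ (hm c), pow_add]
  rfl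

theorem pw_one (hm : ∀ c : H, c ^ m = 1) (c : H) : pw c (1 : ZMod m) = c := by
  rw [pw, ZMod.val_one_eq_one_mod, ← pow_eq_pow_mod _ (hm c), pow_one]

theorem pw_zero (c : H) : pw c (0 : ZMod m) = 1 := by
  rw [pw, ZMod.val_zero, pow_zero]

theorem sub_pow_mem (c : H) (x : M) (n : ℕ) : x - c ^ n • x ∈ comm M c := by
  induction n generalizing x with
  | zero => simp [AddSubgroup.zero_mem]
  | succ n ih =>
    have h1 : x - c ^ (n + 1) • x = (c • x - c ^ n • (c • x)) - (c • x - x) := by
      rw [pow_succ, mul_smul]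
      abel
    rw [h1]
    exact AddSubgroup.sub_mem _ (ih _) ⟨x, rfl⟩

theorem exists_cancel {p : ℕ} [hp : Fact p.Prime] (hpM : ∀ x : M, p • x = 0) (hcop : ¬ p ∣ m) :
    ∃ m' : ℕ, ∀ x : M, m' • (m • x) = x := by
  have h1 : m.Coprime p := ((Nat.Prime.coprime_iff_not_dvd hp.out).mpr hcop).symm
  obtain ⟨m', -, hm'⟩ := Nat.exists_mul_mod_eq_one_of_coprime h1 hp.out.one_lt
  refine ⟨m', fun x => ?_⟩
  have h2 : m * m' = p * (m * m' / p) + 1 := by
    have := Nat.div_add_mod (m * m') p
    rw [hm'] at this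
    exact this.symm
  rw [smul_smul, mul_comm m' m, h2, add_smul, mul_smul, hpM, zero_add, one_smul]

/-- `x ∈ [M, c]` once `m x ∈ [M, c]`. -/
theorem mem_comm_of_smul_mem {p : ℕ} [hp : Fact p.Prime] (hpM : ∀ x : M, p • x = 0) (hcop : ¬ p ∣ m)
    {c : H} {x : M} (h : m • x ∈ comm M c) : x ∈ comm M c := by
  obtain ⟨m', hm'⟩ := exists_cancel (m := m) hpM hcop
  rw [← hm' x]
  exact AddSubgroup.nsmul_mem _ h _

/-- The sum of the translates over `ℤ/m`. -/
theorem sum_reindex (t t' : ZMod m) (htt : t * t' = 1) {A : Type*} [AddCommMonoid A] (f : ZMod m → A) :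
    ∑ j, f (j * t') = ∑ i, f i := by
  let e : ZMod m ≃ ZMod m :=
    { toFun := fun j => j * t'
      invFun := fun i => i * t
      left_inv := fun j => by
        show j * t' * t = j
        rw [mul_assoc, mul_comm t', htt, mul_one]
      right_inv := fun i => by
        show i * t * t' = i
        rw [mul_assoc, htt, mul_one] }
  exact Equiv.sum_comp e f

/-- A fixed point is determined by its value at `0`. -/
theorem fix_eval (hm : ∀ c : H, c ^ m = 1) {c : H} {t t' : ZMod m} (htt : t * t' = 1) {y : YY m M}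
    (hy : (c, Multiplicative.ofAdd t) • y = y) (j : ZMod m) :
    y.1 j = pw c (j * t') • y.1 0 := by
  have h1 : ∀ n : ℕ, y.1 ((n : ZMod m) * t) = c ^ n • y.1 0 := by
    intro n
    induction n with
    | zero => simp
    | succ n ih =>
      have h2 := congrArg (fun z : YY m M => z.1 ((n + 1 : ℕ) * t)) hy
      simp only [YY_smul_apply, toAdd_ofAdd] at h2
      have h3 : (((n + 1 : ℕ) : ZMod m) * t - t) = (n : ZMod m) * t := by
        push_cast
        ring
      rw [h3, ih] at h2
      rw [← h2, ← mul_smul, pow_succ']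
  have h4 : j = ((j * t').val : ZMod m) * t := by
    rw [ZMod.natCast_zmod_val, mul_assoc, mul_comm t', htt, mul_one]
  conv_lhs => rw [h4]
  rw [h1]
  rfl

theorem sum_pw_comm (hm : ∀ c : H, c ^ m = 1) (c : H) {t t' : ZMod m} (htt : t * t' = 1) {x : M}
    (hx : x ∈ comm M c) : ∑ j, pw c (j * t') • x = 0 := by
  obtain ⟨w, rfl⟩ := hx
  rw [sum_reindex t t' htt (fun i => pw c i • (subC c w))]
  have h1 : ∀ i : ZMod m, pw c i • (subC c w) = pw c (i + 1) • w - pw c i • w := by
    intro i
    rw [subC_apply, smul_sub, ← mul_smul, pw_add hm, pw_one hm]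
  simp_rw [h1]
  rw [Finset.sum_sub_distrib, sub_eq_zero]
  exact Equiv.sum_comp (Equiv.addRight (1 : ZMod m)) (fun i => pw c i • w)

/-- The fixed vectors correspond to the commutator subgroup. -/
noncomputable def fixEquiv {p : ℕ} [hp : Fact p.Prime] (hpM : ∀ x : M, p • x = 0) (hcop : ¬ p ∣ m)
    (hm : ∀ c : H, c ^ m = 1) (c : H) {t t' : ZMod m} (htt : t * t' = 1) :
    {y : YY m M // (c, Multiplicative.ofAdd t) • y = y} ≃ comm M c where
  toFun y := ⟨y.1.1 0, by
    apply mem_comm_of_smul_mem (m := m) hpM hcop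
    have h1 : ∑ i : ZMod m, pw c i • y.1.1 0 = 0 := by
      calc ∑ i : ZMod m, pw c i • y.1.1 0 = ∑ j : ZMod m, pw c (j * t') • y.1.1 0 :=
            (sum_reindex t t' htt (fun i => pw c i • y.1.1 0)).symm
        _ = ∑ j, y.1.1 j := Finset.sum_congr rfl fun j _ => (fix_eval hm htt y.2 j).symm
        _ = 0 := y.1.2
    have h3 : m • y.1.1 0 = ∑ i : ZMod m, (y.1.1 0 - pw c i • y.1.1 0) := by
      rw [Finset.sum_sub_distrib, h1, sub_zero, Finset.sum_const, Finset.card_univ, ZMod.card m]
    rw [h3]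
    exact AddSubgroup.sum_mem _ fun i _ => sub_pow_mem c _ _⟩
  invFun x := ⟨⟨fun j => pw c (j * t') • x.1, sum_pw_comm hm c htt x.2⟩, by
      apply Subtype.ext
      funext j
      show c • (pw c ((j - t) * t') • x.1) = pw c (j * t') • x.1
      rw [← mul_smul]
      congr 1
      have h2 : (j - t) * t' = j * t' - 1 := by
        rw [sub_mul, htt]
      rw [h2]
      have h3 : c * pw c (j * t' - 1) = pw c (1 : ZMod m) * pw c (j * t' - 1) := by rw [pw_one hm]
      rw [h3, ← pw_add hm]
      congr 1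
      ring⟩
  left_inv y := by
    apply Subtype.ext
    apply Subtype.ext
    funext j
    exact (fix_eval hm htt y.2 j).symm
  right_inv x := by
    apply Subtype.ext
    show pw c ((0 : ZMod m) * t') • x.1 = x.1
    rw [zero_mul, pw_zero, one_smul]

/-- The averaging decomposition. -/
theorem exists_decomp {p : ℕ} [hp : Fact p.Prime] (hpM : ∀ x : M, p • x = 0) (hcop : ¬ p ∣ m)
    (hm : ∀ c : H, c ^ m = 1) (c : H) (z : M) : ∃ w : M, c • w = w ∧ z - w ∈ comm M c := by
  obtain ⟨m', hm'⟩ := exists_cancel (m := m) hpM hcop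
  have hpwc : ∀ i : ZMod m, c * pw c i = pw c (i + 1) := by
    intro i
    rw [pw_add hm, pw_one hm]
    have : pw c i = c ^ i.val := rfl
    rw [this]
    exact (Commute.pow_right (Commute.refl c) _).eq
  refine ⟨m' • ∑ i : ZMod m, pw c i • z, ?_, ?_⟩
  · rw [smul_comm, Finset.smul_sum]
    congr 1
    simp_rw [← mul_smul, hpwc]
    exact Equiv.sum_comp (Equiv.addRight (1 : ZMod m)) (fun i => pw c i • z)
  · have h1 : z - m' • ∑ i : ZMod m, pw c i • z = m' • (∑ i : ZMod m, (z - pw c i • z)) := by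
      rw [Finset.sum_sub_distrib, smul_sub, Finset.sum_const, Finset.card_univ, ZMod.card m, hm' z]
    rw [h1]
    refine AddSubgroup.nsmul_mem _ (AddSubgroup.sum_mem _ fun i _ => sub_pow_mem c _ _) _

variable {p : ℕ} [hp : Fact p.Prime]

/-- The restriction of the form to `[M, c]` is nondegenerate. -/
theorem nondeg_comm (hpM : ∀ x : M, p • x = 0) (hcop : ¬ p ∣ m) (hm : ∀ c : H, c ^ m = 1)
    (b : M →+ M →+ ZMod p) (hbinv : ∀ (c : H) x y, b (c • x) (c • y) = b x y)
    (hnd : ∀ x, (∀ y, b x y = 0) → x = 0) (c : H) {x : M} (hx : x ∈ comm M c)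
    (h : ∀ y ∈ comm M c, b x y = 0) : x = 0 := by
  apply hnd
  intro z
  obtain ⟨w, hw, hzw⟩ := exists_decomp (m := m) hpM hcop hm c z
  have h1 : b x (z - w) = 0 := h _ hzw
  have h2 : b x w = 0 := by
    obtain ⟨x', rfl⟩ := hx
    rw [subC_apply, map_sub, AddMonoidHom.sub_apply]
    have h3 := hbinv c x' w
    rw [hw] at h3
    rw [h3, sub_self]
  rw [map_sub, h2, sub_zero] at h1
  exact h1

/-- The quadratic Gauss sum over `[M, c]`. -/
theorem norm_gauss_comm (hpM : ∀ x : M, p • x = 0) (hcop : ¬ p ∣ m) (hm : ∀ c : H, c ^ m = 1)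
    (q : M → ZMod p) (b : M →+ M →+ ZMod p)
    (hq : ∀ x y, q (x + y) = q x + q y + b x y) (hinv : ∀ (c : H) x, q (c • x) = q x)
    (hnd : ∀ x, (∀ y, b x y = 0) → x = 0) (c : H) [Fintype (comm M c)] {t : ZMod p} (ht : t ≠ 0) :
    ‖∑ x : comm M c, eps p (t * q x.1)‖ ^ 2 = (wt M c : ℝ) := by
  have hbinv : ∀ (c : H) x y, b (c • x) (c • y) = b x y := by
    intro c x y
    have h1 := hq (c • x) (c • y)
    rw [← smul_add, hinv, hinv, hinv, hq] at h1
    exact (add_left_cancel h1).symm
  let bD : comm M c →+ comm M c →+ ZMod p :=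
    AddMonoidHom.mk' (fun x => (b x.1).comp (comm M c).subtype) (by
      intro x y
      ext z
      simp)
  refine norm_gauss_sq (D := comm M c) (fun x => q x.1) bD (fun x y => hq x.1 y.1) ?_ ht
  intro x hx
  apply Subtype.ext
  exact nondeg_comm (m := m) hpM hcop hm b hbinv hnd c x.2 (fun y hy => hx ⟨y, hy⟩)


/-- The quadratic function on `YY`. -/
def QQ (q : M → ZMod p) (y : YY m M) : ZMod p := ∑ j, q (y.1 j)

theorem QQ_smul {q : M → ZMod p} (hinv : ∀ (c : H) x, q (c • x) = q x)
    (g : H × Multiplicative (ZMod m)) (y : YY m M) : QQ q (g • y) = QQ q y := by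
  unfold QQ
  simp only [YY_smul_apply, hinv]
  exact Equiv.sum_comp (Equiv.subRight (Multiplicative.toAdd g.2)) (fun j => q (y.1 j))

theorem sum_fix [Fintype (YY m M)] [DecidableEq (YY m M)] (hpM : ∀ x : M, p • x = 0) (hcop : ¬ p ∣ m)
    (hm : ∀ c : H, c ^ m = 1) {q : M → ZMod p} (hinv : ∀ (c : H) x, q (c • x) = q x) (c : H)
    [Fintype (comm M c)] {t t' : ZMod m} (htt : t * t' = 1) (r : ZMod p) :
    (∑ y : YY m M, if (c, Multiplicative.ofAdd t) • y = y then eps p (r * QQ q y) else 0) =
      ∑ x : comm M c, eps p (r * ((m : ZMod p) * q x.1)) := by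
  classical
  rw [← Finset.sum_filter]
  rw [Finset.sum_subtype (p := fun y : YY m M => (c, Multiplicative.ofAdd t) • y = y) _
    (fun y => by simp) (fun y => eps p (r * QQ q y))]
  refine Fintype.sum_equiv (fixEquiv (m := m) hpM hcop hm c htt) _ _ fun y => ?_
  congr 2
  show QQ q y.1 = _
  unfold QQ
  have h1 : ∀ j, q (y.1.1 j) = q (y.1.1 0) := by
    intro j
    rw [fix_eval hm htt y.2 j, hinv]
  simp_rw [h1]
  rw [Finset.sum_const, Finset.card_univ, ZMod.card m, nsmul_eq_mul]
  rfl

end Quad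

section Final

variable {H : Type u} [Group H] [Finite H] {M : Type v} [AddCommGroup M] [Finite M] [DistribMulAction H M]
variable {p : ℕ} [hp : Fact p.Prime]

/-- A nontrivial group of exponent `p` has order divisible by `p`. -/
theorem dvd_card_of_exp {D : Type*} [AddCommGroup D] [Finite D] (hD : ∀ x : D, p • x = 0)
    (h1 : Nat.card D ≠ 1) : p ∣ Nat.card D := by
  have hP : IsPGroup p (Multiplicative D) := fun g => ⟨1, by
    rw [pow_one]
    exact hD (Multiplicative.toAdd g)⟩
  obtain ⟨n, hn⟩ := IsPGroup.iff_card.mp hP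
  have h2 : Nat.card (Multiplicative D) = Nat.card D := rfl
  rw [h2] at hn
  rw [hn] at h1 ⊢
  rcases Nat.eq_zero_or_pos n with rfl | hn0
  · exact absurd (pow_zero p) h1
  · exact dvd_pow_self p hn0.ne'

/-- **Weil data from an invariant quadratic function.** -/
theorem hasWeil_quad (hpM : ∀ x : M, p • x = 0) (hH : ¬ p ∣ Nat.card H) (q : M → ZMod p)
    (b : M →+ M →+ ZMod p) (hq : ∀ x y, q (x + y) = q x + q y + b x y)
    (hinv : ∀ (c : H) x, q (c • x) = q x) (hnd : ∀ x, (∀ y, b x y = 0) → x = 0) :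
    HasWeil p H (wt M) := by
  classical
  set m := Nat.card H with hmdef
  haveI : NeZero m := ⟨Nat.card_pos.ne'⟩
  have hm : ∀ c : H, c ^ m = 1 := fun c => pow_card_eq_one'
  letI : Fintype (YY m M) := Fintype.ofFinite _
  letI : Finite (H × Multiplicative (ZMod m)) := inferInstance
  have hΦ := isCharacter_monomial (K := H × Multiplicative (ZMod m)) (Y := YY m M) (p := p)
    (QQ q) (QQ_smul hinv)
  let e : H × (Multiplicative (ZMod m) × Multiplicative (ZMod p)) →*
      (H × Multiplicative (ZMod m)) × Multiplicative (ZMod p) :=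
    (MulEquiv.prodAssoc.symm).toMonoidHom
  have hΦ' := isCharacter_comp_hom hΦ e
  have hsp := isSplit_of_isCharacter hΦ'
  letI hfc : ∀ c : H, Fintype (comm M c) := fun c => Fintype.ofFinite _
  have hval : ∀ (c : H) (u : ℕ), u.Coprime m →
      ((fun g => ∑ y : YY m M, if g.1 • y = y then eps p (Multiplicative.toAdd g.2 * QQ q y) else 0) ∘ e)
        (c, ((Multiplicative.ofAdd 1, Multiplicative.ofAdd 1) ^ u :
          Multiplicative (ZMod m) × Multiplicative (ZMod p))) =
        ∑ x : comm M c, eps p (((u : ZMod p) * (m : ZMod p)) * q x.1) := by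
    intro c u hu
    have h1 : ((Multiplicative.ofAdd 1, Multiplicative.ofAdd 1) ^ u :
        Multiplicative (ZMod m) × Multiplicative (ZMod p)) =
        (Multiplicative.ofAdd (u : ZMod m), Multiplicative.ofAdd (u : ZMod p)) := by
      ext <;> simp [← ofAdd_nsmul]
    rw [h1]
    have h2 := sum_fix (m := m) (p := p) hpM hH hm hinv c (t := (u : ZMod m)) (t' := (u : ZMod m)⁻¹)
      (ZMod.coe_mul_inv_eq_one u hu) (u : ZMod p)
    simp only [mul_assoc]
    exact h2
  refine ⟨Multiplicative (ZMod m) × Multiplicative (ZMod p), inferInstance, inferInstance,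
    (Multiplicative.ofAdd 1, Multiplicative.ofAdd 1), _, hsp, ?_, ?_⟩
  · intro c u hu
    have hcard : Nat.card (Multiplicative (ZMod m) × Multiplicative (ZMod p)) = m * p := by
      rw [Nat.card_prod]
      have h1 : Nat.card (Multiplicative (ZMod m)) = m := by
        rw [Nat.card_eq_fintype_card, Fintype.card_multiplicative, ZMod.card]
      have h2 : Nat.card (Multiplicative (ZMod p)) = p := by
        rw [Nat.card_eq_fintype_card, Fintype.card_multiplicative, ZMod.card]
      rw [h1, h2]
    rw [hcard] at hu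
    have hum : u.Coprime m := Nat.Coprime.coprime_dvd_right (Dvd.intro _ rfl) hu
    have hup : u.Coprime p := Nat.Coprime.coprime_dvd_right (Dvd.intro_left _ rfl) hu
    have h3 := hval c u hum
    show ‖((fun g => ∑ y : YY m M, if g.1 • y = y then eps p (Multiplicative.toAdd g.2 * QQ q y) else 0) ∘ e)
        (c, ((Multiplicative.ofAdd 1, Multiplicative.ofAdd 1) ^ u :
          Multiplicative (ZMod m) × Multiplicative (ZMod p)))‖ ^ 2 = _
    rw [h3]
    refine norm_gauss_comm (m := m) hpM hH hm q b hq hinv hnd c ?_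
    refine mul_ne_zero ?_ ?_
    · rw [Ne, ZMod.natCast_eq_zero_iff]
      intro h
      exact hp.out.one_lt.ne' (Nat.eq_one_of_dvd_coprimes hup.symm (dvd_refl p) h)
    · rw [Ne, ZMod.natCast_eq_zero_iff]
      exact hH
  · intro I hI c hc
    have hum : (1 : ℕ).Coprime m := Nat.coprime_one_left m
    have h3 := hval c 1 hum
    rw [pow_one] at h3
    show InM I (((fun g => ∑ y : YY m M, if g.1 • y = y then eps p (Multiplicative.toAdd g.2 * QQ q y) else 0) ∘ e)
        (c, ((Multiplicative.ofAdd 1, Multiplicative.ofAdd 1) :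
          Multiplicative (ZMod m) × Multiplicative (ZMod p))))
    rw [h3]
    have h4 : ∑ x : comm M c, eps p ((((1 : ℕ) : ZMod p) * (m : ZMod p)) * q x.1) =
        ∑ x : comm M c, (eps p (((1 : ℕ) : ZMod p) * (m : ZMod p) * q x.1) - 1) + (Nat.card (comm M c) : ℂ) := by
      rw [Finset.sum_sub_distrib, Finset.sum_const, Finset.card_univ, Nat.card_eq_fintype_card]
      simp
    rw [h4]
    refine InM.add (InM.sum _ fun x _ => inM_root_sub_one hI (j := 1) ?_) ?_
    · rw [pow_one]
      exact eps_pow _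
    · obtain ⟨k, hk⟩ := dvd_card_of_exp (D := comm M c) (p := p) (fun x => Subtype.ext (hpM x.1)) hc
      refine ⟨(p : AlgInt) * (k : AlgInt), I.mul_mem_right _ hI.2.2, ?_⟩
      rw [hk]
      simp

end Final

end Cfsg.Agent.Lib.Char.RVC
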