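import Mathlib
import Cfsg.Agent.Lib.Char.RVC
import Cfsg.Agent.Lib.Char.RepEquiv
import Cfsg.Agent.Lib.Char.CoprimeCount
import Cfsg.Agent.Lib.Char.CoprimeLayers
import Cfsg.Agent.Lib.Char.CompleteCor
import Cfsg.Agent.Lib.Char.GlaubOver
import Cfsg.Agent.Lib.Char.SL2Half
import Cfsg.Agent.Lib.Char.Galois
import Cfsg.Agent.Lib.Char.Integrality
import Cfsg.Agent.Lib.Char.Values

/-!
# The Heisenberg group of a finite symplectic module and its Weil character
-/

set_option autoImplicit false
set_option linter.style.haveILetI false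
set_option linter.unusedSectionVars false

namespace Cfsg.Agent.Lib.Char.RVD

open Cfsg Cfsg.Agent.Lib.Char.RVA Cfsg.Agent.Lib.Char.RVB Cfsg.Agent.Lib.Char.RVC Cfsg.Agent.Lib.Char.Basic
open Cfsg.Agent.Lib.Char.Ortho
open scoped ComplexConjugate

universe u v

variable {Y : Type v} [AddCommGroup Y] {p : ℕ}

/-- The Heisenberg group of a biadditive form. -/
def HG (C : Y →+ Y →+ ZMod p) : Type v := Y × ZMod p

namespace HG

variable {C : Y →+ Y →+ ZMod p}

instance : Group (HG C) where
  mul x y := (x.1 + y.1, x.2 + y.2 + C x.1 y.1)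
  one := (0, 0)
  inv x := (-x.1, -x.2 + C x.1 x.1)
  mul_assoc x y z := by
    apply Prod.ext
    · exact add_assoc _ _ _
    · show x.2 + y.2 + C x.1 y.1 + z.2 + C (x.1 + y.1) z.1 =
        x.2 + (y.2 + z.2 + C y.1 z.1) + C x.1 (y.1 + z.1)
      simp only [map_add, AddMonoidHom.add_apply]
      ring
  one_mul x := by
    apply Prod.ext
    · exact zero_add _
    · show 0 + x.2 + C 0 x.1 = x.2
      simp
  mul_one x := by
    apply Prod.ext
    · exact add_zero _
    · show x.2 + 0 + C x.1 0 = x.2
      simp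
  inv_mul_cancel x := by
    apply Prod.ext
    · exact neg_add_cancel _
    · show -x.2 + C x.1 x.1 + x.2 + C (-x.1) x.1 = 0
      simp

theorem mul_fst (x y : HG C) : (x * y).1 = x.1 + y.1 := rfl
theorem mul_snd (x y : HG C) : (x * y).2 = x.2 + y.2 + C x.1 y.1 := rfl
theorem one_fst : (1 : HG C).1 = 0 := rfl
theorem one_snd : (1 : HG C).2 = 0 := rfl
theorem inv_fst (x : HG C) : (x⁻¹).1 = -x.1 := rfl
theorem inv_snd (x : HG C) : (x⁻¹).2 = -x.2 + C x.1 x.1 := rfl

theorem ext' {x y : HG C} (h1 : x.1 = y.1) (h2 : x.2 = y.2) : x = y := Prod.ext h1 h2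

/-- The central subgroup. -/
def zz (C : Y →+ Y →+ ZMod p) : Multiplicative (ZMod p) →* HG C where
  toFun a := ((0 : Y), Multiplicative.toAdd a)
  map_one' := rfl
  map_mul' a b := by
    apply ext'
    · exact (add_zero _).symm
    · show Multiplicative.toAdd a + Multiplicative.toAdd b =
        Multiplicative.toAdd a + Multiplicative.toAdd b + C 0 0
      simp

theorem zz_central (a : Multiplicative (ZMod p)) (x : HG C) : x * zz C a = zz C a * x := by
  apply ext'
  · show x.1 + 0 = 0 + x.1
    simp
  · show x.2 + Multiplicative.toAdd a + C x.1 0 = Multiplicative.toAdd a + x.2 + C 0 x.1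
    simp [add_comm]

/-- Conjugating by a pure element. -/
theorem conj_eq (f x : HG C) : f * x * f⁻¹ = (x.1, x.2 + C f.1 x.1 - C x.1 f.1) := by
  apply ext'
  · show f.1 + x.1 + -f.1 = x.1
    abel
  · show f.2 + x.2 + C f.1 x.1 + (-f.2 + C f.1 f.1) + C (f.1 + x.1) (-f.1) = x.2 + C f.1 x.1 - C x.1 f.1
    simp only [map_add, map_neg, AddMonoidHom.add_apply]
    ring

instance [Finite Y] [NeZero p] : Finite (HG C) := by
  unfold HG
  infer_instance

theorem card_eq [Finite Y] [NeZero p] : Nat.card (HG C) = Nat.card Y * p := by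
  show Nat.card (Y × ZMod p) = _
  rw [Nat.card_prod, Nat.card_zmod]

end HG

section Theta

open HG

variable [hp : Fact p.Prime] [Finite Y] {C : Y →+ Y →+ ZMod p}

/-- The linear character of the centre. -/
noncomputable def lamE : Multiplicative (ZMod p) →* ℂˣ := (eps p).toMonoidHom.toHomUnits

theorem lamE_apply (a : Multiplicative (ZMod p)) : ((lamE a : ℂˣ) : ℂ) = eps p (Multiplicative.toAdd a) := rfl

theorem central_mul' {G : Type*} [Group G] [Finite G] {χ : G → ℂ} (hχ : IsIrrCharacter G χ) (z : G)
    (hz : ∀ g, g * z = z * g) (g : G) : χ (z * g) * χ 1 = χ z * χ g :=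
  Cfsg.Agent.Lib.Char.SL2Half.central_mul hχ z hz g

/-- There is an irreducible character of the Heisenberg group over the standard central character. -/
theorem exists_theta (hp2 : p ≠ 2) (hskew : ∀ x y, C x y = - C y x)
    (hnd : ∀ x, (∀ y, C x y = 0) → x = 0) :
    ∃ θ : HG C → ℂ, IsIrrCharacter (HG C) θ ∧ (∀ a : ZMod p, θ ((0 : Y), a) = θ 1 * eps p a) ∧
      (∀ (y : Y) (a : ZMod p), y ≠ 0 → θ (y, a) = 0) ∧ (θ 1) ^ 2 = (Nat.card Y : ℂ) := by
  classical
  letI : Fintype (HG C) := Fintype.ofFinite _
  letI : Fintype (IrrCharacter (HG C)) := Fintype.ofFinite _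
  letI : Fintype (Multiplicative (ZMod p)) := Fintype.ofFinite _
  -- the existence of a constituent
  have hex : ∃ θ : IrrCharacter (HG C), classInner (fun b => θ.1 (zz C b)) (fun b => ((lamE b : ℂˣ) : ℂ)) ≠ 0 := by
    by_contra hcon
    push Not at hcon
    have h1 : ∑ θ : IrrCharacter (HG C), θ.1 1 * classInner (fun b => θ.1 (zz C b))
        (fun b => ((lamE b : ℂˣ) : ℂ)) = 0 :=
      Finset.sum_eq_zero fun θ _ => by rw [hcon θ, mul_zero]
    have hreg : ∀ b : Multiplicative (ZMod p), ∑ θ : IrrCharacter (HG C), θ.1 1 * θ.1 (zz C b) =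
        if b = 1 then (Nat.card (HG C) : ℂ) else 0 := by
      intro b
      have h2 := congrFun (Cfsg.Agent.Lib.Char.CompleteCor.regular_character_eq_sum (G := HG C)) (zz C b)
      rw [Cfsg.Agent.Lib.Char.CompleteCor.regular_character] at h2
      simp only [Finset.sum_apply, Pi.smul_apply, smul_eq_mul] at h2
      rw [← h2]
      have h3 : zz C b = 1 ↔ b = 1 := by
        constructor
        · intro h
          have h4 : (zz C b).2 = 0 := by rw [h]; rfl
          exact h4
        · rintro rfl
          exact map_one _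
      simp only [h3]
    have h5 : ∑ θ : IrrCharacter (HG C), θ.1 1 * classInner (fun b => θ.1 (zz C b))
        (fun b => ((lamE b : ℂˣ) : ℂ)) =
        (Nat.card (Multiplicative (ZMod p)) : ℂ)⁻¹ * (Nat.card (HG C) : ℂ) := by
      simp only [classInner, Finset.mul_sum, Finset.sum_mul]
      rw [Finset.sum_comm]
      rw [Finset.sum_eq_single (1 : Multiplicative (ZMod p))]
      · have h6 := hreg 1
        simp only [if_true] at h6
        have h7 : conj ((lamE (1 : Multiplicative (ZMod p)) : ℂˣ) : ℂ) = 1 := by simp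
        rw [← h6, Finset.mul_sum]
        refine Finset.sum_congr rfl fun θ _ => ?_
        rw [h7]
        ring
      · intro b _ hb
        have h6 := hreg b
        rw [if_neg hb] at h6
        calc ∑ θ : IrrCharacter (HG C), θ.1 1 * ((Nat.card (Multiplicative (ZMod p)) : ℂ)⁻¹ *
              (θ.1 (zz C b) * conj ((lamE b : ℂˣ) : ℂ))) =
            (Nat.card (Multiplicative (ZMod p)) : ℂ)⁻¹ * conj ((lamE b : ℂˣ) : ℂ) *
              ∑ θ : IrrCharacter (HG C), θ.1 1 * θ.1 (zz C b) := by
              rw [Finset.mul_sum]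
              refine Finset.sum_congr rfl fun θ _ => by ring
          _ = 0 := by rw [h6, mul_zero]
      · simp
    rw [h5] at h1
    have h8 : (Nat.card (Multiplicative (ZMod p)) : ℂ) ≠ 0 := by
      exact_mod_cast Nat.card_pos.ne'
    have h9 : (Nat.card (HG C) : ℂ) ≠ 0 := by
      exact_mod_cast Nat.card_pos.ne'
    exact (mul_ne_zero (inv_ne_zero h8) h9) h1
  obtain ⟨θ, hθ⟩ := hex
  have hval : ∀ a : Multiplicative (ZMod p), θ.1 (zz C a) = θ.1 1 * ((lamE a : ℂˣ) : ℂ) :=
    fun a => Cfsg.Agent.Lib.Char.CoprimeLayers.value_of_central (zz C) (fun b x => zz_central b x) θ.2 lamE hθ a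
  have hd1 : θ.1 1 ≠ 0 := by
    obtain ⟨d, hd, hd0, -⟩ := Cfsg.Agent.Lib.Char.GlaubOver.exists_degree_dvd θ.2
    rw [hd]
    exact_mod_cast hd0
  have hc := isClassFunction_of_isCharacter (isCharacter_of_isIrrCharacter θ.2)
  have hzero : ∀ (y : Y) (a : ZMod p), y ≠ 0 → θ.1 (y, a) = 0 := by
    intro y a hy
    obtain ⟨y', hy'⟩ : ∃ y', C y y' ≠ 0 := by
      by_contra h
      push Not at h
      exact hy (hnd y h)
    let f : HG C := (y', (0 : ZMod p))
    let x : HG C := (y, a)
    let t : ZMod p := - (2 * C y y')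
    have ht : t ≠ 0 := by
      have h2 : (2 : ZMod p) ≠ 0 := by
        have : ((2 : ℕ) : ZMod p) ≠ 0 := by
          rw [Ne, ZMod.natCast_eq_zero_iff]
          intro h
          exact hp2 ((Nat.prime_dvd_prime_iff_eq hp.out Nat.prime_two).mp h)
        exact_mod_cast this
      exact neg_ne_zero.mpr (mul_ne_zero h2 hy')
    have h1 : f * x * f⁻¹ = zz C (Multiplicative.ofAdd t) * x := by
      rw [conj_eq]
      apply ext'
      · show y = 0 + y
        simp
      · show a + C y' y - C y y' = t + a + C 0 y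
        have h3 := hskew y' y
        simp only [map_zero, AddMonoidHom.zero_apply, add_zero]
        rw [h3]
        show a + - C y y' - C y y' = - (2 * C y y') + a
        ring
    have h2 : θ.1 (f * x * f⁻¹) = θ.1 x := hc x f
    have h3 := central_mul' θ.2 (zz C (Multiplicative.ofAdd t)) (fun g => zz_central _ g) x
    rw [← h1, h2, hval, mul_assoc, mul_comm (θ.1 x)] at h3
    have h4 := mul_left_cancel₀ hd1 h3
    have h5 : ((lamE (Multiplicative.ofAdd t) : ℂˣ) : ℂ) ≠ 1 := eps_ne_one ht
    have h6 : (((lamE (Multiplicative.ofAdd t) : ℂˣ) : ℂ) - 1) * θ.1 x = 0 := by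
      rw [sub_mul, one_mul, sub_eq_zero]
      exact h4.symm
    rcases mul_eq_zero.mp h6 with h7 | h7
    · exact absurd (sub_eq_zero.mp h7) h5
    · exact h7
  have hcentral : ∀ a : ZMod p, θ.1 ((0 : Y), a) = θ.1 1 * eps p a := fun a => hval (Multiplicative.ofAdd a)
  have hdeg : (θ.1 1) ^ 2 = (Nat.card Y : ℂ) := by
    have h1 := classInner_irr_self θ.2
    rw [classInner_self_eq] at h1
    have h2 : ∑ g : HG C, ‖θ.1 g‖ ^ 2 = ∑ a : ZMod p, ‖θ.1 1‖ ^ 2 := by
      letI : Fintype Y := Fintype.ofFinite _
      have h3 : ∑ g : HG C, ‖θ.1 g‖ ^ 2 = ∑ g : Y × ZMod p, ‖θ.1 g‖ ^ 2 :=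
        @Fintype.sum_equiv (HG C) (Y × ZMod p) ℝ _ _ _ (Equiv.refl (Y × ZMod p)) _ _ (fun _ => rfl)
      rw [h3, Fintype.sum_prod_type_right]
      refine Finset.sum_congr rfl fun a _ => ?_
      rw [Finset.sum_eq_single (0 : Y)]
      · rw [hcentral, norm_mul, norm_eps, mul_one]
      · intro y _ hy
        rw [hzero y a hy]
        simp
      · simp
    rw [h2, Finset.sum_const, Finset.card_univ, ZMod.card, HG.card_eq] at h1
    have hp0 : (p : ℝ) ≠ 0 := by exact_mod_cast hp.out.ne_zero
    have hY0 : (Nat.card Y : ℝ) ≠ 0 := by exact_mod_cast Nat.card_pos.ne'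
    have h3 : ((((Nat.card Y * p : ℕ) : ℝ)⁻¹ * (p • ‖θ.1 1‖ ^ 2) : ℝ) : ℂ) = ((1 : ℝ) : ℂ) := by
      rw [h1]
      simp
    have h4 : (((Nat.card Y * p : ℕ) : ℝ)⁻¹ * (p • ‖θ.1 1‖ ^ 2) : ℝ) = 1 := Complex.ofReal_injective h3
    have h5 : ‖θ.1 1‖ ^ 2 = (Nat.card Y : ℝ) := by
      rw [nsmul_eq_mul] at h4
      push_cast at h4
      field_simp at h4
      exact h4
    obtain ⟨d, hd, -, -⟩ := Cfsg.Agent.Lib.Char.GlaubOver.exists_degree_dvd θ.2
    rw [hd]
    rw [hd, Complex.norm_natCast] at h5
    exact_mod_cast h5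
  exact ⟨θ.1, θ.2, hcentral, hzero, hdeg⟩

end Theta

section SumConj

variable {G : Type*} {E : Type*} [Group G] [Group E] [Fintype E]

/-- The conjugation sum formula over a subgroup on which the character stays irreducible. -/
theorem sum_conj_char (f : E →* G) {n : ℕ} (ρ : Representation ℂ G (Fin n → ℂ))
    (hE : IsIrrCharacter E (fun e => ρ.character (f e))) (g h : G) :
    (∑ e : E, ρ.character (g * f e * h * (f e)⁻¹)) * (n : ℂ) =
      (Nat.card E : ℂ) * ρ.character g * ρ.character h := by
  classical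
  let ρE : Representation ℂ E (Fin n → ℂ) := ρ.comp f
  have hchar : ρE.character = fun e => ρ.character (f e) := rfl
  haveI hirr : ρE.IsIrreducible := by
    apply Cfsg.Agent.Lib.Char.Galois.isIrreducible_of_norm_one
    obtain ⟨n', σ, hσ, hσc⟩ := hE
    haveI := hσ
    have h1 := Cfsg.Agent.Lib.Char.Galois.norm_one_of_isIrreducible σ
    rw [hσc] at h1
    exact h1
  let T : Module.End ℂ (Fin n → ℂ) := ∑ e : E, ρ (f e * h * (f e)⁻¹)
  have hT : ∀ e', T ∘ₗ ρE e' = ρE e' ∘ₗ T := by
    intro e'
    show T * ρ (f e') = ρ (f e') * T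
    show (∑ e : E, ρ (f e * h * (f e)⁻¹)) * ρ (f e') = ρ (f e') * (∑ e : E, ρ (f e * h * (f e)⁻¹))
    rw [Finset.sum_mul, Finset.mul_sum, ← Equiv.sum_comp (Equiv.mulLeft e')]
    refine Finset.sum_congr rfl fun e _ => ?_
    rw [← map_mul, ← map_mul]
    congr 1
    simp only [Equiv.coe_mulLeft, map_mul, mul_inv_rev]
    group
  obtain ⟨a, ha⟩ := Cfsg.Agent.Lib.Char.Integrality.exists_smul_id_of_commute ρE T hT
  have htr1 : LinearMap.trace ℂ _ T = (Nat.card E : ℂ) * ρ.character h := by
    show LinearMap.trace ℂ _ (∑ e : E, ρ (f e * h * (f e)⁻¹)) = _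
    rw [map_sum]
    have h1 : ∀ e : E, LinearMap.trace ℂ _ (ρ (f e * h * (f e)⁻¹)) = ρ.character h :=
      fun e => ρ.char_conj h (f e)
    simp_rw [h1]
    rw [Finset.sum_const, Finset.card_univ, Nat.card_eq_fintype_card, nsmul_eq_mul]
  have htr2 : LinearMap.trace ℂ _ T = a * (n : ℂ) := by
    rw [ha, map_smul, LinearMap.trace_id]
    simp
  have htr3 : LinearMap.trace ℂ _ (ρ g * T) = ∑ e : E, ρ.character (g * f e * h * (f e)⁻¹) := by
    show LinearMap.trace ℂ _ (ρ g * ∑ e : E, ρ (f e * h * (f e)⁻¹)) = _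
    rw [Finset.mul_sum, map_sum]
    refine Finset.sum_congr rfl fun e _ => ?_
    rw [← map_mul]
    unfold Representation.character
    congr 2
    group
  have htr4 : LinearMap.trace ℂ _ (ρ g * T) = a * ρ.character g := by
    rw [ha]
    have h5 : ρ g * (a • (LinearMap.id : (Fin n → ℂ) →ₗ[ℂ] (Fin n → ℂ))) = a • ρ g := by
      apply LinearMap.ext
      intro w
      simp
    rw [h5, map_smul]
    rfl
  rw [← htr3, htr4]
  linear_combination (ρ.character g) * (htr2.symm.trans htr1)

/-- A split function has a `p`-divisible sum over `L`. -/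
theorem avg_of_isSplit {H : Type*} [Group H] [Finite H] {L : Type*} [CommGroup L] [Fintype L]
    {Ψ : H → L → ℂ} (h : IsSplit Ψ) (c : H) :
    ∃ α : ℂ, IsIntegral ℤ α ∧ ∑ l : L, Ψ c l = (Nat.card L : ℂ) * α := by
  classical
  obtain ⟨I, hI, γ, lam, hγ, hΨ⟩ := h
  refine ⟨∑ i, if lam i = 1 then γ i c else 0, IsIntegral.sum _ fun i _ => ?_, ?_⟩
  · split_ifs
    · exact Cfsg.Agent.Lib.Char.Values.IsCharacter.isIntegral (hγ i) c
    · exact isIntegral_zero
  · simp_rw [hΨ]
    rw [Finset.sum_comm, Finset.mul_sum]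
    refine Finset.sum_congr rfl fun i _ => ?_
    rw [← Finset.mul_sum]
    by_cases hi : lam i = 1
    · rw [if_pos hi, hi]
      simp [Nat.card_eq_fintype_card, mul_comm]
    · rw [if_neg hi, mul_zero]
      have h1 : ∑ l : L, (((Units.coeHom ℂ).comp (lam i)) l) = 0 := by
        apply sum_hom_units_eq_zero
        intro h2
        apply hi
        ext l
        have h3 := DFunLike.congr_fun h2 l
        simpa using h3
      have h2 : ∑ l : L, ((lam i l : ℂˣ) : ℂ) = 0 := h1
      rw [h2, mul_zero]

end SumConj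

section Ext

open HG

variable {K : Type u} [Group K] [DistribMulAction K Y] {C : Y →+ Y →+ ZMod p}

/-- The action of `K` on the Heisenberg group. -/
def actH (hinv : ∀ (k : K) x y, C (k • x) (k • y) = C x y) : K →* MulAut (HG C) where
  toFun k :=
    { toFun := fun x => (k • x.1, x.2)
      invFun := fun x => (k⁻¹ • x.1, x.2)
      left_inv := fun x => by
        apply ext'
        · show k⁻¹ • k • x.1 = x.1
          simp
        · rfl
      right_inv := fun x => by
        apply ext'
        · show k • k⁻¹ • x.1 = x.1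
          simp
        · rfl
      map_mul' := fun x y => by
        apply ext'
        · show k • (x.1 + y.1) = k • x.1 + k • y.1
          exact smul_add _ _ _
        · show x.2 + y.2 + C x.1 y.1 = x.2 + y.2 + C (k • x.1) (k • y.1)
          rw [hinv] }
  map_one' := MulEquiv.ext fun x => ext' (by
    show (1 : K) • x.1 = x.1
    simp) rfl
  map_mul' a b := MulEquiv.ext fun x => ext' (by
    show (a * b) • x.1 = a • b • x.1
    rw [mul_smul]) rfl

theorem actH_apply (hinv : ∀ (k : K) x y, C (k • x) (k • y) = C x y) (k : K) (x : HG C) :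
    actH hinv k x = (k • x.1, x.2) := rfl

end Ext

section Main

open HG

variable [hp : Fact p.Prime] [Finite Y] {K : Type u} [Group K] [Finite K] [DistribMulAction K Y]
  {C : Y →+ Y →+ ZMod p}

instance finiteXi (hinv : ∀ (k : K) x y, C (k • x) (k • y) = C x y) : Finite (HG C ⋊[actH hinv] K) :=
  Finite.of_equiv _ SemidirectProduct.equivProd.symm

/-- Extending an invariant irreducible character of the Heisenberg group. -/
theorem exists_ext_theta (hinv : ∀ (k : K) x y, C (k • x) (k • y) = C x y) (hpY : ∀ y : Y, p • y = 0)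
    (hK : ¬ p ∣ Nat.card K) {θ : HG C → ℂ} (hθ : IsIrrCharacter _ θ)
    (hθinv : ∀ (k : K) (e : HG C), θ (actH hinv k e) = θ e) :
    ∃ χ : (HG C ⋊[actH hinv] K) → ℂ, IsIrrCharacter _ χ ∧ ∀ e, χ (SemidirectProduct.inl e) = θ e := by
  classical
  have hθc := isClassFunction_of_isCharacter (isCharacter_of_isIrrCharacter hθ)
  let N : Subgroup (HG C ⋊[actH hinv] K) := (SemidirectProduct.inl : HG C →* (HG C ⋊[actH hinv] K)).range
  haveI hNn : N.Normal := by
    show (SemidirectProduct.inl : HG C →* (HG C ⋊[actH hinv] K)).range.Normal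
    rw [SemidirectProduct.range_inl_eq_ker_rightHom]
    exact MonoidHom.normal_ker _
  have hright : ∀ n : N, (n : HG C ⋊[actH hinv] K).right = 1 := by
    rintro ⟨_, e, rfl⟩
    rfl
  let ff : N →* HG C :=
    { toFun := fun n => (n : HG C ⋊[actH hinv] K).left
      map_one' := rfl
      map_mul' := fun a b => by
        show ((a : HG C ⋊[actH hinv] K) * b).left = _
        rw [SemidirectProduct.mul_left, hright a, map_one]
        rfl }
  have hffs : Function.Surjective ff := fun e => ⟨⟨SemidirectProduct.inl e, e, rfl⟩, rfl⟩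
  have hϑ := isIrrCharacter_comp_surjective hθ ff hffs
  have hcardN : Nat.card N = Nat.card (HG C) :=
    Nat.card_congr (MonoidHom.ofInjective SemidirectProduct.inl_injective).toEquiv.symm
  have hidxN : N.index = Nat.card K := by
    show (SemidirectProduct.inl : HG C →* (HG C ⋊[actH hinv] K)).range.index = _
    rw [SemidirectProduct.range_inl_eq_ker_rightHom, Subgroup.index_ker,
      MonoidHom.range_eq_top.mpr SemidirectProduct.rightHom_surjective]
    simp
  have hcop : Nat.Coprime (Nat.card N) N.index := by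
    rw [hcardN, hidxN, HG.card_eq]
    have hpc : Nat.Coprime p (Nat.card K) := (Nat.Prime.coprime_iff_not_dvd hp.out).mpr hK
    refine Nat.Coprime.mul_left ?_ hpc
    have hP : IsPGroup p (Multiplicative Y) := fun g => ⟨1, by
      rw [pow_one]
      exact hpY (Multiplicative.toAdd g)⟩
    obtain ⟨n, hn⟩ := IsPGroup.iff_card.mp hP
    have h2 : Nat.card (Multiplicative Y) = Nat.card Y := rfl
    rw [h2] at hn
    rw [hn]
    exact Nat.Coprime.pow_left _ hpc
  obtain ⟨χ, hχ, hχN⟩ := Cfsg.Agent.Lib.Char.CoprimeCount.exists_ext_of_coprime N hcop hϑ (by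
    rintro g ⟨_, x, rfl⟩
    show θ ((g * SemidirectProduct.inl x * g⁻¹).left) = θ ((SemidirectProduct.inl x : HG C ⋊[actH hinv] K).left)
    have h1 : (g * SemidirectProduct.inl x * g⁻¹).left = g.left * actH hinv g.right x * g.left⁻¹ := by
      simp [SemidirectProduct.mul_left, SemidirectProduct.inv_left, SemidirectProduct.mul_right]
    rw [h1, hθc, hθinv]
    rfl)
  exact ⟨χ, hχ, fun e => hχN ⟨SemidirectProduct.inl e, e, rfl⟩⟩

theorem inr_inl_comm {hinv : ∀ (k : K) x y, C (k • x) (k • y) = C x y} {c : K} {u : HG C}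
    (h : actH hinv c u = u) :
    (SemidirectProduct.inr c : HG C ⋊[actH hinv] K) * SemidirectProduct.inl u =
      SemidirectProduct.inl u * SemidirectProduct.inr c := by
  have h1 := SemidirectProduct.inl_aut (φ := actH hinv) c u
  rw [h] at h1
  calc (SemidirectProduct.inr c : HG C ⋊[actH hinv] K) * SemidirectProduct.inl u =
        SemidirectProduct.inr c * SemidirectProduct.inl u * SemidirectProduct.inr c⁻¹ * SemidirectProduct.inr c := by
        rw [mul_assoc (_ * _), ← map_mul, inv_mul_cancel, map_one, mul_one]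
    _ = SemidirectProduct.inl u * SemidirectProduct.inr c := by rw [← h1]

/-- **The Weil character.** -/
theorem exists_weil_char (hp2 : p ≠ 2) (hpY : ∀ y : Y, p • y = 0) (hK : ¬ p ∣ Nat.card K)
    (hskew : ∀ x y, C x y = - C y x) (hinv : ∀ (k : K) x y, C (k • x) (k • y) = C x y)
    (hnd : ∀ x, (∀ y, C x y = 0) → x = 0) :
    ∃ χ : K → ℂ, IsCharacter K χ ∧ (∀ k, ‖χ k‖ ^ 2 = (Nat.card {y : Y // k • y = y} : ℝ)) ∧
      ∀ k, (∃ y : Y, y ≠ 0 ∧ k • y = y) → ∃ α : ℂ, IsIntegral ℤ α ∧ χ k = (p : ℂ) * α := by
  classical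
  obtain ⟨θ, hθ, hcen, hzero, hdeg⟩ := exists_theta hp2 hskew hnd
  have hθinv : ∀ (k : K) (e : HG C), θ (actH hinv k e) = θ e := by
    intro k e
    show θ (k • e.1, e.2) = θ (e.1, e.2)
    by_cases hy : e.1 = 0
    · rw [hy, smul_zero]
    · have hky : k • e.1 ≠ 0 := fun h => hy (by simpa using congrArg (fun z => k⁻¹ • z) h)
      rw [hzero _ _ hky, hzero _ _ hy]
  obtain ⟨χ, hχ, hχE⟩ := exists_ext_theta hinv hpY hK hθ hθinv
  have hχc := isCharacter_of_isIrrCharacter hχ
  have hχ1 : χ 1 = θ 1 := by
    have := hχE 1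
    rwa [map_one] at this
  obtain ⟨d, hd, hd0, -⟩ := Cfsg.Agent.Lib.Char.GlaubOver.exists_degree_dvd hθ
  have hd1 : (d : ℂ) ≠ 0 := by exact_mod_cast hd0
  have hp0 : (p : ℂ) ≠ 0 := by exact_mod_cast hp.out.ne_zero
  refine ⟨fun k => χ (SemidirectProduct.inr k),
    isCharacter_comp_hom hχc SemidirectProduct.inr, ?_, ?_⟩
  · -- the norm
    intro k
    letI : Fintype (HG C) := Fintype.ofFinite _
    letI : Fintype Y := Fintype.ofFinite _
    obtain ⟨n, ρ, hρ, rfl⟩ := hχ
    have hnd' : (n : ℂ) = d := by
      have h1 : ρ.character 1 = n := by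
        unfold Representation.character
        rw [map_one]
        simp
      rw [← h1, hχ1, hd]
    have hE : IsIrrCharacter (HG C) (fun e => ρ.character (SemidirectProduct.inl e)) := by
      have : (fun e => ρ.character (SemidirectProduct.inl e)) = θ := funext hχE
      rw [this]
      exact hθ
    have h1 := sum_conj_char SemidirectProduct.inl ρ hE (SemidirectProduct.inr k) (SemidirectProduct.inr k⁻¹)
    have h2 : ∀ e : HG C, ρ.character (SemidirectProduct.inr k * SemidirectProduct.inl e *
        SemidirectProduct.inr k⁻¹ * (SemidirectProduct.inl e)⁻¹) =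
        if k • e.1 = e.1 then (d : ℂ) else 0 := by
      intro e
      rw [← SemidirectProduct.inl_aut, ← map_inv, ← map_mul, hχE]
      have h3 : (actH hinv k e * e⁻¹).1 = k • e.1 - e.1 := by
        show k • e.1 + - e.1 = _
        rw [sub_eq_add_neg]
      by_cases h4 : k • e.1 = e.1
      · rw [if_pos h4, ← hd]
        have h5 : actH hinv k e * e⁻¹ = 1 := by
          rw [mul_inv_eq_one]
          apply ext'
          · exact h4
          · rfl
        rw [h5]
      · rw [if_neg h4]
        have h6 : (actH hinv k e * e⁻¹).1 ≠ 0 := by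
          rw [h3]
          exact sub_ne_zero.mpr h4
        exact hzero _ _ h6
    simp_rw [h2] at h1
    have h3 : ∑ e : HG C, (if k • e.1 = e.1 then (d : ℂ) else 0) =
        (p : ℂ) * ((Nat.card {y : Y // k • y = y} : ℂ) * d) := by
      have h4 : ∑ e : HG C, (if k • e.1 = e.1 then (d : ℂ) else 0) =
          ∑ e : Y × ZMod p, (if k • e.1 = e.1 then (d : ℂ) else 0) :=
        @Fintype.sum_equiv (HG C) (Y × ZMod p) ℂ _ _ _ (Equiv.refl (Y × ZMod p)) _ _ (fun _ => rfl)
      have h6 : ∑ y : Y, (if k • y = y then (d : ℂ) else 0) = (Nat.card {y : Y // k • y = y} : ℂ) * d := by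
        rw [← Finset.sum_filter, Finset.sum_const, nsmul_eq_mul, Nat.card_eq_fintype_card,
          Fintype.card_subtype]
      rw [h4, Fintype.sum_prod_type_right]
      have h7 : ∑ x : ZMod p, ∑ y : Y, (if k • (y, x).1 = (y, x).1 then (d : ℂ) else 0) =
          ∑ x : ZMod p, ((Nat.card {y : Y // k • y = y} : ℂ) * d) := Finset.sum_congr rfl fun _ _ => h6
      rw [h7, Finset.sum_const, Finset.card_univ, ZMod.card, nsmul_eq_mul]
    rw [h3, HG.card_eq] at h1
    have h5 : ρ.character (SemidirectProduct.inr k⁻¹) = conj (ρ.character (SemidirectProduct.inr k)) := by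
      rw [map_inv]
      exact Cfsg.Agent.Lib.Char.Values.IsCharacter.inv hχc (SemidirectProduct.inr k)
    rw [h5, hnd', Nat.cast_mul] at h1
    have h8 := Complex.mul_conj' (ρ.character (SemidirectProduct.inr k))
    have hdeg' : (Nat.card Y : ℂ) = (d : ℂ) ^ 2 := by
      rw [← hdeg, hd]
    rw [hdeg'] at h1
    have h6 : ((Nat.card {y : Y // k • y = y} : ℝ) : ℂ) = ((‖ρ.character (SemidirectProduct.inr k)‖ ^ 2 : ℝ) : ℂ) := by
      push_cast
      have h7 : (p : ℂ) * (d : ℂ) ^ 2 ≠ 0 := mul_ne_zero hp0 (pow_ne_zero _ hd1)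
      apply mul_left_cancel₀ h7
      linear_combination h1 + (p : ℂ) * (d : ℂ) ^ 2 * h8
    exact (Complex.ofReal_injective h6).symm
  · -- the divisibility
    rintro k ⟨y, hy0, hky⟩
    letI : Module (ZMod p) Y := AddCommGroup.zmodModule hpY
    have hsm : ∀ (a : ZMod p) (x : Y), a • x = a.val • x := by
      intro a x
      conv_lhs => rw [← ZMod.natCast_zmod_val a]
      rw [Nat.cast_smul_eq_nsmul]
    have h2ne : (2 : ZMod p) ≠ 0 := by
      have : ((2 : ℕ) : ZMod p) ≠ 0 := by
        rw [Ne, ZMod.natCast_eq_zero_iff]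
        intro h
        exact hp2 ((Nat.prime_dvd_prime_iff_eq hp.out Nat.prime_two).mp h)
      exact_mod_cast this
    have hCC : ∀ x, C x x = 0 := by
      intro x
      have h1 := hskew x x
      have h2 : (2 : ZMod p) * C x x = 0 := by
        linear_combination h1
      exact (mul_eq_zero.mp h2).resolve_left h2ne
    have hlinC : ∀ (a : ZMod p) (x x' : Y), C x (a • x') = a * C x x' := by
      intro a x x'
      rw [hsm, map_nsmul, nsmul_eq_mul, ZMod.natCast_zmod_val]
    have hlinC' : ∀ (a : ZMod p) (x x' : Y), C (a • x) x' = a * C x x' := by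
      intro a x x'
      rw [hskew, hlinC, hskew x x']
      ring
    -- a fixed vector pairing nontrivially with `y`
    obtain ⟨y'', hy''⟩ : ∃ y'', C y y'' ≠ 0 := by
      by_contra h
      push Not at h
      exact hy0 (hnd y h)
    haveI : NeZero (Nat.card K) := ⟨Nat.card_pos.ne'⟩
    obtain ⟨y', hy'f, hy'c⟩ := exists_decomp (m := Nat.card K) hpY hK (fun c : K => pow_card_eq_one') k y''
    have hCy' : C y' y ≠ 0 := by
      obtain ⟨u, hu⟩ := hy'c
      have h1 : C y y'' = C y y' := by
        have h2 : C y (y'' - y') = 0 := by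
          rw [← hu]
          show C y (k • u - u) = 0
          rw [map_sub, sub_eq_zero]
          conv_lhs => rw [← hky]
          exact hinv k y u
        rw [map_sub, sub_eq_zero] at h2
        exact h2
      rw [hskew]
      rw [h1] at hy''
      exact neg_ne_zero.mpr hy''
    -- the homomorphism from `ℤ/p`
    let lin : Multiplicative (ZMod p) →* HG C :=
      { toFun := fun a => ((Multiplicative.toAdd a • y : Y), (0 : ZMod p))
        map_one' := by
          apply ext'
          · show ((0 : ZMod p) • y : Y) = 0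
            exact zero_smul _ _
          · rfl
        map_mul' := fun a b => by
          apply ext'
          · show ((Multiplicative.toAdd a + Multiplicative.toAdd b) • y : Y) =
              Multiplicative.toAdd a • y + Multiplicative.toAdd b • y
            exact add_smul _ _ _
          · show (0 : ZMod p) = 0 + 0 + C (Multiplicative.toAdd a • y) (Multiplicative.toAdd b • y)
            rw [hlinC, hlinC', hCC]
            simp }
    let S : Subgroup K := MulAction.stabilizer K y
    have hkS : k ∈ S := hky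
    have hfixlin : ∀ (c : S) (l : Multiplicative (ZMod p)), actH hinv c.1 (lin l) = lin l := by
      intro c l
      apply ext'
      · show c.1 • (Multiplicative.toAdd l • y) = Multiplicative.toAdd l • y
        rw [hsm]
        have h1 := map_nsmul (DistribMulAction.toAddMonoidHom Y c.1) (Multiplicative.toAdd l).val y
        have h2 : c.1 • y = y := c.2
        have h3 : (DistribMulAction.toAddMonoidHom Y c.1) y = y := h2
        rw [h3] at h1
        exact h1
      · rfl
    let Φ : S × Multiplicative (ZMod p) →* (HG C ⋊[actH hinv] K) :=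
      MonoidHom.noncommCoprod ((SemidirectProduct.inr).comp S.subtype) ((SemidirectProduct.inl).comp lin)
        (fun c l => inr_inl_comm (hfixlin c l))
    have hΦ : ∀ (c : S) (l), Φ (c, l) = SemidirectProduct.inr c.1 * SemidirectProduct.inl (lin l) := fun c l => rfl
    have hsplit := isSplit_of_isCharacter (isCharacter_comp_hom hχc Φ)
    letI : Fintype (Multiplicative (ZMod p)) := Fintype.ofFinite _
    obtain ⟨α, hα, hsum⟩ := avg_of_isSplit hsplit (⟨k, hkS⟩ : S)
    refine ⟨α, hα, ?_⟩
    have hcardL : Nat.card (Multiplicative (ZMod p)) = p := by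
      show Nat.card (ZMod p) = p
      exact Nat.card_zmod p
    rw [hcardL] at hsum
    rw [← hsum]
    -- the values vanish off the identity
    have hvan : ∀ l : Multiplicative (ZMod p), l ≠ 1 →
        χ (SemidirectProduct.inr k * SemidirectProduct.inl (lin l)) = 0 := by
      intro l hl
      have ha : Multiplicative.toAdd l ≠ 0 := fun h => hl (by
        apply Multiplicative.toAdd.injective
        rw [h]
        rfl)
      set a := Multiplicative.toAdd l with hadef
      let f0 : HG C := (y', (0 : ZMod p))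
      let t : ZMod p := 2 * (a * C y' y)
      have ht : t ≠ 0 := mul_ne_zero h2ne (mul_ne_zero ha hCy')
      let z : HG C ⋊[actH hinv] K := SemidirectProduct.inl (zz C (Multiplicative.ofAdd t))
      have hzc : ∀ g, g * z = z * g := by
        intro g
        have h1 : actH hinv g.right (zz C (Multiplicative.ofAdd t)) = zz C (Multiplicative.ofAdd t) := by
          apply ext'
          · show g.right • (0 : Y) = 0
            exact smul_zero _
          · rfl
        have h2 : g = SemidirectProduct.inl g.left * SemidirectProduct.inr g.right :=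
          (SemidirectProduct.inl_left_mul_inr_right g).symm
        rw [h2]
        show _ * SemidirectProduct.inl _ = SemidirectProduct.inl _ * _
        rw [mul_assoc, inr_inl_comm h1, ← mul_assoc, ← map_mul, zz_central, map_mul, mul_assoc]
      have hf0k : actH hinv k f0 = f0 := by
        apply ext'
        · exact hy'f
        · rfl
      set x : HG C ⋊[actH hinv] K := SemidirectProduct.inr k * SemidirectProduct.inl (lin l) with hx
      have hconj : SemidirectProduct.inl f0 * x * (SemidirectProduct.inl f0)⁻¹ = z * x := by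
        have h1 : f0 * lin l * f0⁻¹ = zz C (Multiplicative.ofAdd t) * lin l := by
          rw [conj_eq]
          apply ext'
          · show a • y = 0 + a • y
            rw [zero_add]
          · show (0 : ZMod p) + C y' (a • y) - C (a • y) y' = t + 0 + C 0 (a • y)
            rw [hlinC, hlinC', hskew y y']
            simp only [map_zero, AddMonoidHom.zero_apply, add_zero, zero_add]
            show _ = 2 * (a * C y' y)
            ring
        have h2 : (SemidirectProduct.inl f0 : HG C ⋊[actH hinv] K) * SemidirectProduct.inr k =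
            SemidirectProduct.inr k * SemidirectProduct.inl f0 := (inr_inl_comm hf0k).symm
        calc (SemidirectProduct.inl f0 : HG C ⋊[actH hinv] K) * x * (SemidirectProduct.inl f0)⁻¹ =
            SemidirectProduct.inr k * SemidirectProduct.inl (f0 * lin l * f0⁻¹) := by
              rw [hx, ← mul_assoc, h2, map_mul, map_mul, map_inv]
              group
          _ = SemidirectProduct.inr k * (z * SemidirectProduct.inl (lin l)) := by
              rw [h1, map_mul]
          _ = z * x := by
              rw [hx, ← mul_assoc, hzc (SemidirectProduct.inr k), mul_assoc]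
      have h3 : χ (z * x) = χ x := by
        rw [← hconj]
        exact isClassFunction_of_isCharacter hχc x _
      have h4 := Cfsg.Agent.Lib.Char.SL2Half.central_mul hχ z hzc x
      have h5 : χ z = θ 1 * eps p t := by
        rw [hχE]
        exact hcen t
      rw [h3, h5, hχ1] at h4
      have hd2 : θ 1 ≠ 0 := by
        rw [hd]
        exact hd1
      have h6 : χ x * (1 - eps p t) = 0 := by
        have h7 : θ 1 * (χ x * (1 - eps p t)) = 0 := by
          linear_combination h4
        exact (mul_eq_zero.mp h7).resolve_left hd2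
      rcases mul_eq_zero.mp h6 with h7 | h7
      · exact h7
      · exact absurd (sub_eq_zero.mp h7).symm (eps_ne_one ht)
    rw [Finset.sum_eq_single (1 : Multiplicative (ZMod p))]
    · show _ = χ (SemidirectProduct.inr k * SemidirectProduct.inl (lin 1))
      rw [map_one, map_one, mul_one]
    · intro l _ hl
      exact hvan l hl
    · simp

end Main

section Symp

variable {H : Type u} [Group H] [Finite H] {M : Type v} [AddCommGroup M] [Finite M] [DistribMulAction H M]
variable {m : ℕ} [NeZero m]

/-- The sum-zero functions, as a subgroup. -/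
def YYsub (m : ℕ) [NeZero m] (M : Type v) [AddCommGroup M] : AddSubgroup (ZMod m → M) where
  carrier := {φ | ∑ j, φ j = 0}
  add_mem' := fun {a b} ha hb => by
    show ∑ j, (a j + b j) = 0
    rw [Finset.sum_add_distrib, show ∑ j, a j = 0 from ha, show ∑ j, b j = 0 from hb, add_zero]
  zero_mem' := by
    show ∑ j : ZMod m, (0 : M) = 0
    simp
  neg_mem' := fun {a} ha => by
    show ∑ j, - a j = 0
    rw [Finset.sum_neg_distrib, show ∑ j, a j = 0 from ha, neg_zero]

instance : AddCommGroup (YY m M) := inferInstanceAs (AddCommGroup (YYsub m M))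

@[simp] theorem YY_add_val (x y : YY m M) (j : ZMod m) : (x + y).1 j = x.1 j + y.1 j := rfl
@[simp] theorem YY_zero_val (j : ZMod m) : (0 : YY m M).1 j = 0 := rfl
@[simp] theorem YY_nsmul_val (n : ℕ) (x : YY m M) (j : ZMod m) : (n • x).1 j = n • x.1 j := rfl

instance : DistribMulAction (H × Multiplicative (ZMod m)) (YY m M) :=
  { (inferInstance : MulAction (H × Multiplicative (ZMod m)) (YY m M)) with
    smul_zero := fun g => by
      apply Subtype.ext
      funext j
      show g.1 • (0 : M) = 0
      exact smul_zero _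
    smul_add := fun g x y => by
      apply Subtype.ext
      funext j
      show g.1 • (x.1 _ + y.1 _) = g.1 • x.1 _ + g.1 • y.1 _
      exact smul_add _ _ _ }

variable {p : ℕ}

/-- The form on `YY`. -/
def CY (C : M →+ M →+ ZMod p) : YY m M →+ YY m M →+ ZMod p :=
  AddMonoidHom.mk' (fun x => AddMonoidHom.mk' (fun y => ∑ j, C (x.1 j) (y.1 j)) (by
    intro a b
    simp only [YY_add_val, map_add, Finset.sum_add_distrib])) (by
    intro a b
    ext y
    simp only [AddMonoidHom.mk'_apply, AddMonoidHom.add_apply, YY_add_val, map_add,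
      Finset.sum_add_distrib])

theorem CY_apply (C : M →+ M →+ ZMod p) (x y : YY m M) : CY C x y = ∑ j, C (x.1 j) (y.1 j) := rfl

variable [hp : Fact p.Prime]

theorem CY_nondeg (hpM : ∀ x : M, p • x = 0) (hcop : ¬ p ∣ m) (C : M →+ M →+ ZMod p)
    (hnd : ∀ x, (∀ y, C x y = 0) → x = 0) (x : YY m M) (h : ∀ y, CY C x y = 0) : x = 0 := by
  classical
  have hconst : ∀ i, x.1 i = x.1 0 := by
    intro i
    rw [← sub_eq_zero]
    apply hnd
    intro w
    let φ : ZMod m → M := fun j => (if j = i then w else 0) - (if j = 0 then w else 0)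
    have hφ : ∑ j, φ j = 0 := by
      simp only [φ, Finset.sum_sub_distrib, Finset.sum_ite_eq', Finset.mem_univ, if_true, sub_self]
    have h1 : ∑ j, C (x.1 j) (φ j) = 0 := h ⟨φ, hφ⟩
    have h2 : ∀ j, C (x.1 j) (φ j) = (if j = i then C (x.1 j) w else 0) - (if j = 0 then C (x.1 j) w else 0) := by
      intro j
      simp only [φ, map_sub]
      congr 1 <;> split_ifs <;> simp
    simp only [h2, Finset.sum_sub_distrib, Finset.sum_ite_eq', Finset.mem_univ, if_true] at h1
    rw [map_sub, AddMonoidHom.sub_apply]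
    exact h1
  obtain ⟨m', hm'⟩ := exists_cancel (M := M) (m := m) hpM hcop
  have hsum : m • x.1 0 = 0 := by
    have h1 := x.2
    simp only [hconst] at h1
    rw [Finset.sum_const, Finset.card_univ, ZMod.card] at h1
    exact h1
  apply Subtype.ext
  funext j
  rw [hconst, YY_zero_val, ← hm' (x.1 0), hsum, smul_zero]

/-- **Weil data from an invariant symplectic form, in odd characteristic.** -/
theorem hasWeil_symp (hp2 : p ≠ 2) (hpM : ∀ x : M, p • x = 0) (hH : ¬ p ∣ Nat.card H)
    (C : M →+ M →+ ZMod p) (hskew : ∀ x y, C x y = - C y x)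
    (hinv : ∀ (c : H) x y, C (c • x) (c • y) = C x y) (hnd : ∀ x, (∀ y, C x y = 0) → x = 0) :
    HasWeil p H (wt M) := by
  classical
  set m := Nat.card H with hmdef
  haveI : NeZero m := ⟨Nat.card_pos.ne'⟩
  have hm : ∀ c : H, c ^ m = 1 := fun c => pow_card_eq_one'
  have hcardL : Nat.card (Multiplicative (ZMod m)) = m := by
    show Nat.card (ZMod m) = m
    exact Nat.card_zmod m
  have hK : ¬ p ∣ Nat.card (H × Multiplicative (ZMod m)) := by
    rw [Nat.card_prod, hcardL]
    intro h
    rcases (Nat.Prime.dvd_mul hp.out).mp h with h | h <;> exact hH h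
  obtain ⟨χ, hχ, hnorm, hdiv⟩ := exists_weil_char (Y := YY m M) (K := H × Multiplicative (ZMod m))
    (C := CY C) hp2 (fun y => by
      apply Subtype.ext
      funext j
      exact hpM _) hK (fun x y => by
      rw [CY_apply, CY_apply, ← Finset.sum_neg_distrib]
      exact Finset.sum_congr rfl fun j _ => hskew _ _) (fun g x y => by
      rw [CY_apply, CY_apply]
      simp only [YY_smul_apply, hinv]
      exact Equiv.sum_comp (Equiv.subRight (Multiplicative.toAdd g.2)) (fun j => C (x.1 j) (y.1 j)))
    (CY_nondeg hpM hH C hnd)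
  have hsp := isSplit_of_isCharacter hχ
  refine ⟨Multiplicative (ZMod m), inferInstance, inferInstance, Multiplicative.ofAdd 1, _, hsp, ?_, ?_⟩
  · intro c u hu
    rw [hcardL] at hu
    have h1 : (Multiplicative.ofAdd (1 : ZMod m)) ^ u = Multiplicative.ofAdd (u : ZMod m) := by
      rw [← ofAdd_nsmul]
      simp
    rw [h1, hnorm]
    have h2 := Nat.card_congr (fixEquiv (m := m) hpM hH hm c (ZMod.coe_mul_inv_eq_one u hu))
    rw [h2]
    rfl
  · intro I hI c hc
    have hex : ∃ x : comm M c, x.1 ≠ 0 := by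
      by_contra hcon
      push Not at hcon
      apply hc
      show Nat.card (comm M c) = 1
      rw [Nat.card_eq_one_iff_unique]
      refine ⟨⟨fun a b => Subtype.ext ((hcon a).trans (hcon b).symm)⟩, ⟨0⟩⟩
    obtain ⟨x, hx⟩ := hex
    have htt : (1 : ZMod m) * 1 = 1 := one_mul 1
    let e := fixEquiv (m := m) hpM hH hm c htt
    have hy : (e.symm x).1 ≠ 0 := by
      intro h0
      apply hx
      have h1 : e (e.symm x) = x := e.apply_symm_apply x
      have h2 : (e (e.symm x)).1 = (e.symm x).1.1 0 := rfl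
      rw [← h1, h2, h0]
      rfl
    obtain ⟨α, hα, hχα⟩ := hdiv (c, Multiplicative.ofAdd 1) ⟨(e.symm x).1, hy, (e.symm x).2⟩
    show InM I (χ (c, Multiplicative.ofAdd 1))
    rw [hχα]
    refine ⟨(p : AlgInt) * ⟨α, hα⟩, I.mul_mem_right _ hI.2.2, ?_⟩
    simp

end Symp

end Cfsg.Agent.Lib.Char.RVD
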