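import Mathlib
import Cfsg.Agent.Lib.Char.RVD

/-!
# Weil data from an invariant bi-additive form: sections of a module with a form
-/

set_option autoImplicit false
set_option linter.style.haveILetI false
set_option linter.unusedSectionVars false
set_option linter.deprecated false

namespace Cfsg.Agent.Lib.Char.RVE

open Cfsg Cfsg.Agent.Lib.Char.RVA Cfsg.Agent.Lib.Char.RVB Cfsg.Agent.Lib.Char.RVC
open Cfsg.Agent.Lib.Char.RVD

universe u v

section Two

variable {M : Type v} [AddCommGroup M] [Finite M]

/-- An alternating form over `𝔽₂` is the polar form of a quadratic function. -/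
theorem exists_polar_two (hM : ∀ x : M, 2 • x = 0) (b : M →+ M →+ ZMod 2) (halt : ∀ x, b x x = 0) :
    ∃ q₀ : M → ZMod 2, ∀ x y, q₀ (x + y) = q₀ x + q₀ y + b x y := by
  classical
  letI : Module (ZMod 2) M := AddCommGroup.zmodModule hM
  haveI : Module.Finite (ZMod 2) M := Module.Finite.of_finite
  have hsm : ∀ (a : ZMod 2) (x : M), a • x = a.val • x := by
    intro a x
    conv_lhs => rw [← ZMod.natCast_zmod_val a]
    rw [Nat.cast_smul_eq_nsmul]
  have hlin : ∀ (f : M →+ ZMod 2) (a : ZMod 2) (x : M), f (a • x) = a * f x := by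
    intro f a x
    rw [hsm, map_nsmul, nsmul_eq_mul, ZMod.natCast_zmod_val]
  let e := Module.finBasis (ZMod 2) M
  have hsym : ∀ x y, b x y = b y x := by
    intro x y
    have h1 := halt (x + y)
    simp only [map_add, AddMonoidHom.add_apply, halt] at h1
    have h2 : ∀ a : ZMod 2, a + a = 0 := by decide
    have h3 : b y x + b x y = 0 := by simpa using h1
    have h4 := h2 (b y x)
    calc b x y = b x y + (b y x + b y x) := by rw [h4, add_zero]
      _ = (b y x + b x y) + b y x := by ring
      _ = b y x := by rw [h3, zero_add]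
  have hexp : ∀ x y, b x y = ∑ i, ∑ j, e.repr x i * e.repr y j * b (e i) (e j) := by
    intro x y
    have h1 : ∀ z : M, ∑ i, e.repr z i • e i = z := fun z => e.sum_repr z
    have s1 : ∀ z, b x z = ∑ i, e.repr x i * b (e i) z := by
      intro z
      have h2 : b x z = b.flip z x := rfl
      rw [h2]
      conv_lhs => rw [← h1 x]
      rw [map_sum]
      refine Finset.sum_congr rfl fun i _ => ?_
      rw [hlin]
      rfl
    have s2 : ∀ u, b u y = ∑ j, e.repr y j * b u (e j) := by
      intro u
      conv_lhs => rw [← h1 y]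
      rw [map_sum]
      refine Finset.sum_congr rfl fun j _ => ?_
      rw [hlin]
    rw [s1]
    refine Finset.sum_congr rfl fun i _ => ?_
    rw [s2, Finset.mul_sum]
    refine Finset.sum_congr rfl fun j _ => ?_
    ring
  refine ⟨fun x => ∑ i, ∑ j, if i < j then e.repr x i * e.repr x j * b (e i) (e j) else 0, fun x y => ?_⟩
  have h2 : ∀ a : ZMod 2, a + a = 0 := by decide
  have hterm : ∀ i j, (if i < j then e.repr (x + y) i * e.repr (x + y) j * b (e i) (e j) else 0) =
      (if i < j then e.repr x i * e.repr x j * b (e i) (e j) else 0) +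
      (if i < j then e.repr y i * e.repr y j * b (e i) (e j) else 0) +
      ((if i < j then e.repr x i * e.repr y j * b (e i) (e j) else 0) +
       (if i < j then e.repr y i * e.repr x j * b (e i) (e j) else 0)) := by
    intro i j
    split_ifs
    · simp only [map_add, Finsupp.add_apply]
      ring
    · simp
  simp only [hterm, Finset.sum_add_distrib]
  congr 1
  rw [hexp x y]
  have hswap : ∑ i, ∑ j, (if i < j then e.repr y i * e.repr x j * b (e i) (e j) else 0) =
      ∑ i, ∑ j, (if j < i then e.repr x i * e.repr y j * b (e i) (e j) else 0) := by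
    rw [Finset.sum_comm]
    refine Finset.sum_congr rfl fun i _ => Finset.sum_congr rfl fun j _ => ?_
    split_ifs
    · rw [hsym (e j) (e i)]
      ring
    · rfl
  rw [hswap, ← Finset.sum_add_distrib]
  refine Finset.sum_congr rfl fun i _ => ?_
  rw [← Finset.sum_add_distrib]
  refine Finset.sum_congr rfl fun j _ => ?_
  rcases lt_trichotomy i j with h | h | h
  · rw [if_pos h, if_neg (not_lt_of_gt h), add_zero]
  · subst h
    rw [if_neg (lt_irrefl _), add_zero, halt]
    simp
  · rw [if_neg (not_lt_of_gt h), if_pos h, zero_add]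

variable {H : Type u} [Group H] [Finite H] [DistribMulAction H M]

/-- Averaging over a group of odd order gives an invariant quadratic function. -/
theorem exists_inv_quad_two (hM : ∀ x : M, 2 • x = 0) (hH : ¬ 2 ∣ Nat.card H) (b : M →+ M →+ ZMod 2)
    (hbinv : ∀ (c : H) x y, b (c • x) (c • y) = b x y) (halt : ∀ x, b x x = 0) :
    ∃ q : M → ZMod 2, (∀ x y, q (x + y) = q x + q y + b x y) ∧ ∀ (c : H) x, q (c • x) = q x := by
  classical
  letI : Fintype H := Fintype.ofFinite _
  obtain ⟨q₀, hq₀⟩ := exists_polar_two hM b halt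
  refine ⟨fun x => ∑ c : H, q₀ (c • x), fun x y => ?_, fun c x => ?_⟩
  · have h1 : ∀ c : H, q₀ (c • (x + y)) = q₀ (c • x) + q₀ (c • y) + b x y := by
      intro c
      rw [smul_add, hq₀, hbinv]
    simp only [h1, Finset.sum_add_distrib]
    congr 1
    rw [Finset.sum_const, Finset.card_univ, ← Nat.card_eq_fintype_card, nsmul_eq_mul]
    have h2 : ((Nat.card H : ℕ) : ZMod 2) = 1 := by
      rw [ZMod.natCast_eq_one_iff_odd]
      exact Nat.odd_iff.mpr (by omega)
    rw [h2, one_mul]
  · show ∑ d : H, q₀ (d • c • x) = ∑ d : H, q₀ (d • x)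
    simp_rw [← mul_smul]
    exact Equiv.sum_comp (Equiv.mulRight c) (fun d => q₀ (d • x))

variable {p : ℕ} [hp : Fact p.Prime]

/-- Weil data from an alternating invariant nondegenerate form. -/
theorem hasWeil_alt (hpM : ∀ x : M, p • x = 0) (hH : ¬ p ∣ Nat.card H) (C : M →+ M →+ ZMod p)
    (halt : ∀ x, C x x = 0) (hinv : ∀ (c : H) x y, C (c • x) (c • y) = C x y)
    (hnd : ∀ x, (∀ y, C x y = 0) → x = 0) : HasWeil p H (wt M) := by
  by_cases hp2 : p = 2
  · subst hp2
    obtain ⟨q, hq, hqinv⟩ := exists_inv_quad_two hpM hH C hinv halt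
    exact hasWeil_quad hpM hH q C hq hqinv hnd
  · refine hasWeil_symp hp2 hpM hH C (fun x y => ?_) hinv hnd
    have h1 := halt (x + y)
    simp only [map_add, AddMonoidHom.add_apply, halt, zero_add, add_zero] at h1
    exact eq_neg_of_add_eq_zero_right h1

/-- Weil data from a symmetric invariant nondegenerate form in odd characteristic. -/
theorem hasWeil_sym (hp2 : p ≠ 2) (hpM : ∀ x : M, p • x = 0) (hH : ¬ p ∣ Nat.card H)
    (C : M →+ M →+ ZMod p) (hsym : ∀ x y, C x y = C y x)
    (hinv : ∀ (c : H) x y, C (c • x) (c • y) = C x y)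
    (hnd : ∀ x, (∀ y, C x y = 0) → x = 0) : HasWeil p H (wt M) := by
  have h2ne : (2 : ZMod p) ≠ 0 := by
    have : ((2 : ℕ) : ZMod p) ≠ 0 := by
      rw [Ne, ZMod.natCast_eq_zero_iff]
      intro h
      exact hp2 ((Nat.prime_dvd_prime_iff_eq hp.out Nat.prime_two).mp h)
    exact_mod_cast this
  refine hasWeil_quad hpM hH (fun x => (2 : ZMod p)⁻¹ * C x x) C (fun x y => ?_) (fun c x => ?_) hnd
  · simp only [map_add, AddMonoidHom.add_apply]
    rw [hsym y x]
    field_simp
    ring
  · simp only [hinv]

end Two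

section Section

variable {H : Type u} [Group H] [Finite H] {A : Type v} [AddCommGroup A] [Finite A] [DistribMulAction H A]
variable {p : ℕ} [hp : Fact p.Prime]

/-- The left radical of a form. -/
def radS (b : A →+ A →+ ZMod p) : AddSubgroup A where
  carrier := {x | ∀ y, b x y = 0}
  add_mem' := fun {a c} ha hc y => by
    show b (a + c) y = 0
    rw [map_add, AddMonoidHom.add_apply, ha y, hc y, add_zero]
  zero_mem' := fun y => by
    show b 0 y = 0
    simp
  neg_mem' := fun {a} ha y => by
    show b (-a) y = 0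
    rw [map_neg, AddMonoidHom.neg_apply, ha y, neg_zero]

theorem mem_radS {b : A →+ A →+ ZMod p} {x : A} : x ∈ radS b ↔ ∀ y, b x y = 0 := Iff.rfl

/-- The action on the quotient by a stable subgroup. -/
def quotAct (S : AddSubgroup A) (hS : ∀ (c : H) x, x ∈ S → c • x ∈ S) : DistribMulAction H (A ⧸ S) where
  smul c := QuotientAddGroup.map S S (DistribMulAction.toAddMonoidHom A c) (fun x hx => hS c x hx)
  one_smul z := by
    induction z using QuotientAddGroup.induction_on with
    | H x =>
      show ((((1 : H) • x : A)) : A ⧸ S) = x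
      rw [one_smul]
  mul_smul a b z := by
    induction z using QuotientAddGroup.induction_on with
    | H x =>
      show (((a * b) • x : A) : A ⧸ S) = ((a • b • x : A) : A ⧸ S)
      rw [mul_smul]
  smul_zero c := map_zero _
  smul_add c x y := map_add _ x y

/-- The form induced on the quotient by the radical. -/
def barForm (b : A →+ A →+ ZMod p) (hrefl : ∀ x y, b x y = 0 → b y x = 0) :
    (A ⧸ radS b) →+ (A ⧸ radS b) →+ ZMod p :=
  QuotientAddGroup.lift (radS b)
    (AddMonoidHom.mk' (fun x => QuotientAddGroup.lift (radS b) (b x) (fun r hr => hrefl _ _ (hr x))) (by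
      intro a a'
      apply QuotientAddGroup.addMonoidHom_ext
      ext z
      show b (a + a') z = b a z + b a' z
      rw [map_add, AddMonoidHom.add_apply]))
    (fun r hr => by
      apply QuotientAddGroup.addMonoidHom_ext
      ext z
      exact hr z)

theorem barForm_mk (b : A →+ A →+ ZMod p) (hrefl : ∀ x y, b x y = 0 → b y x = 0) (x y : A) :
    barForm b hrefl (x : A ⧸ radS b) (y : A ⧸ radS b) = b x y := rfl

/-- Weil data for the quotient of a module with a form by the radical. -/
theorem hasWeil_section (hpA : ∀ x : A, p • x = 0) (hH : ¬ p ∣ Nat.card H) (b : A →+ A →+ ZMod p)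
    (hbinv : ∀ (c : H) x y, b (c • x) (c • y) = b x y)
    (hform : (∀ x, b x x = 0) ∨ (p ≠ 2 ∧ ∀ x y, b x y = b y x)) :
    HasWeil p H (fun c => Nat.card ↥((comm A c).map (QuotientAddGroup.mk' (radS b)))) := by
  have hrefl : ∀ x y, b x y = 0 → b y x = 0 := by
    intro x y hxy
    rcases hform with h | ⟨-, h⟩
    · have h1 := h (x + y)
      simp only [map_add, AddMonoidHom.add_apply, h, zero_add, add_zero, hxy] at h1
      exact h1
    · rw [← h, hxy]
  have hR : ∀ (c : H) x, x ∈ radS b → c • x ∈ radS b := by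
    intro c x hx y
    have h1 := hbinv c x (c⁻¹ • y)
    rw [smul_inv_smul] at h1
    rw [h1]
    exact hx _
  letI := quotAct (H := H) (radS b) hR
  have hM : ∀ z : A ⧸ radS b, p • z = 0 := by
    intro z
    induction z using QuotientAddGroup.induction_on with
    | H x =>
      have h1 : p • (x : A ⧸ radS b) = ((p • x : A) : A ⧸ radS b) := rfl
      rw [h1, hpA]
      rfl
  have hinvb : ∀ (c : H) (x y : A ⧸ radS b), barForm b hrefl (c • x) (c • y) = barForm b hrefl x y := by
    intro c x y
    induction x using QuotientAddGroup.induction_on with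
    | H x =>
      induction y using QuotientAddGroup.induction_on with
      | H y => exact hbinv c x y
  have hndb : ∀ x : A ⧸ radS b, (∀ y, barForm b hrefl x y = 0) → x = 0 := by
    intro x hx
    induction x using QuotientAddGroup.induction_on with
    | H x =>
      rw [QuotientAddGroup.eq_zero_iff]
      intro y
      exact hx (y : A ⧸ radS b)
  have key : HasWeil p H (wt (A ⧸ radS b)) := by
    rcases hform with h | ⟨hp2, h⟩
    · refine hasWeil_alt hM hH (barForm b hrefl) (fun x => ?_) hinvb hndb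
      induction x using QuotientAddGroup.induction_on with
      | H x => exact h x
    · refine hasWeil_sym hp2 hM hH (barForm b hrefl) (fun x y => ?_) hinvb hndb
      induction x using QuotientAddGroup.induction_on with
      | H x =>
        induction y using QuotientAddGroup.induction_on with
        | H y => exact h x y
  have hcomm : ∀ c : H, comm (A ⧸ radS b) c = (comm A c).map (QuotientAddGroup.mk' (radS b)) := by
    intro c
    ext z
    constructor
    · rintro ⟨y, rfl⟩
      induction y using QuotientAddGroup.induction_on with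
      | H y => exact ⟨c • y - y, ⟨y, rfl⟩, rfl⟩
    · rintro ⟨_, ⟨y, rfl⟩, rfl⟩
      exact ⟨(y : A ⧸ radS b), rfl⟩
  have heq : (fun c : H => Nat.card ↥((comm A c).map (QuotientAddGroup.mk' (radS b)))) = wt (A ⧸ radS b) := by
    funext c
    rw [wt, hcomm]
  rw [heq]
  exact key

/-- Order of a subgroup, its image and the kernel. -/
theorem card_map_mul_inf {B : Type*} [AddCommGroup B] (S : AddSubgroup A) (f : A →+ B) :
    Nat.card ↥(S.map f) * Nat.card ↥(S ⊓ f.ker) = Nat.card S := by
  let g : S →+ B := f.comp S.subtype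
  have h1 : g.range = S.map f := by
    rw [AddMonoidHom.range_comp, AddSubgroup.range_subtype]
  have h2 : Nat.card g.ker = Nat.card ↥(S ⊓ f.ker) :=
    Nat.card_congr
      { toFun := fun x => ⟨x.1.1, x.1.2, x.2⟩
        invFun := fun x => ⟨⟨x.1, x.2.1⟩, x.2.2⟩
        left_inv := fun _ => rfl
        right_inv := fun _ => rfl }
  have h3 := AddSubgroup.card_mul_index g.ker
  rw [AddSubgroup.index_ker, h1, h2] at h3
  rw [mul_comm]
  exact h3

/-- The action on a stable subgroup. -/
def subAct (K : AddSubgroup A) (hK : ∀ (c : H) x, x ∈ K → c • x ∈ K) : DistribMulAction H K where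
  smul c x := ⟨c • x.1, hK c x.1 x.2⟩
  one_smul x := Subtype.ext (one_smul _ _)
  mul_smul a b x := Subtype.ext (mul_smul _ _ _)
  smul_zero c := Subtype.ext (smul_zero _)
  smul_add c x y := Subtype.ext (smul_add _ _ _)

/-- The antisymmetrization of a form. -/
def altF (β : A →+ A →+ ZMod p) : A →+ A →+ ZMod p := β - β.flip

theorem altF_apply (β : A →+ A →+ ZMod p) (x y : A) : altF β x y = β x y - β y x := rfl

/-- An element of `H` of order prime to `p` which is unipotent on `A` is trivial. -/
theorem trivial_of_cube (hpA : ∀ x : A, p • x = 0) (hH : ¬ p ∣ Nat.card H) (c : H)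
    (h : ∀ x : A, c • (c • (c • x - x) - (c • x - x)) - (c • (c • x - x) - (c • x - x)) = 0) (x : A) :
    c • x = x := by
  have hsq : ∀ w : A, c • (c • w - w) = c • w - w → c • w = w := by
    intro w hw
    set y := c • w - w with hy
    have hpow : ∀ n : ℕ, c ^ n • w = w + n • y := by
      intro n
      induction n with
      | zero => simp
      | succ n ih =>
        rw [pow_succ', mul_smul, ih, smul_add, succ_nsmul]
        have h1 : c • (n • y) = n • y := by
          have h2 := map_nsmul (DistribMulAction.toAddMonoidHom A c) n y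
          have h3 : (DistribMulAction.toAddMonoidHom A c) y = y := hw
          rw [h3] at h2
          exact h2
        rw [h1, hy]
        abel
    haveI : NeZero (Nat.card H) := ⟨Nat.card_pos.ne'⟩
    obtain ⟨m', hm'⟩ := exists_cancel (M := A) (m := Nat.card H) hpA hH
    have h4 := hpow (Nat.card H)
    rw [pow_card_eq_one', one_smul] at h4
    have h5 : Nat.card H • y = 0 := by
      have : w + Nat.card H • y = w + 0 := by rw [← h4, add_zero]
      exact add_left_cancel this
    have h6 : y = 0 := by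
      rw [← hm' y, h5, smul_zero]
    exact sub_eq_zero.mp h6
  apply hsq
  apply hsq
  exact sub_eq_zero.mp (h x)

/-- The core of the reduction. -/
theorem exists_weight_of_K (hpA : ∀ x : A, p • x = 0) (hH : ¬ p ∣ Nat.card H) (β : A →+ A →+ ZMod p)
    (hinv : ∀ (c : H) x y, β (c • x) (c • y) = β x y) (hnd : ∀ x, (∀ y, β x y = 0) → x = 0)
    (hfaith : ∀ c : H, (∀ x : A, c • x = x) → c = 1)
    (K : AddSubgroup A) (hKR : K ≤ radS (altF β)) (hKinv : ∀ (c : H) x, x ∈ K → c • x ∈ K)
    (hKu : ∀ c : H, (∀ x : A, c • x - x ∈ radS (altF β)) → ∀ x : A, c • x - x ∈ K)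
    (hform : (∀ x ∈ K, β x x = 0) ∨ p ≠ 2) :
    ∃ W : H → ℕ, HasWeil p H W ∧ W 1 = 1 ∧ (∀ c, c ≠ 1 → W c ≠ 1) ∧ ∀ c, W c ≤ wt A c := by
  classical
  have hαinv : ∀ (c : H) x y, altF β (c • x) (c • y) = altF β x y := by
    intro c x y
    rw [altF_apply, altF_apply, hinv, hinv]
  have hαalt : ∀ x, altF β x x = 0 := fun x => by rw [altF_apply, sub_self]
  have hRsym : ∀ x ∈ radS (altF β), ∀ y, β x y = β y x := by
    intro x hx y
    have h1 := hx y
    rw [altF_apply] at h1
    exact sub_eq_zero.mp h1
  have h1W := hasWeil_section hpA hH (altF β) hαinv (Or.inl hαalt)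
  letI := subAct (H := H) K hKinv
  let bK : K →+ K →+ ZMod p :=
    AddMonoidHom.mk' (fun x => (β x.1).comp K.subtype) (by
      intro a a'
      ext z
      show β (a.1 + a'.1) z.1 = β a.1 z.1 + β a'.1 z.1
      rw [map_add, AddMonoidHom.add_apply])
  have hbK : ∀ x y : K, bK x y = β x.1 y.1 := fun _ _ => rfl
  have hpK : ∀ x : K, p • x = 0 := fun x => Subtype.ext (hpA x.1)
  have h2W : HasWeil p H (fun c => Nat.card ↥((comm K c).map (QuotientAddGroup.mk' (radS bK)))) := by
    refine hasWeil_section hpK hH bK (fun c x y => hinv c x.1 y.1) ?_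
    rcases hform with h | h
    · exact Or.inl fun x => h x.1 x.2
    · exact Or.inr ⟨h, fun x y => hRsym x.1 (hKR x.2) y.1⟩
  have hle : ∀ c : H, Nat.card ↥((comm A c).map (QuotientAddGroup.mk' (radS (altF β)))) *
      Nat.card ↥((comm K c).map (QuotientAddGroup.mk' (radS bK))) ≤ wt A c := by
    intro c
    have h3 := card_map_mul_inf (comm A c) (QuotientAddGroup.mk' (radS (altF β)))
    rw [QuotientAddGroup.ker_mk'] at h3
    have h4 := card_map_mul_inf (comm K c) (QuotientAddGroup.mk' (radS bK))
    have h5 : Nat.card ↥((comm K c).map (QuotientAddGroup.mk' (radS bK))) ≤ Nat.card (comm K c) := by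
      rw [← h4]
      exact Nat.le_mul_of_pos_right _ Nat.card_pos
    have h6 : Nat.card (comm K c) ≤ Nat.card ↥(comm A c ⊓ radS (altF β)) := by
      refine Nat.card_le_card_of_injective
        (fun x => (⟨x.1.1, ?_, hKR x.1.2⟩ : ↥(comm A c ⊓ radS (altF β)))) ?_
      · obtain ⟨y, hy⟩ := x.2
        exact ⟨y.1, congrArg Subtype.val hy⟩
      · intro a b hab
        apply Subtype.ext
        apply Subtype.ext
        have h7 := Subtype.ext_iff.mp hab
        exact h7
    show _ ≤ Nat.card (comm A c)
    rw [← h3]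
    exact Nat.mul_le_mul_left _ (h5.trans h6)
  have hzero : ∀ {B : Type v} [AddCommGroup B] (T : AddSubgroup B) (_ : Nat.card T = 1) (z : B), z ∈ T → z = 0 := by
    intro B _ T hT z hz
    obtain ⟨h1, -⟩ := Nat.card_eq_one_iff_unique.mp hT
    have := h1.elim (⟨z, hz⟩ : T) 0
    exact congrArg Subtype.val this
  refine ⟨_, h1W.mul h2W, ?_, ?_, hle⟩
  · have h1 := hle 1
    rw [wt_one] at h1
    have h2 : 0 < Nat.card ↥((comm A (1 : H)).map (QuotientAddGroup.mk' (radS (altF β)))) *
        Nat.card ↥((comm K (1 : H)).map (QuotientAddGroup.mk' (radS bK))) :=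
      Nat.mul_pos Nat.card_pos Nat.card_pos
    exact le_antisymm h1 h2
  · intro c hc hW
    apply hc
    have hW1 := Nat.eq_one_of_mul_eq_one_right hW
    have hW2 := Nat.eq_one_of_mul_eq_one_left hW
    have hu : ∀ x : A, c • x - x ∈ radS (altF β) := by
      intro x
      have h1 := hzero _ hW1 _ (⟨c • x - x, ⟨x, rfl⟩, rfl⟩ :
        (QuotientAddGroup.mk' (radS (altF β)) (c • x - x)) ∈
          (comm A c).map (QuotientAddGroup.mk' (radS (altF β))))
      exact (QuotientAddGroup.eq_zero_iff _).mp h1
    have hK' := hKu c hu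
    have hT : ∀ x : K, c • x - x ∈ radS bK := by
      intro x
      have h1 := hzero _ hW2 _ (⟨c • x - x, ⟨x, rfl⟩, rfl⟩ :
        (QuotientAddGroup.mk' (radS bK) (c • x - x)) ∈
          (comm K c).map (QuotientAddGroup.mk' (radS bK)))
      exact (QuotientAddGroup.eq_zero_iff _).mp h1
    have hfix : ∀ t : K, t ∈ radS bK → c • t.1 = t.1 := by
      intro t ht
      apply sub_eq_zero.mp
      apply hnd
      intro y
      have h1 := hinv c t.1 y
      have hu' : c • y - y ∈ K := hK' y
      have h2 := hinv c t.1 (c⁻¹ • (c • y - y))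
      rw [smul_inv_smul] at h2
      have h3 : β t.1 (c⁻¹ • (c • y - y)) = 0 :=
        ht ⟨c⁻¹ • (c • y - y), hKinv _ _ hu'⟩
      rw [h3] at h2
      rw [map_sub, AddMonoidHom.sub_apply]
      rw [map_sub] at h2
      rw [← h1]
      rw [sub_eq_zero] at h2 ⊢
      exact h2.symm
    apply hfaith
    apply trivial_of_cube hpA hH
    intro x
    rw [sub_eq_zero]
    exact hfix (c • ⟨c • x - x, hK' x⟩ - ⟨c • x - x, hK' x⟩) (hT _)

theorem zmod2_add_self : ∀ a : ZMod 2, a + a = 0 := by decide

/-- **The reduction.** An invariant nondegenerate form on a faithful module gives Weil data. -/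
theorem exists_weight (hpA : ∀ x : A, p • x = 0) (hH : ¬ p ∣ Nat.card H) (β : A →+ A →+ ZMod p)
    (hinv : ∀ (c : H) x y, β (c • x) (c • y) = β x y) (hnd : ∀ x, (∀ y, β x y = 0) → x = 0)
    (hfaith : ∀ c : H, (∀ x : A, c • x = x) → c = 1) :
    ∃ W : H → ℕ, HasWeil p H W ∧ W 1 = 1 ∧ (∀ c, c ≠ 1 → W c ≠ 1) ∧ ∀ c, W c ≤ wt A c := by
  have hαinv : ∀ (c : H) x y, altF β (c • x) (c • y) = altF β x y := by
    intro c x y
    rw [altF_apply, altF_apply, hinv, hinv]
  have hRinv : ∀ (c : H) x, x ∈ radS (altF β) → c • x ∈ radS (altF β) := by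
    intro c x hx y
    have h1 := hαinv c x (c⁻¹ • y)
    rw [smul_inv_smul] at h1
    rw [h1]
    exact hx _
  by_cases hp2 : p = 2
  · subst hp2
    have h2 : ∀ a : ZMod 2, a + a = 0 := zmod2_add_self
    have hRsym : ∀ x ∈ radS (altF β), ∀ y, β x y = β y x := by
      intro x hx y
      have h1 := hx y
      rw [altF_apply] at h1
      exact sub_eq_zero.mp h1
    have hqadd : ∀ x ∈ radS (altF β), ∀ y, β (x + y) (x + y) = β x x + β y y := by
      intro x hx y
      simp only [map_add, AddMonoidHom.add_apply]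
      rw [hRsym x hx y]
      have h3 := h2 (β y x)
      linear_combination h3
    let K : AddSubgroup A :=
      { carrier := {x | x ∈ radS (altF β) ∧ β x x = 0}
        add_mem' := fun {a b} ha hb => ⟨(radS (altF β)).add_mem ha.1 hb.1, by
          rw [hqadd a ha.1, ha.2, hb.2, add_zero]⟩
        zero_mem' := ⟨(radS (altF β)).zero_mem, by simp⟩
        neg_mem' := fun {a} ha => ⟨(radS (altF β)).neg_mem ha.1, by
          simp only [map_neg, AddMonoidHom.neg_apply, neg_neg]
          exact ha.2⟩ }
    refine exists_weight_of_K hpA hH β hinv hnd hfaith K (fun x hx => hx.1)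
      (fun c x hx => ⟨hRinv c x hx.1, by rw [hinv]; exact hx.2⟩) ?_ (Or.inl fun x hx => hx.2)
    intro c hu x
    refine ⟨hu x, ?_⟩
    -- write `c x - x` as `c r - r` with `r` in the radical
    haveI : NeZero (Nat.card H) := ⟨Nat.card_pos.ne'⟩
    obtain ⟨w, hw, u, hu'⟩ := exists_decomp (m := Nat.card H) hpA hH (fun c : H => pow_card_eq_one') c x
    have hu'' : c • u - u = x - w := hu'
    set r := c • u - u with hr
    have hrR : r ∈ radS (altF β) := hu u
    have h3 : c • x - x = c • r - r := by
      have h4 : x = r + w := by rw [hu'']; abel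
      rw [h4, smul_add, hw]
      abel
    rw [h3]
    have h5 : β (c • r - r) (c • r - r) = β (c • r) (c • r) + β r r - (β (c • r) r + β r (c • r)) := by
      simp only [map_sub, AddMonoidHom.sub_apply]
      ring
    rw [h5, hinv, hRsym r hrR (c • r), h2, h2, sub_zero]
  · exact exists_weight_of_K hpA hH β hinv hnd hfaith (radS (altF β)) le_rfl hRinv (fun c h => h)
      (Or.inr hp2)

end Section

section Final

variable {X : Type u} [Group X] [Finite X]

/-- The commutator map on an abelian normal subgroup: kernel times image. -/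
theorem exists_comm_hom (V : Subgroup X) [hVn : V.Normal] (hVab : ∀ a ∈ V, ∀ b ∈ V, a * b = b * a) (c : X) :
    ∃ g : ↥V →* ↥V, (∀ a, (g a : X) = c * a * c⁻¹ * (a : X)⁻¹) ∧
      Nat.card g.range * Nat.card ↥(V ⊓ Subgroup.centralizer ({c} : Set X)) = Nat.card V := by
  let g : ↥V →* ↥V :=
    { toFun := fun a => ⟨c * a * c⁻¹ * (a : X)⁻¹, V.mul_mem (hVn.conj_mem a a.2 c) (V.inv_mem a.2)⟩
      map_one' := by
        apply Subtype.ext
        simp
      map_mul' := fun a b => by
        apply Subtype.ext
        show c * ((a : X) * b) * c⁻¹ * ((a : X) * b)⁻¹ =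
          (c * a * c⁻¹ * (a : X)⁻¹) * (c * b * c⁻¹ * (b : X)⁻¹)
        have h1 : (a : X)⁻¹ * (c * b * c⁻¹) = (c * b * c⁻¹) * (a : X)⁻¹ :=
          hVab _ (V.inv_mem a.2) _ (hVn.conj_mem b b.2 c)
        have h2 : ((a : X) * b)⁻¹ = (a : X)⁻¹ * (b : X)⁻¹ := by
          rw [mul_inv_rev]
          exact hVab _ (V.inv_mem b.2) _ (V.inv_mem a.2)
        rw [h2]
        calc c * ((a : X) * b) * c⁻¹ * ((a : X)⁻¹ * (b : X)⁻¹) =
            (c * a * c⁻¹) * ((c * b * c⁻¹) * (a : X)⁻¹) * (b : X)⁻¹ := by group
          _ = (c * a * c⁻¹) * ((a : X)⁻¹ * (c * b * c⁻¹)) * (b : X)⁻¹ := by rw [h1]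
          _ = _ := by group }
  refine ⟨g, fun a => rfl, ?_⟩
  have h3 : Nat.card g.ker = Nat.card ↥(V ⊓ Subgroup.centralizer ({c} : Set X)) := by
    have hmem : ∀ a : ↥V, a ∈ g.ker ↔ (a : X) ∈ Subgroup.centralizer ({c} : Set X) := by
      intro a
      rw [MonoidHom.mem_ker, Subgroup.mem_centralizer_singleton_iff]
      constructor
      · intro h
        have h1 : c * a * c⁻¹ * (a : X)⁻¹ = 1 := congrArg Subtype.val h
        rw [mul_inv_eq_one, mul_inv_eq_iff_eq_mul] at h1
        exact h1.symm
      · intro h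
        apply Subtype.ext
        show c * a * c⁻¹ * (a : X)⁻¹ = 1
        rw [mul_inv_eq_one, mul_inv_eq_iff_eq_mul]
        exact h.symm
    exact Nat.card_congr
      { toFun := fun a => ⟨a.1.1, a.1.2, (hmem a.1).mp a.2⟩
        invFun := fun a => ⟨⟨a.1, a.2.1⟩, (hmem ⟨a.1, a.2.1⟩).mpr a.2.2⟩
        left_inv := fun _ => rfl
        right_inv := fun _ => rfl }
  have h4 := Subgroup.card_mul_index g.ker
  rw [Subgroup.index_ker, h3] at h4
  rw [mul_comm]
  exact h4

/-- **The Robinson–Thompson real vector criterion.** -/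
theorem kgv_real_vector (p : ℕ) [hp : Fact p.Prime] (V : Subgroup X) [hVn : V.Normal]
    (hVexp : ∀ v ∈ V, v ^ p = 1) (hidx : ¬ p ∣ V.index) (hself : Subgroup.centralizer (V : Set X) = V)
    (G : Subgroup X) (hGV : Subgroup.IsComplement' V G) (v : X) (hv : v ∈ V) (U : Subgroup X) (hUV : U ≤ V)
    (hUinv : ∀ h ∈ G, h * v * h⁻¹ = v → ∀ u ∈ U, h * u * h⁻¹ ∈ U)
    (hUfaith : ∀ h ∈ G, h * v * h⁻¹ = v → (∀ u ∈ U, h * u * h⁻¹ = u) → h = 1)
    (β : X → X → ZMod p)
    (hβl : ∀ u ∈ U, ∀ u' ∈ U, ∀ w ∈ U, β (u * u') w = β u w + β u' w)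
    (hβr : ∀ u ∈ U, ∀ w ∈ U, ∀ w' ∈ U, β u (w * w') = β u w + β u w')
    (hβinv : ∀ h ∈ G, h * v * h⁻¹ = v → ∀ u ∈ U, ∀ w ∈ U, β (h * u * h⁻¹) (h * w * h⁻¹) = β u w)
    (hβnd : ∀ u ∈ U, (∀ w ∈ U, β u w = 0) → u = 1) : Nat.card (ConjClasses X) ≤ Nat.card V := by
  classical
  have hVp : IsPGroup p V := fun g => ⟨1, by
    apply Subtype.ext
    simpa using hVexp g.1 g.2⟩
  have hVab : ∀ a ∈ V, ∀ b ∈ V, a * b = b * a := by
    intro a ha b hb
    have h1 : b ∈ Subgroup.centralizer (V : Set X) := by rw [hself]; exact hb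
    exact (Subgroup.mem_centralizer_iff.mp h1 a ha)
  have hc : ∀ c : StabG G v, c.1 * v * c.1⁻¹ = v := by
    intro c
    have h1 : c.1 ∈ Subgroup.centralizer ({v} : Set X) := c.2.2
    rw [Subgroup.mem_centralizer_singleton_iff] at h1
    rw [h1, mul_inv_cancel_right]
  letI instU : CommGroup U := { (inferInstance : Group U) with
    mul_comm := fun a b => Subtype.ext (hVab _ (hUV a.2) _ (hUV b.2)) }
  letI act : DistribMulAction (StabG G v) (Additive U) :=
    { smul := fun c x => Additive.ofMul
        ⟨c.1 * (Additive.toMul x).1 * c.1⁻¹, hUinv c.1 c.2.1 (hc c) _ (Additive.toMul x).2⟩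
      one_smul := fun x => by
        apply Additive.toMul.injective
        apply Subtype.ext
        show (1 : X) * (Additive.toMul x).1 * (1 : X)⁻¹ = _
        simp
      mul_smul := fun a b x => by
        apply Additive.toMul.injective
        apply Subtype.ext
        show (a.1 * b.1) * (Additive.toMul x).1 * (a.1 * b.1)⁻¹ =
          a.1 * (b.1 * (Additive.toMul x).1 * b.1⁻¹) * a.1⁻¹
        group
      smul_zero := fun c => by
        apply Additive.toMul.injective
        apply Subtype.ext
        show c.1 * (1 : X) * c.1⁻¹ = 1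
        simp
      smul_add := fun c x y => by
        apply Additive.toMul.injective
        apply Subtype.ext
        show c.1 * ((Additive.toMul x).1 * (Additive.toMul y).1) * c.1⁻¹ =
          (c.1 * (Additive.toMul x).1 * c.1⁻¹) * (c.1 * (Additive.toMul y).1 * c.1⁻¹)
        group }
  have hsmul : ∀ (c : StabG G v) (x : Additive U), (Additive.toMul (c • x)).1 = c.1 * (Additive.toMul x).1 * c.1⁻¹ :=
    fun _ _ => rfl
  let b : Additive U →+ Additive U →+ ZMod p :=
    AddMonoidHom.mk' (fun x => AddMonoidHom.mk' (fun y => β (Additive.toMul x).1 (Additive.toMul y).1) (by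
      intro y y'
      exact hβr _ (Additive.toMul x).2 _ (Additive.toMul y).2 _ (Additive.toMul y').2)) (by
      intro x x'
      ext y
      exact hβl _ (Additive.toMul x).2 _ (Additive.toMul x').2 _ (Additive.toMul y).2)
  have hb : ∀ x y, b x y = β (Additive.toMul x).1 (Additive.toMul y).1 := fun _ _ => rfl
  have hpA : ∀ x : Additive U, p • x = 0 := by
    intro x
    apply Additive.toMul.injective
    apply Subtype.ext
    exact hVexp _ (hUV (Additive.toMul x).2)
  have hH : ¬ p ∣ Nat.card (StabG G v) := by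
    intro h
    apply hidx
    rw [hGV.symm.index_eq_card]
    exact h.trans (Subgroup.card_dvd_of_le inf_le_left)
  obtain ⟨W, hW, hW1, hne, hle⟩ := exists_weight (H := StabG G v) hpA hH b
    (fun c x y => hβinv c.1 c.2.1 (hc c) _ (Additive.toMul x).2 _ (Additive.toMul y).2)
    (fun x hx => by
      apply Additive.toMul.injective
      apply Subtype.ext
      exact hβnd _ (Additive.toMul x).2 fun w hw => hx (Additive.ofMul ⟨w, hw⟩))
    (fun c hc' => by
      apply Subtype.ext
      exact hUfaith c.1 c.2.1 (hc c) fun u hu =>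
        congrArg (fun z : Additive U => (Additive.toMul z).1) (hc' (Additive.ofMul ⟨u, hu⟩)))
  refine kgv_of_hasWeil V hVp hidx hVab G hGV hv W hW hW1 hne fun c => ?_
  obtain ⟨g, hg, hcard⟩ := exists_comm_hom V hVab c.1
  rw [← hcard]
  refine Nat.mul_le_mul_right _ ((hle c).trans ?_)
  show Nat.card (comm (Additive U) c) ≤ Nat.card g.range
  have hval : ∀ y : Additive U, (Additive.toMul (c • y - y)).1 =
      c.1 * (Additive.toMul y).1 * c.1⁻¹ * ((Additive.toMul y).1)⁻¹ := by
    intro y
    rw [sub_eq_add_neg]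
    rfl
  refine Nat.card_le_card_of_injective
    (fun x => (⟨⟨(Additive.toMul x.1).1, hUV (Additive.toMul x.1).2⟩, ?_⟩ : g.range)) ?_
  · obtain ⟨y, hy⟩ := x.2
    refine ⟨⟨(Additive.toMul y).1, hUV (Additive.toMul y).2⟩, ?_⟩
    apply Subtype.ext
    rw [hg]
    rw [← hval y]
    show _ = (Additive.toMul x.1).1
    have hy' : c • y - y = x.1 := hy
    rw [hy']
  · intro x x' hxx
    apply Subtype.ext
    apply Additive.toMul.injective
    apply Subtype.ext
    have h7 := congrArg (fun z : g.range => ((z.1 : ↥V) : X)) hxx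
    exact h7

end Final

end Cfsg.Agent.Lib.Char.RVE
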