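import Mathlib
import Cfsg.Prelude.Def_Characters
import Cfsg.Agent.Lib.Char.SL2Cusp

/-!
# The characters of degree `(q - 1) / 2` of `SL₂(q)` at non-split elements

The generalized character `R θ₀`, for `θ₀` the character of order two of the non-split torus, is the
sum of the two irreducible characters of degree `(q - 1) / 2`.
-/

set_option autoImplicit false

namespace Cfsg.Agent.Lib.Char.SL2Cusp2

open Cfsg Cfsg.Agent.Lib.Char.Induced Cfsg.Agent.Lib.Char.Ortho Cfsg.Agent.Lib.Char.Basic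
open Cfsg.Agent.Lib.Char.GL2Principal Cfsg.Agent.Lib.Char.GL2Values Cfsg.Agent.Lib.Char.GL2Irr
open Cfsg.Agent.Lib.Char.GL2Count Cfsg.Agent.Lib.Char.SL2Principal Cfsg.Agent.Lib.Char.SL2Split
open Cfsg.Agent.Lib.Char.SL2Res Cfsg.Agent.Lib.Char.SL2Irr Cfsg.Agent.Lib.Char.SL2Half
open Cfsg.Agent.Lib.Char.SL2Cusp Cfsg.Agent.Lib.Char.SL2Count
open Cfsg.Agent.Lib.PSL2.Basic Cfsg.Agent.Lib.PSL2.Unipotent Cfsg.Agent.Lib.PSL2.Conj
open Cfsg.Agent.Lib.PSL2.TorusCore
open Matrix.SpecialLinearGroup (toGL)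
open scoped ComplexConjugate MatrixGroups

variable {F : Type*} [Field F] [Fintype F] [DecidableEq F]

variable {T : Subgroup SL(2, F)} (hT : NS T)

/-- The inner product of `R` with the trivial character. -/
theorem classInner_RR_one (h2 : ringChar F ≠ 2) (θ : T →* ℂˣ) (hθ : θ ≠ 1) (γ : MulChar F ℂ) :
    classInner (RR T θ γ) (1 : SL(2, F) → ℂ) = 0 := by
  classical
  obtain ⟨n, hn⟩ := exists_nonsquare_unit h2
  unfold RR
  rw [classInner_sub_left]
  have h1 : classInner (W γ) (1 : SL(2, F) → ℂ) = 0 := by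
    rw [Cfsg.Agent.Lib.Char.Induced.classInner_def,
      sum_of_supp h2 hn _ (fun g hg => by rw [W_reg γ hg, zero_mul])]
    have h3 : ∑ g ∈ A n, W γ g * conj ((1 : SL(2, F) → ℂ) g) = -((Fintype.card F : ℂ) ^ 2 - 1) := by
      rw [Finset.sum_congr rfl (g := fun _ => (-1 : ℂ)) (fun g hg => by
        have hg' := (mem_A_iff h2 hn _).1 hg
        rw [W_tr_two γ hg'.1 hg'.2]
        simp)]
      simp only [Finset.sum_const, nsmul_eq_mul]
      rw [card_A h2 hn, Nat.cast_sub (by
        have : 0 < Fintype.card F := Fintype.card_pos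
        exact Nat.one_le_pow _ _ this)]
      push_cast
      ring
    have h4 : ∑ g ∈ A n, W γ (-g) * conj ((1 : SL(2, F) → ℂ) (-g))
        = -((Fintype.card F : ℂ) ^ 2 - 1) * γ (-1) := by
      rw [Finset.sum_congr rfl (g := fun _ => -γ (-1)) (fun g hg => by
        have hg' := (mem_A_iff h2 hn _).1 hg
        have e1 : -(-g) = g := neg_neg g
        rw [W_tr_neg_two γ (by rw [e1]; exact hg'.1) (by rw [e1]; exact hg'.2)]
        simp)]
      simp only [Finset.sum_const, nsmul_eq_mul]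
      rw [card_A h2 hn, Nat.cast_sub (by
        have : 0 < Fintype.card F := Fintype.card_pos
        exact Nat.one_le_pow _ _ this)]
      push_cast
      ring
    rw [h3, h4, W_one, W_neg_one]
    simp
    ring_nf
  have h3 : classInner (IndT T θ) (1 : SL(2, F) → ℂ) = 0 := by
    letI : Fintype T := Fintype.ofFinite _
    unfold IndT
    rw [frobenius_reciprocity _ _ _ (isClassFunction_of_isCharacter isCharacter_one),
      Cfsg.Agent.Lib.Char.Induced.classInner_def]
    have h4 : ∑ c : T, ((θ c : ℂˣ) : ℂ) * conj ((1 : SL(2, F) → ℂ) (c : SL(2, F))) = 0 := by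
      simp only [Pi.one_apply, map_one, mul_one]
      rw [sum_hom_T, if_neg hθ]
    rw [h4, mul_zero]
  rw [h1, h3, sub_zero]

omit [Fintype F] [DecidableEq F] in
theorem sq_cases {a : Fˣ} (h : (a : F) * (a : F) = 1) : a = 1 ∨ a = -1 := by
  have h3 : ((a : F) - 1) * ((a : F) + 1) = 0 := by linear_combination h
  rcases mul_eq_zero.1 h3 with h4 | h4
  · left
    apply Units.ext
    simpa using sub_eq_zero.1 h4
  · right
    apply Units.ext
    simpa using eq_neg_of_add_eq_zero_left h4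

include hT in
/-- The sum over a coset of the unipotent radical vanishes. -/
theorem sum_c_RR (θ : T →* ℂˣ) (γ : MulChar F ℂ) (hγ : γ (-1) = (θ (zt hT) : ℂ)) (a : Fˣ) :
    ∑ c : F, RR T θ γ ((mkS a c : BorS F) : SL(2, F)) = 0 := by
  by_cases ha : (a : F) * (a : F) = 1
  · rcases sq_cases ha with rfl | rfl
    · have e : ∀ c : F, ((mkS 1 c : BorS F) : SL(2, F)) = x c := by
        intro c
        apply Cfsg.Agent.Lib.PSL2.Basic.ext2 <;> simp [mkS]
      simp only [e]
      rw [sum_x_of_ne _ (-1) (fun c hc => RR_x hT θ γ hc), x_zero, RR_one hT]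
      ring
    · have e : ∀ c : F, ((mkS (-1) c : BorS F) : SL(2, F)) = -x (-c) := by
        intro c
        apply Cfsg.Agent.Lib.PSL2.Basic.ext2 <;> simp [mkS]
      simp only [e]
      rw [sum_x_of_ne _ (-γ (-1)) (fun c hc => RR_neg_x hT θ γ (neg_ne_zero.2 hc))]
      simp only [neg_zero, x_zero]
      rw [RR_neg_one hT θ γ hγ, hγ]
      ring
  · apply Finset.sum_eq_zero
    intro c _
    set g : SL(2, F) := ((mkS a c : BorS F) : SL(2, F)) with hg
    have h00 : g.1 0 0 = a := rfl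
    have h10 : g.1 1 0 = 0 := rfl
    have h11 : g.1 1 1 = ((a⁻¹ : Fˣ) : F) := rfl
    have ha0 : (a : F) ≠ 0 := a.ne_zero
    have htr : tr g = (a : F) + (a : F)⁻¹ := by
      unfold tr
      rw [h00, h11]
      simp
    have hEig : IsEig g (a : F) := by
      unfold IsEig
      rw [htr]
      field_simp
      ring
    have h1 : g ≠ 1 := by
      intro h
      apply ha
      rw [← h00, h]
      simp
    have hm : g ≠ -1 := by
      intro h
      apply ha
      rw [← h00, h]
      simp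
    refine RR_eig hT θ γ hEig h1 hm ?_
    rw [htr]
    intro h4
    apply ha
    have h5 : ((a : F) * (a : F) - 1) ^ 2 = 0 := by
      field_simp at h4
      linear_combination h4
    have := pow_eq_zero_iff (two_ne_zero) |>.1 h5
    linear_combination this

include hT in
/-- `R` is orthogonal to the principal series. -/
theorem classInner_ind_RR (θ : T →* ℂˣ) (γ : MulChar F ℂ) (hγ : γ (-1) = (θ (zt hT) : ℂ)) (δ : MulChar F ℂ) :
    classInner (indFun (BorS F) (chiS δ)) (RR T θ γ) = 0 := by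
  classical
  letI : Fintype (BorS F) := Fintype.ofFinite _
  rw [frobenius_reciprocity _ _ _ (RR_class θ γ), Cfsg.Agent.Lib.Char.Induced.classInner_def, sum_BorS]
  have h1 : ∀ a : Fˣ, ∑ c : F, chiS δ (mkS a c) * conj (RR T θ γ ((mkS a c : BorS F) : SL(2, F))) = 0 := by
    intro a
    simp only [chiS_mkS]
    rw [← Finset.mul_sum, ← map_sum, sum_c_RR hT θ γ hγ a]
    simp
  simp only [h1, Finset.sum_const_zero, mul_zero]

section Quad

include hT in
theorem pow_m_cases (h2 : ringChar F ≠ 2) (c : T) :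
    (c : SL(2, F)) ^ ((Fintype.card F + 1) / 2) = 1 ∨ (c : SL(2, F)) ^ ((Fintype.card F + 1) / 2) = -1 := by
  have hodd := FiniteField.odd_card_of_char_ne_two h2
  have h20 : (2 : F) ≠ 0 := Ring.two_ne_zero h2
  apply (Cfsg.Agent.Lib.PSL2.Torus.mul_self_eq_one_iff h20 _).1
  rw [← pow_add]
  have e : (Fintype.card F + 1) / 2 + (Fintype.card F + 1) / 2 = Nat.card T := by
    rw [hT.card]
    omega
  rw [e]
  have := pow_card_eq_one' (x := c)
  exact congrArg Subtype.val this

/-- The function underlying the character of order two. -/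
noncomputable def quadFun (c : T) : ℂˣ :=
  if (c : SL(2, F)) ^ ((Fintype.card F + 1) / 2) = 1 then 1 else -1

include hT in
theorem quadFun_mul (h2 : ringChar F ≠ 2) (a b : T) : quadFun (a * b) = quadFun a * quadFun b := by
  have h20 : (2 : F) ≠ 0 := Ring.two_ne_zero h2
  have hm1 : (-1 : SL(2, F)) ≠ 1 := by
    intro h
    have h3 := congrArg (fun M : SL(2, F) => M.1 0 0) h
    simp at h3
    apply h20
    linear_combination -h3
  have e : ((a * b : T) : SL(2, F)) ^ ((Fintype.card F + 1) / 2)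
      = (a : SL(2, F)) ^ ((Fintype.card F + 1) / 2) * (b : SL(2, F)) ^ ((Fintype.card F + 1) / 2) := by
    have hc : Commute (a : SL(2, F)) (b : SL(2, F)) := hT.torus.comm a a.2 b b.2
    exact hc.mul_pow _
  unfold quadFun
  rw [e]
  rcases pow_m_cases hT h2 a with ha | ha <;> rcases pow_m_cases hT h2 b with hb | hb <;> rw [ha, hb]
  · simp
  · simp [hm1]
  · simp [hm1]
  · simp [hm1]

/-- The character of order two of the torus. -/
noncomputable def quadT (hT : NS T) (h2 : ringChar F ≠ 2) : T →* ℂˣ :=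
  MonoidHom.mk' quadFun (quadFun_mul hT h2)

theorem quadT_apply (h2 : ringChar F ≠ 2) (c : T) : quadT hT h2 c = quadFun c := rfl

theorem quadT_eq_inv (h2 : ringChar F ≠ 2) : quadT hT h2 = (quadT hT h2)⁻¹ := by
  refine MonoidHom.ext fun c => ?_
  simp only [MonoidHom.inv_apply, quadT_apply, quadFun]
  split_ifs <;> simp

theorem quadT_ne_one [hcyc : IsCyclic T] (h2 : ringChar F ≠ 2) : quadT hT h2 ≠ 1 := by
  have h20 : (2 : F) ≠ 0 := Ring.two_ne_zero h2
  have hodd := FiniteField.odd_card_of_char_ne_two h2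
  have hq : 1 < Fintype.card F := Fintype.one_lt_card
  obtain ⟨g₀, hg₀⟩ := hcyc.exists_generator
  have hord : orderOf (g₀ : SL(2, F)) = Fintype.card F + 1 := by
    rw [Subgroup.orderOf_coe, orderOf_eq_card_of_forall_mem_zpowers hg₀, hT.card]
  intro h
  have h3 := DFunLike.congr_fun h g₀
  rw [quadT_apply, MonoidHom.one_apply] at h3
  unfold quadFun at h3
  have h4 : (g₀ : SL(2, F)) ^ ((Fintype.card F + 1) / 2) ≠ 1 := by
    apply pow_ne_one_of_lt_orderOf (by omega)
    rw [hord]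
    omega
  rw [if_neg h4] at h3
  have h5 := congrArg Units.val h3
  simp only [Units.val_neg, Units.val_one] at h5
  norm_num at h5

/-- Two different characters of degree `(q - 1) / 2` are all of them. -/
theorem half_minus_two (h2 : ringChar F ≠ 2) (hq : 5 ≤ Fintype.card F) {χ χ' ψ : SL(2, F) → ℂ}
    (hχ : IsIrrCharacter _ χ) (hχ' : IsIrrCharacter _ χ') (hψ : IsIrrCharacter _ ψ) (hne : χ ≠ χ')
    (hd : χ 1 = (((Fintype.card F - 1) / 2 : ℕ) : ℂ)) (hd' : χ' 1 = (((Fintype.card F - 1) / 2 : ℕ) : ℂ))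
    (hdψ : ψ 1 = (((Fintype.card F - 1) / 2 : ℕ) : ℂ)) : ψ = χ ∨ ψ = χ' := by
  have h3 := (odd_counts h2 hq).2.2
  rw [Nat.card_eq_two_iff] at h3
  obtain ⟨a, b, hab, huniv⟩ := h3
  have hmem : ∀ (ψ : SL(2, F) → ℂ) (hψ : IsIrrCharacter _ ψ)
      (hdψ : ψ 1 = (((Fintype.card F - 1) / 2 : ℕ) : ℂ)), ψ = a.1.1 ∨ ψ = b.1.1 := by
    intro ψ hψ hdψ
    have h5 : (⟨⟨ψ, hψ⟩, hdψ⟩ : {χ : IrrCharacter (SL(2, F)) //
        χ.1 1 = (((Fintype.card F - 1) / 2 : ℕ) : ℂ)}) ∈ ({a, b} : Set _) := by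
      rw [huniv]
      trivial
    rcases h5 with h5 | h5
    · left
      exact congrArg (fun z => z.1.1) h5
    · right
      exact congrArg (fun z => z.1.1) (Set.mem_singleton_iff.1 h5)
  rcases hmem χ hχ hd with e1 | e1 <;> rcases hmem χ' hχ' hd' with e2 | e2 <;>
    rcases hmem ψ hψ hdψ with e3 | e3
  all_goals first
    | exact absurd (e1.trans e2.symm) hne
    | exact Or.inl (e3.trans e1.symm)
    | exact Or.inr (e3.trans e2.symm)

include hT in
/-- `R θ₀` is the sum of the two irreducible characters of degree `(q - 1) / 2`. -/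
theorem RR_quad_eq [IsCyclic T] (h2 : ringChar F ≠ 2) (hq : 5 ≤ Fintype.card F) {χ χ' : SL(2, F) → ℂ}
    (hχ : IsIrrCharacter _ χ) (hχ' : IsIrrCharacter _ χ') (hne : χ ≠ χ')
    (hd : χ 1 = (((Fintype.card F - 1) / 2 : ℕ) : ℂ)) (hd' : χ' 1 = (((Fintype.card F - 1) / 2 : ℕ) : ℂ))
    (γ : MulChar F ℂ) (hγ : γ (-1) = ((quadT hT h2) (zt hT) : ℂ)) :
    RR T (quadT hT h2) γ = χ + χ' := by
  classical
  have hodd := FiniteField.odd_card_of_char_ne_two h2
  set θ₀ := quadT hT h2 with hθ₀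
  have hnorm : classInner (RR T θ₀ γ) (RR T θ₀ γ) = 2 := by
    rw [RR_inner hT h2 θ₀ θ₀ γ γ hγ hγ, if_pos rfl, if_pos (quadT_eq_inv hT h2)]
    norm_num
  have hR1 := RR_one hT θ₀ γ
  obtain ⟨a, b, ha, hb, hab, hR⟩ := Cfsg.Agent.Lib.Char.Virtual.exists_of_norm_two (isGen_RR θ₀ γ) hnorm
  have hA : ∀ ψ : SL(2, F) → ℂ, IsIrrCharacter _ ψ → classInner (RR T θ₀ γ) ψ ≠ 0 → ∀ d : ℕ, ψ 1 = d →
      d ≠ 1 ∧ d ≠ Fintype.card F + 1 := by
    intro ψ hψ h0 d hdψ
    constructor
    · rintro rfl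
      rcases irrS_cases_nat hψ hdψ with h | h | h | h | h | h
      · apply h0
        rw [h.2]
        exact classInner_RR_one h2 θ₀ (quadT_ne_one hT h2) γ
      · omega
      · omega
      · omega
      · omega
      · omega
    · rintro rfl
      rcases irrS_cases_nat hψ hdψ with h | h | h | h | h | h
      · omega
      · omega
      · obtain ⟨-, δ, -, rfl⟩ := h
        apply h0
        rw [← classInner_conj_symm, classInner_ind_RR hT θ₀ γ hγ δ, map_zero]
      · omega
      · omega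
      · omega
  obtain ⟨ε, ψ, hε, hψ, rfl⟩ := ha.exists_sign
  obtain ⟨ε', ψ', hε', hψ', rfl⟩ := hb.exists_sign
  have hε0 : ε ≠ 0 := by
    rcases hε with rfl | rfl <;> norm_num
  have hε'0 : ε' ≠ 0 := by
    rcases hε' with rfl | rfl <;> norm_num
  have hψψ' : ψ ≠ ψ' := by
    rintro rfl
    rw [classInner_smul_left, classInner_smul_right, classInner_irr_self hψ] at hab
    simp only [mul_one, mul_eq_zero, map_eq_zero] at hab
    tauto
  have hin : classInner (RR T θ₀ γ) ψ = ε := by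
    rw [hR, classInner_add_left, classInner_smul_left, classInner_smul_left, classInner_irr_self hψ,
      classInner_irr_of_ne hψ' hψ hψψ'.symm]
    ring
  have hin' : classInner (RR T θ₀ γ) ψ' = ε' := by
    rw [hR, classInner_add_left, classInner_smul_left, classInner_smul_left, classInner_irr_self hψ',
      classInner_irr_of_ne hψ hψ' hψψ']
    ring
  obtain ⟨d₁, hd₁, hd₁'⟩ := irr_degree_pos hψ
  obtain ⟨d₂, hd₂, hd₂'⟩ := irr_degree_pos hψ'
  have h₁ := hA ψ hψ (by rw [hin]; exact hε0) d₁ hd₁'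
  have h₂ := hA ψ' hψ' (by rw [hin']; exact hε'0) d₂ hd₂'
  have hc₁ := deg_cases hψ hd₁'
  have hc₂ := deg_cases hψ' hd₂'
  have hval : ε * (d₁ : ℂ) + ε' * (d₂ : ℂ) = (Fintype.card F : ℂ) - 1 := by
    rw [← hR1, hR]
    simp only [Pi.add_apply, Pi.smul_apply, smul_eq_mul]
    rw [hd₁', hd₂']
  have hmain : ε = 1 ∧ ε' = 1 ∧ 2 * d₁ + 1 = Fintype.card F ∧ 2 * d₂ + 1 = Fintype.card F := by
    rcases hε with rfl | rfl <;> rcases hε' with rfl | rfl
    · have h3 : ((d₁ + d₂ + 1 : ℕ) : ℂ) = ((Fintype.card F : ℕ) : ℂ) := by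
        push_cast
        linear_combination hval
      have h4 : d₁ + d₂ + 1 = Fintype.card F := by exact_mod_cast h3
      refine ⟨rfl, rfl, ?_, ?_⟩ <;> omega
    · exfalso
      have h3 : ((d₁ + 1 : ℕ) : ℂ) = ((Fintype.card F + d₂ : ℕ) : ℂ) := by
        push_cast
        linear_combination hval
      have h4 : d₁ + 1 = Fintype.card F + d₂ := by exact_mod_cast h3
      omega
    · exfalso
      have h3 : ((d₂ + 1 : ℕ) : ℂ) = ((Fintype.card F + d₁ : ℕ) : ℂ) := by
        push_cast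
        linear_combination hval
      have h4 : d₂ + 1 = Fintype.card F + d₁ := by exact_mod_cast h3
      omega
    · exfalso
      have h3 : ((d₁ + d₂ + Fintype.card F : ℕ) : ℂ) = ((1 : ℕ) : ℂ) := by
        push_cast
        linear_combination -hval
      have h4 : d₁ + d₂ + Fintype.card F = 1 := by exact_mod_cast h3
      omega
  obtain ⟨rfl, rfl, e₁, e₂⟩ := hmain
  have hdeg : (Fintype.card F - 1) / 2 = d₁ := by omega
  have hdeg' : (Fintype.card F - 1) / 2 = d₂ := by omega
  have m₁ := half_minus_two h2 hq hχ hχ' hψ hne hd hd' (by rw [hd₁', hdeg])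
  have m₂ := half_minus_two h2 hq hχ hχ' hψ' hne hd hd' (by rw [hd₂', hdeg'])
  rw [hR, one_smul, one_smul]
  rcases m₁ with rfl | rfl <;> rcases m₂ with rfl | rfl
  · exact absurd rfl hψψ'
  · rfl
  · exact add_comm _ _
  · exact absurd rfl hψψ'

end Quad

end Cfsg.Agent.Lib.Char.SL2Cusp2
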