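import Mathlib
import Cfsg.Agent.Lib.Char.Monomial
import Cfsg.Agent.Lib.Char.Codegree
import Cfsg.Agent.Lib.Char.QuotRep
import Cfsg.Agent.Lib.Char.Galois
import Cfsg.Agent.Lib.Char.GaloisC
import Cfsg.Agent.Lib.Char.Integrality
import Cfsg.Agent.Lib.Char.Values
import Cfsg.Agent.Lib.PGroup.CyclicMax2
import Cfsg.Agent.Lib.PGroup.Critical
import Cfsg.Agent.Lib.PGroup.NormalRank

/-!
# Schur's bound: terminal case
-/

set_option autoImplicit false
set_option linter.unusedSectionVars false
set_option linter.unusedVariables false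

namespace Cfsg.Agent.Lib.Char.SchurBound

open Cfsg Subgroup Cfsg.Agent.Lib.Char.Ortho

universe u

section Gal

variable {P : Type u} [Group P]

/-- Any set of exponents prime to `p` with pairwise distinct power-twists of `χ` has at most `D` elements. -/
def GalBound (p : ℕ) (χ : P → ℂ) (D : ℕ) : Prop :=
  ∀ S : Finset ℕ, (∀ k ∈ S, k.Coprime p) →
    Set.InjOn (fun (k : ℕ) (g : P) => χ (g ^ k)) (S : Set ℕ) → S.card ≤ D

theorem GalBound.of_imp {Q : Type*} [Group Q] {p : ℕ} {χ : P → ℂ} {ψ : Q → ℂ} {D : ℕ}
    (h : GalBound p χ D)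
    (himp : ∀ k k' : ℕ, k.Coprime p → k'.Coprime p →
      (fun g : P => χ (g ^ k)) = (fun g => χ (g ^ k')) →
      (fun g : Q => ψ (g ^ k)) = (fun g => ψ (g ^ k'))) : GalBound p ψ D := by
  intro S hS hinj
  apply h S hS
  intro k hk k' hk' heq
  exact hinj hk hk' (himp k k' (hS k hk) (hS k' hk') heq)

end Gal

section Geom

/-- The geometric sum over a root of unity. -/
theorem geom_root (x : ℂ) {N : ℕ} (hN : 0 < N) (hx : x ^ N = 1) :
    ∑ m ∈ Finset.range N, x ^ m = if x = 1 then (N : ℂ) else 0 := by
  split_ifs with h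
  · subst h; simp
  · have h1 : x - 1 ≠ 0 := sub_ne_zero.mpr h
    have h2 := geom_sum_mul x N
    rw [hx, sub_self] at h2
    exact (mul_eq_zero.mp h2).resolve_right h1

end Geom

section Terminal

variable {P : Type u} [Group P] [Finite P] {p : ℕ} [hp : Fact p.Prime]

/-- Coordinates in an eigenbasis diagonalise. -/
theorem coord_eigen {V : Type*} [AddCommGroup V] [Module ℂ V] {m : ℕ} (B : Module.Basis (Fin m) ℂ V)
    (T : V →ₗ[ℂ] V) (z : Fin m → ℂ) (h : ∀ i, T (B i) = z i • B i) (i : Fin m) (w : V) :
    B.coord i (T w) = z i * B.coord i w := by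
  have : (B.coord i) ∘ₗ T = z i • B.coord i := by
    refine B.ext fun j => ?_
    simp only [LinearMap.comp_apply, h j, map_smul, LinearMap.smul_apply, Module.Basis.coord_apply,
      Module.Basis.repr_self, Finsupp.single_apply, smul_eq_mul]
    by_cases hij : j = i
    · subst hij; simp
    · simp [hij]
  simpa using congrArg (fun F => F w) this

theorem terminal {n : ℕ} (hP : IsPGroup p P) (ρ : Representation ℂ P (Fin n → ℂ)) [hρ : ρ.IsIrreducible]
    (hfaith : ∀ g, ρ g = 1 → g = 1) (a : P) (hA : (zpowers a).Normal)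
    (hC : centralizer (zpowers a : Set P) = zpowers a) {D : ℕ} (hD : GalBound p ρ.character D)
    {b : ℕ} (hb : orderOf a = p ^ (b + 1)) :
    (zpowers a).index ≤ n ∧ p ^ b * (p - 1) ≤ (zpowers a).index * D := by
  classical
  have hp' := hp.out
  haveI : Fintype P := Fintype.ofFinite P
  set N := p ^ (b + 1) with hNdef
  have hN : 0 < N := pow_pos hp'.pos _
  have haN : a ^ N = 1 := by rw [← hb]; exact pow_orderOf_eq_one a
  have hT : (ρ a) ^ N = 1 := by rw [← map_pow, haN, map_one]
  obtain ⟨m, B, z, h1, h2⟩ := exists_eigenbasis (ρ a) hN hT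
  have hm : m = n := by
    have := Module.finrank_eq_card_basis B
    simpa using this.symm
  have hpow : ∀ (j : ℕ) (i : Fin m), (ρ a ^ j) (B i) = z i ^ j • B i := by
    intro j i
    induction j with
    | zero => simp
    | succ j ih =>
      rw [pow_succ', Module.End.mul_apply, ih, map_smul, h1 i, smul_smul, pow_succ]
  -- a primitive eigenvalue
  obtain ⟨i₀, hi₀⟩ : ∃ i₀, z i₀ ^ p ^ b ≠ 1 := by
    by_contra hcon
    push Not at hcon
    have h3 : ρ a ^ (p ^ b) = 1 := by
      refine B.ext fun i => ?_
      rw [hpow, hcon i, one_smul]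
      rfl
    have h4 : a ^ p ^ b = 1 := hfaith _ (by rw [map_pow, h3])
    have h5 : orderOf a ∣ p ^ b := orderOf_dvd_of_pow_eq_one h4
    rw [hb] at h5
    have := (Nat.pow_dvd_pow_iff_le_right hp'.one_lt).mp h5
    omega
  set lam := z i₀ with hlam
  set v := B i₀ with hv
  have hprim : ∀ s : ℂ, s ^ N = 1 → s ^ p ^ b ≠ 1 → IsPrimitiveRoot s N := by
    intro s hs hs2
    have h3 : orderOf s = N := orderOf_eq_prime_pow (p := p) (n := b) hs2 hs
    rw [← h3]
    exact IsPrimitiveRoot.orderOf s
  have hlamP := hprim lam (h2 i₀) hi₀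
  -- conjugation exponents
  have hexp : ∀ g : P, ∃ e : ℕ, g * a * g⁻¹ = a ^ e := by
    intro g
    have h3 : g * a * g⁻¹ ∈ zpowers a := hA.conj_mem a (mem_zpowers a) g
    have h4 : g * a * g⁻¹ ∈ Submonoid.powers a := mem_powers_iff_mem_zpowers.mpr h3
    obtain ⟨e, he⟩ := h4
    exact ⟨e, he.symm⟩
  choose e he using hexp
  let f : P → ℂ := fun g => lam ^ e g
  have hfu : ∀ g, ρ a (ρ g⁻¹ v) = f g • ρ g⁻¹ v := by
    intro g
    have h3 : a * g⁻¹ = g⁻¹ * (g * a * g⁻¹) := by group
    rw [← Module.End.mul_apply, ← map_mul, h3, he g, map_mul, map_pow, Module.End.mul_apply, hpow,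
      map_smul]
  have hf_eq : ∀ g h, f g = f h ↔ g⁻¹ * h ∈ zpowers a := by
    intro g h
    have hmod : ∀ i : ℕ, lam ^ i = lam ^ (i % N) := fun i => by
      conv_lhs => rw [← Nat.mod_add_div i N]
      rw [pow_add, pow_mul, hlamP.pow_eq_one, one_pow, mul_one]
    have h3 : f g = f h ↔ e g ≡ e h [MOD N] := by
      constructor
      · intro h5
        have h6 : lam ^ (e g % N) = lam ^ (e h % N) := by
          rw [← hmod, ← hmod]; exact h5
        exact hlamP.pow_inj (Nat.mod_lt _ hN) (Nat.mod_lt _ hN) h6
      · intro h5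
        show lam ^ e g = lam ^ e h
        rw [hmod (e g), hmod (e h)]
        exact congrArg (lam ^ ·) h5
    have h4 : a ^ e g = a ^ e h ↔ e g ≡ e h [MOD N] := by
      rw [← hb]; exact pow_eq_pow_iff_modEq
    rw [h3, ← h4, ← he g, ← he h, ← hC, Subgroup.mem_centralizer_iff]
    constructor
    · intro h5 y hy
      obtain ⟨i, rfl⟩ := hy
      have h6 : (g⁻¹ * h) * a = a * (g⁻¹ * h) := by
        have h7 : a * (g⁻¹ * h) = g⁻¹ * (g * a * g⁻¹) * h := by group
        rw [h7, h5]
        group
      have h8 : Commute (g⁻¹ * h) a := h6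
      exact ((h8.zpow_right i).eq).symm
    · intro h5
      have h6 := h5 a (mem_zpowers a)
      have h7 : g * a * g⁻¹ = g * (a * (g⁻¹ * h)) * h⁻¹ := by group
      rw [h7, h6]
      group
  -- the image of `f`
  let F : P ⧸ zpowers a → ℂ := Quotient.lift f (by
    intro x y hxy
    exact (hf_eq x y).mpr (QuotientGroup.leftRel_apply.mp hxy))
  have hFinj : Function.Injective F := by
    intro x y
    induction x using QuotientGroup.induction_on
    induction y using QuotientGroup.induction_on
    rename_i x y
    intro hxy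
    exact QuotientGroup.eq.mpr ((hf_eq x y).mp hxy)
  haveI : Fintype (P ⧸ zpowers a) := Fintype.ofFinite _
  set S : Finset ℂ := Finset.univ.image F with hS
  have hScard : S.card = (zpowers a).index := by
    rw [hS, Finset.card_image_of_injective _ hFinj, Subgroup.index, Nat.card_eq_fintype_card,
      Finset.card_univ]
  have hSmem : ∀ g, f g ∈ S := fun g =>
    Finset.mem_image.mpr ⟨(g : P ⧸ zpowers a), Finset.mem_univ _, rfl⟩
  have hSform : ∀ s ∈ S, ∃ g, s = f g := by
    intro s hs
    obtain ⟨x, -, rfl⟩ := Finset.mem_image.mp hs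
    induction x using QuotientGroup.induction_on
    rename_i g
    exact ⟨g, rfl⟩
  have hv0 : v ≠ 0 := B.ne_zero i₀
  have hρinv : ∀ g, Function.Injective (ρ g) := by
    intro g x y hxy
    have h3 : ρ g⁻¹ (ρ g x) = ρ g⁻¹ (ρ g y) := by rw [hxy]
    rw [← Module.End.mul_apply, ← Module.End.mul_apply, ← map_mul] at h3
    simpa using h3
  -- every `s ∈ S` is some `z i`
  have hS_sub : ∀ s ∈ S, ∃ i, z i = s := by
    intro s hs
    obtain ⟨g, rfl⟩ := hSform s hs
    have hu0 : ρ g⁻¹ v ≠ 0 := by
      intro h0
      apply hv0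
      exact hρinv g⁻¹ (by rw [h0, map_zero])
    obtain ⟨i, hi⟩ : ∃ i, B.coord i (ρ g⁻¹ v) ≠ 0 := by
      by_contra hcon
      push Not at hcon
      apply hu0
      exact B.ext_elem fun i => by simpa using hcon i
    refine ⟨i, ?_⟩
    have h3 := coord_eigen B (ρ a) z h1 i (ρ g⁻¹ v)
    rw [hfu g, map_smul, smul_eq_mul] at h3
    exact (mul_right_cancel₀ hi h3).symm
  -- every `z i` is in `S`
  have hz_S : ∀ i, z i ∈ S := by
    intro i
    by_contra hi
    -- the span of the orbit is everything
    let W : Subrepresentation ρ :=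
      { toSubmodule := Submodule.span ℂ (Set.range fun g : P => ρ g⁻¹ v)
        apply_mem_toSubmodule := by
          intro g w hw
          induction hw using Submodule.span_induction with
          | mem x hx =>
            obtain ⟨h, rfl⟩ := hx
            refine Submodule.subset_span ⟨h * g⁻¹, ?_⟩
            rw [← Module.End.mul_apply, ← map_mul]
            congr 2
            group
          | zero => simp
          | add x y _ _ hx hy => rw [map_add]; exact add_mem hx hy
          | smul c x _ hx => rw [map_smul]; exact Submodule.smul_mem _ _ hx }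
    have hvW : v ∈ W.toSubmodule := Submodule.subset_span ⟨1, by simp⟩
    have hWtop : W = ⊤ := by
      rcases eq_bot_or_eq_top W with h | h
      · exfalso
        apply hv0
        have hvbot : v ∈ (⊥ : Subrepresentation ρ) := h ▸ hvW
        exact (Submodule.mem_bot ℂ).mp hvbot
      · exact h
    have hall : ∀ w ∈ W.toSubmodule, B.coord i w = 0 := by
      intro w hw
      induction hw using Submodule.span_induction with
      | mem x hx =>
        obtain ⟨g, rfl⟩ := hx
        have h3 := coord_eigen B (ρ a) z h1 i (ρ g⁻¹ v)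
        rw [hfu g, map_smul, smul_eq_mul] at h3
        have h4 : (f g - z i) * B.coord i (ρ g⁻¹ v) = 0 := by
          rw [sub_mul, h3, sub_self]
        rcases mul_eq_zero.mp h4 with h5 | h5
        · exfalso
          apply hi
          rw [← sub_eq_zero.mp h5]
          exact hSmem g
        · exact h5
      | zero => simp
      | add x y _ _ hx hy => rw [map_add, hx, hy, add_zero]
      | smul c x _ hx => rw [map_smul, hx, smul_zero]
    have h3 : B i ∈ W.toSubmodule := by rw [hWtop]; trivial
    have h4 := hall _ h3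
    simp at h4
  have hSprim : ∀ s ∈ S, IsPrimitiveRoot s N := by
    intro s hs
    obtain ⟨g, rfl⟩ := hSform s hs
    apply hprim
    · show (lam ^ e g) ^ N = 1
      rw [← pow_mul, mul_comm, pow_mul, hlamP.pow_eq_one, one_pow]
    · intro h3
      have h4 : N ∣ e g * p ^ b := by
        apply hlamP.dvd_of_pow_eq_one
        rw [pow_mul]
        exact h3
      have h5 : a ^ (e g * p ^ b) = 1 := by
        obtain ⟨r, hr⟩ := h4
        rw [hr, pow_mul, haN, one_pow]
      rw [pow_mul, ← he g, conj_pow] at h5
      have h6 : a ^ p ^ b = 1 := by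
        have := congrArg (fun w => g⁻¹ * w * g) h5
        simpa [mul_assoc] using this
      have h7 : orderOf a ∣ p ^ b := orderOf_dvd_of_pow_eq_one h6
      rw [hb] at h7
      have := (Nat.pow_dvd_pow_iff_le_right hp'.one_lt).mp h7
      omega
  constructor
  · -- the dimension bound
    rw [← hScard, ← hm]
    have h3 : S ⊆ Finset.univ.image z := by
      intro s hs
      obtain ⟨i, hi⟩ := hS_sub s hs
      exact Finset.mem_image.mpr ⟨i, Finset.mem_univ _, hi⟩
    calc S.card ≤ (Finset.univ.image z).card := Finset.card_le_card h3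
      _ ≤ Finset.univ.card := Finset.card_image_le
      _ = m := by simp
  · -- counting
    let X : Finset ℕ := (Finset.range N).filter fun k => k.Coprime p
    have hXcard : X.card = p ^ b * (p - 1) := by
      rw [← Nat.totient_prime_pow_succ hp', Nat.totient_eq_card_coprime]
      refine congrArg Finset.card (Finset.filter_congr fun k _ => ?_)
      rw [Nat.coprime_pow_left_iff (Nat.succ_pos b), Nat.coprime_comm]
    let Φ : ℕ → P → ℂ := fun k g => ρ.character (g ^ k)
    -- the character on powers of `a`
    have hchar : ∀ j : ℕ, ρ.character (a ^ j) = ∑ i, z i ^ j := by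
      intro j
      show LinearMap.trace ℂ _ (ρ (a ^ j)) = _
      rw [map_pow]
      exact trace_eq_sum_of_eigenbasis _ B (fun i => z i ^ j) fun i => hpow j i
    have hzN : ∀ (k : ℕ) (i : Fin m), (z i ^ k) ^ N = 1 := by
      intro k i
      rw [← pow_mul, mul_comm, pow_mul, h2 i, one_pow]
    have hfiber : ∀ k k' : ℕ, Φ k = Φ k' → ∃ i, z i ^ k' = lam ^ k := by
      intro k k' hkk'
      set w := lam ^ k with hw
      have hwN : w ^ N = 1 := by
        rw [hw, ← pow_mul, mul_comm, pow_mul, hlamP.pow_eq_one, one_pow]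
      have hw0 : w ≠ 0 := by
        intro h0
        rw [h0, zero_pow hN.ne'] at hwN
        exact zero_ne_one hwN
      have hsum : ∀ t : ℕ, ∑ j ∈ Finset.range N, w⁻¹ ^ j * Φ t (a ^ j)
          = ∑ i, (if z i ^ t = w then (N : ℂ) else 0) := by
        intro t
        have h3 : ∀ j ∈ Finset.range N, w⁻¹ ^ j * Φ t (a ^ j) = ∑ i, (w⁻¹ * z i ^ t) ^ j := by
          intro j _
          show w⁻¹ ^ j * ρ.character ((a ^ j) ^ t) = _
          rw [← pow_mul, hchar, Finset.mul_sum]
          refine Finset.sum_congr rfl fun i _ => ?_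
          rw [mul_pow, ← pow_mul, mul_comm t j]
        rw [Finset.sum_congr rfl h3, Finset.sum_comm]
        refine Finset.sum_congr rfl fun i _ => ?_
        have h4 : (w⁻¹ * z i ^ t) ^ N = 1 := by
          rw [mul_pow, inv_pow, hwN, hzN, inv_one, one_mul]
        rw [geom_root _ hN h4]
        have h5 : w⁻¹ * z i ^ t = 1 ↔ z i ^ t = w := by
          rw [inv_mul_eq_iff_eq_mul₀ hw0, mul_one]
        simp only [h5]
      have h3 := hsum k
      have h4 := hsum k'
      rw [hkk', h4] at h3
      by_contra hcon
      push Not at hcon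
      have h5 : ∑ i, (if z i ^ k' = w then (N : ℂ) else 0) = 0 :=
        Finset.sum_eq_zero fun i _ => by simp [hcon i]
      rw [h5] at h3
      -- the left hand side is a positive count
      have h6 : (∑ i, (if z i ^ k = w then (N : ℂ) else 0)) =
          (((Finset.univ.filter fun i => z i ^ k = w).card * N : ℕ) : ℂ) := by
        rw [← Finset.sum_filter, Finset.sum_const, nsmul_eq_mul]
        push_cast
        ring
      rw [h6] at h3
      have h7 : (Finset.univ.filter fun i => z i ^ k = w).card * N = 0 := by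
        exact_mod_cast h3.symm
      have h8 : i₀ ∈ Finset.univ.filter fun i => z i ^ k = w := by
        simp [hw, hlam]
      have h9 : 0 < (Finset.univ.filter fun i => z i ^ k = w).card :=
        Finset.card_pos.mpr ⟨i₀, h8⟩
      have := Nat.mul_pos h9 hN
      omega
    have hfibcard : ∀ y ∈ X.image Φ, (X.filter fun k => Φ k = y).card ≤ S.card := by
      intro y hy
      obtain ⟨k, hk, rfl⟩ := Finset.mem_image.mp hy
      have hex : ∀ k' ∈ X.filter (fun k' => Φ k' = Φ k), ∃ s ∈ S, s ^ k' = lam ^ k := by
        intro k' hk'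
        obtain ⟨i, hi⟩ := hfiber k k' (Finset.mem_filter.mp hk').2.symm
        exact ⟨z i, hz_S i, hi⟩
      choose! c hc1 hc2 using hex
      refine Finset.card_le_card_of_injOn c hc1 ?_
      intro k' hk' k'' hk'' heq
      have hk'X := (Finset.mem_filter.mp hk').1
      have hk''X := (Finset.mem_filter.mp hk'').1
      have h3 := hSprim _ (hc1 k' hk')
      have h4 : c k' ^ k' = c k' ^ k'' := by
        rw [hc2 k' hk', heq, hc2 k'' hk'']
      have h5 := h3.pow_inj (Finset.mem_range.mp (Finset.mem_filter.mp hk'X).1)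
        (Finset.mem_range.mp (Finset.mem_filter.mp hk''X).1) h4
      exact h5
    have hX := Finset.card_le_mul_card_image (f := Φ) X S.card hfibcard
    obtain ⟨S₁, hS₁X, hinj, himg⟩ := Finset.exists_subset_injOn_image_eq_of_surjOn (f := Φ) (↑X) (X.image Φ) (by
        intro y hy
        have hy' : y ∈ X.image Φ := by exact_mod_cast hy
        obtain ⟨k, hk, rfl⟩ := Finset.mem_image.mp hy'
        exact ⟨k, by exact_mod_cast hk, rfl⟩)
    have hS₁card : S₁.card = (X.image Φ).card := by
      rw [← himg, Finset.card_image_of_injOn hinj]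
    have hS₁D : S₁.card ≤ D := hD S₁ (fun k hk => by
      have hmem : k ∈ X := by exact_mod_cast hS₁X (Finset.mem_coe.mpr hk)
      exact (Finset.mem_filter.mp hmem).2) hinj
    rw [← hXcard, ← hScard]
    calc X.card ≤ S.card * (X.image Φ).card := hX
      _ ≤ S.card * D := Nat.mul_le_mul_left _ (hS₁card ▸ hS₁D)
end Terminal

end Cfsg.Agent.Lib.Char.SchurBound
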