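import Mathlib
import Cfsg.Agent.Lib.Char.SchurBound

/-!
# Schur's bound: the descent step
-/

set_option autoImplicit false
set_option linter.unusedSectionVars false
set_option linter.unusedVariables false
set_option linter.style.haveILetI false

namespace Cfsg.Agent.Lib.Char.SchurBound

open Cfsg Subgroup Cfsg.Agent.Lib.Char.Ortho Cfsg.Agent.Lib.Char.Basic Cfsg.Agent.Lib.Char.Induced
  Cfsg.Agent.Lib.Char.IndRep Cfsg.Agent.Lib.Char.Clifford Cfsg.Agent.Lib.Char.CliffordCorr
  Cfsg.Agent.Lib.Char.LinearChars Cfsg.Agent.Lib.Char.Monomial Cfsg.Agent.Lib.Char.Codegree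
open scoped commutatorElement

universe u

section Proj

variable {P : Type u} [Group P] [Fintype P] {p : ℕ} [hp : Fact p.Prime]

/-- The projection formula. -/
theorem proj_formula (T : Subgroup P) [hT : T.Normal] (y z : P) (hyT : y ∈ T) (hzT : z ∈ T)
    (ψ₁ : T → ℂ) (χ₁ : P → ℂ)
    (hind : ∀ u : T, χ₁ u = (Nat.card T : ℂ)⁻¹ *
      ∑ x : P, ψ₁ ⟨x⁻¹ * u * x, by simpa using hT.conj_mem u u.2 x⁻¹⟩)
    (hcl : ∀ t u : T, ψ₁ (t⁻¹ * u * t) = ψ₁ u)
    (μ ζ : ℂ) (hμ : μ ≠ 0) (hζ : IsPrimitiveRoot ζ p)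
    (hy : ∀ u : T, ψ₁ (u * ⟨y, hyT⟩) = ψ₁ u * μ) (hz : ∀ u : T, ψ₁ (u * ⟨z, hzT⟩) = ψ₁ u * ζ)
    (hzc : z ∈ center P) (hj : ∀ x : P, ∃ j : ℕ, x⁻¹ * y * x = y * z ^ j ∧ (x ∈ T ↔ p ∣ j))
    (h : T) :
    ∑ i ∈ Finset.range p, μ⁻¹ ^ i * χ₁ ((h : P) * y ^ i) = (p : ℂ) * ψ₁ h := by
  classical
  have hp' := hp.out
  have hypow : ∀ (i : ℕ) (u : T), ψ₁ (u * (⟨y, hyT⟩ : T) ^ i) = ψ₁ u * μ ^ i := by
    intro i
    induction i with
    | zero => intro u; simp
    | succ i ih =>
      intro u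
      rw [pow_succ, ← mul_assoc, hy, ih, pow_succ, mul_assoc]
  have hzpow : ∀ (i : ℕ) (u : T), ψ₁ (u * (⟨z, hzT⟩ : T) ^ i) = ψ₁ u * ζ ^ i := by
    intro i
    induction i with
    | zero => intro u; simp
    | succ i ih =>
      intro u
      rw [pow_succ, ← mul_assoc, hz, ih, pow_succ, mul_assoc]
  have hconjmem : ∀ (x : P) (u : T), x⁻¹ * (u : P) * x ∈ T := fun x u => by
    simpa using hT.conj_mem u u.2 x⁻¹
  choose j hj1 hj2 using hj
  have hzcomm : ∀ w : P, z * w = w * z := fun w => (Subgroup.mem_center_iff.mp hzc w).symm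
  have hterm : ∀ (i : ℕ) (x : P),
      ψ₁ ⟨x⁻¹ * ((h : P) * y ^ i) * x, by
        have := hconjmem x (h * (⟨y, hyT⟩ : T) ^ i)
        simpa using this⟩ = ψ₁ ⟨x⁻¹ * h * x, hconjmem x h⟩ * (μ ^ i * (ζ ^ j x) ^ i) := by
    intro i x
    have h1 : (⟨x⁻¹ * ((h : P) * y ^ i) * x, by
        have := hconjmem x (h * (⟨y, hyT⟩ : T) ^ i)
        simpa using this⟩ : T) =
        ⟨x⁻¹ * h * x, hconjmem x h⟩ * (⟨y, hyT⟩ : T) ^ i * (⟨z, hzT⟩ : T) ^ (j x * i) := by
      apply Subtype.ext
      simp only [Subgroup.coe_mul, Subgroup.coe_pow]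
      have h2 : x⁻¹ * y ^ i * x = y ^ i * z ^ (j x * i) := by
        have h3 : (x⁻¹ * y * x) ^ i = x⁻¹ * y ^ i * x := by
          have := conj_pow (a := x⁻¹) (b := y) (i := i)
          simpa using this
        have h4 : Commute y (z ^ j x) := Commute.pow_right (show Commute y z from (hzcomm y).symm) _
        rw [← h3, hj1 x, h4.mul_pow, ← pow_mul]
      calc x⁻¹ * ((h : P) * y ^ i) * x = x⁻¹ * h * x * (x⁻¹ * y ^ i * x) := by group
        _ = _ := by rw [h2]; group
    rw [h1, hzpow, hypow, pow_mul]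
    ring
  have hsumx : ∀ x : P, ∑ i ∈ Finset.range p, μ⁻¹ ^ i * (ψ₁ ⟨x⁻¹ * h * x, hconjmem x h⟩ * (μ ^ i * (ζ ^ j x) ^ i))
      = if x ∈ T then (p : ℂ) * ψ₁ h else 0 := by
    intro x
    have h1 : ∀ i ∈ Finset.range p, μ⁻¹ ^ i * (ψ₁ ⟨x⁻¹ * h * x, hconjmem x h⟩ * (μ ^ i * (ζ ^ j x) ^ i))
        = ψ₁ ⟨x⁻¹ * h * x, hconjmem x h⟩ * (ζ ^ j x) ^ i := by
      intro i _
      have : μ⁻¹ ^ i * μ ^ i = 1 := by
        rw [← mul_pow, inv_mul_cancel₀ hμ, one_pow]
      calc _ = (μ⁻¹ ^ i * μ ^ i) * (ψ₁ ⟨x⁻¹ * h * x, hconjmem x h⟩ * (ζ ^ j x) ^ i) := by ring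
        _ = _ := by rw [this, one_mul]
    rw [Finset.sum_congr rfl h1, ← Finset.mul_sum]
    have h2 : (ζ ^ j x) ^ p = 1 := by
      rw [← pow_mul, mul_comm, pow_mul, hζ.pow_eq_one, one_pow]
    rw [geom_root _ hp'.pos h2]
    by_cases hx : x ∈ T
    · have h3 : ζ ^ j x = 1 := by
        obtain ⟨r, hr⟩ := (hj2 x).mp hx
        rw [hr, pow_mul, hζ.pow_eq_one, one_pow]
      have h4 : ψ₁ ⟨x⁻¹ * h * x, hconjmem x h⟩ = ψ₁ h := hcl ⟨x, hx⟩ h
      rw [if_pos h3, if_pos hx, h4]
      ring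
    · have h3 : ζ ^ j x ≠ 1 := by
        intro h4
        exact hx ((hj2 x).mpr (hζ.dvd_of_pow_eq_one _ h4))
      rw [if_neg h3, if_neg hx, mul_zero]
  have hmain : ∀ i ∈ Finset.range p, μ⁻¹ ^ i * χ₁ ((h : P) * y ^ i) =
      (Nat.card T : ℂ)⁻¹ * ∑ x : P, μ⁻¹ ^ i *
        (ψ₁ ⟨x⁻¹ * h * x, hconjmem x h⟩ * (μ ^ i * (ζ ^ j x) ^ i)) := by
    intro i _
    have h1 := hind (h * (⟨y, hyT⟩ : T) ^ i)
    simp only [Subgroup.coe_mul, Subgroup.coe_pow] at h1
    rw [h1, mul_left_comm, Finset.mul_sum]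
    congr 1
    refine Finset.sum_congr rfl fun x _ => ?_
    rw [← hterm i x]
  rw [Finset.sum_congr rfl hmain, ← Finset.mul_sum, Finset.sum_comm]
  rw [Finset.sum_congr rfl fun x _ => hsumx x, ← Finset.sum_filter, Finset.sum_const, nsmul_eq_mul]
  have hcard : ((Finset.univ.filter fun x => x ∈ T).card : ℂ) = (Nat.card T : ℂ) := by
    rw [Nat.card_eq_fintype_card, Fintype.card_subtype]
  rw [hcard]
  have hT0 : (Nat.card T : ℂ) ≠ 0 := Nat.cast_ne_zero.mpr Nat.card_pos.ne'
  field_simp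

end Proj

section Descent

variable {P : Type u} [Group P] [Finite P] {p : ℕ} [hp : Fact p.Prime]

theorem descent (hP : IsPGroup p P) {n : ℕ} (ρ : Representation ℂ P (Fin n → ℂ)) [hρ : ρ.IsIrreducible]
    (hfaith : ∀ g, ρ g = 1 → g = 1) (z y : P) (hzc : z ∈ center P) (hz1 : z ≠ 1) (hzp : z ^ p = 1)
    (hyp : y ^ p = 1) (hyz : y ∉ zpowers z) (hcomm : ∀ g, g * y * g⁻¹ * y⁻¹ ∈ zpowers z) :
    ∃ T : Subgroup P, T.index = p ∧ ∃ (m : ℕ) (σ : Representation ℂ T (Fin m → ℂ)), σ.IsIrreducible ∧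
      n = p * m ∧ Nat.card T ≤ (repKer σ).index ^ p ∧
      ∀ k k' : ℕ, k.Coprime p → k'.Coprime p →
        (fun g : P => ρ.character (g ^ k)) = (fun g => ρ.character (g ^ k')) →
        (fun g : T => σ.character (g ^ k)) = (fun g => σ.character (g ^ k')) := by
  classical
  have hp' := hp.out
  letI : Fintype P := Fintype.ofFinite P
  have hzcomm : ∀ w : P, z * w = w * z := fun w => (Subgroup.mem_center_iff.mp hzc w).symm
  have hzord : orderOf z = p := orderOf_eq_prime hzp hz1
  haveI hVnt : Nontrivial (Fin n → ℂ) := Cfsg.Agent.Lib.Char.Integrality.nontrivial_of_isIrreducible ρ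
  -- the scalar of `z`
  obtain ⟨ζ, hζ⟩ := Cfsg.Agent.Lib.Char.Integrality.exists_smul_id_of_commute ρ (ρ z) (fun g => by
    show ρ z * ρ g = ρ g * ρ z
    rw [← map_mul, ← map_mul, hzcomm g])
  have hρz : ∀ w : Fin n → ℂ, ρ z w = ζ • w := fun w => by rw [hζ]; rfl
  have hρzpow : ∀ (i : ℕ) (w : Fin n → ℂ), ρ (z ^ i) w = ζ ^ i • w := by
    intro i w
    induction i generalizing w with
    | zero => simp
    | succ i ih =>
      rw [pow_succ, map_mul, Module.End.mul_apply, hρz, map_smul, ih, smul_smul, pow_succ, mul_comm]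
  obtain ⟨w₀, hw₀⟩ : ∃ w : Fin n → ℂ, w ≠ 0 := exists_ne 0
  have hsmul_eq : ∀ {a b : ℂ} {w : Fin n → ℂ}, w ≠ 0 → a • w = b • w → a = b := by
    intro a b w hw h
    have h1 : (a - b) • w = 0 := by rw [sub_smul, h, sub_self]
    rcases smul_eq_zero.mp h1 with h2 | h2
    · exact sub_eq_zero.mp h2
    · exact absurd h2 hw
  have hζpow_eq_one_iff : ∀ i : ℕ, ζ ^ i = 1 → ρ (z ^ i) = 1 := by
    intro i hi
    refine LinearMap.ext fun w => ?_
    rw [hρzpow, hi, one_smul]
    rfl
  have hζp : ζ ^ p = 1 := by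
    apply hsmul_eq hw₀
    rw [← hρzpow, hzp, map_one, one_smul]
    rfl
  have hζ1 : ζ ≠ 1 := by
    intro h
    apply hz1
    apply hfaith
    have := hζpow_eq_one_iff 1 (by simpa using h)
    simpa using this
  have hζprim : IsPrimitiveRoot ζ p := by
    have h1 : orderOf ζ = p := orderOf_eq_prime hζp hζ1
    rw [← h1]
    exact IsPrimitiveRoot.orderOf ζ
  -- `y` is not central
  have hync : ∃ g : P, g * y * g⁻¹ * y⁻¹ ≠ 1 := by
    by_contra hcon
    push Not at hcon
    have hc : ∀ g : P, g * y = y * g := by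
      intro g
      have h1 := hcon g
      have h2 : g * y * g⁻¹ = y := by
        rw [mul_inv_eq_one] at h1
        exact h1
      calc g * y = g * y * g⁻¹ * g := by group
        _ = y * g := by rw [h2]
    obtain ⟨c, hc'⟩ := Cfsg.Agent.Lib.Char.Integrality.exists_smul_id_of_commute ρ (ρ y) (fun g => by
      show ρ y * ρ g = ρ g * ρ y
      rw [← map_mul, ← map_mul, hc g])
    have hρy : ∀ w : Fin n → ℂ, ρ y w = c • w := fun w => by rw [hc']; rfl
    have hρypow : ∀ (i : ℕ) (w : Fin n → ℂ), ρ (y ^ i) w = c ^ i • w := by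
      intro i w
      induction i generalizing w with
      | zero => simp
      | succ i ih =>
        rw [pow_succ, map_mul, Module.End.mul_apply, hρy, map_smul, ih, smul_smul, pow_succ, mul_comm]
    have hcp : c ^ p = 1 := by
      apply hsmul_eq hw₀
      rw [← hρypow, hyp, map_one, one_smul]
      rfl
    obtain ⟨i, -, hi⟩ := hζprim.eq_pow_of_pow_eq_one hcp
    apply hyz
    have h3 : y = z ^ i := by
      have h4 : ρ (y * (z ^ i)⁻¹) = 1 := by
        rw [map_mul]
        refine LinearMap.ext fun w => ?_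
        have h5 : ρ (z ^ i) (ρ (z ^ i)⁻¹ w) = w := by
          rw [← Module.End.mul_apply, ← map_mul]
          simp
        rw [Module.End.mul_apply, hρy, ← hi]
        rw [← hρzpow, h5]
        rfl
      have h6 := hfaith _ h4
      exact mul_inv_eq_one.mp h6
    rw [h3]
    exact npow_mem_zpowers z i
  -- the commutator homomorphism
  have hcen : ∀ c ∈ zpowers z, ∀ w : P, c * w = w * c := by
    intro c hc w
    obtain ⟨i, rfl⟩ := hc
    have h1 : Commute z w := hzcomm w
    exact (h1.zpow_left i).eq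
  let φ : P →* zpowers z := MonoidHom.mk' (fun g => ⟨g * y * g⁻¹ * y⁻¹, hcomm g⟩) (by
    intro a b
    apply Subtype.ext
    show a * b * y * (a * b)⁻¹ * y⁻¹ = (a * y * a⁻¹ * y⁻¹) * (b * y * b⁻¹ * y⁻¹)
    have h1 := hcen _ (hcomm b)
    have key : ∀ c : P, (∀ w, c * w = w * c) →
        a * (c * y) * a⁻¹ * y⁻¹ = c * (a * y * a⁻¹ * y⁻¹) := by
      intro c hc
      have h2 : a * c = c * a := (hc a).symm
      calc a * (c * y) * a⁻¹ * y⁻¹ = (a * c) * y * a⁻¹ * y⁻¹ := by group
        _ = (c * a) * y * a⁻¹ * y⁻¹ := by rw [h2]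
        _ = _ := by group
    calc a * b * y * (a * b)⁻¹ * y⁻¹ = a * ((b * y * b⁻¹ * y⁻¹) * y) * a⁻¹ * y⁻¹ := by group
      _ = (b * y * b⁻¹ * y⁻¹) * (a * y * a⁻¹ * y⁻¹) := key _ h1
      _ = _ := h1 _)
  set T : Subgroup P := φ.ker with hTdef
  have hTmem : ∀ g : P, g ∈ T ↔ g * y * g⁻¹ = y := by
    intro g
    rw [hTdef, MonoidHom.mem_ker]
    constructor
    · intro h
      have h1 : g * y * g⁻¹ * y⁻¹ = 1 := congrArg Subtype.val h
      exact mul_inv_eq_one.mp h1
    · intro h
      apply Subtype.ext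
      show g * y * g⁻¹ * y⁻¹ = 1
      rw [h, mul_inv_cancel]
  have hTindex : T.index = p := by
    rw [hTdef, Subgroup.index_ker]
    have h1 : Nat.card φ.range ∣ Nat.card (zpowers z) := Subgroup.card_subgroup_dvd_card _
    rw [Nat.card_zpowers, hzord] at h1
    rcases (Nat.dvd_prime hp').mp h1 with h2 | h2
    · exfalso
      obtain ⟨g, hg⟩ := hync
      have h3 : φ g ∈ φ.range := ⟨g, rfl⟩
      have h4 : φ.range = ⊥ := (Subgroup.eq_bot_iff_card _).mpr h2
      rw [h4, Subgroup.mem_bot] at h3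
      exact hg (congrArg Subtype.val h3)
    · exact h2
  -- an eigenvector of `y`
  have hTy : (ρ y) ^ p = 1 := by rw [← map_pow, hyp, map_one]
  obtain ⟨m₀, B, w, h1, h2⟩ := exists_eigenbasis (ρ y) hp'.pos hTy
  haveI : Nonempty (Fin m₀) := B.index_nonempty
  obtain ⟨i₀⟩ := (inferInstance : Nonempty (Fin m₀))
  set v := B i₀ with hv
  have hv0 : v ≠ 0 := B.ne_zero i₀
  -- the normal subgroup generated by `y, z`
  let N : Subgroup P := closure {y, z}
  have hyN : y ∈ N := subset_closure (by simp)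
  have hzN : z ∈ N := subset_closure (by simp)
  have hzpN : zpowers z ≤ N := zpowers_le.mpr hzN
  haveI hNn : N.Normal := by
    constructor
    intro n hn g
    induction hn using Subgroup.closure_induction with
    | mem x hx =>
      rcases hx with rfl | hx
      · have h3 : g * x * g⁻¹ = (g * x * g⁻¹ * x⁻¹) * x := by group
        rw [h3]
        exact N.mul_mem (hzpN (hcomm g)) hyN
      · rw [Set.mem_singleton_iff] at hx
        subst hx
        have h3 : g * x * g⁻¹ = x := by rw [← hzcomm g]; group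
        rw [h3]
        exact hzN
    | one => simp
    | mul a b _ _ ha hb =>
      have h3 : g * (a * b) * g⁻¹ = (g * a * g⁻¹) * (g * b * g⁻¹) := by group
      rw [h3]
      exact N.mul_mem ha hb
    | inv a _ ha =>
      have h3 : g * a⁻¹ * g⁻¹ = (g * a * g⁻¹)⁻¹ := by group
      rw [h3]
      exact N.inv_mem ha
  have hNT : N ≤ T := by
    refine (closure_le _).mpr ?_
    intro x hx
    rcases hx with rfl | hx
    · exact (hTmem _).mpr (by group)
    · rw [Set.mem_singleton_iff] at hx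
      subst hx
      exact (hTmem _).mpr (by
        have h3 := hzcomm y
        calc x * y * x⁻¹ = y * x * x⁻¹ := by rw [h3]
          _ = y := by group)
  have hNv : ∀ b ∈ N, ∃ c : ℂ, ρ b v = c • v := by
    intro b hb
    induction hb using Subgroup.closure_induction with
    | mem x hx =>
      rcases hx with rfl | hx
      · exact ⟨w i₀, h1 i₀⟩
      · rw [Set.mem_singleton_iff] at hx
        subst hx
        exact ⟨ζ, hρz v⟩
    | one => exact ⟨1, by simp⟩
    | mul a b _ _ ha hb =>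
      obtain ⟨c, hc⟩ := ha
      obtain ⟨d, hd⟩ := hb
      exact ⟨c * d, by rw [map_mul, Module.End.mul_apply, hd, map_smul, hc, smul_smul, mul_comm]⟩
    | inv a _ ha =>
      obtain ⟨c, hc⟩ := ha
      have hc0 : c ≠ 0 := by
        rintro rfl
        rw [zero_smul] at hc
        apply hv0
        have h3 : ρ a⁻¹ (ρ a v) = v := by
          rw [← Module.End.mul_apply, ← map_mul]
          simp
        rw [← h3, hc, map_zero]
      refine ⟨c⁻¹, ?_⟩
      have h3 : ρ a⁻¹ (ρ a v) = v := by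
        rw [← Module.End.mul_apply, ← map_mul]
        simp
      rw [hc, map_smul] at h3
      rw [← h3, smul_smul, inv_mul_cancel₀ hc0, one_smul, h3]
  obtain ⟨θ, hθ⟩ := exists_hom_of_eigen ρ N v hv0 hNv
  set ϑ : N → ℂ := fun b => ((θ b : ℂˣ) : ℂ) with hϑdef
  have hϑ : IsIrrCharacter N ϑ := isIrr_of_hom θ
  have hTmem' : ∀ g : P, g ∈ T ↔ ∀ n : N, ϑ ⟨g * n * g⁻¹, hNn.conj_mem (n : P) n.2 g⟩ = ϑ n := by
    intro g
    constructor
    · intro hg n
      have hgy := (hTmem g).mp hg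
      have hNc : N ≤ centralizer {g} := by
        refine (closure_le _).mpr ?_
        intro x hx
        rw [SetLike.mem_coe, Subgroup.mem_centralizer_singleton_iff]
        rcases hx with rfl | hx
        · calc x * g = g * x * g⁻¹ * g := by rw [hgy]
            _ = g * x := by group
        · rw [Set.mem_singleton_iff] at hx
          subst hx
          exact hzcomm g
      have h3 : g * (n : P) * g⁻¹ = n := by
        have h4 := Subgroup.mem_centralizer_singleton_iff.mp (hNc n.2)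
        rw [← h4]
        group
      congr 1
      exact Subtype.ext h3
    · intro h
      have h3 := h ⟨y, hyN⟩
      have hc := hcomm g
      have hcp : g * y * g⁻¹ * y⁻¹ ∈ Submonoid.powers z := mem_powers_iff_mem_zpowers.mpr hc
      obtain ⟨i, hi⟩ := hcp
      have hi' : z ^ i = g * y * g⁻¹ * y⁻¹ := hi
      have h4 : g * y * g⁻¹ = z ^ i * y := by rw [hi']; group
      have h5 := hθ ⟨g * y * g⁻¹, hNn.conj_mem y hyN g⟩
      have h6 := hθ ⟨y, hyN⟩
      have h7 : ρ (g * y * g⁻¹) v = ζ ^ i • (((θ ⟨y, hyN⟩ : ℂˣ) : ℂ) • v) := by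
        rw [h4, map_mul, Module.End.mul_apply]
        have : ρ y v = ((θ ⟨y, hyN⟩ : ℂˣ) : ℂ) • v := h6
        rw [this, hρzpow]
      have h8 : ((θ ⟨g * y * g⁻¹, hNn.conj_mem y hyN g⟩ : ℂˣ) : ℂ) • v =
          (ζ ^ i * ((θ ⟨y, hyN⟩ : ℂˣ) : ℂ)) • v := by
        rw [← smul_smul, ← h7]
        exact h5.symm
      have h9 := hsmul_eq hv0 h8
      have h10 : ((θ ⟨g * y * g⁻¹, hNn.conj_mem y hyN g⟩ : ℂˣ) : ℂ) = ((θ ⟨y, hyN⟩ : ℂˣ) : ℂ) := h3
      rw [h10] at h9
      have hu : ((θ ⟨y, hyN⟩ : ℂˣ) : ℂ) ≠ 0 := Units.ne_zero _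
      have h11 : ζ ^ i = 1 := by
        have h12 : (ζ ^ i - 1) * ((θ ⟨y, hyN⟩ : ℂˣ) : ℂ) = 0 := by
          rw [sub_mul, one_mul, ← h9, sub_self]
        rcases mul_eq_zero.mp h12 with h13 | h13
        · exact sub_eq_zero.mp h13
        · exact absurd h13 hu
      have h14 := hfaith _ (hζpow_eq_one_iff i h11)
      rw [h14, one_mul] at h4
      exact (hTmem g).mpr h4
  letI : Fintype N := Fintype.ofFinite _
  letI : Fintype T := Fintype.ofFinite _
  have hχ : IsIrrCharacter P ρ.character := ⟨n, ρ, inferInstance, rfl⟩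
  have hinner : classInner (fun b : N => ρ.character (b : P)) ϑ ≠ 0 := by
    let σ : Representation ℂ N (Fin n → ℂ) := ρ.comp N.subtype
    have hσ : (fun b : N => ρ.character (b : P)) = σ.character := rfl
    have hrep : ϑ = (repOfHom θ).character := (repOfHom_character θ).symm
    rw [hσ, hrep, classInner_character_eq_finrank]
    let f : Representation.IntertwiningMap (repOfHom θ) σ :=
      { toLinearMap :=
          { toFun := fun z => z 0 • v
            map_add' := by intro x y; simp [add_smul]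
            map_smul' := by intro c x; simp [mul_smul] }
        isIntertwining' := by
          intro g
          refine LinearMap.ext (fun z => ?_)
          show (repOfHom θ g z) 0 • v = σ g (z 0 • v)
          rw [repOfHom_apply, map_smul]
          show _ = z 0 • ρ (g : P) v
          rw [hθ g, smul_smul]
          simp [mul_comm] }
    have hf : f ≠ 0 := by
      intro h0
      have h1 : f (fun _ => 1) = 0 := by rw [h0]; rfl
      apply hv0
      have h2 : f (fun _ => 1) = (1 : ℂ) • v := rfl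
      rw [h2, one_smul] at h1
      exact h1
    have : Nontrivial (Representation.IntertwiningMap (repOfHom θ) σ) := ⟨⟨f, 0, hf⟩⟩
    have hpos := Module.finrank_pos (R := ℂ) (M := Representation.IntertwiningMap (repOfHom θ) σ)
    exact_mod_cast hpos.ne'
  obtain ⟨ψ, hψ, hind, -⟩ := exists_indFun_eq N ϑ T hNT hϑ hTmem' hχ hinner
  obtain ⟨m, σ, hσ, rfl⟩ := hψ
  haveI := hσ
  haveI hWnt : Nontrivial (Fin m → ℂ) := Cfsg.Agent.Lib.Char.Integrality.nontrivial_of_isIrreducible σ
  have hm0 : (m : ℂ) ≠ 0 := by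
    have h3 : m ≠ 0 := by
      rintro rfl
      exact not_subsingleton_iff_nontrivial.mpr hWnt inferInstance
    exact_mod_cast h3
  have hone : σ.character 1 = (m : ℂ) := by rw [Representation.char_one]; simp
  have hone' : ρ.character 1 = (n : ℂ) := by rw [Representation.char_one]; simp
  have hdeg : n = p * m := by
    have h3 := congrFun hind 1
    rw [indFun_one, hTindex, hone, hone'] at h3
    exact_mod_cast h3.symm
  have hn0 : (n : ℂ) ≠ 0 := by
    rw [hdeg]; push_cast
    exact mul_ne_zero (Nat.cast_ne_zero.mpr hp'.ne_zero) hm0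
  have hcardP : ((Nat.card T : ℂ))⁻¹ * (Nat.card P : ℂ) = (T.index : ℂ) := by
    have h3 : Nat.card T * T.index = Nat.card P := Subgroup.card_mul_index T
    have h4 : (Nat.card T : ℂ) ≠ 0 := Nat.cast_ne_zero.mpr Nat.card_pos.ne'
    rw [← h3]; push_cast
    field_simp
  have hconjmem : ∀ (x : P) (u : T), x⁻¹ * (u : P) * x ∈ T := fun x u => by
    simpa using (inferInstance : T.Normal).conj_mem u u.2 x⁻¹
  have hindT : ∀ u : T, ρ.character u =
      (Nat.card T : ℂ)⁻¹ * ∑ x : P, σ.character ⟨x⁻¹ * u * x, hconjmem x u⟩ := by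
    intro u
    have h3 := congrFun hind u
    rw [indFun_apply] at h3
    rw [← h3]
    congr 1
    refine Finset.sum_congr rfl fun x _ => ?_
    rw [extendByZero_of_mem T _ (hconjmem x u)]
  have hyT : y ∈ T := hNT hyN
  have hzT : z ∈ T := hNT hzN
  let yb : T := ⟨y, hyT⟩
  let zb : T := ⟨z, hzT⟩
  have hybc : ∀ t : T, t * yb = yb * t := by
    intro t
    apply Subtype.ext
    show (t : P) * y = y * t
    have h3 := (hTmem t).mp t.2
    calc (t : P) * y = t * y * (t : P)⁻¹ * t := by group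
      _ = y * t := by rw [h3]
  have hzbc : ∀ t : T, t * zb = zb * t := by
    intro t
    apply Subtype.ext
    exact (hzcomm t).symm
  obtain ⟨μ, hμ⟩ := Cfsg.Agent.Lib.Char.Integrality.exists_smul_id_of_commute σ (σ yb) (fun g => by
    show σ yb * σ g = σ g * σ yb
    rw [← map_mul, ← map_mul, hybc g])
  obtain ⟨ζ₁, hζ₁⟩ := Cfsg.Agent.Lib.Char.Integrality.exists_smul_id_of_commute σ (σ zb) (fun g => by
    show σ zb * σ g = σ g * σ zb
    rw [← map_mul, ← map_mul, hzbc g])
  have hscal : ∀ (b : T) (c : ℂ), σ b = c • LinearMap.id → ∀ u : T,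
      σ.character (u * b) = σ.character u * c := by
    intro b c hb u
    show LinearMap.trace ℂ _ (σ (u * b)) = LinearMap.trace ℂ _ (σ u) * c
    rw [map_mul, hb]
    have h3 : σ u * (c • LinearMap.id) = c • σ u := by
      refine LinearMap.ext fun w => ?_
      simp
    rw [h3, map_smul, smul_eq_mul, mul_comm]
  have hψy := hscal yb μ hμ
  have hψz := hscal zb ζ₁ hζ₁
  have hscalpow : ∀ (b : T) (c : ℂ), (∀ u : T, σ.character (u * b) = σ.character u * c) →
      ∀ (i : ℕ) (u : T), σ.character (u * b ^ i) = σ.character u * c ^ i := by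
    intro b c hb i
    induction i with
    | zero => intro u; simp
    | succ i ih =>
      intro u
      rw [pow_succ, ← mul_assoc, hb, ih, pow_succ, mul_assoc]
  have hcharcl : ∀ t u : T, σ.character (t⁻¹ * u * t) = σ.character u := by
    intro t u
    have := Representation.char_conj σ u t⁻¹
    simpa using this
  -- the value at powers of `z`
  have hχz : ∀ k : ℕ, ρ.character (z ^ k) = (n : ℂ) * ζ₁ ^ k := by
    intro k
    have h3 := hindT (zb ^ k)
    have h4 : ∀ x : P, σ.character ⟨x⁻¹ * ((zb ^ k : T) : P) * x, hconjmem x (zb ^ k)⟩ =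
        (m : ℂ) * ζ₁ ^ k := by
      intro x
      have h5 : (⟨x⁻¹ * ((zb ^ k : T) : P) * x, hconjmem x (zb ^ k)⟩ : T) = 1 * zb ^ k := by
        apply Subtype.ext
        show x⁻¹ * z ^ k * x = 1 * z ^ k
        have h6 : Commute z x := hzcomm x
        rw [one_mul, mul_assoc, (h6.pow_left k).eq]
        group
      rw [h5, hscalpow zb ζ₁ hψz, hone]
    simp only [h4] at h3
    rw [Finset.sum_const, nsmul_eq_mul, ← mul_assoc, Finset.card_univ, ← Nat.card_eq_fintype_card,
      hcardP, hTindex] at h3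
    have h7 : ((zb ^ k : T) : P) = z ^ k := rfl
    rw [h7] at h3
    rw [h3, hdeg]
    push_cast
    ring
  have hζ₁p : ζ₁ ^ p = 1 := by
    have h3 := hχz p
    rw [hzp, hone'] at h3
    have h4 : (n : ℂ) * (ζ₁ ^ p - 1) = 0 := by
      rw [mul_sub, ← h3, mul_one, sub_self]
    rcases mul_eq_zero.mp h4 with h5 | h5
    · exact absurd h5 hn0
    · exact sub_eq_zero.mp h5
  have hζ₁1 : ζ₁ ≠ 1 := by
    intro h
    apply hz1
    apply hfaith
    have h3 := hχz 1
    rw [h, one_pow, mul_one, pow_one, ← hone'] at h3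
    exact (character_eq_one_iff ρ z).mp h3
  have hζ₁prim : IsPrimitiveRoot ζ₁ p := by
    have h3 : orderOf ζ₁ = p := orderOf_eq_prime hζ₁p hζ₁1
    rw [← h3]
    exact IsPrimitiveRoot.orderOf ζ₁
  have hμp : μ ^ p = 1 := by
    have h3 := hscalpow yb μ hψy p 1
    have h4 : yb ^ p = 1 := Subtype.ext hyp
    rw [h4, mul_one, hone] at h3
    have h5 : (m : ℂ) * (μ ^ p - 1) = 0 := by
      rw [mul_sub, ← h3, mul_one, sub_self]
    rcases mul_eq_zero.mp h5 with h6 | h6
    · exact absurd h6 hm0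
    · exact sub_eq_zero.mp h6
  have hμ0 : μ ≠ 0 := by
    rintro rfl
    rw [zero_pow hp'.ne_zero] at hμp
    exact zero_ne_one hμp
  obtain ⟨l, -, hl⟩ := hζ₁prim.eq_pow_of_pow_eq_one hμp
  have hj : ∀ x : P, ∃ j : ℕ, x⁻¹ * y * x = y * z ^ j ∧ (x ∈ T ↔ p ∣ j) := by
    intro x
    have hc := hcomm x⁻¹
    have hcp : x⁻¹ * y * x⁻¹⁻¹ * y⁻¹ ∈ Submonoid.powers z := mem_powers_iff_mem_zpowers.mpr hc
    obtain ⟨j, hj⟩ := hcp
    have hj' : z ^ j = x⁻¹ * y * x⁻¹⁻¹ * y⁻¹ := hj
    have h3 : x⁻¹ * y * x = y * z ^ j := by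
      have h4 : Commute z y := hzcomm y
      rw [← (h4.pow_left j).eq, hj']
      group
    refine ⟨j, h3, ?_⟩
    rw [hTmem, ← hzord, orderOf_dvd_iff_pow_eq_one]
    constructor
    · intro h4
      have h5 : x⁻¹ * y * x = y := by
        have h6 : x⁻¹ * (x * y * x⁻¹) * x = y := by group
        rw [h4] at h6
        exact h6
      rw [h5] at h3
      simpa using h3.symm
    · intro h4
      rw [h4, mul_one] at h3
      have h6 : x * (x⁻¹ * y * x) * x⁻¹ = y := by group
      rw [h3] at h6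
      exact h6
  have hformula : ∀ (k : ℕ), k.Coprime p → ∀ h : T,
      ∑ i ∈ Finset.range p, (μ ^ k)⁻¹ ^ i * ρ.character (((h : P) * y ^ i) ^ k) =
        (p : ℂ) * σ.character (h ^ k) := by
    intro k hk h
    refine proj_formula T y z hyT hzT (fun u => σ.character (u ^ k)) (fun g => ρ.character (g ^ k))
      ?_ ?_ (μ ^ k) (ζ₁ ^ k) (pow_ne_zero _ hμ0) (hζ₁prim.pow_of_coprime k hk) ?_ ?_ hzc hj h
    · intro u
      have h3 := hindT (u ^ k)
      show ρ.character ((u : P) ^ k) = _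
      refine Eq.trans h3 ?_
      congr 1
      refine Finset.sum_congr rfl fun x _ => ?_
      congr 1
      apply Subtype.ext
      show x⁻¹ * (u : P) ^ k * x = (x⁻¹ * (u : P) * x) ^ k
      have := conj_pow (a := x⁻¹) (b := (u : P)) (i := k)
      simpa using this.symm
    · intro t u
      show σ.character ((t⁻¹ * u * t) ^ k) = σ.character (u ^ k)
      have := conj_pow (a := t⁻¹) (b := u) (i := k)
      have h3 : (t⁻¹ * u * t) ^ k = t⁻¹ * u ^ k * t := by simpa using this
      rw [h3, hcharcl]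
    · intro u
      show σ.character ((u * yb) ^ k) = σ.character (u ^ k) * μ ^ k
      have h3 : Commute u yb := hybc u
      rw [h3.mul_pow, hscalpow yb μ hψy]
    · intro u
      show σ.character ((u * zb) ^ k) = σ.character (u ^ k) * ζ₁ ^ k
      have h3 : Commute u zb := hzbc u
      rw [h3.mul_pow, hscalpow zb ζ₁ hψz]
  refine ⟨T, hTindex, m, σ, hσ, hdeg, ?_, ?_⟩
  · -- the kernel
    haveI : Fintype (P ⧸ T) := Fintype.ofFinite _
    set K := repKer σ with hK
    let KK : P → Subgroup T := fun x => K.comap (MulAut.conjNormal (H := T) x⁻¹).toMonoidHom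
    have hKK : ∀ x, (KK x).index = K.index := by
      intro x
      exact Subgroup.index_comap_of_surjective K (MulAut.conjNormal (H := T) x⁻¹).surjective
    have hbot : (⨅ q : P ⧸ T, KK q.out) = ⊥ := by
      rw [eq_bot_iff]
      intro t ht
      rw [Subgroup.mem_bot]
      have hall : ∀ x : P, (⟨x⁻¹ * t * x, hconjmem x t⟩ : T) ∈ K := by
        intro x
        set q : P ⧸ T := (x : P ⧸ T) with hq
        have h3 : t ∈ KK q.out := (Subgroup.mem_iInf.mp ht) q
        have h4 : q.out⁻¹ * x ∈ T := by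
          have h5 : ((q.out : P) : P ⧸ T) = (x : P ⧸ T) := QuotientGroup.out_eq' q
          exact QuotientGroup.eq.mp h5
        let s : T := ⟨q.out⁻¹ * x, h4⟩
        have h5 : (⟨x⁻¹ * t * x, hconjmem x t⟩ : T) =
            s⁻¹ * (MulAut.conjNormal (H := T) (q.out)⁻¹ t) * s := by
          apply Subtype.ext
          show x⁻¹ * t * x = (q.out⁻¹ * x)⁻¹ * ((q.out)⁻¹ * t * (q.out)⁻¹⁻¹) * (q.out⁻¹ * x)
          group
        rw [h5]
        have h6 : MulAut.conjNormal (H := T) (q.out)⁻¹ t ∈ K := h3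
        have h7 := (inferInstance : K.Normal).conj_mem _ h6 s⁻¹
        simpa using h7
      have hval : ∀ x : P, σ.character ⟨x⁻¹ * t * x, hconjmem x t⟩ = (m : ℂ) := by
        intro x
        rw [← hone]
        exact (character_eq_one_iff σ _).mpr (hall x)
      have h3 := hindT t
      simp only [hval] at h3
      rw [Finset.sum_const, nsmul_eq_mul, ← mul_assoc, Finset.card_univ, ← Nat.card_eq_fintype_card,
        hcardP, hTindex] at h3
      have h4 : ρ.character (t : P) = ρ.character 1 := by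
        rw [h3, hone', hdeg]
        push_cast
        ring
      have h5 := hfaith _ ((character_eq_one_iff ρ _).mp h4)
      exact Subtype.ext h5
    have h3 := Subgroup.index_iInf_le (fun q : P ⧸ T => KK q.out)
    rw [hbot, Subgroup.index_bot] at h3
    refine h3.trans (le_of_eq ?_)
    simp only [hKK]
    rw [Finset.prod_const, Finset.card_univ, ← Nat.card_eq_fintype_card]
    have h4 : Nat.card (P ⧸ T) = p := hTindex
    rw [h4]
  · intro k k' hk hk' heq
    have hz_eq : ζ₁ ^ k = ζ₁ ^ k' := by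
      have h3 : ρ.character (z ^ k) = ρ.character (z ^ k') := congrFun heq z
      rw [hχz, hχz] at h3
      exact mul_left_cancel₀ hn0 h3
    have hμ_eq : μ ^ k = μ ^ k' := by
      rw [← hl, ← pow_mul, ← pow_mul, mul_comm, pow_mul, hz_eq, ← pow_mul, mul_comm]
    funext h
    have h3 := hformula k hk h
    have h4 := hformula k' hk' h
    have hp0 : (p : ℂ) ≠ 0 := Nat.cast_ne_zero.mpr hp'.ne_zero
    apply mul_left_cancel₀ hp0
    rw [← h3, ← h4]
    refine Finset.sum_congr rfl fun i _ => ?_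
    rw [hμ_eq]
    congr 1
    exact congrFun heq _

end Descent

end Cfsg.Agent.Lib.Char.SchurBound
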