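import Mathlib
import Cfsg.Agent.Lib.Char.SchurBound2

/-!
# Schur's bound: the induction
-/

set_option autoImplicit false
set_option linter.unusedSectionVars false
set_option linter.unusedVariables false
set_option linter.style.haveILetI false

namespace Cfsg.Agent.Lib.Char.SchurBound

open Cfsg Subgroup Cfsg.Agent.Lib.Char.Codegree Cfsg.Agent.Lib.Char.QuotRep
open scoped commutatorElement

universe u

section Extract

variable {P : Type u} [Group P] [Finite P] {p : ℕ} [hp : Fact p.Prime]

/-- A non-cyclic abelian normal subgroup produces `z`, `y`. -/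
theorem exists_y_z (hP : IsPGroup p P) (A : Subgroup P) [hAn : A.Normal] (hAc : IsMulCommutative A)
    (hnc : ¬ IsCyclic A) :
    ∃ z y : P, z ∈ center P ∧ z ≠ 1 ∧ z ^ p = 1 ∧ y ^ p = 1 ∧ y ∉ zpowers z ∧
      ∀ g, g * y * g⁻¹ * y⁻¹ ∈ zpowers z := by
  classical
  have hp' := hp.out
  have hcomm : ∀ a ∈ A, ∀ b ∈ A, a * b = b * a := by
    intro a ha b hb
    exact congrArg Subtype.val (hAc.is_comm.comm (⟨a, ha⟩ : A) ⟨b, hb⟩)
  let Ω : Subgroup P :=
    { carrier := {x | x ∈ A ∧ x ^ p = 1}
      mul_mem' := by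
        rintro a b ⟨ha, hap⟩ ⟨hb, hbp⟩
        refine ⟨A.mul_mem ha hb, ?_⟩
        have h : Commute a b := hcomm a ha b hb
        rw [h.mul_pow, hap, hbp, one_mul]
      one_mem' := ⟨A.one_mem, one_pow _⟩
      inv_mem' := by
        rintro a ⟨ha, hap⟩
        exact ⟨A.inv_mem ha, by rw [inv_pow, hap, inv_one]⟩ }
  have hΩmem : ∀ x, x ∈ Ω ↔ x ∈ A ∧ x ^ p = 1 := fun x => Iff.rfl
  haveI hΩn : Ω.Normal := by
    constructor
    rintro x ⟨hx, hxp⟩ g
    exact ⟨hAn.conj_mem x hx g, by rw [conj_pow, hxp]; group⟩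
  -- `A` is a non-trivial `p`-group
  have hAp : IsPGroup p A := hP.to_subgroup A
  haveI hAnt : Nontrivial A := by
    by_contra h
    rw [not_nontrivial_iff_subsingleton] at h
    exact hnc inferInstance
  have hΩne : Ω ≠ ⊥ := by
    obtain ⟨a, ha⟩ := exists_ne (1 : A)
    obtain ⟨e, he⟩ := (IsPGroup.iff_orderOf.mp hAp) a
    have he0 : e ≠ 0 := by
      rintro rfl
      rw [pow_zero, orderOf_eq_one_iff] at he
      exact ha he
    obtain ⟨e', rfl⟩ := Nat.exists_eq_succ_of_ne_zero he0
    intro hbot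
    have h1 : ((a ^ p ^ e' : A) : P) ∈ Ω := by
      refine ⟨(a ^ p ^ e').2, ?_⟩
      have h2 : a ^ p ^ (e' + 1) = 1 := by rw [← he]; exact pow_orderOf_eq_one a
      have h3 : (a ^ p ^ e') ^ p = 1 := by rw [← pow_mul, ← pow_succ]; exact h2
      exact congrArg Subtype.val h3
    rw [hbot, Subgroup.mem_bot] at h1
    have h4 : a ^ p ^ e' = 1 := Subtype.ext h1
    have h5 := orderOf_dvd_of_pow_eq_one h4
    rw [he] at h5
    have := (Nat.pow_dvd_pow_iff_le_right hp'.one_lt).mp h5
    omega
  have hinf := Cfsg.Agent.Lib.PGroup.Basic.inf_center_ne_bot hP hΩne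
  obtain ⟨⟨z, hzΩ, hzc⟩, hz1⟩ := Subgroup.ne_bot_iff_exists_ne_one.mp hinf
  have hz1' : z ≠ 1 := fun h => hz1 (Subtype.ext h)
  have hzp := hzΩ.2
  have hzord : orderOf z = p := orderOf_eq_prime hzp hz1'
  have hzcomm : ∀ w : P, z * w = w * z := fun w => (Subgroup.mem_center_iff.mp hzc w).symm
  haveI hMn : (zpowers z).Normal := by
    constructor
    intro x hx g
    obtain ⟨i, rfl⟩ := hx
    have h1 : Commute z g := hzcomm g
    have h2 : g * z ^ i * g⁻¹ = z ^ i := by
      rw [← (h1.zpow_left i).eq]; group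
    show g * z ^ i * g⁻¹ ∈ zpowers z
    rw [h2]
    exact zpow_mem_zpowers z i
  have hnotle : ¬ Ω ≤ zpowers z := by
    intro hle
    apply hnc
    refine Cfsg.Agent.Lib.PGroup.CyclicMax2.isCyclic_of_comm_uniqueP (p := p)
      (fun x y => Subtype.ext (hcomm x x.2 y y.2)) hAp ?_
    intro y' z' hy hz hy1 hz1
    have hy' : (y' : P) ∈ Ω := ⟨y'.2, congrArg Subtype.val hy⟩
    have hz' : (z' : P) ∈ Ω := ⟨z'.2, congrArg Subtype.val hz⟩
    have hz'1 : (z' : P) ≠ 1 := fun h => hz1 (Subtype.ext h)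
    have hz'p : (z' : P) ^ p = 1 := hz'.2
    have hord : orderOf (z' : P) = p := orderOf_eq_prime hz'p hz'1
    have hle2 : zpowers (z' : P) ≤ zpowers z := zpowers_le.mpr (hle hz')
    have heq : zpowers (z' : P) = zpowers z := by
      apply Subgroup.eq_of_le_of_card_ge hle2
      rw [Nat.card_zpowers, Nat.card_zpowers, hord, hzord]
    have h3 : (y' : P) ∈ zpowers (z' : P) := by
      rw [heq]
      exact hle hy'
    obtain ⟨i, hi⟩ := h3
    exact ⟨i, Subtype.ext (by simpa using hi)⟩
  obtain ⟨y, hyΩ, hyM, -, hyc⟩ := Cfsg.Agent.Lib.PGroup.Critical.exists_mem_central_mod hP (zpowers z) Ω hnotle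
  refine ⟨z, y, hzc, hz1', hzp, hyΩ.2, hyM, fun g => ?_⟩
  have h1 := (zpowers z).inv_mem (hyc g)
  have h2 : (⁅y, g⁆)⁻¹ = g * y * g⁻¹ * y⁻¹ := by
    rw [commutatorElement_def]; group
  rwa [h2] at h1

end Extract

section Arith

theorem arith_terminal {p c b t n : ℕ} (hp : p.Prime) (hc : p ^ c ≤ n) (hb : b ≤ c + t) :
    (p - 1) * (b + 1 + c) ≤ (n - 1) + (p - 1) * (t + 1) * n := by
  obtain ⟨A, rfl⟩ : ∃ A, p = A + 1 := ⟨p - 1, by have := hp.pos; omega⟩
  have hA : 1 ≤ A := by have := hp.two_le; omega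
  simp only [Nat.add_sub_cancel]
  have hn : 1 ≤ n := le_trans (Nat.one_le_pow _ _ hp.pos) hc
  obtain ⟨N, rfl⟩ : ∃ N, n = N + 1 := ⟨n - 1, by omega⟩
  simp only [Nat.add_sub_cancel]
  -- Bernoulli
  have hB : A * c ≤ N := by
    have h1 : 1 + c * A ≤ (1 + A) ^ c := by
      have := one_add_mul_le_pow (a := (A : ℤ)) (by
        have : (0 : ℤ) ≤ A := by positivity
        linarith) c
      have h2 : ((1 + c * A : ℕ) : ℤ) ≤ ((1 + A) ^ c : ℕ) := by
        push_cast
        linarith
      exact_mod_cast h2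
    have h3 : (A + 1) ^ c ≤ N + 1 := hc
    rw [add_comm 1 A] at h1
    nlinarith
  have h4 : A * (b + 1 + c) ≤ A * (2 * c + t + 1) := Nat.mul_le_mul_left _ (by omega)
  have h5 : A * (2 * c + t + 1) = 2 * (A * c) + A * (t + 1) := by ring
  have h6 : A * (t + 1) * (N + 1) = A * (t + 1) * N + A * (t + 1) := by ring
  have h7 : N ≤ A * (t + 1) * N := by
    have : 1 ≤ A * (t + 1) := Nat.mul_pos hA (Nat.succ_pos t)
    exact Nat.le_mul_of_pos_left N this
  rw [h6]
  nlinarith

theorem arith_descent {p m u v t : ℕ} (hp : p.Prime) (hm : 1 ≤ m) (hv : v ≤ u * p)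
    (h : (p - 1) * u ≤ (m - 1) + (p - 1) * (t + 1) * m) :
    (p - 1) * (v + 1) ≤ (p * m - 1) + (p - 1) * (t + 1) * (p * m) := by
  obtain ⟨A, rfl⟩ : ∃ A, p = A + 1 := ⟨p - 1, by have := hp.pos; omega⟩
  obtain ⟨M, rfl⟩ : ∃ M, m = M + 1 := ⟨m - 1, by omega⟩
  simp only [Nat.add_sub_cancel] at h ⊢
  have h1 : (A + 1) * (M + 1) - 1 = (A + 1) * M + A := by
    have : (A + 1) * (M + 1) = (A + 1) * M + A + 1 := by ring
    omega
  rw [h1]
  have h2 : A * (v + 1) ≤ A * (u * (A + 1) + 1) := Nat.mul_le_mul_left _ (by omega)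
  have h3 : (A + 1) * (A * u) ≤ (A + 1) * (M + A * (t + 1) * (M + 1)) := Nat.mul_le_mul_left _ h
  nlinarith

end Arith

section Main

theorem fac_pow {p : ℕ} (hp : p.Prime) (k : ℕ) : (p ^ k).factorization p = k := by
  simp [Nat.factorization_pow, hp.factorization_self]

theorem main_bound' {p : ℕ} [hp : Fact p.Prime] (t D : ℕ) (hDt : D < (p - 1) * p ^ (t + 1)) :
    ∀ (N : ℕ) (P : Type u) [Group P] [Finite P],
    Nat.card P = N → IsPGroup p P → ∀ (n : ℕ) (ρ : Representation ℂ P (Fin n → ℂ)) [ρ.IsIrreducible],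
    (∀ g, ρ g = 1 → g = 1) → GalBound p ρ.character D →
    (p - 1) * (Nat.card P).factorization p ≤ (n - 1) + (p - 1) * (t + 1) * n := by
  intro N
  induction N using Nat.strong_induction_on with
  | _ N ih =>
    intro P _ _ hcard hP n ρ hρ hfaith hD
    classical
    have hp' := hp.out
    by_cases htriv : Subsingleton P
    · rw [Nat.card_of_subsingleton (1 : P)]
      simp
    rw [not_subsingleton_iff_nontrivial] at htriv
    obtain ⟨A, hAn, hAc, hAC⟩ := Cfsg.Agent.Lib.PGroup.CyclicMax2.exists_selfCentralizing hP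
    haveI := hAn
    by_cases hcyc : IsCyclic A
    · obtain ⟨a, rfl⟩ := Cfsg.Agent.Lib.PGroup.CyclicMax.exists_zpowers_eq_of_isCyclic A hcyc
      obtain ⟨e, he⟩ := IsPGroup.iff_orderOf.mp hP a
      have he0 : e ≠ 0 := by
        rintro rfl
        rw [pow_zero, orderOf_eq_one_iff] at he
        subst he
        rw [zpowers_one_eq_bot] at hAC
        have h1 : centralizer ((⊥ : Subgroup P) : Set P) = ⊤ := by simp
        rw [h1] at hAC
        obtain ⟨x, hx⟩ := exists_ne (1 : P)
        have h2 : x ∈ (⊥ : Subgroup P) := hAC ▸ Subgroup.mem_top x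
        exact hx (Subgroup.mem_bot.mp h2)
      obtain ⟨b, rfl⟩ := Nat.exists_eq_succ_of_ne_zero he0
      obtain ⟨h1, h2⟩ := terminal hP ρ hfaith a hAn hAC hD he
      obtain ⟨c, hc⟩ := hP.index (zpowers a)
      rw [hc] at h1 h2
      have hb : b ≤ c + t := by
        have hpos : 0 < p - 1 := by have := hp'.two_le; omega
        have h3 : p ^ b * (p - 1) < p ^ (c + t + 1) * (p - 1) := by
          calc p ^ b * (p - 1) ≤ p ^ c * D := h2
            _ < p ^ c * ((p - 1) * p ^ (t + 1)) := Nat.mul_lt_mul_of_pos_left hDt (pow_pos hp'.pos _)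
            _ = p ^ (c + t + 1) * (p - 1) := by rw [add_assoc, pow_add]; ring
        have h4 := Nat.lt_of_mul_lt_mul_right h3
        have h5 := (Nat.pow_lt_pow_iff_right hp'.one_lt).mp h4
        omega
      have hcardP : Nat.card P = p ^ (b + 1 + c) := by
        have h3 := Subgroup.card_mul_index (zpowers a)
        rw [Nat.card_zpowers, he, hc] at h3
        rw [← h3, pow_add]
      rw [hcardP, fac_pow hp']
      exact arith_terminal hp' h1 hb
    · obtain ⟨z, y, hzc, hz1, hzp, hyp, hyz, hcm⟩ := exists_y_z hP A hAc hcyc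
      obtain ⟨T, hTi, m, σ, hσ, hdeg, hker, himp⟩ := descent hP ρ hfaith z y hzc hz1 hzp hyp hyz hcm
      haveI := hσ
      set K := repKer σ with hK
      have hTcard : Nat.card T * p = Nat.card P := by
        have h3 := Subgroup.card_mul_index T
        rwa [hTi] at h3
      have hTpos : 0 < Nat.card T := Nat.card_pos
      have hKlt : K.index < N := by
        have h3 : K.index ≤ Nat.card T := by
          have h4 := Subgroup.card_mul_index K
          have h5 : 0 < Nat.card K := Nat.card_pos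
          calc K.index ≤ Nat.card K * K.index := Nat.le_mul_of_pos_left _ h5
            _ = Nat.card T := h4
        have h6 := hp'.two_le
        rw [← hcard, ← hTcard]
        nlinarith
      have hQp : IsPGroup p (T ⧸ K) := (hP.to_subgroup T).to_quotient K
      let τ := quotRep σ K (fun g hg => hg)
      haveI hτi : τ.IsIrreducible := quotRep_isIrreducible σ K _
      have hτf : ∀ q, τ q = 1 → q = 1 := by
        intro q
        induction q using QuotientGroup.induction_on
        rename_i g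
        intro h
        exact (QuotientGroup.eq_one_iff g).mpr h
      have hτD : GalBound p τ.character D := by
        refine hD.of_imp fun k k' hk hk' heq => ?_
        funext q
        induction q using QuotientGroup.induction_on
        rename_i g
        exact congrFun (himp k k' hk hk' heq) g
      have hI := ih K.index hKlt (T ⧸ K) rfl hQp m τ hτf hτD
      obtain ⟨u, hu⟩ := IsPGroup.iff_card.mp hQp
      have hu' : K.index = p ^ u := hu
      have hQcard : Nat.card (T ⧸ K) = p ^ u := hu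
      rw [hQcard, fac_pow hp'] at hI
      obtain ⟨v, hv⟩ := IsPGroup.iff_card.mp (hP.to_subgroup T)
      have hvu : v ≤ u * p := by
        have h3 : p ^ v ≤ p ^ (u * p) := by
          rw [← hv, pow_mul, ← hu']
          exact hker
        exact (Nat.pow_le_pow_iff_right hp'.one_lt).mp h3
      have hcardP : Nat.card P = p ^ (v + 1) := by
        rw [← hTcard, hv, pow_succ]
      have hm : 1 ≤ m := by
        haveI := Cfsg.Agent.Lib.Char.Integrality.nontrivial_of_isIrreducible σ
        by_contra h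
        have h0 : m = 0 := by omega
        subst h0
        exact not_subsingleton_iff_nontrivial.mpr this inferInstance
      rw [hcardP, fac_pow hp', hdeg]
      exact arith_descent hp' hm hvu hI

theorem main_bound {p : ℕ} [hp : Fact p.Prime] (t : ℕ) (N : ℕ) (P : Type u) [Group P] [Finite P]
    (hcard : Nat.card P = N) (hP : IsPGroup p P) (n : ℕ) (ρ : Representation ℂ P (Fin n → ℂ))
    [ρ.IsIrreducible] (hfaith : ∀ g, ρ g = 1 → g = 1) (hD : GalBound p ρ.character ((p - 1) * p ^ t)) :
    (p - 1) * (Nat.card P).factorization p ≤ (n - 1) + (p - 1) * (t + 1) * n := by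
  have hp' := hp.out
  refine main_bound' t _ ?_ N P hcard hP n ρ hfaith hD
  have h1 : 0 < p - 1 := by have := hp'.two_le; omega
  rw [pow_succ]
  have h2 : 0 < p ^ t := pow_pos hp'.pos _
  calc (p - 1) * p ^ t < (p - 1) * p ^ t * p := by
        have := hp'.two_le
        have h3 : 0 < (p - 1) * p ^ t := Nat.mul_pos h1 h2
        nlinarith
    _ = _ := by ring

/-- The number of Galois conjugates is bounded by the degree of the field of values. -/
theorem galBound_of_finrank {P : Type u} [Group P] [Finite P] {p : ℕ} [hp : Fact p.Prime]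
    (hP : IsPGroup p P) {χ : P → ℂ} (hχ : IsCharacter P χ) {D : ℕ}
    (hD : Module.finrank ℚ (IntermediateField.adjoin ℚ (Set.range χ)) = D) (hD0 : 0 < D) :
    GalBound p χ D := by
  classical
  intro S hS hinj
  obtain ⟨n, ρ, rfl⟩ := hχ
  set F := IntermediateField.adjoin ℚ (Set.range ρ.character) with hF
  haveI : FiniteDimensional ℚ F := Module.finite_of_finrank_pos (by rw [hD]; exact hD0)
  obtain ⟨a, ha⟩ := IsPGroup.iff_card.mp hP
  have hcop : ∀ k ∈ S, k.Coprime (Nat.card P) := by
    intro k hk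
    rw [ha]
    exact Nat.Coprime.pow_right _ (hS k hk)
  have hex : ∀ k ∈ S, ∃ τ : ℂ →+* ℂ, ∀ ε : ℂ, ε ^ Nat.card P = 1 → τ ε = ε ^ k := by
    intro k hk
    exact Cfsg.Agent.Lib.Char.Galois.exists_ringHom_pow (Nat.card P) Nat.card_pos k (hcop k hk)
  choose! τ hτ using hex
  let E : S → (F →ₐ[ℚ] ℂ) := fun k => ((τ k).comp (algebraMap F ℂ)).toRatAlgHom
  have hE : Function.Injective E := by
    intro k k' hkk'
    apply Subtype.ext
    apply hinj k.2 k'.2
    funext g
    have hmem : ρ.character g ∈ F := IntermediateField.subset_adjoin ℚ _ ⟨g, rfl⟩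
    have h1 := DFunLike.congr_fun hkk' ⟨ρ.character g, hmem⟩
    have h2 : τ k (ρ.character g) = τ k' (ρ.character g) := h1
    rw [Cfsg.Agent.Lib.Char.Galois.map_character (τ k) Nat.card_pos (hτ k k.2) ρ g pow_card_eq_one',
      Cfsg.Agent.Lib.Char.Galois.map_character (τ k') Nat.card_pos (hτ k' k'.2) ρ g pow_card_eq_one'] at h2
    exact h2
  rw [← hD, ← AlgHom.card ℚ F ℂ, ← Fintype.card_coe S]
  exact Fintype.card_le_of_injective E hE

end Main

end Cfsg.Agent.Lib.Char.SchurBound
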