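import Mathlib
import Cfsg.Agent.Lib.Char.SchurBound3
import Cfsg.Agent.Lib.Char.GalFix

/-!
# Schur's bound for `p`-rational characters
-/

set_option autoImplicit false
set_option linter.unusedSectionVars false
set_option linter.unusedVariables false
set_option linter.style.haveILetI false

namespace Cfsg.Agent.Lib.Char.SchurBound

open Cfsg Subgroup Cfsg.Agent.Lib.Char.Codegree Cfsg.Agent.Lib.Char.QuotRep
  Cfsg.Agent.Lib.Char.Ortho

universe u

section Arith2

/-- The sum in Schur's bound. -/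
def MM (p R x : ℕ) : ℕ := ∑ i ∈ Finset.range R, x / ((p - 1) * p ^ i)

theorem MM_add (p R x y : ℕ) : MM p R x + MM p R y ≤ MM p R (x + y) := by
  unfold MM
  rw [← Finset.sum_add_distrib]
  exact Finset.sum_le_sum fun i _ => Nat.add_div_le_add_div _ _ _

theorem MM_mono (p R : ℕ) {x y : ℕ} (h : x ≤ y) : MM p R x ≤ MM p R y :=
  Finset.sum_le_sum fun i _ => Nat.div_le_div_right h

theorem orbit_arith {p a c t D R : ℕ} (hp : p.Prime) (hD : (p - 1) * p ^ t ≤ D) (hR : c + t < R)
    (h : (p - 1) * a ≤ (p ^ c - 1) + (p - 1) * (t + 1) * p ^ c) :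
    a ≤ MM p R (D * p ^ c) := by
  obtain ⟨A, hA⟩ : ∃ A, p = A + 1 := ⟨p - 1, by have := hp.pos; omega⟩
  have hApos : 0 < A := by have := hp.two_le; omega
  set G := ∑ i ∈ Finset.range (c + t + 1), p ^ i with hG
  have hG1 : G * A + 1 = p ^ (c + t + 1) := by
    rw [hG, hA]
    exact geom_sum_mul_add A (c + t + 1)
  have hpA : p - 1 = A := by omega
  rw [hpA] at h hD
  -- Bernoulli
  have hB : 1 + (t + 1) * A ≤ p ^ (t + 1) := by
    have h1 := one_add_mul_le_pow (a := (A : ℤ)) (by
        have : (0 : ℤ) ≤ A := by positivity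
        linarith) (t + 1)
    have h2 : ((1 + (t + 1) * A : ℕ) : ℤ) ≤ ((p ^ (t + 1) : ℕ) : ℤ) := by
      rw [hA]
      push_cast at h1 ⊢
      rw [add_comm (A : ℤ) 1]
      exact h1
    exact_mod_cast h2
  have hpc : 1 ≤ p ^ c := Nat.one_le_pow _ _ hp.pos
  have hle : a * A + 1 ≤ G * A + 1 := by
    rw [hG1]
    have h3 : p ^ (c + t + 1) = p ^ c * p ^ (t + 1) := by rw [add_assoc, pow_add]
    rw [h3]
    have h4 : a * A ≤ (p ^ c - 1) + A * (t + 1) * p ^ c := by rw [mul_comm a A]; exact h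
    obtain ⟨F, hF⟩ : ∃ F, p ^ c = F + 1 := ⟨p ^ c - 1, by omega⟩
    rw [hF] at h4 ⊢
    simp only [Nat.add_sub_cancel] at h4
    nlinarith
  have haG : a ≤ G := by
    have h5 : a * A ≤ G * A := by omega
    exact Nat.le_of_mul_le_mul_right h5 hApos
  refine haG.trans ?_
  -- termwise
  have hterm : ∀ i ∈ Finset.range (c + t + 1),
      p ^ (c + t - i) ≤ (D * p ^ c) / ((p - 1) * p ^ i) := by
    intro i hi
    have hi' : i ≤ c + t := by
      have := Finset.mem_range.mp hi
      omega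
    rw [hpA]
    rw [Nat.le_div_iff_mul_le (Nat.mul_pos hApos (pow_pos hp.pos _))]
    have h6 : p ^ (c + t - i) * (A * p ^ i) = A * p ^ t * p ^ c := by
      have h7 : p ^ (c + t - i) * p ^ i = p ^ (c + t) := by
        rw [← pow_add]; congr 1; omega
      calc p ^ (c + t - i) * (A * p ^ i) = A * (p ^ (c + t - i) * p ^ i) := by ring
        _ = A * p ^ t * p ^ c := by rw [h7, pow_add]; ring
    rw [h6]
    exact Nat.mul_le_mul_right _ hD
  have hreflect : G = ∑ i ∈ Finset.range (c + t + 1), p ^ (c + t - i) := by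
    rw [hG]
    have := Finset.sum_range_reflect (fun i => p ^ i) (c + t + 1)
    rw [← this]
    refine Finset.sum_congr rfl fun i hi => ?_
    congr 1
  rw [hreflect]
  calc ∑ i ∈ Finset.range (c + t + 1), p ^ (c + t - i)
      ≤ ∑ i ∈ Finset.range (c + t + 1), (D * p ^ c) / ((p - 1) * p ^ i) :=
        Finset.sum_le_sum hterm
    _ ≤ ∑ i ∈ Finset.range R, (D * p ^ c) / ((p - 1) * p ^ i) :=
        Finset.sum_le_sum_of_subset (Finset.range_mono (by omega))

end Arith2

section Ker

variable {P : Type u} [Group P] [Finite P]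

/-- The kernel of an irreducible character. -/
def kerI (τ : IrrCharacter P) : Subgroup P where
  carrier := {g | τ.1 g = τ.1 1}
  mul_mem' := by
    intro a b ha hb
    obtain ⟨n, ρ, -, hρ⟩ := τ.2
    have ha' : ρ.character a = ρ.character 1 := by rw [hρ]; exact ha
    have hb' : ρ.character b = ρ.character 1 := by rw [hρ]; exact hb
    show τ.1 (a * b) = τ.1 1
    rw [← hρ]
    exact (character_eq_one_iff ρ _).mpr ((repKer ρ).mul_mem ((character_eq_one_iff ρ _).mp ha')
      ((character_eq_one_iff ρ _).mp hb'))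
  one_mem' := rfl
  inv_mem' := by
    intro a ha
    obtain ⟨n, ρ, -, hρ⟩ := τ.2
    have ha' : ρ.character a = ρ.character 1 := by rw [hρ]; exact ha
    show τ.1 a⁻¹ = τ.1 1
    rw [← hρ]
    exact (character_eq_one_iff ρ _).mpr ((repKer ρ).inv_mem ((character_eq_one_iff ρ _).mp ha'))

theorem mem_kerI (τ : IrrCharacter P) (g : P) : g ∈ kerI τ ↔ τ.1 g = τ.1 1 := Iff.rfl

theorem kerI_eq {n : ℕ} (τ : IrrCharacter P) (ρ : Representation ℂ P (Fin n → ℂ))
    (h : ρ.character = τ.1) : kerI τ = repKer ρ := by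
  ext g
  rw [mem_kerI, ← h, character_eq_one_iff]

end Ker

section Orbit

variable {P : Type u} [Group P] [Finite P] {p : ℕ} [hp : Fact p.Prime]

theorem coprime_card (hP : IsPGroup p P) {k : ℕ} (hk : k.Coprime p) : k.Coprime (Nat.card P) := by
  obtain ⟨a, ha⟩ := IsPGroup.iff_card.mp hP
  rw [ha]
  exact Nat.Coprime.pow_right _ hk

open Classical in
/-- The Galois orbit of an irreducible character. -/
noncomputable def Orb [Fintype (IrrCharacter P)] (p : ℕ) (τ : IrrCharacter P) : Finset (IrrCharacter P) :=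
  Finset.univ.filter fun τ' => ∃ k : ℕ, k.Coprime p ∧ τ'.1 = fun g => τ.1 (g ^ k)

variable [Fintype (IrrCharacter P)]

theorem mem_Orb (τ τ' : IrrCharacter P) :
    τ' ∈ Orb p τ ↔ ∃ k : ℕ, k.Coprime p ∧ τ'.1 = fun g => τ.1 (g ^ k) := by
  classical
  simp [Orb]

theorem orb_self (τ : IrrCharacter P) : τ ∈ Orb p τ :=
  (mem_Orb τ τ).mpr ⟨1, Nat.coprime_one_left _, by simp⟩

theorem orb_trans {τ τ' τ'' : IrrCharacter P} (h1 : τ' ∈ Orb p τ) (h2 : τ'' ∈ Orb p τ') :
    τ'' ∈ Orb p τ := by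
  obtain ⟨k, hk, h3⟩ := (mem_Orb _ _).mp h1
  obtain ⟨l, hl, h4⟩ := (mem_Orb _ _).mp h2
  refine (mem_Orb _ _).mpr ⟨k * l, Nat.Coprime.mul_left hk hl, ?_⟩
  rw [h4, h3]
  funext g
  show τ.1 ((g ^ l) ^ k) = _
  rw [← pow_mul, mul_comm]

theorem orb_symm (hP : IsPGroup p P) {τ τ' : IrrCharacter P} (h1 : τ' ∈ Orb p τ) : τ ∈ Orb p τ' := by
  obtain ⟨k, hk, h3⟩ := (mem_Orb _ _).mp h1
  set N := Nat.card P with hN
  have hN0 : 0 < N := Nat.card_pos
  have htot : 0 < Nat.totient N := Nat.totient_pos.mpr hN0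
  refine (mem_Orb _ _).mpr ⟨k ^ (Nat.totient N - 1), Nat.Coprime.pow_left _ hk, ?_⟩
  rw [h3]
  funext g
  show τ.1 g = τ.1 ((g ^ k ^ (Nat.totient N - 1)) ^ k)
  rw [← pow_mul, ← pow_succ, Nat.sub_add_cancel htot]
  have h4 : k ^ Nat.totient N ≡ 1 [MOD N] := Nat.ModEq.pow_totient (coprime_card hP hk)
  have h5 : g ^ k ^ Nat.totient N = g := by
    have h6 : k ^ Nat.totient N ≡ 1 [MOD orderOf g] := h4.of_dvd (orderOf_dvd_natCard g)
    rw [pow_eq_pow_iff_modEq.mpr h6, pow_one]
  rw [h5]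

theorem orb_eq_of_mem (hP : IsPGroup p P) {τ τ' : IrrCharacter P} (h1 : τ' ∈ Orb p τ) (σ : IrrCharacter P) :
    σ ∈ Orb p τ' ↔ σ ∈ Orb p τ :=
  ⟨fun h => orb_trans h1 h, fun h => orb_trans (orb_symm hP h1) h⟩

theorem apply_one_of_orb {τ τ' : IrrCharacter P} (h1 : τ' ∈ Orb p τ) : τ'.1 1 = τ.1 1 := by
  obtain ⟨k, hk, h3⟩ := (mem_Orb _ _).mp h1
  rw [h3]
  simp

theorem kerI_le_of_orb {τ τ' : IrrCharacter P} (h1 : τ' ∈ Orb p τ) : kerI τ ≤ kerI τ' := by
  intro g hg
  obtain ⟨k, hk, h3⟩ := (mem_Orb _ _).mp h1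
  rw [mem_kerI, apply_one_of_orb h1, h3]
  exact (kerI τ).pow_mem hg k

theorem galBound_orb (hP : IsPGroup p P) (τ : IrrCharacter P) :
    GalBound p τ.1 (Orb p τ).card := by
  classical
  intro S hS hinj
  let f : ℕ → IrrCharacter P := fun k =>
    if h : k.Coprime p then
      ⟨fun g => τ.1 (g ^ k), Cfsg.Agent.Lib.Char.Galois.isIrrCharacter_pow_of_coprime τ.2
        (coprime_card hP h)⟩
    else τ
  have hf : ∀ k ∈ S, (f k).1 = fun g => τ.1 (g ^ k) := by
    intro k hk
    show (f k).1 = _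
    dsimp only [f]
    rw [dif_pos (hS k hk)]
  refine Finset.card_le_card_of_injOn f ?_ ?_
  · intro k hk
    exact (mem_Orb _ _).mpr ⟨k, hS k hk, hf k hk⟩
  · intro k hk k' hk' heq
    apply hinj hk hk'
    show (fun g => τ.1 (g ^ k)) = fun g => τ.1 (g ^ k')
    rw [← hf k hk, ← hf k' hk', heq]

/-- A non-trivial irreducible character has at least `p - 1` Galois conjugates; the bound from the
faithful quotient. -/
theorem orbit_main (hP : IsPGroup p P) (τ : IrrCharacter P) (hτ : kerI τ ≠ ⊤) {R d : ℕ}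
    (hd : τ.1 1 = d) (hR : (Orb p τ).card * d < R) :
    (kerI τ).index.factorization p ≤ MM p R ((Orb p τ).card * d) := by
  classical
  have hp' := hp.out
  obtain ⟨n, ρ, hρi, hρ⟩ := τ.2
  haveI := hρi
  have hK := kerI_eq τ ρ hρ
  rw [hK] at hτ ⊢
  set K := repKer ρ with hKdef
  have hnd : n = d := by
    have h1 : τ.1 1 = (n : ℂ) := by rw [← hρ, Representation.char_one]; simp
    rw [h1] at hd
    exact_mod_cast hd
  subst hnd
  -- the quotient
  have hQp : IsPGroup p (P ⧸ K) := hP.to_quotient K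
  let σ := quotRep ρ K (fun g hg => hg)
  haveI hσi : σ.IsIrreducible := quotRep_isIrreducible ρ K _
  have hσf : ∀ q, σ q = 1 → q = 1 := by
    intro q
    induction q using QuotientGroup.induction_on
    rename_i g
    intro h
    exact (QuotientGroup.eq_one_iff g).mpr h
  haveI hQnt : Nontrivial (P ⧸ K) := by
    have h1 : K.index ≠ 1 := by
      intro h
      exact hτ (Subgroup.index_eq_one.mp h)
    rw [← Finite.one_lt_card_iff_nontrivial]
    have h2 : 0 < Nat.card (P ⧸ K) := Nat.card_pos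
    have h3 : Nat.card (P ⧸ K) ≠ 1 := h1
    omega
  -- a central element of order `p`
  haveI := hQp.center_nontrivial
  obtain ⟨x, hx⟩ := exists_ne (1 : center (P ⧸ K))
  obtain ⟨e, he⟩ := (IsPGroup.iff_orderOf.mp (hQp.to_subgroup (center (P ⧸ K)))) x
  have he0 : e ≠ 0 := by
    rintro rfl
    rw [pow_zero, orderOf_eq_one_iff] at he
    exact hx he
  obtain ⟨e', rfl⟩ := Nat.exists_eq_succ_of_ne_zero he0
  set y : center (P ⧸ K) := x ^ p ^ e' with hy
  have hyp : y ^ p = 1 := by
    rw [hy, ← pow_mul, ← pow_succ, ← he]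
    exact pow_orderOf_eq_one x
  have hy1 : y ≠ 1 := by
    intro h
    have h5 := orderOf_dvd_of_pow_eq_one h
    rw [he] at h5
    have := (Nat.pow_dvd_pow_iff_le_right hp'.one_lt).mp h5
    omega
  obtain ⟨g, hg⟩ := QuotientGroup.mk_surjective ((y : P ⧸ K))
  obtain ⟨ζ, hζ⟩ := Cfsg.Agent.Lib.Char.Integrality.exists_smul_id_of_commute σ (σ (y : P ⧸ K)) (fun q => by
    show σ (y : P ⧸ K) * σ q = σ q * σ (y : P ⧸ K)
    rw [← map_mul, ← map_mul, (Subgroup.mem_center_iff.mp y.2 q).symm])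
  have hn0 : (n : ℂ) ≠ 0 := by
    haveI := Cfsg.Agent.Lib.Char.Integrality.nontrivial_of_isIrreducible ρ
    have h3 : n ≠ 0 := by
      rintro rfl
      exact not_subsingleton_iff_nontrivial.mpr this inferInstance
    exact_mod_cast h3
  have hσpow : ∀ k : ℕ, σ ((y : P ⧸ K) ^ k) = ζ ^ k • LinearMap.id := by
    intro k
    rw [map_pow, hζ]
    refine LinearMap.ext fun w => ?_
    induction k generalizing w with
    | zero => simp
    | succ k ih =>
      rw [pow_succ, Module.End.mul_apply]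
      simp only [LinearMap.smul_apply, LinearMap.id_coe, id_eq] at ih ⊢
      rw [ih, smul_smul, pow_succ, mul_comm]
  have hval : ∀ k : ℕ, τ.1 (g ^ k) = (n : ℂ) * ζ ^ k := by
    intro k
    rw [← hρ]
    have h1 : ρ.character (g ^ k) = σ.character ((y : P ⧸ K) ^ k) := by
      rw [← hg]
      rfl
    rw [h1]
    show LinearMap.trace ℂ _ (σ ((y : P ⧸ K) ^ k)) = _
    rw [hσpow, map_smul, LinearMap.trace_id]
    simp [mul_comm]
  have hζp : ζ ^ p = 1 := by
    have h1 := hσpow p
    have h2 : ((y : P ⧸ K)) ^ p = 1 := congrArg Subtype.val hyp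
    rw [h2, map_one] at h1
    haveI := Cfsg.Agent.Lib.Char.Integrality.nontrivial_of_isIrreducible σ
    obtain ⟨w, hw⟩ : ∃ w : Fin n → ℂ, w ≠ 0 := exists_ne 0
    have h3 := congrArg (fun F : Module.End ℂ (Fin n → ℂ) => F w) h1
    have h4 : w = ζ ^ p • w := h3
    have h5 : (ζ ^ p - 1) • w = 0 := by rw [sub_smul, ← h4, one_smul, sub_self]
    rcases smul_eq_zero.mp h5 with h6 | h6
    · exact sub_eq_zero.mp h6
    · exact absurd h6 hw
  have hζ1 : ζ ≠ 1 := by
    intro h
    apply hy1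
    apply Subtype.ext
    apply hσf
    rw [hζ, h, one_smul]
    rfl
  have hζprim : IsPrimitiveRoot ζ p := by
    have h1 : orderOf ζ = p := orderOf_eq_prime hζp hζ1
    rw [← h1]
    exact IsPrimitiveRoot.orderOf ζ
  -- the orbit is large
  have hOrb : p - 1 ≤ (Orb p τ).card := by
    let f : ℕ → IrrCharacter P := fun k =>
      if h : k.Coprime p then
        ⟨fun g => τ.1 (g ^ k), Cfsg.Agent.Lib.Char.Galois.isIrrCharacter_pow_of_coprime τ.2
          (coprime_card hP h)⟩
      else τ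
    have hcop : ∀ k ∈ Finset.Ico 1 p, k.Coprime p := by
      intro k hk
      have h1 := Finset.mem_Ico.mp hk
      exact Nat.Coprime.symm ((Nat.Prime.coprime_iff_not_dvd hp').mpr (Nat.not_dvd_of_pos_of_lt h1.1 h1.2))
    have hf : ∀ k ∈ Finset.Ico 1 p, (f k).1 = fun g => τ.1 (g ^ k) := by
      intro k hk
      show (f k).1 = _
      dsimp only [f]
      rw [dif_pos (hcop k hk)]
    have h1 : (Finset.Ico 1 p).card ≤ (Orb p τ).card := by
      refine Finset.card_le_card_of_injOn f ?_ ?_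
      · intro k hk
        exact (mem_Orb _ _).mpr ⟨k, hcop k hk, hf k hk⟩
      · intro k hk k' hk' heq
        have h2 : (f k).1 g = (f k').1 g := by rw [heq]
        rw [hf k hk, hf k' hk'] at h2
        simp only [hval] at h2
        have h3 := mul_left_cancel₀ hn0 h2
        have hk1 := Finset.mem_Ico.mp hk
        have hk2 := Finset.mem_Ico.mp hk'
        exact hζprim.pow_inj hk1.2 hk2.2 h3
    simpa using h1
  set D := (Orb p τ).card with hDdef
  have hA : 0 < p - 1 := by have := hp'.two_le; omega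
  set w := D / (p - 1) with hw
  have hw0 : w ≠ 0 := by
    have h1 : 1 ≤ D / (p - 1) := (Nat.one_le_div_iff hA).mpr hOrb
    omega
  set t := Nat.log p w with ht
  have ht1 : p ^ t ≤ w := Nat.pow_log_le_self p hw0
  have ht2 : w < p ^ (t + 1) := Nat.lt_pow_succ_log_self hp'.one_lt w
  have hDt : D < (p - 1) * p ^ (t + 1) := by
    calc D < (p - 1) * (D / (p - 1) + 1) := Nat.lt_mul_div_succ D hA
      _ ≤ (p - 1) * p ^ (t + 1) := Nat.mul_le_mul_left _ ht2
  have hD' : (p - 1) * p ^ t ≤ D := by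
    calc (p - 1) * p ^ t ≤ (p - 1) * w := Nat.mul_le_mul_left _ ht1
      _ ≤ D := Nat.mul_div_le D (p - 1)
  have hσD : GalBound p σ.character D := by
    refine (galBound_orb hP τ).of_imp fun k k' hk hk' heq => ?_
    funext q
    induction q using QuotientGroup.induction_on
    rename_i a
    have h1 : τ.1 (a ^ k) = τ.1 (a ^ k') := congrFun heq a
    rw [← hρ] at h1
    exact h1
  have hbound := main_bound' t D hDt _ (P ⧸ K) rfl hQp n σ hσf hσD
  -- the degree is a power of `p`
  obtain ⟨a, ha⟩ := IsPGroup.iff_card.mp hP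
  have hdvd : n ∣ Nat.card P := by
    have h1 := Cfsg.Agent.Lib.Char.Integrality.finrank_dvd_index_center ρ
    have h2 : Module.finrank ℂ (Fin n → ℂ) = n := by simp
    rw [h2] at h1
    exact h1.trans (Subgroup.index_dvd_card _)
  rw [ha] at hdvd
  obtain ⟨c, -, hc⟩ := (Nat.dvd_prime_pow hp').mp hdvd
  subst hc
  have hcR : c + t < R := by
    have h1 : c + t < p ^ (c + t) := Nat.lt_pow_self hp'.one_lt
    have h2 : p ^ t ≤ D := by
      calc p ^ t = 1 * p ^ t := (one_mul _).symm
        _ ≤ (p - 1) * p ^ t := Nat.mul_le_mul_right _ hA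
        _ ≤ D := hD'
    have h3 : p ^ (c + t) ≤ D * p ^ c := by
      rw [pow_add, mul_comm]
      exact Nat.mul_le_mul_right _ h2
    omega
  exact orbit_arith hp' hD' hcR hbound

/-- The multiplicity functions stable under the Galois action. -/
def Inv (p : ℕ) (μ : IrrCharacter P → ℕ) : Prop :=
  ∀ τ τ' : IrrCharacter P, τ' ∈ Orb p τ → μ τ' = μ τ

/-- The common kernel of the support of `μ`. -/
def LL (μ : IrrCharacter P → ℕ) : Subgroup P := ⨅ τ, ⨅ _ : μ τ ≠ 0, kerI τ

theorem mem_LL (μ : IrrCharacter P → ℕ) (g : P) :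
    g ∈ LL μ ↔ ∀ τ, μ τ ≠ 0 → τ.1 g = τ.1 1 := by
  simp only [LL, Subgroup.mem_iInf, mem_kerI]

theorem inv_bound (hP : IsPGroup p P) (R : ℕ) : ∀ (d : ℕ) (μ : IrrCharacter P → ℕ), Inv p μ →
    ∑ τ, μ τ * charDegree τ.1 = d → d < R → (LL μ).index.factorization p ≤ MM p R d := by
  classical
  have hp' := hp.out
  intro d
  induction d using Nat.strong_induction_on with
  | _ d ih =>
    intro μ hμ hd hR
    by_cases hex : ∃ τ, μ τ ≠ 0 ∧ kerI τ ≠ ⊤
    · obtain ⟨τ, hτ0, hτ⟩ := hex
      set O := Orb p τ with hO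
      let μ₂ : IrrCharacter P → ℕ := fun σ => if σ ∈ O then 0 else μ σ
      have hdeg : ∀ σ ∈ O, charDegree σ.1 = charDegree τ.1 := by
        intro σ hσ
        unfold charDegree
        rw [apply_one_of_orb hσ]
      have hμ₂ : Inv p μ₂ := by
        intro σ σ' hσ'
        show (if σ' ∈ O then 0 else μ σ') = if σ ∈ O then 0 else μ σ
        have h1 : σ' ∈ O ↔ σ ∈ O := by
          rw [hO]
          constructor
          · intro h
            exact orb_trans h (orb_symm hP hσ')
          · intro h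
            exact orb_trans h hσ'
        by_cases h2 : σ ∈ O
        · rw [if_pos h2, if_pos (h1.mpr h2)]
        · rw [if_neg h2, if_neg (fun h => h2 (h1.mp h)), hμ σ σ' hσ']
      set d₂ := ∑ σ, μ₂ σ * charDegree σ.1 with hd₂
      have hsplit : d = O.card * (μ τ * charDegree τ.1) + d₂ := by
        rw [← hd, hd₂, ← Finset.sum_filter_add_sum_filter_not Finset.univ (fun σ => σ ∈ O)]
        have h1 : ∑ σ ∈ Finset.univ.filter (fun σ => σ ∈ O), μ σ * charDegree σ.1 =
            O.card * (μ τ * charDegree τ.1) := by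
          have h2 : Finset.univ.filter (fun σ => σ ∈ O) = O := by
            ext σ; simp
          rw [h2, ← smul_eq_mul, ← Finset.sum_const]
          refine Finset.sum_congr rfl fun σ hσ => ?_
          rw [hdeg σ hσ, hμ τ σ hσ]
        have h3 : ∑ σ, μ₂ σ * charDegree σ.1 =
            ∑ σ ∈ Finset.univ.filter (fun σ => ¬ σ ∈ O), μ σ * charDegree σ.1 := by
          rw [← Finset.sum_filter_add_sum_filter_not Finset.univ (fun σ => σ ∈ O)]
          have h4 : ∑ σ ∈ Finset.univ.filter (fun σ => σ ∈ O), μ₂ σ * charDegree σ.1 = 0 := by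
            refine Finset.sum_eq_zero fun σ hσ => ?_
            have h5 : σ ∈ O := (Finset.mem_filter.mp hσ).2
            simp [μ₂, h5]
          rw [h4, zero_add]
          refine Finset.sum_congr rfl fun σ hσ => ?_
          have h5 : ¬ σ ∈ O := (Finset.mem_filter.mp hσ).2
          simp [μ₂, h5]
        rw [h1, h3]
      -- positivity
      have hf : τ.1 1 = (charDegree τ.1 : ℂ) :=
        (Cfsg.Agent.Lib.Char.Values.IsCharacter.charDegree_cast
          (Cfsg.Agent.Lib.Char.Values.IsIrrCharacter.isCharacter τ.2)).symm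
      have hfpos : 0 < charDegree τ.1 := by
        obtain ⟨n, ρ, hρi, hρ⟩ := τ.2
        haveI := hρi
        haveI := Cfsg.Agent.Lib.Char.Integrality.nontrivial_of_isIrreducible ρ
        have h1 : τ.1 1 = (n : ℂ) := by rw [← hρ, Representation.char_one]; simp
        have h2 : charDegree τ.1 = n := by
          have : ((charDegree τ.1 : ℕ) : ℂ) = n := by rw [← hf, h1]
          exact_mod_cast this
        rw [h2]
        by_contra h3
        have h0 : n = 0 := by omega
        subst h0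
        exact not_subsingleton_iff_nontrivial.mpr ‹Nontrivial (Fin 0 → ℂ)› inferInstance
      have hOpos : 0 < O.card := Finset.card_pos.mpr ⟨τ, orb_self τ⟩
      have hμpos : 0 < μ τ := Nat.pos_of_ne_zero hτ0
      have hOle : O.card * charDegree τ.1 ≤ O.card * (μ τ * charDegree τ.1) :=
        Nat.mul_le_mul_left _ (Nat.le_mul_of_pos_left _ hμpos)
      have hOpos2 : 0 < O.card * charDegree τ.1 := Nat.mul_pos hOpos hfpos
      have hd₂lt : d₂ < d := by omega
      have hI := ih d₂ hd₂lt μ₂ hμ₂ rfl (by omega)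
      have hRT : O.card * charDegree τ.1 < R := by omega
      have hT := orbit_main hP τ hτ (R := R) hf hRT
      -- combine
      have hle : kerI τ ⊓ LL μ₂ ≤ LL μ := by
        intro g hg
        rw [mem_LL]
        intro σ hσ
        by_cases h1 : σ ∈ O
        · exact kerI_le_of_orb h1 hg.1
        · have h2 : μ₂ σ ≠ 0 := by simpa [μ₂, h1] using hσ
          exact (mem_LL μ₂ g).mp hg.2 σ h2
      obtain ⟨v, hv⟩ := hP.index (LL μ)
      obtain ⟨v₁, hv₁⟩ := hP.index (kerI τ)
      obtain ⟨v₂, hv₂⟩ := hP.index (LL μ₂)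
      have h1 : (LL μ).index ≤ (kerI τ ⊓ LL μ₂).index := by
        apply Nat.le_of_dvd
        · exact Nat.pos_of_ne_zero Subgroup.index_ne_zero_of_finite
        · exact Subgroup.index_dvd_of_le hle
      have h2 : (kerI τ ⊓ LL μ₂).index ≤ (kerI τ).index * (LL μ₂).index := Subgroup.index_inf_le
      have h3 : p ^ v ≤ p ^ (v₁ + v₂) := by
        rw [← hv, pow_add, ← hv₁, ← hv₂]
        exact h1.trans h2
      have h4 : v ≤ v₁ + v₂ := (Nat.pow_le_pow_iff_right hp'.one_lt).mp h3
      rw [hv] at *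
      rw [fac_pow hp'] at *
      rw [hv₁, fac_pow hp'] at hT
      rw [hv₂, fac_pow hp'] at hI
      calc v ≤ v₁ + v₂ := h4
        _ ≤ MM p R (O.card * charDegree τ.1) + MM p R d₂ := Nat.add_le_add hT hI
        _ ≤ MM p R (O.card * charDegree τ.1 + d₂) := MM_add _ _ _ _
        _ ≤ MM p R d := MM_mono _ _ (by omega)
    · push Not at hex
      have h1 : LL μ = ⊤ := by
        rw [eq_top_iff]
        intro g _
        rw [mem_LL]
        intro τ hτ
        have h2 := hex τ hτ
        have h3 : g ∈ kerI τ := by rw [h2]; trivial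
        exact h3
      rw [h1, Subgroup.index_top]
      simp

end Orbit

end Cfsg.Agent.Lib.Char.SchurBound
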