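import Mathlib
import Cfsg.Agent.Lib.Blocks.AbFrob

/-!
# Elements of prime order generating their own centralizer

`C_G(x) = ⟨x⟩` with `x` of prime order `p`: the cyclic group `⟨x⟩` is Sylow, the Frobenius hypothesis
`Hyp` of `Lib/Blocks/AbFrob` holds, and the number `t` of classes of elements of order `p` satisfies
`t * |N(P) : C(P)| = p - 1`.
-/

set_option autoImplicit false

namespace Cfsg.Agent.Lib.Char.SelfCen

open Cfsg Cfsg.Agent.Lib.Blocks.AbFrob

variable {G : Type*} [Group G] {p : ℕ} [hp : Fact p.Prime] {x : G}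

omit hp in
lemma zpowers_eq_of_ne_one [Finite G] (hp' : p.Prime) (hx : orderOf x = p) {z : G} (hz : z ∈ Subgroup.zpowers x)
    (hz1 : z ≠ 1) : Subgroup.zpowers z = Subgroup.zpowers x := by
  have hle : Subgroup.zpowers z ≤ Subgroup.zpowers x := by
    rw [Subgroup.zpowers_le]; exact hz
  have hdvd : orderOf z ∣ p := by
    rw [← hx]; exact orderOf_dvd_of_mem_zpowers hz
  have hord : orderOf z = p := by
    rcases (Nat.dvd_prime hp').1 hdvd with h | h
    · exact absurd (orderOf_eq_one_iff.1 h) hz1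
    · exact h
  apply Subgroup.eq_of_le_of_card_ge hle
  rw [Nat.card_zpowers, Nat.card_zpowers, hord, hx]

theorem exists_sylow [Finite G] (hx : orderOf x = p)
    (hC : Subgroup.centralizer ({x} : Set G) = Subgroup.zpowers x) :
    ∃ P : Sylow p G, (P : Subgroup G) = Subgroup.zpowers x := by
  have hp' := hp.out
  have hpg : IsPGroup p (Subgroup.zpowers x) := by
    apply IsPGroup.of_card (n := 1)
    rw [Nat.card_zpowers, hx, pow_one]
  obtain ⟨Q, hQ⟩ := hpg.exists_le_sylow
  refine ⟨Q, le_antisymm ?_ hQ⟩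
  have hxQ : x ∈ (Q : Subgroup G) := hQ (Subgroup.mem_zpowers x)
  have hx1 : x ≠ 1 := by
    intro h
    rw [h, orderOf_one] at hx
    exact hp'.one_lt.ne hx
  haveI : Nontrivial (Q : Subgroup G) := ⟨⟨⟨x, hxQ⟩, 1, fun h => hx1 (congrArg Subtype.val h)⟩⟩
  haveI : Nontrivial (Subgroup.center (Q : Subgroup G)) := Q.isPGroup'.center_nontrivial
  obtain ⟨c, hc⟩ := exists_ne (1 : Subgroup.center (Q : Subgroup G))
  set z : G := ((c : (Q : Subgroup G)) : G) with hz
  have hz1 : z ≠ 1 := by
    intro h
    apply hc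
    apply Subtype.ext
    apply Subtype.ext
    exact h
  have hzcomm : ∀ a ∈ (Q : Subgroup G), a * z = z * a := by
    intro a ha
    have := Subgroup.mem_center_iff.1 c.2 ⟨a, ha⟩
    exact congrArg Subtype.val this
  have hzC : z ∈ Subgroup.zpowers x := by
    rw [← hC, Subgroup.mem_centralizer_singleton_iff]
    exact (hzcomm x hxQ).symm
  have hzz := zpowers_eq_of_ne_one hp' hx hzC hz1
  have hxz : x ∈ Subgroup.zpowers z := by rw [hzz]; exact Subgroup.mem_zpowers x
  obtain ⟨k, hk⟩ := Subgroup.mem_zpowers_iff.1 hxz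
  intro a ha
  rw [← hC, Subgroup.mem_centralizer_singleton_iff, ← hk]
  have h1 : Commute a z := hzcomm a ha
  exact (h1.zpow_right k).eq

omit hp in
theorem centralizer_zpowers' (y : G) :
    Subgroup.centralizer ({y} : Set G) = Subgroup.centralizer ((Subgroup.zpowers y : Subgroup G) : Set G) := by
  apply le_antisymm
  · intro a ha
    rw [Subgroup.mem_centralizer_iff]
    intro b hb
    obtain ⟨k, rfl⟩ := Subgroup.mem_zpowers_iff.1 hb
    have h4 : Commute a y := (Subgroup.mem_centralizer_singleton_iff.1 ha)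
    exact ((h4.zpow_right k).eq).symm
  · intro a ha
    rw [Subgroup.mem_centralizer_singleton_iff]
    have := (Subgroup.mem_centralizer_iff.1 ha) y (Subgroup.mem_zpowers y)
    exact this.symm

omit hp in
/-- The centralizer of `P = ⟨x⟩`. -/
theorem centralizer_eq (hC : Subgroup.centralizer ({x} : Set G) = Subgroup.zpowers x) :
    Subgroup.centralizer ((Subgroup.zpowers x : Subgroup G) : Set G) = Subgroup.zpowers x := by
  rw [← centralizer_zpowers', hC]

theorem hyp [Finite G] (hx : orderOf x = p) (hC : Subgroup.centralizer ({x} : Set G) = Subgroup.zpowers x)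
    {P : Sylow p G} (hP : (P : Subgroup G) = Subgroup.zpowers x) : Hyp P ((CC P).relIndex (NN P)) := by
  have hp' := hp.out
  refine ⟨?_, rfl, ?_⟩
  · refine ⟨⟨fun a b => ?_⟩⟩
    have ha : (a : G) ∈ Subgroup.zpowers x := by rw [← hP]; exact a.2
    have hb : (b : G) ∈ Subgroup.zpowers x := by rw [← hP]; exact b.2
    obtain ⟨i, hi⟩ := Subgroup.mem_zpowers_iff.1 ha
    obtain ⟨j, hj⟩ := Subgroup.mem_zpowers_iff.1 hb
    apply Subtype.ext
    show (a : G) * b = b * a
    rw [← hi, ← hj]
    exact (Commute.refl x).zpow_zpow i j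
  · intro y hy hy1
    rw [hP] at hy
    have h1 := zpowers_eq_of_ne_one hp' hx hy hy1
    have hCy : Subgroup.centralizer ({y} : Set G) = Subgroup.zpowers x := by
      rw [centralizer_zpowers', h1, centralizer_eq hC]
    have hCP : CC P = Subgroup.zpowers x := by
      show Subgroup.centralizer (((P : Subgroup G)) : Set G) = _
      rw [hP]; exact centralizer_eq hC
    rw [hCy, hCP]
    apply inf_eq_left.2
    rw [← hP]
    exact Subgroup.le_normalizer

/-- Counting the classes of elements of order `p`. -/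
theorem card_classes_mul [Finite G] (hx : orderOf x = p)
    (hC : Subgroup.centralizer ({x} : Set G) = Subgroup.zpowers x)
    {P : Sylow p G} (hP : (P : Subgroup G) = Subgroup.zpowers x) :
    Nat.card {C : ConjClasses G // ∃ g ∈ C.carrier, orderOf g = p} * ((CC P).relIndex (NN P)) = p - 1 := by
  classical
  have hp' := hp.out
  have H := hyp hx hC hP
  set m := (CC P).relIndex (NN P) with hm
  haveI : Fintype G := Fintype.ofFinite G
  let K := {C : ConjClasses G // ∃ g ∈ C.carrier, orderOf g = p}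
  let Y := {y : ↥(P : Subgroup G) // y ≠ 1}
  haveI : Fintype K := Fintype.ofFinite _
  haveI : Fintype Y := Fintype.ofFinite _
  have hcardP : Nat.card ↥(P : Subgroup G) = p := by
    rw [hP, Nat.card_zpowers, hx]
  have hordY : ∀ y : Y, orderOf ((y.1 : G)) = p := by
    intro y
    have hy : ((y.1 : G)) ∈ Subgroup.zpowers x := by rw [← hP]; exact y.1.2
    have hy1 : ((y.1 : G)) ≠ 1 := fun h => y.2 (Subtype.ext h)
    have h1 := zpowers_eq_of_ne_one hp' hx hy hy1
    have h2 := Nat.card_zpowers (y.1 : G)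
    rw [h1, Nat.card_zpowers, hx] at h2
    exact h2.symm
  let c : Y → K := fun y => ⟨ConjClasses.mk (y.1 : G), (y.1 : G), ConjClasses.mem_carrier_mk, hordY y⟩
  have hcardY : Fintype.card Y = p - 1 := by
    have : Fintype.card Y = Fintype.card ↥(P : Subgroup G) - 1 := by
      simp only [Y]
      rw [Fintype.card_subtype_compl]
      simp
    rw [this, ← Nat.card_eq_fintype_card, hcardP]
  have hsurj : Function.Surjective c := by
    rintro ⟨C, g, hg, hord⟩
    have hpg : IsPGroup p (Subgroup.zpowers g) := by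
      apply IsPGroup.of_card (n := 1)
      rw [Nat.card_zpowers, hord, pow_one]
    obtain ⟨Q, hQ⟩ := hpg.exists_le_sylow
    obtain ⟨a, ha⟩ := MulAction.exists_smul_eq G Q P
    have hgQ : g ∈ (Q : Subgroup G) := hQ (Subgroup.mem_zpowers g)
    have hga : a * g * a⁻¹ ∈ (P : Subgroup G) := by
      rw [← ha, Sylow.coe_subgroup_smul]
      exact Subgroup.smul_mem_pointwise_smul _ (MulAut.conj a) (Q : Subgroup G) hgQ
    have hg1 : g ≠ 1 := by
      intro h
      rw [h, orderOf_one] at hord
      exact hp'.one_lt.ne hord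
    refine ⟨⟨⟨a * g * a⁻¹, hga⟩, fun h => ?_⟩, ?_⟩
    · have h2 : a * g * a⁻¹ = 1 := congrArg Subtype.val h
      apply hg1
      have : g = a⁻¹ * (a * g * a⁻¹) * a := by group
      rw [this, h2]; group
    · apply Subtype.ext
      show ConjClasses.mk (a * g * a⁻¹) = C
      rw [ConjClasses.mem_carrier_iff_mk_eq] at hg
      rw [← hg, ConjClasses.mk_eq_mk_iff_isConj]
      exact (isConj_iff.2 ⟨a, rfl⟩).symm
  have hfib : ∀ k : K, (Finset.univ.filter (fun y => c y = k)).card = m := by
    intro k
    obtain ⟨y0, rfl⟩ := hsurj k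
    have hy0 : ((y0.1 : G)) ∈ (P : Subgroup G) := y0.1.2
    have hy01 : ((y0.1 : G)) ≠ 1 := fun h => y0.2 (Subtype.ext h)
    rw [← H.card_conj hy0 hy01, ← Fintype.card_subtype, ← Nat.card_eq_fintype_card]
    refine Nat.card_congr ⟨fun a => ⟨a.1.1, ?_⟩, fun b => ⟨⟨b.1, ?_⟩, ?_⟩, ?_, ?_⟩
    · have h1 : c a.1 = c y0 := a.2
      have h2 : ConjClasses.mk ((a.1.1 : G)) = ConjClasses.mk ((y0.1 : G)) := congrArg Subtype.val h1
      exact ConjClasses.mk_eq_mk_iff_isConj.1 h2
    · intro h
      have h2 := b.2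
      rw [h] at h2
      exact hy01 (by simpa using h2.symm)
    · apply Subtype.ext
      exact ConjClasses.mk_eq_mk_iff_isConj.2 b.2
    · intro a; rfl
    · intro b; rfl
  have hsum := Finset.card_eq_sum_card_fiberwise (s := (Finset.univ : Finset Y)) (t := (Finset.univ : Finset K))
    (f := c) (fun _ _ => Finset.mem_coe.2 (Finset.mem_univ _))
  rw [Finset.card_univ, hcardY] at hsum
  rw [Finset.sum_congr rfl (fun k _ => hfib k), Finset.sum_const, smul_eq_mul, Finset.card_univ] at hsum
  rw [hsum, Nat.card_eq_fintype_card]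

end Cfsg.Agent.Lib.Char.SelfCen
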