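import Mathlib
import Cfsg.Prelude.Def_Characters
import Cfsg.Prelude.Def_Blocks
import Cfsg.Agent.Lib.Blocks.Osima
import Cfsg.Agent.Lib.Char.Induced
import Cfsg.Agent.Lib.Char.Ortho
import Cfsg.Agent.Lib.Char.Values
import Cfsg.Agent.Lib.Char.RepEquiv
import Cfsg.Agent.S0163

/-!
# Brauer's splitting field theorem

Let `K ⊂ ℂ` contain all `m`-th roots of unity, `m` the exponent of `G`.  For `χ` irreducible let
`V` be a simple `K[G]`-module on which the central idempotent of `χ` acts as the identity.  Then
`χ_V = a χ`, `End_{K[G]} V` is a division algebra of `K`-dimension `a²`, it acts on each eigenspace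
`V_λ` of a subgroup `E`, of `K`-dimension `a ⟨λ, χ_E⟩`.  Hence `a ∣ ⟨λ, χ_E⟩`, and Brauer's induction
theorem forces `a = 1`.
-/

set_option autoImplicit false

namespace Cfsg.Agent.Lib.Char.SplitField

open Cfsg Module

section Trace

variable {K : Type*} [Field K]

lemma trace_mulLeft_mulRight_matrix {ι : Type*} [Fintype ι] [DecidableEq ι] (X Y : Matrix ι ι K) :
    LinearMap.trace K (Matrix ι ι K) ((LinearMap.mulLeft K X).comp (LinearMap.mulRight K Y)) =
      X.trace * Y.trace := by
  classical
  rw [LinearMap.trace_eq_matrix_trace K (Matrix.stdBasis K ι ι)]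
  have h : ∀ i j : ι, (X * Matrix.single i j (1 : K) * Y) i j = X i i * Y j j := by
    intro i j
    rw [Matrix.mul_apply, Finset.sum_eq_single j]
    · rw [Matrix.mul_single_apply_same, mul_one]
    · intro x _ hx
      rw [show (X * Matrix.single i j (1 : K)) i x = 0 by
        simp [Matrix.mul_apply, Matrix.single_apply, hx.symm], zero_mul]
    · simp
  simp only [Matrix.trace, Matrix.diag, LinearMap.toMatrix_apply]
  rw [Fintype.sum_prod_type, Finset.sum_mul_sum]
  refine Finset.sum_congr rfl fun i _ => Finset.sum_congr rfl fun j _ => ?_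
  have h2 : (Matrix.stdBasis K ι ι) (i, j) = Matrix.single i j (1 : K) := by
    simp [Matrix.stdBasis_eq_single]
  rw [h2]
  simp only [LinearMap.comp_apply, LinearMap.mulRight_apply, LinearMap.mulLeft_apply]
  rw [← h i j, mul_assoc]
  simp [Matrix.stdBasis, Pi.basis_repr]

variable {V : Type*} [AddCommGroup V] [Module K V] [FiniteDimensional K V]

lemma trace_mulLeft_mulRight (s t : End K V) :
    LinearMap.trace K (End K V) ((LinearMap.mulLeft K s).comp (LinearMap.mulRight K t)) =
      LinearMap.trace K V s * LinearMap.trace K V t := by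
  classical
  let b := Module.finBasis K V
  let e : End K V ≃ₗ[K] Matrix (Fin (finrank K V)) (Fin (finrank K V)) K :=
    (LinearMap.toMatrixAlgEquiv b).toLinearEquiv
  have he : ∀ f : End K V, e f = LinearMap.toMatrix b b f := fun _ => rfl
  have hem : ∀ f g : End K V, e (f * g) = e f * e g := fun f g => map_mul (LinearMap.toMatrixAlgEquiv b) f g
  rw [← LinearMap.trace_conj' _ e]
  have h1 : e.conj ((LinearMap.mulLeft K s).comp (LinearMap.mulRight K t)) =
      (LinearMap.mulLeft K (e s)).comp (LinearMap.mulRight K (e t)) := by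
    ext1 A
    simp only [LinearEquiv.conj_apply, LinearMap.comp_apply, LinearEquiv.coe_coe,
      LinearMap.mulRight_apply, LinearMap.mulLeft_apply]
    rw [hem, hem, LinearEquiv.apply_symm_apply]
  rw [h1, trace_mulLeft_mulRight_matrix, he, he, ← LinearMap.trace_eq_matrix_trace K b s,
    ← LinearMap.trace_eq_matrix_trace K b t]

/-- The `K`-linear maps commuting with the action. -/
def commutant {K V G : Type*} [Field K] [AddCommGroup V] [Module K V] [Monoid G]
    (τ : G →* End K V) : Submodule K (End K V) where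
  carrier := {f | ∀ g, f * τ g = τ g * f}
  add_mem' := by
    intro a b ha hb g
    rw [add_mul, mul_add, ha g, hb g]
  zero_mem' := by
    intro g
    simp
  smul_mem' := by
    intro c a ha g
    rw [smul_mul_assoc, mul_smul_comm, ha g]

variable [CharZero K] {G : Type*} [Group G] [Fintype G]

lemma card_ne_zero_K : ((Fintype.card G : ℕ) : K) ≠ 0 :=
  Nat.cast_ne_zero.mpr Fintype.card_ne_zero

theorem finrank_commutant (τ : G →* End K V) :
    ((finrank K (commutant τ) : ℕ) : K) =
      (Fintype.card G : K)⁻¹ * ∑ g, LinearMap.trace K V (τ g) * LinearMap.trace K V (τ g⁻¹) := by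
  classical
  let P : End K (End K V) := (Fintype.card G : K)⁻¹ •
    ∑ g, (LinearMap.mulLeft K (τ g)).comp (LinearMap.mulRight K (τ g⁻¹))
  have hP : ∀ f, P f = (Fintype.card G : K)⁻¹ • ∑ g, τ g * f * τ g⁻¹ := by
    intro f
    simp [P, LinearMap.sum_apply, mul_assoc]
  have hproj : LinearMap.IsProj (commutant τ) P := by
    constructor
    · intro f x
      rw [hP, smul_mul_assoc, mul_smul_comm]
      congr 1
      rw [Finset.sum_mul, Finset.mul_sum]
      refine (Fintype.sum_equiv (Equiv.mulLeft x) (fun i => τ x * (τ i * f * τ i⁻¹))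
        (fun i => τ i * f * τ i⁻¹ * τ x) fun g => ?_).symm
      have : τ x⁻¹ * τ x = 1 := by rw [← map_mul]; simp
      simp only [Equiv.coe_mulLeft, map_mul, mul_inv_rev, mul_assoc, this, mul_one]
    · intro f hf
      rw [hP]
      have : ∀ g, τ g * f * τ g⁻¹ = f := by
        intro g
        have h := hf g
        rw [← h, mul_assoc, ← map_mul]
        simp
      simp only [this, Finset.sum_const, Finset.card_univ]
      rw [← Nat.cast_smul_eq_nsmul K, smul_smul, inv_mul_cancel₀ card_ne_zero_K, one_smul]
  have htr := hproj.trace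
  rw [← htr]
  simp only [P, map_smul, map_sum, trace_mulLeft_mulRight, smul_eq_mul]

/-- The eigenspace of a "linear character" as the image of a projection. -/
theorem finrank_eigenspace {E : Type*} [Group E] [Fintype E] (τ : E →* End K V) (lam : E →* K)
    (X : Submodule K V) (hX : ∀ v, v ∈ X ↔ ∀ e, τ e v = lam e • v) :
    ((finrank K X : ℕ) : K) =
      (Fintype.card E : K)⁻¹ * ∑ e, lam e * LinearMap.trace K V (τ e⁻¹) := by
  classical
  let P : End K V := (Fintype.card E : K)⁻¹ • ∑ e, lam e • τ e⁻¹
  have hP : ∀ v, P v = (Fintype.card E : K)⁻¹ • ∑ e, lam e • τ e⁻¹ v := by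
    intro v
    simp [P, LinearMap.sum_apply]
  have hne : ∀ e, lam e ≠ 0 := by
    intro e h0
    have h1 : lam e * lam e⁻¹ = 1 := by rw [← map_mul]; simp
    rw [h0, zero_mul] at h1
    exact zero_ne_one h1
  have hproj : LinearMap.IsProj X P := by
    constructor
    · intro v
      rw [hX]
      intro x
      rw [hP, map_smul, map_sum, smul_smul, mul_comm (lam x), ← smul_smul]
      congr 1
      rw [Finset.smul_sum]
      refine (Fintype.sum_equiv (Equiv.mulRight x⁻¹) (fun e => τ x (lam e • τ e⁻¹ v))
        (fun e => lam x • lam e • τ e⁻¹ v) fun g => ?_)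
      have h1 : lam x * lam (g * x⁻¹) = lam g := by
        rw [map_mul, mul_comm (lam g), ← mul_assoc, ← map_mul]
        simp
      have h2 : τ (g * x⁻¹)⁻¹ v = τ x (τ g⁻¹ v) := by
        rw [mul_inv_rev, inv_inv, map_mul]
        rfl
      simp only [Equiv.coe_mulRight, map_smul, smul_smul, h1, h2]
    · intro v hv
      rw [hP]
      have : ∀ e, lam e • τ e⁻¹ v = v := by
        intro e
        have h1 := (hX v).1 hv e⁻¹
        rw [h1, smul_smul, ← map_mul]
        simp
      simp only [this, Finset.sum_const, Finset.card_univ]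
      rw [← Nat.cast_smul_eq_nsmul K, smul_smul, inv_mul_cancel₀ card_ne_zero_K, one_smul]
  rw [← hproj.trace]
  simp only [P, map_smul, map_sum, smul_eq_mul]

end Trace

section Core

open scoped ComplexConjugate
open Cfsg.Agent.Lib.Blocks.Central Cfsg.Agent.Lib.Blocks.Osima

universe u

variable {K : Type*} [Field K] [Algebra K ℂ]

section Mat

variable {H : Type*} [Group H] {ι : Type*} [Fintype ι] [DecidableEq ι]

/-- A matrix representation over `K`, regarded over `ℂ`. -/
noncomputable def matRep (T : H →* Matrix ι ι K) : Representation ℂ H (ι → ℂ) where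
  toFun h := Matrix.toLin' ((T h).map (algebraMap K ℂ))
  map_one' := by
    simp [map_one]
    rfl
  map_mul' a b := by
    rw [map_mul, Matrix.map_mul, Matrix.toLin'_mul]
    rfl

lemma matRep_apply (T : H →* Matrix ι ι K) (h : H) :
    matRep T h = Matrix.toLin' ((T h).map (algebraMap K ℂ)) := rfl

lemma character_matRep (T : H →* Matrix ι ι K) (h : H) :
    (matRep T).character h = algebraMap K ℂ (T h).trace := by
  rw [Representation.character, matRep_apply, Matrix.trace_toLin'_eq]
  simp [Matrix.trace, Matrix.diag]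

end Mat

section TraceFun

variable {H : Type*} [Group H]
variable {V : Type*} [AddCommGroup V] [Module K V] [FiniteDimensional K V]

/-- The `ℂ`-valued trace function of a representation over `K`. -/
noncomputable def traceFun (τ : H →* End K V) : H → ℂ :=
  fun g => algebraMap K ℂ (LinearMap.trace K V (τ g))

/-- The matrices of a representation over `K`. -/
noncomputable def matOf (τ : H →* End K V) :
    H →* Matrix (Fin (finrank K V)) (Fin (finrank K V)) K :=
  ((LinearMap.toMatrixAlgEquiv (Module.finBasis K V)).toAlgHom : _ →* _).comp τ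

lemma trace_matOf (τ : H →* End K V) (h : H) :
    (matOf τ h).trace = LinearMap.trace K V (τ h) :=
  (LinearMap.trace_eq_matrix_trace K (Module.finBasis K V) (τ h)).symm

lemma isCharacter_traceFun (τ : H →* End K V) : IsCharacter H (traceFun τ) := by
  have h := Cfsg.Agent.Lib.Char.Basic.isCharacter_of_rep (matRep (matOf τ))
  convert h using 1
  funext g
  rw [character_matRep, trace_matOf]
  rfl

lemma natCast_finrank_commutant {G : Type*} [Group G] [Fintype G] (τ : G →* End K V) :
    ((finrank K (commutant τ) : ℕ) : ℂ) = classInner (traceFun τ) (traceFun τ) := by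
  haveI : CharZero K := (algebraMap K ℂ).charZero
  have h := congrArg (algebraMap K ℂ) (finrank_commutant τ)
  rw [map_natCast] at h
  rw [h, classInner, Nat.card_eq_fintype_card, map_mul, map_inv₀, map_natCast, map_sum]
  congr 1
  refine Finset.sum_congr rfl fun g _ => ?_
  rw [map_mul]
  congr 1
  exact Cfsg.Agent.Lib.Char.Ortho.character_inv_of_isCharacter (isCharacter_traceFun τ) g

lemma natCast_finrank_eigenspace {E : Type*} [Group E] [Fintype E] (τ : E →* End K V) (lam : E →* K)
    (X : Submodule K V) (hX : ∀ v, v ∈ X ↔ ∀ e, τ e v = lam e • v) :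
    ((finrank K X : ℕ) : ℂ) = classInner (fun e => algebraMap K ℂ (lam e)) (traceFun τ) := by
  haveI : CharZero K := (algebraMap K ℂ).charZero
  have h := congrArg (algebraMap K ℂ) (finrank_eigenspace τ lam X hX)
  rw [map_natCast] at h
  rw [h, classInner, Nat.card_eq_fintype_card, map_mul, map_inv₀, map_natCast, map_sum]
  congr 1
  refine Finset.sum_congr rfl fun g _ => ?_
  rw [map_mul]
  congr 1
  exact Cfsg.Agent.Lib.Char.Ortho.character_inv_of_isCharacter (isCharacter_traceFun τ) g

end TraceFun

section GroupLevel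

variable {G : Type u} [Group G] [Fintype G]

open Classical in
lemma sum_blockCoeff_mul_irr (χ : IrrCharacter G) {ψ : G → ℂ} (hψ : IsIrrCharacter G ψ) (h : G) :
    ∑ g, blockCoeff ({χ} : Set (IrrCharacter G)) g * ψ (h * g) =
      if ψ = (χ : G → ℂ) then ψ h else 0 := by
  obtain ⟨n, ρ, hρ, rfl⟩ := id hψ
  haveI := hρ
  have h1 := asAlgebraHom_eq_omega_smul ρ (isClassFunction_blockElt ({χ} : Set (IrrCharacter G)))
  have h2 : LinearMap.trace ℂ (Fin n → ℂ)
      (ρ h * ρ.asAlgebraHom (blockElt ({χ} : Set (IrrCharacter G)))) =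
      ∑ g, blockCoeff ({χ} : Set (IrrCharacter G)) g * ρ.character (h * g) := by
    rw [asAlgebraHom_eq_sum, Finset.mul_sum, map_sum]
    refine Finset.sum_congr rfl fun g _ => ?_
    rw [mul_smul_comm, map_smul, coeff_blockElt, smul_eq_mul, ← map_mul]
    rfl
  rw [← h2, h1, mul_smul_comm, map_smul, smul_eq_mul]
  have h3 : ρ h * LinearMap.id = ρ h := mul_one _
  rw [h3]
  change omega ρ.character _ * ρ.character h = _
  by_cases hc : ρ.character = (χ : G → ℂ)
  · rw [if_pos hc]
    have hmem : (⟨ρ.character, hψ⟩ : IrrCharacter G) ∈ ({χ} : Set (IrrCharacter G)) := by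
      exact Subtype.ext hc
    rw [omega_blockElt_of_mem hmem, one_mul]
  · rw [if_neg hc]
    have hmem : (⟨ρ.character, hψ⟩ : IrrCharacter G) ∉ ({χ} : Set (IrrCharacter G)) := by
      intro hh
      exact hc (congrArg Subtype.val hh)
    rw [omega_blockElt_of_notMem hmem, zero_mul]

theorem eq_classInner_smul_of_absorb (χ : IrrCharacter G) {θ : G → ℂ} (hθ : IsCharacter G θ)
    (h : ∀ x, θ x = ∑ g, blockCoeff ({χ} : Set (IrrCharacter G)) g * θ (x * g)) (x : G) :
    θ x = classInner θ (χ : G → ℂ) * (χ : G → ℂ) x := by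
  classical
  have key := Cfsg.Agent.Lib.Char.Ortho.decomp_eq_sum_classInner hθ
  have h1 : ∀ y, θ y = ∑ ψ : IrrCharacter G, classInner θ (ψ : G → ℂ) * (ψ : G → ℂ) y := by
    intro y
    conv_lhs => rw [key]
    simp [Finset.sum_apply]
  calc θ x = ∑ g, blockCoeff ({χ} : Set (IrrCharacter G)) g * θ (x * g) := h x
    _ = ∑ g, ∑ ψ : IrrCharacter G, classInner θ (ψ : G → ℂ) *
          (blockCoeff ({χ} : Set (IrrCharacter G)) g * (ψ : G → ℂ) (x * g)) := by
        refine Finset.sum_congr rfl fun g _ => ?_
        rw [h1 (x * g), Finset.mul_sum]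
        refine Finset.sum_congr rfl fun ψ _ => ?_
        ring
    _ = ∑ ψ : IrrCharacter G, classInner θ (ψ : G → ℂ) *
          ∑ g, blockCoeff ({χ} : Set (IrrCharacter G)) g * (ψ : G → ℂ) (x * g) := by
        rw [Finset.sum_comm]
        refine Finset.sum_congr rfl fun ψ _ => ?_
        rw [Finset.mul_sum]
    _ = ∑ ψ : IrrCharacter G, classInner θ (ψ : G → ℂ) *
          (if (ψ : G → ℂ) = (χ : G → ℂ) then (ψ : G → ℂ) x else 0) := by
        refine Finset.sum_congr rfl fun ψ _ => ?_
        rw [sum_blockCoeff_mul_irr χ ψ.2 x]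
    _ = classInner θ (χ : G → ℂ) * (χ : G → ℂ) x := by
        rw [Finset.sum_eq_single χ]
        · simp
        · intro ψ _ hψ
          rw [if_neg (fun hh => hψ (Subtype.ext hh)), mul_zero]
        · simp

end GroupLevel

section ModuleLevel

variable (K) (G : Type u) [Group G]
variable (V : Type*) [AddCommGroup V] [Module K V] [Module (MonoidAlgebra K G) V]
  [IsScalarTower K (MonoidAlgebra K G) V]

/-- The action of `G` on a `K[G]`-module. -/
noncomputable def actHom : G →* End K V :=
  ((Algebra.lsmul K K V : MonoidAlgebra K G →ₐ[K] End K V) : MonoidAlgebra K G →* End K V).comp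
    (MonoidAlgebra.of K G)

variable {K G V}

lemma actHom_apply (g : G) (v : V) :
    actHom K G V g v = (MonoidAlgebra.single g (1 : K) : MonoidAlgebra K G) • v := rfl

variable (K G V) in
/-- The endomorphism algebra of a `K[G]`-module is the commutant of the action. -/
noncomputable def endEquivCommutant :
    Module.End (MonoidAlgebra K G) V ≃ₗ[K] commutant (actHom K G V) where
  toFun f := ⟨f.restrictScalars K, fun g => by
    apply LinearMap.ext
    intro v
    exact f.map_smul (MonoidAlgebra.single g (1 : K)) v⟩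
  map_add' f g := rfl
  map_smul' c f := rfl
  invFun f :=
    { toFun := f.1
      map_add' := f.1.map_add
      map_smul' := by
        intro a v
        simp only [RingHom.id_apply]
        induction a using MonoidAlgebra.induction_on with
        | of g =>
          have h := f.2 g
          exact congrArg (fun F : End K V => F v) h
        | add a b ha hb =>
          rw [add_smul, add_smul, map_add, ha, hb]
        | smul r a ha =>
          rw [smul_assoc, smul_assoc, map_smul, ha] }
  left_inv f := by
    ext v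
    rfl
  right_inv f := by
    ext v
    rfl

lemma traceFun_absorb {G : Type*} [Group G] [Fintype G] (b : G → ℂ) (c : G → K)
    (hc : ∀ g, algebraMap K ℂ (c g) = b g) {V : Type*} [AddCommGroup V] [Module K V]
    [FiniteDimensional K V] (τ : G →* End K V) (hE : ∀ v, ∑ g, c g • τ g v = v) (x : G) :
    traceFun τ x = ∑ g, b g * traceFun τ (x * g) := by
  have hid : ∑ g, c g • τ g = (1 : End K V) := by
    ext v
    simpa [LinearMap.sum_apply] using hE v
  have h1 : τ x = ∑ g, c g • τ (x * g) := by
    calc τ x = τ x * ∑ g, c g • τ g := by rw [hid, mul_one]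
      _ = ∑ g, c g • τ (x * g) := by
        rw [Finset.mul_sum]
        refine Finset.sum_congr rfl fun g _ => ?_
        rw [mul_smul_comm, map_mul]
  simp only [traceFun]
  conv_lhs => rw [h1]
  rw [map_sum, map_sum]
  refine Finset.sum_congr rfl fun g _ => ?_
  rw [map_smul, smul_eq_mul, map_mul, hc]

lemma exists_lamK {G : Type*} [Group G]
    (hroots : ∀ z : ℂ, z ^ Monoid.exponent G = 1 → z ∈ (algebraMap K ℂ).fieldRange)
    (E : Subgroup G) (lam : E →* ℂˣ) :
    ∃ lamK : E →* K, ∀ e, algebraMap K ℂ (lamK e) = (lam e : ℂ) := by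
  have h : ∀ e : E, ∃ x : K, algebraMap K ℂ x = (lam e : ℂ) := by
    intro e
    refine hroots _ ?_
    have h1 : e ^ Monoid.exponent G = 1 := by
      apply Subtype.ext
      simpa using Monoid.pow_exponent_eq_one (e : G)
    have h2 : lam e ^ Monoid.exponent G = 1 := by rw [← map_pow, h1, map_one]
    rw [← Units.val_pow_eq_pow_val, h2, Units.val_one]
  choose f hf using h
  refine ⟨{ toFun := f, map_one' := ?_, map_mul' := ?_ }, hf⟩
  · apply (algebraMap K ℂ).injective
    rw [hf]
    simp
  · intro x y
    apply (algebraMap K ℂ).injective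
    rw [map_mul, hf, hf, hf]
    simp

section Simple

variable {G : Type u} [Group G] [Fintype G]
variable {V : Type*} [AddCommGroup V] [Module K V] [Module (MonoidAlgebra K G) V]
  [IsScalarTower K (MonoidAlgebra K G) V] [FiniteDimensional K V]

lemma natCast_finrank_end :
    ((finrank K (Module.End (MonoidAlgebra K G) V) : ℕ) : ℂ) =
      classInner (traceFun (actHom K G V)) (traceFun (actHom K G V)) := by
  rw [LinearEquiv.finrank_eq (endEquivCommutant K G V), natCast_finrank_commutant]

/-- The divisibility coming from the action of the division algebra on an eigenspace. -/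
theorem exists_classInner_eq_mul [IsSimpleModule (MonoidAlgebra K G) V]
    (χ : G → ℂ) (a : ℕ) (ha : a ≠ 0) (hχ : classInner χ χ = 1)
    (hθ : ∀ x, traceFun (actHom K G V) x = a * χ x)
    (E : Subgroup G) [Fintype E] (lamK : E →* K) :
    ∃ r : ℕ, classInner (fun e => algebraMap K ℂ (lamK e)) (fun e : E => χ e) = a * r := by
  classical
  let A := MonoidAlgebra K G
  let D := Module.End A V
  let X : Submodule D V :=
    { carrier := {v | ∀ e : E, actHom K G V (e : G) v = lamK e • v}
      add_mem' := by
        intro u v hu hv e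
        rw [map_add, hu e, hv e, smul_add]
      zero_mem' := by
        intro e
        simp
      smul_mem' := by
        intro f v hv e
        change actHom K G V (e : G) (f v) = lamK e • f v
        have h1 : actHom K G V (e : G) (f v) = f (actHom K G V (e : G) v) :=
          (f.map_smul (MonoidAlgebra.single (e : G) (1 : K)) v).symm
        rw [h1, hv e, LinearMap.map_smul_of_tower] }
  have hmem : ∀ v, v ∈ X.restrictScalars K ↔
      ∀ e : E, (actHom K G V).comp E.subtype e v = lamK e • v := fun v => Iff.rfl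
  have h1 := natCast_finrank_eigenspace ((actHom K G V).comp E.subtype) lamK
    (X.restrictScalars K) hmem
  have h2 : finrank K D * finrank D X = finrank K X := Module.finrank_mul_finrank K D X
  have h3 : finrank K (X.restrictScalars K) = finrank K X := rfl
  have hfun : traceFun (actHom K G V) = (a : ℂ) • χ := funext fun x => by
    rw [hθ x]
    rfl
  have hconj : (starRingEnd ℂ) (a : ℂ) = a := Complex.conj_natCast a
  have h4 : ((finrank K D : ℕ) : ℂ) = a * a := by
    have h4' : ((finrank K D : ℕ) : ℂ) =
        classInner (traceFun (actHom K G V)) (traceFun (actHom K G V)) := natCast_finrank_end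
    rw [h4', hfun, Cfsg.Agent.Lib.Char.Ortho.classInner_smul_left,
      Cfsg.Agent.Lib.Char.Ortho.classInner_smul_right, hχ, hconj]
    ring
  have h5 : traceFun ((actHom K G V).comp E.subtype) = (a : ℂ) • (fun e : E => χ e) := by
    funext e
    exact hθ e
  rw [h3, h5, Cfsg.Agent.Lib.Char.Ortho.classInner_smul_right, hconj, ← h2] at h1
  push_cast at h1
  rw [h4] at h1
  refine ⟨finrank D X, ?_⟩
  have ha' : (a : ℂ) ≠ 0 := Nat.cast_ne_zero.mpr ha
  apply mul_left_cancel₀ ha'
  rw [← h1]
  ring

/-- A simple module on which the central idempotent of `χ` acts as the identity affords `χ`. -/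
theorem traceFun_eq_of_simple
    (hroots : ∀ z : ℂ, z ^ Monoid.exponent G = 1 → z ∈ (algebraMap K ℂ).fieldRange)
    [IsSimpleModule (MonoidAlgebra K G) V] (χ : IrrCharacter G) (c : G → K)
    (hc : ∀ g, algebraMap K ℂ (c g) = blockCoeff ({χ} : Set (IrrCharacter G)) g)
    (hE : ∀ v, ∑ g, c g • actHom K G V g v = v) :
    traceFun (actHom K G V) = (χ : G → ℂ) := by
  classical
  have hθc : IsCharacter G (traceFun (actHom K G V)) := isCharacter_traceFun _
  have habs := traceFun_absorb (blockCoeff ({χ} : Set (IrrCharacter G))) c hc (actHom K G V) hE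
  have hdec := eq_classInner_smul_of_absorb χ hθc habs
  obtain ⟨a, ha⟩ := Cfsg.Agent.Lib.Char.Ortho.exists_nat_classInner hθc χ
  rw [ha] at hdec
  haveI : Nontrivial V := IsSimpleModule.nontrivial (MonoidAlgebra K G) V
  have ha0 : a ≠ 0 := by
    rintro rfl
    have h1 := hdec 1
    have h2 : traceFun (actHom K G V) 1 = ((finrank K V : ℕ) : ℂ) := by
      simp only [traceFun, map_one]
      rw [show (1 : End K V) = LinearMap.id from rfl, LinearMap.trace_id, map_natCast]
    rw [h2] at h1
    have h3 : ((finrank K V : ℕ) : ℂ) = 0 := by simpa using h1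
    have h4 : finrank K V = 0 := by exact_mod_cast h3
    exact (Module.finrank_pos (R := K) (M := V)).ne' h4
  have hχχ : classInner (χ : G → ℂ) (χ : G → ℂ) = 1 :=
    Cfsg.Agent.Lib.Char.Ortho.classInner_irr_self χ.2
  have hχc : IsCharacter G (χ : G → ℂ) :=
    Cfsg.Agent.Lib.Char.Basic.isCharacter_of_isIrrCharacter χ.2
  have hχcl : IsClassFunction G (χ : G → ℂ) :=
    Cfsg.Agent.Lib.Char.Basic.isClassFunction_of_isCharacter hχc
  obtain ⟨l, -, hl⟩ := Cfsg.Agent.S0163.result (χ : G → ℂ) hχc
  have key : ∀ l' : List ((E : Subgroup G) × ((E →* ℂˣ) × ℤ)), ∃ N : ℤ,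
      classInner (l'.map fun t => (t.2.2 : ℂ) • indFun t.1 (fun e => (t.2.1 e : ℂ))).sum
        (χ : G → ℂ) = a * N := by
    intro l'
    induction l' with
    | nil =>
      refine ⟨0, ?_⟩
      simp [Cfsg.Agent.Lib.Char.Ortho.classInner_zero_left]
    | cons t l' ih =>
      obtain ⟨N, hN⟩ := ih
      obtain ⟨E, lam, m⟩ := t
      letI : Fintype E := Fintype.ofFinite E
      obtain ⟨lamK, hlamK⟩ := exists_lamK hroots E lam
      obtain ⟨r, hr⟩ := exists_classInner_eq_mul (K := K) (V := V) (χ : G → ℂ) a ha0 hχχ
        (fun x => hdec x) E lamK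
      simp only [hlamK] at hr
      refine ⟨m * r + N, ?_⟩
      rw [List.map_cons, List.sum_cons, Cfsg.Agent.Lib.Char.Ortho.classInner_add_left, hN,
        Cfsg.Agent.Lib.Char.Ortho.classInner_smul_left,
        Cfsg.Agent.Lib.Char.Induced.frobenius_reciprocity E _ _ hχcl, hr]
      push_cast
      ring
  obtain ⟨N, hN⟩ := key l
  rw [← hl, hχχ] at hN
  have h5 : (a : ℤ) * N = 1 := by
    have : (((a : ℤ) * N : ℤ) : ℂ) = ((1 : ℤ) : ℂ) := by
      push_cast
      exact hN.symm
    exact_mod_cast this
  have h6 : a = 1 := by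
    have := Int.eq_one_or_neg_one_of_mul_eq_one h5
    omega
  subst h6
  funext x
  rw [hdec x]
  simp

end Simple

section Exist

variable {G : Type u} [Group G] [Fintype G]

/-- `χ` is the trace function of a matrix representation over `K`. -/
def Realizable (K : Type*) [Field K] [Algebra K ℂ] (G : Type u) [Group G] (χ : G → ℂ) : Prop :=
  ∃ (ι : Type) (_ : Fintype ι) (_ : DecidableEq ι) (T : G →* Matrix ι ι K),
    ∀ g, algebraMap K ℂ (T g).trace = χ g

lemma character_mem_fieldRange
    (hroots : ∀ z : ℂ, z ^ Monoid.exponent G = 1 → z ∈ (algebraMap K ℂ).fieldRange)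
    {ψ : G → ℂ} (hψ : IsCharacter G ψ) (g : G) : ψ g ∈ (algebraMap K ℂ).fieldRange := by
  obtain ⟨d, μ, -, h1, h2⟩ := Cfsg.Agent.Lib.Char.Values.IsCharacter.exists_roots hψ g
  rw [h2]
  refine sum_mem fun i _ => hroots _ ?_
  obtain ⟨k, hk⟩ := Monoid.order_dvd_exponent g
  rw [hk, pow_mul, h1 i, one_pow]

lemma blockCoeff_mem_fieldRange
    (hroots : ∀ z : ℂ, z ^ Monoid.exponent G = 1 → z ∈ (algebraMap K ℂ).fieldRange)
    (A : Set (IrrCharacter G)) (g : G) : blockCoeff A g ∈ (algebraMap K ℂ).fieldRange := by
  classical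
  rw [blockCoeff_eq_sum]
  refine mul_mem (inv_mem (natCast_mem _ _)) (sum_mem fun ψ _ => mul_mem ?_ ?_)
  · exact character_mem_fieldRange hroots
      (Cfsg.Agent.Lib.Char.Basic.isCharacter_of_isIrrCharacter ψ.2) 1
  · rw [Cfsg.Agent.Lib.Char.Ortho.conj_of_isCharacter
      (Cfsg.Agent.Lib.Char.Basic.isCharacter_of_isIrrCharacter ψ.2)]
    exact character_mem_fieldRange hroots
      (Cfsg.Agent.Lib.Char.Basic.isCharacter_of_isIrrCharacter ψ.2) _

lemma mapRingHom_injective_algebraMap :
    Function.Injective (MonoidAlgebra.mapRingHom G (algebraMap K ℂ)) := by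
  intro a b h
  ext g
  apply (algebraMap K ℂ).injective
  have := congrArg (fun x => MonoidAlgebra.coeff x g) h
  simpa [MonoidAlgebra.coeff_mapRingHom] using this

/-- Every irreducible character is realizable over `K`. -/
theorem realizable_irr
    (hroots : ∀ z : ℂ, z ^ Monoid.exponent G = 1 → z ∈ (algebraMap K ℂ).fieldRange)
    (χ : IrrCharacter G) : Realizable K G (χ : G → ℂ) := by
  classical
  have hmem := blockCoeff_mem_fieldRange (K := K) hroots ({χ} : Set (IrrCharacter G))
  choose c hc using hmem
  let A := MonoidAlgebra K G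
  let eK : A := ∑ g, MonoidAlgebra.single g (c g)
  let φ : A →+* MonoidAlgebra ℂ G := MonoidAlgebra.mapRingHom G (algebraMap K ℂ)
  have hφ : Function.Injective φ := mapRingHom_injective_algebraMap
  have hφe : φ eK = blockElt ({χ} : Set (IrrCharacter G)) := by
    simp only [eK, map_sum, blockElt, ofFun]
    refine Finset.sum_congr rfl fun g _ => ?_
    rw [show φ (MonoidAlgebra.single g (c g)) = MonoidAlgebra.single g (algebraMap K ℂ (c g)) from
      MonoidAlgebra.mapRingHom_single _ _ _, hc]
  have hidem : eK * eK = eK := by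
    apply hφ
    rw [map_mul, hφe, blockElt_mul_self]
  have hcentral : ∀ a : A, eK * a = a * eK := by
    intro a
    apply hφ
    rw [map_mul, map_mul, hφe]
    exact mul_comm_of_isClassFunction (isClassFunction_blockElt _) _
  have hne : eK ≠ 0 := by
    intro h0
    have h1 : blockElt ({χ} : Set (IrrCharacter G)) = 0 := by rw [← hφe, h0, map_zero]
    have h2 := omega_blockElt_of_mem (A := ({χ} : Set (IrrCharacter G))) (χ := χ) rfl
    rw [h1, omega_zero] at h2
    exact zero_ne_one h2
  haveI : Module.Finite K A := inferInstance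
  haveI : IsArtinianRing A := IsArtinianRing.of_finite K A
  have hWne : (Submodule.span A {eK} : Submodule A A) ≠ ⊥ := by
    rw [Ne, Submodule.span_singleton_eq_bot]
    exact hne
  obtain ⟨W, hW, hWle⟩ := (eq_bot_or_exists_atom_le (Submodule.span A {eK})).resolve_left hWne
  haveI : IsSimpleModule A W := isSimpleModule_iff_isAtom.mpr hW
  haveI : FiniteDimensional K W := inferInstanceAs (FiniteDimensional K (W.restrictScalars K))
  have hact : ∀ v : W, eK • v = v := by
    intro v
    apply Subtype.ext
    obtain ⟨a, ha⟩ := Submodule.mem_span_singleton.1 (hWle v.2)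
    change eK * (v : A) = v
    rw [← ha, smul_eq_mul, ← mul_assoc, hcentral a, mul_assoc, hidem]
  have hE : ∀ v : W, ∑ g, c g • actHom K G W g v = v := by
    intro v
    conv_rhs => rw [← hact v]
    simp only [eK, actHom_apply]
    rw [Finset.sum_smul]
    refine Finset.sum_congr rfl fun g _ => ?_
    rw [← smul_assoc, MonoidAlgebra.smul_single, smul_eq_mul, mul_one]
  have hfin := traceFun_eq_of_simple hroots χ c hc hE
  refine ⟨Fin (finrank K W), inferInstance, inferInstance, matOf (actHom K G W), fun g => ?_⟩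
  rw [trace_matOf]
  exact congrFun hfin g

lemma realizable_zero : Realizable K G (0 : G → ℂ) :=
  ⟨Empty, inferInstance, inferInstance, 1, fun g => by simp⟩

lemma Realizable.add {χ ψ : G → ℂ} (h1 : Realizable K G χ) (h2 : Realizable K G ψ) :
    Realizable K G (χ + ψ) := by
  obtain ⟨ι, _, _, T, hT⟩ := h1
  obtain ⟨ι', _, _, T', hT'⟩ := h2
  refine ⟨ι ⊕ ι', inferInstance, inferInstance,
    { toFun := fun g => Matrix.fromBlocks (T g) 0 0 (T' g)
      map_one' := by simp
      map_mul' := fun a b => by simp [Matrix.fromBlocks_multiply] }, fun g => ?_⟩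
  have h3 : (Matrix.fromBlocks (T g) 0 0 (T' g)).trace = (T g).trace + (T' g).trace := by
    simp [Matrix.trace, Matrix.diag]
  change algebraMap K ℂ (Matrix.fromBlocks (T g) 0 0 (T' g)).trace = χ g + ψ g
  rw [h3, map_add, hT, hT']

theorem realizable_of_isCharacter
    (hroots : ∀ z : ℂ, z ^ Monoid.exponent G = 1 → z ∈ (algebraMap K ℂ).fieldRange)
    {χ : G → ℂ} (hχ : IsCharacter G χ) : Realizable K G χ :=
  Cfsg.Agent.Lib.Char.Basic.isCharacter_induction_on_irr realizable_zero
    (fun χ h => realizable_irr hroots ⟨χ, h⟩) (fun _ _ _ _ h1 h2 => h1.add h2) hχ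

/-- Brauer's splitting field theorem, for `K ⊂ ℂ` containing the roots of unity. -/
theorem exists_equiv_rep
    (hroots : ∀ z : ℂ, z ^ Monoid.exponent G = 1 → z ∈ (algebraMap K ℂ).fieldRange)
    {n : ℕ} (ρ : Representation ℂ G (Fin n → ℂ)) :
    ∃ σ : Representation ℂ G (Fin n → ℂ), Nonempty (ρ.Equiv σ) ∧
      ∀ g i j, LinearMap.toMatrix' (σ g) i j ∈ (algebraMap K ℂ).fieldRange := by
  classical
  obtain ⟨ι, _, _, T, hT⟩ := realizable_of_isCharacter (K := K) hroots
    (Cfsg.Agent.Lib.Char.Basic.isCharacter_of_rep ρ)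
  have hcard : Fintype.card ι = n := by
    have h1 := hT 1
    rw [map_one, Matrix.trace_one, map_natCast, Representation.char_one] at h1
    simp only [Module.finrank_fin_fun] at h1
    exact_mod_cast h1
  let e : ι ≃ Fin n := Fintype.equivFinOfCardEq hcard
  let T' : G →* Matrix (Fin n) (Fin n) K :=
    { toFun := fun g => Matrix.reindex e e (T g)
      map_one' := by simp
      map_mul' := fun a b => by simp [Matrix.submatrix_mul_equiv] }
  have hchar : ρ.character = (matRep T').character := by
    funext g
    rw [character_matRep, ← hT g]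
    congr 1
    change (T g).trace = ((T g).submatrix e.symm e.symm).trace
    simp only [Matrix.trace, Matrix.diag, Matrix.submatrix_apply]
    exact (Equiv.sum_comp e.symm (fun i => T g i i)).symm
  refine ⟨matRep T', Cfsg.Agent.Lib.Char.RepEquiv.equiv_of_character_eq ρ _ hchar, fun g i j => ?_⟩
  rw [matRep_apply, LinearMap.toMatrix'_toLin']
  exact ⟨T' g i j, rfl⟩

end Exist

end ModuleLevel

end Core

end Cfsg.Agent.Lib.Char.SplitField
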