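import Mathlib
import Cfsg.Agent.Lib.Char.PermChar

set_option autoImplicit false
set_option linter.unusedSectionVars false

/-!
# Wielandt's theorem on primitive groups of degree `2p`

A direct proof: an element `x` of order `p` without fixed points cuts the points into two `x`-orbits;
every invariant matrix becomes a `2 × 2` matrix of circulants.  The eigenvector coming from the sign
vector of the two orbits and the Fourier transform at one primitive `p`-th root of unity give enough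
identities to determine all orbital matrices.
-/

namespace Cfsg.Agent.Lib.Char.Wielandt2p

open scoped ComplexConjugate BigOperators
open Polynomial

variable {p : ℕ} [hp : Fact p.Prime]

/-- The standard additive character of `ZMod p`. -/
noncomputable abbrev ψ : AddChar (ZMod p) ℂ := ZMod.stdAddChar

lemma ψ_add (i j : ZMod p) : ψ (i + j) = ψ i * ψ j := AddChar.map_add_eq_mul _ _ _

lemma ψ_zero : ψ (0 : ZMod p) = 1 := AddChar.map_zero_eq_one _

lemma ψ_conj (j : ZMod p) : conj (ψ j) = ψ (-j) := by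
  rw [AddChar.map_neg_eq_conj]

lemma ψ_mul_conj (j : ZMod p) : ψ j * ψ (-j) = 1 := by
  rw [← ψ_add, add_neg_cancel, ψ_zero]

/-- `ψ 1` is a primitive root. -/
lemma isPrimitiveRoot_ψ : IsPrimitiveRoot (ψ (1 : ZMod p)) p := by
  have hne : (p : ℂ) ≠ 0 := by exact_mod_cast hp.out.ne_zero
  have h := Complex.isPrimitiveRoot_exp p hp.out.ne_zero
  have h1 : ψ (1 : ZMod p) = Complex.exp (2 * Real.pi * Complex.I / p) := by
    have := ZMod.stdAddChar_coe (N := p) (1 : ℤ)
    simpa using this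
  rw [h1]
  exact h

lemma ψ_eq_pow (j : ZMod p) : ψ j = ψ (1 : ZMod p) ^ j.val := by
  rw [← AddChar.map_nsmul_eq_pow]
  congr 1
  simp

/-- **The vanishing lemma.** -/
lemma vanish (c : ZMod p → ℤ) (h : ∑ j, (c j : ℂ) * ψ j = 0) (i j : ZMod p) : c i = c j := by
  classical
  set ζ := ψ (1 : ZMod p) with hζ
  have hprim : IsPrimitiveRoot ζ p := isPrimitiveRoot_ψ
  let P : ℚ[X] := ∑ j, C (c j : ℚ) * X ^ j.val
  have hP : aeval ζ P = 0 := by
    simp only [P, map_sum, map_mul, aeval_C, map_pow, aeval_X]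
    rw [← h]
    refine Finset.sum_congr rfl fun j _ => ?_
    rw [ψ_eq_pow]
    simp [← hζ]
  have hdvd : cyclotomic p ℚ ∣ P := by
    rw [cyclotomic_eq_minpoly_rat hprim hp.out.pos]
    exact minpoly.dvd ℚ ζ hP
  obtain ⟨Q, hQ⟩ := hdvd
  have hΦ : (cyclotomic p ℚ).natDegree = p - 1 := by
    rw [natDegree_cyclotomic, Nat.totient_prime hp.out]
  have hdeg : P.natDegree ≤ p - 1 := by
    refine natDegree_sum_le_of_forall_le _ _ fun j _ => ?_
    refine (natDegree_C_mul_X_pow_le _ _).trans ?_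
    have := ZMod.val_lt j
    omega
  have hcoef : ∀ j : ZMod p, P.coeff j.val = (c j : ℚ) := by
    intro j
    simp only [P, finsetSum_coeff, coeff_C_mul, coeff_X_pow]
    rw [Finset.sum_eq_single j]
    · simp
    · intro b _ hb
      rw [if_neg]
      · simp
      · intro h'
        exact hb (ZMod.val_injective p h'.symm)
    · simp
  have hκ : ∃ κ : ℚ, ∀ j : ZMod p, (c j : ℚ) = κ := by
    by_cases hQ0 : Q = 0
    · refine ⟨0, fun j => ?_⟩
      rw [← hcoef, hQ, hQ0]
      simp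
    · have hne : cyclotomic p ℚ ≠ 0 := cyclotomic_ne_zero p ℚ
      have h1 : P.natDegree = (cyclotomic p ℚ).natDegree + Q.natDegree := by
        rw [hQ, natDegree_mul hne hQ0]
      have h2 : Q.natDegree = 0 := by omega
      obtain ⟨κ, rfl⟩ := natDegree_eq_zero.mp h2
      refine ⟨κ, fun j => ?_⟩
      rw [← hcoef, hQ, cyclotomic_prime, mul_comm, coeff_C_mul, finsetSum_coeff]
      rw [Finset.sum_eq_single j.val]
      · simp
      · intro b _ hb
        rw [coeff_X_pow, if_neg (Ne.symm hb)]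
      · intro h'
        exact absurd (Finset.mem_range.mpr (ZMod.val_lt j)) h'
  obtain ⟨κ, hκ⟩ := hκ
  have : (c i : ℚ) = c j := by rw [hκ, hκ]
  exact_mod_cast this

/-- The Fourier transform at the standard character. -/
noncomputable def hat (f : ZMod p → ℤ) : ℂ := ∑ j, (f j : ℂ) * ψ j

lemma hat_conj (f : ZMod p → ℤ) : conj (hat f) = ∑ j, (f j : ℂ) * ψ (-j) := by
  simp only [hat, map_sum, map_mul, map_intCast, ψ_conj]

/-- Autocorrelation. -/
def acorr (f : ZMod p → ℤ) (k : ZMod p) : ℤ := ∑ j, f j * f (j + k)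

lemma hat_acorr (f : ZMod p → ℤ) : hat (acorr f) = hat f * conj (hat f) := by
  rw [hat_conj]
  simp only [hat, acorr]
  push_cast
  rw [Finset.mul_sum]
  simp only [Finset.sum_mul]
  rw [Finset.sum_comm]
  refine Finset.sum_congr rfl fun j _ => ?_
  rw [← Equiv.sum_comp (Equiv.addLeft j) (fun m => (f m : ℂ) * ψ m * ((f j : ℂ) * ψ (-j)))]
  refine Finset.sum_congr rfl fun k _ => ?_
  simp only [Equiv.coe_addLeft]
  rw [ψ_add]
  have := ψ_mul_conj (p := p) j
  linear_combination (-(f j : ℂ) * (f (j + k) : ℂ) * ψ k) * this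

lemma sum_acorr (f : ZMod p → ℤ) : ∑ k, acorr f k = (∑ j, f j) ^ 2 := by
  simp only [acorr]
  rw [Finset.sum_comm, sq, Finset.sum_mul]
  refine Finset.sum_congr rfl fun j _ => ?_
  rw [← Finset.mul_sum]
  congr 1
  exact Equiv.sum_comp (Equiv.addLeft j) f

lemma acorr_zero (f : ZMod p → ℤ) : acorr f 0 = ∑ j, f j ^ 2 := by
  simp [acorr, sq]

lemma hat_add (f g : ZMod p → ℤ) : hat (fun j => f j + g j) = hat f + hat g := by
  simp [hat, add_mul, Finset.sum_add_distrib]

lemma hat_sub (f g : ZMod p → ℤ) : hat (fun j => f j - g j) = hat f - hat g := by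
  simp [hat, sub_mul, Finset.sum_sub_distrib]

/-- A Parseval type identity for one function against four functions. -/
lemma parseval (F A B C D : ZMod p → ℤ)
    (hnorm : hat F * conj (hat F) = hat A * conj (hat A) + hat B * conj (hat B) +
      hat C * conj (hat C) + hat D * conj (hat D))
    (hsum : (∑ j, F j) ^ 2 = (∑ j, A j) ^ 2 + (∑ j, B j) ^ 2 + (∑ j, C j) ^ 2 + (∑ j, D j) ^ 2) :
    ∑ j, F j ^ 2 = ∑ j, A j ^ 2 + ∑ j, B j ^ 2 + ∑ j, C j ^ 2 + ∑ j, D j ^ 2 := by
  let c : ZMod p → ℤ := fun k => acorr F k - (acorr A k + acorr B k + acorr C k + acorr D k)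
  have hc : hat c = 0 := by
    simp only [c, hat_sub, hat_add, hat_acorr, hnorm]
    ring
  have hconst : ∀ k, c k = c 0 := fun k => vanish c hc k 0
  have hsumc : ∑ k, c k = 0 := by
    simp only [c, Finset.sum_sub_distrib, Finset.sum_add_distrib, sum_acorr, hsum]
    ring
  simp_rw [hconst] at hsumc
  rw [Finset.sum_const, Finset.card_univ, ZMod.card, nsmul_eq_mul] at hsumc
  have hp0 : (p : ℤ) ≠ 0 := by exact_mod_cast hp.out.ne_zero
  have h0 : c 0 = 0 := (mul_eq_zero.mp hsumc).resolve_left hp0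
  simp only [c, acorr_zero] at h0
  linarith

/-! ### `2 × 2` linear algebra -/

lemma frob_aux (A B C D y₀ y₁ : ℂ) (h1 : A * y₀ + B * y₁ = 0) (h2 : C * y₀ + D * y₁ = 0)
    (h3 : conj A * y₀ + conj C * y₁ = 0) (h4 : conj B * y₀ + conj D * y₁ = 0) :
    A * (y₀ * conj y₀) = D * (y₁ * conj y₁) := by
  have h5 : B * conj y₀ + D * conj y₁ = 0 := by
    have := congrArg conj h4
    simpa using this
  linear_combination (conj y₀) * h1 - y₁ * h5

lemma frob_det (A B C D y₀ y₁ : ℂ) (hy : y₀ ≠ 0 ∨ y₁ ≠ 0) (h1 : A * y₀ + B * y₁ = 0)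
    (h2 : C * y₀ + D * y₁ = 0) : A * D = B * C := by
  rcases hy with hy | hy
  · have : (A * D - B * C) * y₀ = 0 := by linear_combination D * h1 - B * h2
    have := (mul_eq_zero.mp this).resolve_right hy
    linear_combination this
  · have : (A * D - B * C) * y₁ = 0 := by linear_combination A * h2 - C * h1
    have := (mul_eq_zero.mp this).resolve_right hy
    linear_combination this

lemma frob_norm (A B C D y₀ y₁ : ℂ) (hy : y₀ ≠ 0 ∨ y₁ ≠ 0) (h1 : A * y₀ + B * y₁ = 0)
    (h2 : C * y₀ + D * y₁ = 0) (h3 : conj A * y₀ + conj C * y₁ = 0)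
    (h4 : conj B * y₀ + conj D * y₁ = 0) :
    (A + D) * conj (A + D) = A * conj A + B * conj B + C * conj C + D * conj D := by
  have hP : y₀ * conj y₀ + y₁ * conj y₁ ≠ 0 := by
    have h0 : y₀ * conj y₀ + y₁ * conj y₁ = ((Complex.normSq y₀ + Complex.normSq y₁ : ℝ) : ℂ) := by
      push_cast
      rw [Complex.mul_conj, Complex.mul_conj]
    rw [h0]
    have hpos : 0 < Complex.normSq y₀ + Complex.normSq y₁ := by
      rcases hy with hy | hy
      · have := Complex.normSq_pos.mpr hy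
        have := Complex.normSq_nonneg y₁
        linarith
      · have := Complex.normSq_pos.mpr hy
        have := Complex.normSq_nonneg y₀
        linarith
    exact_mod_cast hpos.ne'
  have c1 : conj A * conj y₀ + conj B * conj y₁ = 0 := by simpa using congrArg conj h1
  have c2 : conj C * conj y₀ + conj D * conj y₁ = 0 := by simpa using congrArg conj h2
  have c3 : A * conj y₀ + C * conj y₁ = 0 := by simpa using congrArg conj h3
  have c4 : B * conj y₀ + D * conj y₁ = 0 := by simpa using congrArg conj h4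
  have key := frob_aux A B C D y₀ y₁ h1 h2 h3 h4
  have key' : conj A * (y₀ * conj y₀) = conj D * (y₁ * conj y₁) := by
    have := congrArg conj key
    simp only [map_mul, Complex.conj_conj] at this
    linear_combination this
  have h : (B * conj B + C * conj C - A * conj D - D * conj A) *
      (y₀ * conj y₀ + y₁ * conj y₁) = 0 := by
    generalize conj A = a' at *
    generalize conj B = b' at *
    generalize conj C = c' at *
    generalize conj D = d' at *
    generalize conj y₀ = z₀ at *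
    generalize conj y₁ = z₁ at *
    have e1 : B * b' * (y₀ * z₀) = D * d' * (y₁ * z₁) := by
      linear_combination (B * z₀) * h4 - d' * y₁ * c4
    have e2 : B * b' * (y₁ * z₁) = A * a' * (y₀ * z₀) := by
      linear_combination (b' * z₁) * h1 - A * y₀ * c1
    have e3 : C * c' * (y₀ * z₀) = D * d' * (y₁ * z₁) := by
      linear_combination (c' * z₀) * h2 - D * y₁ * c2
    have e4 : C * c' * (y₁ * z₁) = A * a' * (y₀ * z₀) := by
      linear_combination (C * z₁) * h3 - a' * y₀ * c3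
    have e5 : A * d' * (y₀ * z₀) = D * d' * (y₁ * z₁) := by
      linear_combination d' * key
    have e6 : A * d' * (y₁ * z₁) = A * a' * (y₀ * z₀) := by
      linear_combination -A * key'
    have e7 : D * a' * (y₀ * z₀) = D * d' * (y₁ * z₁) := by
      linear_combination D * key'
    have e8 : D * a' * (y₁ * z₁) = A * a' * (y₀ * z₀) := by
      linear_combination -a' * key
    linear_combination e1 + e2 + e3 + e4 - e5 - e6 - e7 - e8
  have h' := (mul_eq_zero.mp h).resolve_right hP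
  simp only [map_add]
  linear_combination -h'

/-! ### Blocks -/

section Blocks

open MulAction

variable {G : Type*} [Group G] {Ω : Type*} [Fintype Ω] [MulAction G Ω]
  (φ : ZMod p × Fin 2 ≃ Ω)

/-- Invariant kernels. -/
def Inv (G : Type*) [Group G] {Ω : Type*} [MulAction G Ω] (T : Ω → Ω → ℤ) : Prop :=
  ∀ (g : G) (y z : Ω), T (g • y) (g • z) = T y z

/-- The blocks of a kernel. -/
def blk (T : Ω → Ω → ℤ) (s t : Fin 2) (j : ZMod p) : ℤ := T (φ (0, s)) (φ (j, t))

/-- The block sums. -/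
def bS (T : Ω → Ω → ℤ) (s t : Fin 2) : ℤ := ∑ j, blk φ T s t j

/-- The Fourier transforms of the blocks. -/
noncomputable def Mh (T : Ω → Ω → ℤ) (s t : Fin 2) : ℂ := hat (blk φ T s t)

lemma sum_phi {M : Type*} [AddCommMonoid M] (f : Ω → M) :
    ∑ z, f z = ∑ t : Fin 2, ∑ j : ZMod p, f (φ (j, t)) := by
  rw [← Equiv.sum_comp φ f, Fintype.sum_prod_type_right]

/-- The sign of a block index. -/
def sgn (s : Fin 2) : ℤ := if s = 0 then 1 else -1

/-- The sign vector of the two orbits. -/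
def sv (y : Ω) : ℤ := sgn (φ.symm y).2

lemma sv_phi (j : ZMod p) (s : Fin 2) : sv φ (φ (j, s)) = sgn s := by
  simp [sv]

lemma sv_sq (y : Ω) : sv φ y * sv φ y = 1 := by
  simp only [sv, sgn]
  split_ifs <;> simp

lemma sum_sv : ∑ z, sv φ z = 0 := by
  rw [sum_phi φ, Fin.sum_univ_two]
  simp [sv_phi, sgn]

lemma sum_sv_smul (g : G) : ∑ z, sv φ (g • z) = 0 := by
  rw [← sum_sv φ]
  exact Equiv.sum_comp (MulAction.toPerm g) (sv φ)

variable (x : G) (hx : ∀ (j : ZMod p) (s : Fin 2), x • φ (j, s) = φ (j + 1, s))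

include hx in
lemma pow_smul_phi (k : ℕ) (j : ZMod p) (s : Fin 2) : (x ^ k) • φ (j, s) = φ (j + k, s) := by
  induction k generalizing j with
  | zero => simp
  | succ k ih =>
    rw [pow_succ, mul_smul, hx, ih]
    congr 2
    push_cast
    ring

include hx in
lemma T_phi {T : Ω → Ω → ℤ} (hT : Inv G T) (i j : ZMod p) (s t : Fin 2) :
    T (φ (i, s)) (φ (j, t)) = blk φ T s t (j - i) := by
  have h1 : φ (i, s) = x ^ i.val • φ (0, s) := by
    rw [pow_smul_phi φ x hx]
    simp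
  have h2 : φ (j, t) = x ^ i.val • φ (j - i, t) := by
    rw [pow_smul_phi φ x hx]
    simp
  rw [h1, h2, hT]
  rfl

lemma rowSum_inv {T : Ω → Ω → ℤ} (hT : Inv G T) (g : G) (y : Ω) :
    ∑ z, T (g • y) z = ∑ z, T y z := by
  rw [← Equiv.sum_comp (MulAction.toPerm g) (fun z => T (g • y) z)]
  refine Finset.sum_congr rfl fun z _ => ?_
  simp only [MulAction.toPerm_apply]
  rw [hT]

lemma flip_inv {T : Ω → Ω → ℤ} (hT : Inv G T) : Inv G (flip T) :=
  fun g y z => hT g z y

lemma rowSum_const [IsPretransitive G Ω] {T : Ω → Ω → ℤ} (hT : Inv G T) (y y' : Ω) :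
    ∑ z, T y z = ∑ z, T y' z := by
  obtain ⟨g, rfl⟩ := exists_smul_eq G y y'
  rw [rowSum_inv hT]

lemma row_eq_col [IsPretransitive G Ω] {T : Ω → Ω → ℤ} (hT : Inv G T) (y y' : Ω) :
    ∑ z, T y z = ∑ z, T z y' := by
  have : Nonempty Ω := ⟨y⟩
  have h1 : ∑ w, ∑ z, T w z = ∑ w : Ω, ∑ z, T y z :=
    Finset.sum_congr rfl fun w _ => rowSum_const hT w y
  have h2 : ∑ w, ∑ z, T z w = ∑ w : Ω, ∑ z, T z y' :=
    Finset.sum_congr rfl fun w _ => rowSum_const (flip_inv hT) w y'
  rw [Finset.sum_comm] at h2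
  rw [h2] at h1
  simp only [Finset.sum_const, Finset.card_univ, nsmul_eq_mul] at h1
  have hn : (Fintype.card Ω : ℤ) ≠ 0 := by
    have : 0 < Fintype.card Ω := Fintype.card_pos
    omega
  exact (mul_left_cancel₀ hn h1).symm

lemma bS_row (T : Ω → Ω → ℤ) (s : Fin 2) : bS φ T s 0 + bS φ T s 1 = ∑ z, T (φ (0, s)) z := by
  rw [sum_phi φ, Fin.sum_univ_two]
  rfl

include hx in
lemma bS_flip {T : Ω → Ω → ℤ} (hT : Inv G T) (s t : Fin 2) : bS φ (flip T) s t = bS φ T t s := by
  simp only [bS, blk, flip]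
  rw [← Equiv.sum_comp (Equiv.neg (ZMod p))]
  refine Finset.sum_congr rfl fun j _ => ?_
  rw [T_phi φ x hx hT]
  simp [blk]

include hx in
lemma bS_diag [IsPretransitive G Ω] {T : Ω → Ω → ℤ} (hT : Inv G T) :
    bS φ T 0 0 = bS φ T 1 1 ∧ bS φ T 0 1 = bS φ T 1 0 := by
  have h1 := bS_row φ T 0
  have h2 := bS_row φ T 1
  have h3 := bS_row φ (flip T) 0
  have h4 := bS_row φ (flip T) 1
  rw [bS_flip φ x hx hT, bS_flip φ x hx hT] at h3 h4
  have e1 := rowSum_const hT (φ (0, 0)) (φ (0, 1))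
  have e2 := row_eq_col hT (φ (0, 0)) (φ (0, 0))
  have e3 := row_eq_col hT (φ (0, 0)) (φ (0, 1))
  have e4 : ∑ z, flip T (φ (0, 0)) z = ∑ z, T z (φ (0, 0)) := rfl
  have e5 : ∑ z, flip T (φ (0, 1)) z = ∑ z, T z (φ (0, 1)) := rfl
  constructor <;> omega

/-- The eigenvalue of an invariant kernel on the sign vector. -/
def eg (T : Ω → Ω → ℤ) : ℤ := bS φ T 0 0 - bS φ T 0 1

include hx in
lemma eg_flip [IsPretransitive G Ω] {T : Ω → Ω → ℤ} (hT : Inv G T) : eg φ (flip T) = eg φ T := by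
  simp only [eg, bS_flip φ x hx hT]
  have := (bS_diag φ x hx hT).2
  omega

include hx in
lemma sum_T_sv [IsPretransitive G Ω] {T : Ω → Ω → ℤ} (hT : Inv G T) (y : Ω) :
    ∑ z, T y z * sv φ z = eg φ T * sv φ y := by
  obtain ⟨⟨i, s⟩, rfl⟩ := φ.surjective y
  rw [sum_phi φ, Fin.sum_univ_two]
  simp only [sv_phi]
  have h : ∀ t, ∑ j, T (φ (i, s)) (φ (j, t)) = bS φ T s t := by
    intro t
    simp only [T_phi φ x hx hT]
    exact Equiv.sum_comp (Equiv.subRight i) (blk φ T s t)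
  simp only [← Finset.sum_mul, h]
  have hd := bS_diag φ x hx hT
  fin_cases s
  · simp [sgn, eg]
    ring
  · simp [sgn, eg]
    omega

lemma sum_T_smul {T : Ω → Ω → ℤ} (hT : Inv G T) (g : G) (y : Ω) (f : Ω → ℤ) :
    ∑ z, T y z * f (g • z) = ∑ z, T (g • y) z * f z := by
  rw [← Equiv.sum_comp (MulAction.toPerm g) (fun z => T (g • y) z * f z)]
  refine Finset.sum_congr rfl fun z _ => ?_
  simp only [MulAction.toPerm_apply]
  rw [hT]

include hx in
lemma sum_T_sv_smul [IsPretransitive G Ω] {T : Ω → Ω → ℤ} (hT : Inv G T) (g : G) (y : Ω) :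
    ∑ z, T y z * sv φ (g • z) = eg φ T * sv φ (g • y) := by
  rw [sum_T_smul hT, sum_T_sv φ x hx hT]

/-- The Fourier transform of a vector along the two orbits. -/
noncomputable def hatv (y : Ω → ℤ) (s : Fin 2) : ℂ := ∑ m, (y (φ (m, s)) : ℂ) * ψ (-m)

include hx in
lemma eigen_hat {T : Ω → Ω → ℤ} (hT : Inv G T) (y : Ω → ℤ) (e : ℤ)
    (he : ∀ z', ∑ z, T z' z * y z = e * y z') (s : Fin 2) :
    Mh φ T s 0 * hatv φ y 0 + Mh φ T s 1 * hatv φ y 1 = e * hatv φ y s := by
  have h1 : ∀ (t : Fin 2) (j : ZMod p), ∑ m, (blk φ T s t (j - m) : ℂ) * ψ (-m) =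
      Mh φ T s t * ψ (-j) := by
    intro t j
    rw [Mh, hat, Finset.sum_mul]
    rw [← Equiv.sum_comp (Equiv.subLeft j) (fun l => (blk φ T s t l : ℂ) * ψ l * ψ (-j))]
    refine Finset.sum_congr rfl fun m _ => ?_
    simp only [Equiv.subLeft_apply]
    have : ψ (-m) = ψ (j - m) * ψ (-j) := by
      rw [← ψ_add]
      congr 1
      ring
    rw [this]
    ring
  have h2 : (e : ℂ) * hatv φ y s = ∑ m : ZMod p, ∑ t : Fin 2, ∑ j : ZMod p,
      (blk φ T s t (j - m) : ℂ) * (y (φ (j, t)) : ℂ) * ψ (-m) := by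
    rw [hatv, Finset.mul_sum]
    refine Finset.sum_congr rfl fun m _ => ?_
    have h3 := he (φ (m, s))
    rw [sum_phi φ] at h3
    have h4 := congrArg (fun w : ℤ => (w : ℂ) * ψ (-m)) h3
    push_cast at h4
    rw [← mul_assoc, ← h4, Finset.sum_mul]
    refine Finset.sum_congr rfl fun t _ => ?_
    rw [Finset.sum_mul]
    refine Finset.sum_congr rfl fun j _ => ?_
    rw [T_phi φ x hx hT]
  rw [h2, Finset.sum_comm, Fin.sum_univ_two]
  congr 1
  · rw [Finset.sum_comm, hatv, Finset.mul_sum]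
    refine Finset.sum_congr rfl fun j _ => ?_
    have := h1 0 j
    calc Mh φ T s 0 * ((y (φ (j, 0)) : ℂ) * ψ (-j)) = (Mh φ T s 0 * ψ (-j)) * (y (φ (j, 0)) : ℂ) := by ring
      _ = _ := by
        rw [← this, Finset.sum_mul]
        refine Finset.sum_congr rfl fun m _ => ?_
        ring
  · rw [Finset.sum_comm, hatv, Finset.mul_sum]
    refine Finset.sum_congr rfl fun j _ => ?_
    have := h1 1 j
    calc Mh φ T s 1 * ((y (φ (j, 1)) : ℂ) * ψ (-j)) = (Mh φ T s 1 * ψ (-j)) * (y (φ (j, 1)) : ℂ) := by ring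
      _ = _ := by
        rw [← this, Finset.sum_mul]
        refine Finset.sum_congr rfl fun m _ => ?_
        ring

include hx in
lemma Mh_flip {T : Ω → Ω → ℤ} (hT : Inv G T) (s t : Fin 2) :
    Mh φ (flip T) s t = conj (Mh φ T t s) := by
  rw [Mh, Mh, hat_conj, hat]
  rw [← Equiv.sum_comp (Equiv.neg (ZMod p))]
  refine Finset.sum_congr rfl fun j _ => ?_
  simp only [Equiv.neg_apply]
  congr 2
  simp only [blk, flip]
  rw [T_phi φ x hx hT]
  simp [blk]

end Blocks

/-! ### The correlation kernel -/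

section Correlation

open MulAction

variable {G : Type*} [Group G] [Fintype G] {Ω : Type*} [Fintype Ω] [MulAction G Ω]
  (φ : ZMod p × Fin 2 ≃ Ω)

/-- The correlation kernel `∑ g, u (g y) u (g z)` of the sign vector. -/
def cE (G : Type*) [Group G] [Fintype G] {Ω : Type*} [Fintype Ω] [MulAction G Ω]
    (φ : ZMod p × Fin 2 ≃ Ω) (y z : Ω) : ℤ :=
  ∑ g : G, sv φ (g • y) * sv φ (g • z)

lemma cE_inv : Inv G (cE G φ) := by
  intro h y z
  simp only [cE]
  rw [← Equiv.sum_comp (Equiv.mulRight h) (fun g => sv φ (g • y) * sv φ (g • z))]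
  refine Finset.sum_congr rfl fun g _ => ?_
  simp [mul_smul]

lemma cE_flip : flip (cE G φ) = cE G φ := by
  funext y z
  simp only [flip, cE]
  exact Finset.sum_congr rfl fun g _ => mul_comm _ _

lemma cE_diag (y : Ω) : cE G φ y y = Fintype.card G := by
  simp only [cE, sv_sq]
  simp

lemma cE_row (y : Ω) : ∑ z, cE G φ y z = 0 := by
  simp only [cE]
  rw [Finset.sum_comm]
  refine Finset.sum_eq_zero fun g _ => ?_
  rw [← Finset.mul_sum, sum_sv_smul, mul_zero]

variable (x : G) (hx : ∀ (j : ZMod p) (s : Fin 2), x • φ (j, s) = φ (j + 1, s))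

include hx in
lemma sum_T_cE [IsPretransitive G Ω] {T : Ω → Ω → ℤ} (hT : Inv G T) (z₀ z' : Ω) :
    ∑ z, T z' z * cE G φ z z₀ = eg φ T * cE G φ z' z₀ := by
  simp only [cE, Finset.mul_sum]
  rw [Finset.sum_comm]
  refine Finset.sum_congr rfl fun g _ => ?_
  have h := sum_T_sv_smul φ x hx hT g z'
  have h2 := congrArg (fun w : ℤ => w * sv φ (g • z₀)) h
  simp only [Finset.sum_mul] at h2
  rw [mul_assoc] at h2
  rw [← h2]
  exact Finset.sum_congr rfl fun z _ => by ring

include hx in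
lemma hatv_cE (s t : Fin 2) :
    hatv φ (fun z => cE G φ z (φ (0, t))) s = Mh φ (cE G φ) s t := by
  rw [hatv, Mh, hat]
  rw [← Equiv.sum_comp (Equiv.neg (ZMod p))]
  refine Finset.sum_congr rfl fun m _ => ?_
  simp only [Equiv.neg_apply, neg_neg]
  congr 2
  rw [T_phi φ x hx (cE_inv φ)]
  simp

include hx in
/-- The columns of the correlation kernel are eigenvectors of every invariant kernel. -/
lemma eig_cE [IsPretransitive G Ω] {T : Ω → Ω → ℤ} (hT : Inv G T) (s t : Fin 2) :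
    Mh φ T s 0 * Mh φ (cE G φ) 0 t + Mh φ T s 1 * Mh φ (cE G φ) 1 t =
      eg φ T * Mh φ (cE G φ) s t := by
  have h := eigen_hat φ x hx hT (fun z => cE G φ z (φ (0, t))) (eg φ T)
    (fun z' => sum_T_cE φ x hx hT _ z') s
  simpa only [hatv_cE φ x hx] using h

lemma Mh_cE_herm (hx : ∀ (j : ZMod p) (s : Fin 2), x • φ (j, s) = φ (j + 1, s)) (s t : Fin 2) :
    Mh φ (cE G φ) s t = conj (Mh φ (cE G φ) t s) := by
  have h := Mh_flip φ x hx (cE_inv (G := G) φ) s t
  rwa [cE_flip] at h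

include hx in
lemma bS_cE [IsPretransitive G Ω] :
    bS φ (cE G φ) 0 0 + bS φ (cE G φ) 1 1 = eg φ (cE G φ) := by
  have h1 := bS_row φ (cE G φ) 0
  rw [cE_row] at h1
  have h2 := (bS_diag φ x hx (cE_inv (G := G) φ)).1
  simp only [eg]
  omega

include hx in
/-- The eigenvalue of the correlation kernel is positive. -/
lemma eg_cE_pos [IsPretransitive G Ω] [Nonempty Ω] : 0 < eg φ (cE G φ) := by
  have h1 : ∑ y, sv φ y * ∑ z, cE G φ y z * sv φ z = eg φ (cE G φ) * Fintype.card Ω := by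
    have : ∀ y, sv φ y * ∑ z, cE G φ y z * sv φ z = eg φ (cE G φ) := by
      intro y
      rw [sum_T_sv φ x hx (cE_inv φ), mul_comm (eg φ (cE G φ)), ← mul_assoc, sv_sq, one_mul]
    simp_rw [this]
    simp [mul_comm]
  have h2 : ∑ y, sv φ y * ∑ z, cE G φ y z * sv φ z =
      ∑ g : G, (∑ y, sv φ (g • y) * sv φ y) ^ 2 := by
    have h3 : ∀ g : G, (∑ y, sv φ (g • y) * sv φ y) ^ 2 =
        ∑ y, ∑ z, sv φ y * (sv φ (g • y) * sv φ (g • z) * sv φ z) := by
      intro g
      rw [sq, Finset.sum_mul_sum]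
      exact Finset.sum_congr rfl fun y _ => Finset.sum_congr rfl fun z _ => by ring
    simp_rw [h3]
    rw [Finset.sum_comm]
    refine Finset.sum_congr rfl fun y _ => ?_
    rw [Finset.sum_comm, Finset.mul_sum]
    refine Finset.sum_congr rfl fun z _ => ?_
    simp only [cE, Finset.sum_mul, Finset.mul_sum]
  have h4 : ∑ y, sv φ ((1 : G) • y) * sv φ y = Fintype.card Ω := by
    simp only [one_smul, sv_sq]
    simp
  have h5 : (∑ y, sv φ ((1 : G) • y) * sv φ y) ^ 2 ≤ ∑ g : G, (∑ y, sv φ (g • y) * sv φ y) ^ 2 :=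
    Finset.single_le_sum (f := fun g : G => (∑ y, sv φ (g • y) * sv φ y) ^ 2)
      (fun g _ => sq_nonneg _) (Finset.mem_univ _)
  rw [← h2, h1, h4] at h5
  have hn : (0 : ℤ) < Fintype.card Ω := by
    have : 0 < Fintype.card Ω := Fintype.card_pos
    omega
  nlinarith

end Correlation

/-! ### Primitivity -/

section Prim

open MulAction

variable {G : Type*} [Group G] {Ω : Type*} [Fintype Ω] [MulAction G Ω]
  (φ : ZMod p × Fin 2 ≃ Ω)

lemma not_all_sign (hprim : IsPreprimitive G Ω) :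
    ¬ ∀ g : G, ∃ ε : ℤ, ∀ w, sv φ (g • w) = ε * sv φ w := by
  intro h
  let B : Set Ω := {w | sv φ w = 1}
  have hB : IsBlock G B := by
    rw [isBlock_iff_smul_eq_of_nonempty]
    rintro g ⟨c, ⟨w, hw, rfl⟩, hc⟩
    obtain ⟨ε, hε⟩ := h g
    have hw' : sv φ w = 1 := hw
    have hc' : sv φ (g • w) = 1 := hc
    have hε1 : ε = 1 := by
      have := hε w
      rw [hw', hc'] at this
      omega
    ext v
    rw [Set.mem_smul_set_iff_inv_smul_mem]
    have := hε (g⁻¹ • v)
    rw [smul_inv_smul, hε1, one_mul] at this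
    show sv φ (g⁻¹ • v) = 1 ↔ sv φ v = 1
    rw [this]
  rcases hprim.isTrivialBlock_of_isBlock hB with h1 | h1
  · have h2 : φ (0, 0) ∈ B := by simp [B, sv_phi, sgn]
    have h3 : φ (1, 0) ∈ B := by simp [B, sv_phi, sgn]
    have h4 := φ.injective (h1 h2 h3)
    have h5 : (0 : ZMod p) = 1 := congrArg Prod.fst h4
    exact zero_ne_one h5
  · have h2 : φ (0, 1) ∈ B := by
      rw [h1]
      trivial
    simp [B, sv_phi, sgn] at h2

/-- Two distinct points cannot have proportional correlations. -/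
lemma prim_sign (hprim : IsPreprimitive G Ω) {y z : Ω} (hyz : y ≠ z) (ε : ℤ)
    (hε : ε = 1 ∨ ε = -1) (h : ∀ g : G, sv φ (g • y) = ε * sv φ (g • z)) : False := by
  let R : Ω → Ω → Prop := fun w w' => ∃ ε : ℤ, (ε = 1 ∨ ε = -1) ∧ ∀ g : G, sv φ (g • w) = ε * sv φ (g • w')
  have hrefl : ∀ w, R w w := fun w => ⟨1, Or.inl rfl, fun g => by simp⟩
  have hsymm : ∀ w w', R w w' → R w' w := by
    rintro w w' ⟨ε, hε, h⟩
    refine ⟨ε, hε, fun g => ?_⟩
    rw [h g, ← mul_assoc]
    rcases hε with rfl | rfl <;> simp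
  have htrans : ∀ w w' w'', R w w' → R w' w'' → R w w'' := by
    rintro w w' w'' ⟨ε, hε, h⟩ ⟨ε', hε', h'⟩
    refine ⟨ε * ε', ?_, fun g => ?_⟩
    · rcases hε with rfl | rfl <;> rcases hε' with rfl | rfl <;> simp
    · rw [h g, h' g, mul_assoc]
  have hinv : ∀ (t : G) w w', R w w' → R (t • w) (t • w') := by
    rintro t w w' ⟨ε, hε, h⟩
    refine ⟨ε, hε, fun g => ?_⟩
    have := h (g * t)
    simpa [mul_smul] using this
  let B : Set Ω := {w | R w z}
  have hB : IsBlock G B := by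
    rw [isBlock_iff_smul_eq_of_nonempty]
    rintro g ⟨c, ⟨w, hw, rfl⟩, hc⟩
    have hw' : R w z := hw
    have hc' : R (g • w) z := hc
    ext v
    rw [Set.mem_smul_set_iff_inv_smul_mem]
    constructor
    · intro hv
      have hv' : R (g⁻¹ • v) z := hv
      have h1 : R (g⁻¹ • v) w := htrans _ _ _ hv' (hsymm _ _ hw')
      have h2 := hinv g _ _ h1
      rw [smul_inv_smul] at h2
      exact htrans _ _ _ h2 hc'
    · intro hv
      have hv' : R v z := hv
      have h1 : R v (g • w) := htrans _ _ _ hv' (hsymm _ _ hc')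
      have h2 := hinv g⁻¹ _ _ h1
      rw [inv_smul_smul] at h2
      exact htrans _ _ _ h2 hw'
  rcases hprim.isTrivialBlock_of_isBlock hB with h1 | h1
  · exact hyz (h1 (show R y z from ⟨ε, hε, h⟩) (show R z z from hrefl z))
  · apply not_all_sign φ hprim
    intro g
    refine ⟨sv φ z * sv φ (g • z), fun w => ?_⟩
    have hw : R w z := by
      have : w ∈ B := by rw [h1]; trivial
      exact this
    obtain ⟨ε', hε', h'⟩ := hw
    have h2 := h' 1
    simp only [one_smul] at h2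
    rw [h' g, h2]
    have hz := sv_sq φ z
    have hε2 : ε' * ε' = 1 := by
      rcases hε' with rfl | rfl <;> simp
    calc ε' * sv φ (g • z) = ε' * sv φ (g • z) * (sv φ z * sv φ z) := by rw [hz, mul_one]
      _ = _ := by ring

/-- Some translate of the sign vector has a nonzero Fourier transform. -/
lemma exists_hatv_ne (hprim : IsPreprimitive G Ω) :
    ∃ g : G, hatv φ (fun z => sv φ (g • z)) 0 ≠ 0 ∨ hatv φ (fun z => sv φ (g • z)) 1 ≠ 0 := by
  by_contra hcon
  push Not at hcon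
  apply not_all_sign φ hprim
  intro g
  obtain ⟨h0, h1⟩ := hcon g
  have hconst : ∀ (s : Fin 2), hatv φ (fun z => sv φ (g • z)) s = 0 →
      ∀ j : ZMod p, sv φ (g • φ (j, s)) = sv φ (g • φ (0, s)) := by
    intro s hs j
    have h2 : ∑ m : ZMod p, (sv φ (g • φ (-m, s)) : ℂ) * ψ m = 0 := by
      rw [← hs, hatv, ← Equiv.sum_comp (Equiv.neg (ZMod p))]
      refine Finset.sum_congr rfl fun m _ => ?_
      simp
    have := vanish (fun m => sv φ (g • φ (-m, s))) h2 (-j) 0
    simpa using this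
  have h0' := hconst 0 h0
  have h1' := hconst 1 h1
  have hsum := sum_sv_smul φ g
  rw [sum_phi φ, Fin.sum_univ_two] at hsum
  simp only [h0', h1', Finset.sum_const, Finset.card_univ, ZMod.card, nsmul_eq_mul] at hsum
  have hp0 : (p : ℤ) ≠ 0 := by exact_mod_cast hp.out.ne_zero
  have hc : sv φ (g • φ (0, 0)) + sv φ (g • φ (0, 1)) = 0 := by
    have : (p : ℤ) * (sv φ (g • φ (0, 0)) + sv φ (g • φ (0, 1))) = 0 := by linarith
    exact (mul_eq_zero.mp this).resolve_left hp0
  refine ⟨sv φ (g • φ (0, 0)), fun w => ?_⟩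
  obtain ⟨⟨j, s⟩, rfl⟩ := φ.surjective w
  rw [sv_phi]
  fin_cases s
  · simp only [Fin.zero_eta, Fin.isValue]
    rw [h0']
    simp [sgn]
  · simp only [Fin.mk_one, Fin.isValue]
    rw [h1']
    simp [sgn]
    omega

end Prim

/-! ### Consequences of the eigenvector -/

section Eig

open MulAction

variable {G : Type*} [Group G] [Fintype G] {Ω : Type*} [Fintype Ω] [MulAction G Ω]
  (φ : ZMod p × Fin 2 ≃ Ω) (x : G) (hx : ∀ (j : ZMod p) (s : Fin 2), x • φ (j, s) = φ (j + 1, s))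
  [IsPretransitive G Ω]

include hx in
/-- There is a vector on which all invariant kernels act through `eg`, also after transposition. -/
lemma exists_vec (hprim : IsPreprimitive G Ω) :
    ∃ y₀ y₁ : ℂ, (y₀ ≠ 0 ∨ y₁ ≠ 0) ∧ ∀ (T : Ω → Ω → ℤ), Inv G T →
      (Mh φ T 0 0 - eg φ T) * y₀ + Mh φ T 0 1 * y₁ = 0 ∧
      Mh φ T 1 0 * y₀ + (Mh φ T 1 1 - eg φ T) * y₁ = 0 ∧
      conj (Mh φ T 0 0 - eg φ T) * y₀ + conj (Mh φ T 1 0) * y₁ = 0 ∧
      conj (Mh φ T 0 1) * y₀ + conj (Mh φ T 1 1 - eg φ T) * y₁ = 0 := by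
  obtain ⟨g, hg⟩ := exists_hatv_ne φ hprim
  refine ⟨_, _, hg, fun T hT => ?_⟩
  have key : ∀ (S : Ω → Ω → ℤ), Inv G S → ∀ s : Fin 2,
      Mh φ S s 0 * hatv φ (fun z => sv φ (g • z)) 0 + Mh φ S s 1 * hatv φ (fun z => sv φ (g • z)) 1 =
        eg φ S * hatv φ (fun z => sv φ (g • z)) s := fun S hS s =>
    eigen_hat φ x hx hS _ _ (fun z' => sum_T_sv_smul φ x hx hS g z') s
  have a0 := key T hT 0
  have a1 := key T hT 1
  have b0 := key (flip T) (flip_inv hT) 0
  have b1 := key (flip T) (flip_inv hT) 1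
  simp only [Mh_flip φ x hx hT, eg_flip φ x hx hT] at b0 b1
  simp only [map_sub, map_intCast]
  refine ⟨by linear_combination a0, by linear_combination a1, by linear_combination b0,
    by linear_combination b1⟩

end Eig

/-! ### The dichotomy for the correlation kernel -/

section Split

open MulAction

variable {G : Type*} [Group G] [Fintype G] {Ω : Type*} [Fintype Ω] [MulAction G Ω]
  (φ : ZMod p × Fin 2 ≃ Ω) (x : G) (hx : ∀ (j : ZMod p) (s : Fin 2), x • φ (j, s) = φ (j + 1, s))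
  [IsPretransitive G Ω]

include hx in
lemma cE_dichotomy (hprim : IsPreprimitive G Ω) :
    (Mh φ (cE G φ) 0 0 = eg φ (cE G φ) ∧ Mh φ (cE G φ) 1 1 = eg φ (cE G φ) ∧
        Mh φ (cE G φ) 0 1 = 0 ∧ Mh φ (cE G φ) 1 0 = 0) ∨
      Mh φ (cE G φ) 0 0 + Mh φ (cE G φ) 1 1 = eg φ (cE G φ) := by
  obtain ⟨y₀, y₁, hy, hvec⟩ := exists_vec φ x hx hprim
  obtain ⟨h1, h2, -, -⟩ := hvec _ (cE_inv φ)
  have hherm := Mh_cE_herm φ x hx 1 0
  have q00 := eig_cE φ x hx (cE_inv (G := G) φ) 0 0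
  have q11 := eig_cE φ x hx (cE_inv (G := G) φ) 1 1
  generalize (eg φ (cE G φ) : ℤ) = e' at *
  generalize Mh φ (cE G φ) 0 0 = M00 at *
  generalize Mh φ (cE G φ) 0 1 = M01 at *
  generalize Mh φ (cE G φ) 1 0 = M10 at *
  generalize Mh φ (cE G φ) 1 1 = M11 at *
  have hdet := frob_det (M00 - e') M01 M10 (M11 - e') y₀ y₁ hy h1 h2
  have hA : (M00 - e') * (M00 + M11 - e') = 0 := by linear_combination q00 + hdet
  have hD : (M11 - e') * (M00 + M11 - e') = 0 := by linear_combination q11 + hdet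
  by_cases h : M00 + M11 = e'
  · exact Or.inr h
  · left
    have hne : M00 + M11 - e' ≠ 0 := sub_ne_zero.mpr h
    have ha : M00 = e' := sub_eq_zero.mp ((mul_eq_zero.mp hA).resolve_right hne)
    have hd : M11 = e' := sub_eq_zero.mp ((mul_eq_zero.mp hD).resolve_right hne)
    have hb : M01 * M10 = 0 := by
      rw [ha, hd] at hdet
      simpa using hdet.symm
    have hb2 : M01 = 0 := by
      rw [hherm, Complex.mul_conj] at hb
      have : Complex.normSq M01 = 0 := by exact_mod_cast hb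
      exact Complex.normSq_eq_zero.mp this
    refine ⟨ha, hd, hb2, ?_⟩
    rw [hherm, hb2, map_zero]

include hx in
lemma case_one (h : Mh φ (cE G φ) 0 0 = eg φ (cE G φ) ∧ Mh φ (cE G φ) 1 1 = eg φ (cE G φ) ∧
    Mh φ (cE G φ) 0 1 = 0 ∧ Mh φ (cE G φ) 1 0 = 0) {T : Ω → Ω → ℤ} (hT : Inv G T) :
    Mh φ T 0 0 = eg φ T ∧ Mh φ T 1 1 = eg φ T := by
  obtain ⟨h1, h2, h3, h4⟩ := h
  have : Nonempty Ω := ⟨φ (0, 0)⟩
  have hpos := eg_cE_pos φ x hx (G := G)
  have hne : (eg φ (cE G φ) : ℂ) ≠ 0 := by exact_mod_cast hpos.ne'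
  have q00 := eig_cE φ x hx hT 0 0
  have q11 := eig_cE φ x hx hT 1 1
  rw [h1, h4] at q00
  rw [h2, h3] at q11
  constructor
  · apply mul_right_cancel₀ hne
    linear_combination q00
  · apply mul_right_cancel₀ hne
    linear_combination q11

include hx in
lemma case_two (h : Mh φ (cE G φ) 0 0 + Mh φ (cE G φ) 1 1 = eg φ (cE G φ)) (j : ZMod p)
    (hj : j ≠ 0) : blk φ (cE G φ) 0 0 j + blk φ (cE G φ) 1 1 j = 0 := by
  classical
  let c : ZMod p → ℤ := fun j => blk φ (cE G φ) 0 0 j + blk φ (cE G φ) 1 1 j -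
    (if j = 0 then eg φ (cE G φ) else 0)
  have hhat : ∑ j, (c j : ℂ) * ψ j = 0 := by
    simp only [c]
    push_cast
    simp only [sub_mul, add_mul, Finset.sum_sub_distrib, Finset.sum_add_distrib]
    have h1 : ∑ j : ZMod p, ((if j = 0 then (eg φ (cE G φ) : ℂ) else 0)) * ψ j = eg φ (cE G φ) := by
      rw [Finset.sum_eq_single 0]
      · simp
      · intro b _ hb
        simp [hb]
      · simp
    rw [h1, ← h]
    simp only [Mh, hat]
    ring
  have hsum : ∑ j, c j = 0 := by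
    simp only [c, Finset.sum_sub_distrib, Finset.sum_add_distrib]
    have h1 := bS_cE φ x hx (G := G)
    simp only [bS] at h1
    rw [h1]
    simp
  have hconst : ∀ k, c k = c 0 := fun k => vanish c hhat k 0
  simp_rw [hconst] at hsum
  rw [Finset.sum_const, Finset.card_univ, ZMod.card, nsmul_eq_mul] at hsum
  have hp0 : (p : ℤ) ≠ 0 := by exact_mod_cast hp.out.ne_zero
  have h0 : c 0 = 0 := (mul_eq_zero.mp hsum).resolve_left hp0
  have hj' := hconst j
  rw [h0] at hj'
  simpa [c, hj] using hj'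

end Split

/-! ### Numerics -/

section Numerics

lemma numerics {ι κ : Type*} [DecidableEq ι] (I : Finset ι) (J : Finset κ) (o₁ o₂ : κ → ι)
    (e n : ι → ℤ) (hJ : ∀ j ∈ J, o₁ j ∈ I ∧ o₂ j ∈ I) (hn : ∀ a ∈ I, 1 ≤ n a)
    (h1 : ∀ j ∈ J, e (o₁ j) * n (o₂ j) + e (o₂ j) * n (o₁ j) = 0)
    (h3 : ∀ a ∈ I, ∑ j ∈ J, ((if o₁ j = a then 1 else 0) + (if o₂ j = a then 1 else 0) : ℤ) =
      n a + e a)
    (h2 : ∀ a ∈ I, ∑ j ∈ J, ((if o₁ j = a then 1 else 0) + (if o₂ j = a then 1 else 0) : ℤ) ^ 2 =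
      2 * (n a - e a ^ 2))
    (h4 : ∑ a ∈ I, e a = -1) (h5 : ∀ a ∈ I, e a ≠ - n a) :
    (∀ a ∈ I, e a ≠ 0 → n a = e a * (2 * e a + 1)) ∧
    (∀ a ∈ I, e a ≠ 0 → ∀ j ∈ J, ¬ (o₁ j = a ∧ o₂ j = a)) ∧
    (∀ a ∈ I, e a = 0 → ∀ j ∈ J, (o₁ j = a ↔ o₂ j = a)) ∧
    (I.filter (fun a => e a ≠ 0)).card = 2 := by
  classical
  set g : ι → κ → ℤ := fun a j => (if o₁ j = a then 1 else 0) + (if o₂ j = a then 1 else 0) with hg
  have hnotboth : ∀ a ∈ I, e a ≠ 0 → ∀ j ∈ J, ¬ (o₁ j = a ∧ o₂ j = a) := by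
    rintro a ha hea j hj ⟨h6, h7⟩
    have h8 := h1 j hj
    rw [h6, h7] at h8
    have h9 := hn a ha
    have : e a * n a = 0 := by linarith
    rcases mul_eq_zero.mp this with h | h
    · exact hea h
    · omega
  have hnform : ∀ a ∈ I, e a ≠ 0 → n a = e a * (2 * e a + 1) := by
    intro a ha hea
    have h6 : ∑ j ∈ J, g a j ^ 2 = ∑ j ∈ J, g a j := by
      refine Finset.sum_congr rfl fun j hj => ?_
      have := hnotboth a ha hea j hj
      simp only [hg]
      by_cases h7 : o₁ j = a <;> by_cases h8 : o₂ j = a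
      · exact absurd ⟨h7, h8⟩ this
      · simp [h7, h8]
      · simp [h7, h8]
      · simp [h7, h8]
    have h7 := h2 a ha
    have h8 := h3 a ha
    simp only [hg] at h6
    rw [h7, h8] at h6
    nlinarith
  have hzero : ∀ a ∈ I, e a = 0 → ∀ j ∈ J, (o₁ j = a ↔ o₂ j = a) := by
    intro a ha hea
    have h6 : ∑ j ∈ J, (g a j ^ 2 - 2 * g a j) = 0 := by
      rw [Finset.sum_sub_distrib, ← Finset.mul_sum]
      simp only [hg]
      rw [h2 a ha, h3 a ha, hea]
      ring
    have h7 : ∀ j ∈ J, g a j ^ 2 - 2 * g a j ≤ 0 := by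
      intro j _
      simp only [hg]
      split_ifs <;> norm_num
    have h8 := (Finset.sum_eq_zero_iff_of_nonpos h7).mp h6
    intro j hj
    have h9 := h8 j hj
    simp only [hg] at h9
    by_cases h10 : o₁ j = a <;> by_cases h11 : o₂ j = a
    · simp [h10, h11]
    · simp [h10, h11] at h9
    · simp [h10, h11] at h9
    · simp [h10, h11]
  have hne1 : ∀ a ∈ I, e a ≠ 0 → e a ≠ -1 := by
    intro a ha hea h
    have h6 := hnform a ha hea
    rw [h] at h6
    apply h5 a ha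
    rw [h, h6]
    norm_num
  -- the pairs
  have hpair : ∀ j ∈ J, o₁ j ≠ o₂ j → e (o₁ j) ≠ 0 ∧ e (o₂ j) ≠ 0 ∧ e (o₁ j) + e (o₂ j) = -1 := by
    intro j hj hne
    have h6 : e (o₁ j) ≠ 0 := fun h => hne ((hzero _ (hJ j hj).1 h j hj).mp rfl).symm
    have h7 : e (o₂ j) ≠ 0 := fun h => hne ((hzero _ (hJ j hj).2 h j hj).mpr rfl)
    refine ⟨h6, h7, ?_⟩
    have h8 := h1 j hj
    rw [hnform _ (hJ j hj).1 h6, hnform _ (hJ j hj).2 h7] at h8
    have h9 : e (o₁ j) * e (o₂ j) * (2 * (e (o₁ j) + e (o₂ j) + 1)) = 0 := by linarith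
    have h10 : e (o₁ j) * e (o₂ j) ≠ 0 := mul_ne_zero h6 h7
    have h11 := (mul_eq_zero.mp h9).resolve_left h10
    omega
  have hsame : ∀ j ∈ J, o₁ j = o₂ j → e (o₁ j) = 0 := by
    intro j hj h
    by_contra h6
    exact hnotboth _ (hJ j hj).1 h6 j hj ⟨rfl, h.symm⟩
  -- the count
  let F : ι → ℚ := fun a => if e a = 0 then 0 else
    (2 * (e a : ℚ) + 1) / (2 * (e a : ℚ) * ((e a : ℚ) + 1))
  have hF : ∀ j ∈ J, F (o₁ j) + F (o₂ j) = 0 := by
    intro j hj
    by_cases h6 : o₁ j = o₂ j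
    · rw [← h6]
      have := hsame j hj h6
      simp [F, this]
    · obtain ⟨h7, h8, h9⟩ := hpair j hj h6
      have h10 : e (o₂ j) = -1 - e (o₁ j) := by omega
      have h11 := hne1 _ (hJ j hj).1 h7
      simp only [F]
      rw [if_neg h7, if_neg h8, h10]
      have h12 : (e (o₁ j) : ℚ) ≠ 0 := by exact_mod_cast h7
      have h13 : (e (o₁ j) : ℚ) + 1 ≠ 0 := by
        intro h
        apply h11
        have : (e (o₁ j) : ℚ) = -1 := by linarith
        exact_mod_cast this
      push_cast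
      have h14 : (-1 - (e (o₁ j) : ℚ)) ≠ 0 := by
        intro h
        apply h13
        linarith
      have h15 : (-1 - (e (o₁ j) : ℚ) + 1) ≠ 0 := by
        intro h
        apply h12
        linarith
      field_simp
      ring
  have hswap : ∑ j ∈ J, (F (o₁ j) + F (o₂ j)) =
      ∑ a ∈ I, F a * ((∑ j ∈ J, g a j : ℤ) : ℚ) := by
    push_cast
    simp only [Finset.mul_sum]
    rw [Finset.sum_comm]
    refine Finset.sum_congr rfl fun j hj => ?_
    have e1 : ∀ b ∈ I, F b * (((g b j : ℤ) : ℚ)) =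
        (if o₁ j = b then F b else 0) + (if o₂ j = b then F b else 0) := by
      intro b _
      simp only [hg]
      split_ifs <;> simp <;> ring
    rw [Finset.sum_congr rfl e1, Finset.sum_add_distrib, Finset.sum_ite_eq, Finset.sum_ite_eq,
      if_pos (hJ j hj).1, if_pos (hJ j hj).2]
  have hterm : ∀ a ∈ I, F a * ((∑ j ∈ J, g a j : ℤ) : ℚ) =
      if e a = 0 then 0 else 2 * (e a : ℚ) + 1 := by
    intro a ha
    have h6 : (∑ j ∈ J, g a j : ℤ) = n a + e a := h3 a ha
    rw [h6]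
    by_cases h7 : e a = 0
    · simp [F, h7]
    · simp only [F, if_neg h7]
      rw [hnform a ha h7]
      have h8 := hne1 a ha h7
      have h12 : (e a : ℚ) ≠ 0 := by exact_mod_cast h7
      have h13 : (e a : ℚ) + 1 ≠ 0 := by
        intro h
        apply h8
        have : (e a : ℚ) = -1 := by linarith
        exact_mod_cast this
      push_cast
      field_simp
      ring
  have htot : ∑ a ∈ I, (if e a = 0 then (0 : ℚ) else 2 * (e a : ℚ) + 1) = 0 := by
    rw [← Finset.sum_congr rfl hterm, ← hswap]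
    exact Finset.sum_eq_zero hF
  have hfilter : ∑ a ∈ I, (if e a = 0 then (0 : ℚ) else 2 * (e a : ℚ) + 1) =
      ∑ a ∈ I.filter (fun a => e a ≠ 0), (2 * (e a : ℚ) + 1) := by
    rw [Finset.sum_filter]
    refine Finset.sum_congr rfl fun a _ => ?_
    by_cases h : e a = 0 <;> simp [h]
  have hsume : ∑ a ∈ I.filter (fun a => e a ≠ 0), e a = -1 := by
    rw [← h4, Finset.sum_filter]
    refine Finset.sum_congr rfl fun a _ => ?_
    by_cases h : e a = 0 <;> simp [h]
  refine ⟨hnform, hnotboth, hzero, ?_⟩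
  rw [hfilter, Finset.sum_add_distrib, ← Finset.mul_sum] at htot
  have h6 : (∑ a ∈ I.filter (fun a => e a ≠ 0), (e a : ℚ)) = -1 := by exact_mod_cast hsume
  rw [h6] at htot
  simp only [Finset.sum_const, nsmul_eq_mul, mul_one] at htot
  have h7 : ((I.filter (fun a => e a ≠ 0)).card : ℚ) = 2 := by linarith
  exact_mod_cast h7

end Numerics

/-! ### Orbitals -/

section Orbitals

open MulAction

variable {G : Type*} [Group G] {Ω : Type*} [MulAction G Ω]

/-- The orbital of a pair of points. -/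
def cls (G : Type*) [Group G] {Ω : Type*} [MulAction G Ω] (y z : Ω) :
    orbitRel.Quotient G (Ω × Ω) := Quotient.mk'' (y, z)

lemma cls_eq_iff {y z y' z' : Ω} : cls G y z = cls G y' z' ↔ ∃ g : G, g • y' = y ∧ g • z' = z := by
  rw [cls, cls, Quotient.eq'']
  constructor
  · rintro ⟨g, hg⟩
    exact ⟨g, congrArg Prod.fst hg, congrArg Prod.snd hg⟩
  · rintro ⟨g, h1, h2⟩
    exact ⟨g, Prod.ext h1 h2⟩

lemma cls_smul (g : G) (y z : Ω) : cls G (g • y) (g • z) = cls G y z :=
  cls_eq_iff.mpr ⟨g, rfl, rfl⟩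

/-- The kernel of an orbital. -/
noncomputable def oK (a : orbitRel.Quotient G (Ω × Ω)) (y z : Ω) : ℤ :=
  open Classical in if cls G y z = a then 1 else 0

lemma oK_eq_one {a : orbitRel.Quotient G (Ω × Ω)} {y z : Ω} (h : cls G y z = a) :
    oK a y z = 1 := by
  simp only [oK]
  rw [if_pos h]

lemma oK_eq_zero {a : orbitRel.Quotient G (Ω × Ω)} {y z : Ω} (h : cls G y z ≠ a) :
    oK a y z = 0 := by
  simp only [oK]
  rw [if_neg h]

lemma oK_inv (a : orbitRel.Quotient G (Ω × Ω)) : Inv G (oK a) := by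
  intro g y z
  by_cases h : cls G y z = a
  · rw [oK_eq_one h, oK_eq_one (by rw [cls_smul]; exact h)]
  · rw [oK_eq_zero h, oK_eq_zero (by rw [cls_smul]; exact h)]

lemma exists_cls (a : orbitRel.Quotient G (Ω × Ω)) : ∃ y z : Ω, cls G y z = a := by
  induction a using Quotient.inductionOn' with
  | h w => exact ⟨w.1, w.2, rfl⟩

lemma oK_sq (a : orbitRel.Quotient G (Ω × Ω)) (y z : Ω) : oK a y z * oK a y z = oK a y z := by
  by_cases h : cls G y z = a
  · rw [oK_eq_one h]
    rfl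
  · rw [oK_eq_zero h]
    rfl

lemma oK_nonneg (a : orbitRel.Quotient G (Ω × Ω)) (y z : Ω) : 0 ≤ oK a y z := by
  by_cases h : cls G y z = a
  · rw [oK_eq_one h]
    norm_num
  · rw [oK_eq_zero h]

variable [Fintype G] [Fintype Ω] (φ : ZMod p × Fin 2 ≃ Ω) (x : G)
  (hx : ∀ (j : ZMod p) (s : Fin 2), x • φ (j, s) = φ (j + 1, s)) [IsPretransitive G Ω]

/-- The diagonal orbital. -/
def dcl (G : Type*) [Group G] {Ω : Type*} [MulAction G Ω] (φ : ZMod p × Fin 2 ≃ Ω) :
    orbitRel.Quotient G (Ω × Ω) := cls G (φ (0, 0)) (φ (0, 0))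

lemma cls_diag {y z : Ω} : cls G y z = dcl G φ ↔ y = z := by
  rw [dcl, cls_eq_iff]
  constructor
  · rintro ⟨g, h1, h2⟩
    rw [← h1, ← h2]
  · rintro rfl
    obtain ⟨g, hg⟩ := exists_smul_eq G (φ (0, 0)) y
    exact ⟨g, hg, hg⟩

/-- The valency of an orbital. -/
noncomputable def nv (a : orbitRel.Quotient G (Ω × Ω)) : ℤ := ∑ z, oK a (φ (0, 0)) z

lemma nv_row (a : orbitRel.Quotient G (Ω × Ω)) (y : Ω) : ∑ z, oK a y z = nv φ a :=
  rowSum_const (oK_inv a) y _

lemma nv_pos (a : orbitRel.Quotient G (Ω × Ω)) : 1 ≤ nv φ a := by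
  obtain ⟨y, z, rfl⟩ := exists_cls a
  rw [← nv_row φ _ y]
  have h1 : oK (cls G y z) y z = 1 := oK_eq_one rfl
  rw [← h1]
  exact Finset.single_le_sum (f := fun z' => oK (cls G y z) y z')
    (fun z' _ => oK_nonneg _ _ _) (Finset.mem_univ z)

lemma oK_dcl (y z : Ω) [Decidable (y = z)] : oK (dcl G φ) y z = if y = z then 1 else 0 := by
  by_cases h : y = z
  · rw [if_pos h, oK_eq_one (cls_diag φ |>.mpr h)]
  · rw [if_neg h, oK_eq_zero (fun h' => h (cls_diag φ |>.mp h'))]

lemma nv_dcl : nv φ (dcl G φ) = 1 := by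
  classical
  simp only [nv, oK_dcl]
  simp

include hx in
lemma eg_dcl : eg φ (oK (dcl G φ)) = 1 := by
  classical
  have h := sum_T_sv φ x hx (oK_inv (dcl G φ)) (φ (0, 0))
  simp only [oK_dcl, sv_phi, sgn] at h
  simpa [sv_phi, sgn] using h.symm

lemma sum_oK (y z : Ω) [Fintype (orbitRel.Quotient G (Ω × Ω))] :
    ∑ a : orbitRel.Quotient G (Ω × Ω), oK a y z = 1 := by
  classical
  simp only [oK]
  rw [Finset.sum_ite_eq]
  simp

include hx in
lemma sum_eg [Fintype (orbitRel.Quotient G (Ω × Ω))] :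
    ∑ a : orbitRel.Quotient G (Ω × Ω), eg φ (oK a) = 0 := by
  have h : ∀ a : orbitRel.Quotient G (Ω × Ω), eg φ (oK a) = ∑ z, oK a (φ (0, 0)) z * sv φ z := by
    intro a
    rw [sum_T_sv φ x hx (oK_inv a), sv_phi]
    simp [sgn]
  simp_rw [h]
  rw [Finset.sum_comm]
  simp_rw [← Finset.sum_mul, sum_oK]
  simpa using sum_sv φ

lemma sum_nv [Fintype (orbitRel.Quotient G (Ω × Ω))] :
    ∑ a : orbitRel.Quotient G (Ω × Ω), nv φ a = Fintype.card Ω := by
  simp only [nv]
  rw [Finset.sum_comm]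
  simp_rw [sum_oK]
  simp

/-- The two diagonal block sequences. -/
def O1 (G : Type*) [Group G] {Ω : Type*} [MulAction G Ω] (φ : ZMod p × Fin 2 ≃ Ω) (j : ZMod p) :
    orbitRel.Quotient G (Ω × Ω) := cls G (φ (0, 0)) (φ (j, 0))

/-- The two diagonal block sequences. -/
def O2 (G : Type*) [Group G] {Ω : Type*} [MulAction G Ω] (φ : ZMod p × Fin 2 ≃ Ω) (j : ZMod p) :
    orbitRel.Quotient G (Ω × Ω) := cls G (φ (0, 1)) (φ (j, 1))

lemma O1_ne (j : ZMod p) (hj : j ≠ 0) : O1 G φ j ≠ dcl G φ := by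
  intro h
  have h1 := (cls_diag φ).mp h
  have h2 := φ.injective h1
  exact hj (congrArg Prod.fst h2).symm

lemma O2_ne (j : ZMod p) (hj : j ≠ 0) : O2 G φ j ≠ dcl G φ := by
  intro h
  have h1 := (cls_diag φ).mp h
  have h2 := φ.injective h1
  exact hj (congrArg Prod.fst h2).symm

lemma blk00 (a : orbitRel.Quotient G (Ω × Ω)) (j : ZMod p) [Decidable (O1 G φ j = a)] :
    blk φ (oK a) 0 0 j = if O1 G φ j = a then 1 else 0 := by
  by_cases h : O1 G φ j = a
  · rw [if_pos h]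
    exact oK_eq_one h
  · rw [if_neg h]
    exact oK_eq_zero h

lemma blk11 (a : orbitRel.Quotient G (Ω × Ω)) (j : ZMod p) [Decidable (O2 G φ j = a)] :
    blk φ (oK a) 1 1 j = if O2 G φ j = a then 1 else 0 := by
  by_cases h : O2 G φ j = a
  · rw [if_pos h]
    exact oK_eq_one h
  · rw [if_neg h]
    exact oK_eq_zero h

lemma blk_zero {a : orbitRel.Quotient G (Ω × Ω)} (ha : a ≠ dcl G φ) (s : Fin 2) :
    blk φ (oK a) s s 0 = 0 := by
  refine oK_eq_zero fun h => ha ?_
  rw [← h]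
  exact (cls_diag φ).mpr rfl

include hx in
/-- Relations of the block sums. -/
lemma bS_oK (a : orbitRel.Quotient G (Ω × Ω)) :
    bS φ (oK a) 0 0 = bS φ (oK a) 1 1 ∧ bS φ (oK a) 0 1 = bS φ (oK a) 1 0 ∧
      2 * bS φ (oK a) 0 0 = nv φ a + eg φ (oK a) ∧ 2 * bS φ (oK a) 0 1 = nv φ a - eg φ (oK a) := by
  obtain ⟨h1, h2⟩ := bS_diag φ x hx (oK_inv a)
  have h3 := bS_row φ (oK a) 0
  rw [nv_row φ a] at h3
  refine ⟨h1, h2, ?_, ?_⟩ <;> simp only [eg] <;> omega

lemma blk_sq (a : orbitRel.Quotient G (Ω × Ω)) (s t : Fin 2) (j : ZMod p) :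
    blk φ (oK a) s t j ^ 2 = blk φ (oK a) s t j := by
  rw [sq]
  exact oK_sq _ _ _

include hx in
/-- The first numerical relation. -/
lemma sum_g (a : orbitRel.Quotient G (Ω × Ω)) (ha : a ≠ dcl G φ) [DecidableEq (orbitRel.Quotient G (Ω × Ω))] :
    ∑ j ∈ Finset.univ.erase (0 : ZMod p),
      ((if O1 G φ j = a then 1 else 0) + (if O2 G φ j = a then 1 else 0) : ℤ) =
      nv φ a + eg φ (oK a) := by
  obtain ⟨h1, h2, h3, h4⟩ := bS_oK φ x hx a
  simp only [← blk00, ← blk11]
  rw [Finset.sum_add_distrib, Finset.sum_erase _ (blk_zero φ ha 0), Finset.sum_erase _ (blk_zero φ ha 1)]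
  show bS φ (oK a) 0 0 + bS φ (oK a) 1 1 = _
  omega

include hx in
/-- The second numerical relation, from the eigenvector. -/
lemma sum_g_sq (hprim : IsPreprimitive G Ω) (a : orbitRel.Quotient G (Ω × Ω)) (ha : a ≠ dcl G φ)
    [DecidableEq (orbitRel.Quotient G (Ω × Ω))] :
    ∑ j ∈ Finset.univ.erase (0 : ZMod p),
      ((if O1 G φ j = a then 1 else 0) + (if O2 G φ j = a then 1 else 0) : ℤ) ^ 2 =
      2 * (nv φ a - eg φ (oK a) ^ 2) := by
  obtain ⟨h1, h2, h3, h4⟩ := bS_oK φ x hx a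
  obtain ⟨y₀, y₁, hy, hvec⟩ := exists_vec φ x hx hprim
  obtain ⟨v1, v2, v3, v4⟩ := hvec _ (oK_inv a)
  have hfrob := frob_norm _ _ _ _ y₀ y₁ hy v1 v2 v3 v4
  set e := eg φ (oK a) with he
  let δ : ZMod p → ℤ := fun j => if j = 0 then e else 0
  have hδ : hat δ = (e : ℂ) := by
    simp only [hat, δ]
    rw [Finset.sum_eq_single 0]
    · simp
    · intro b _ hb
      simp [hb]
    · simp
  have hδsum : ∑ j, δ j = e := by
    simp [δ]
  let A : ZMod p → ℤ := fun j => blk φ (oK a) 0 0 j - δ j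
  let D : ZMod p → ℤ := fun j => blk φ (oK a) 1 1 j - δ j
  let F : ZMod p → ℤ := fun j => A j + D j
  have hA : hat A = Mh φ (oK a) 0 0 - e := by rw [hat_sub, hδ]; rfl
  have hD : hat D = Mh φ (oK a) 1 1 - e := by rw [hat_sub, hδ]; rfl
  have hF : hat F = hat A + hat D := hat_add A D
  have hpars := parseval F A (blk φ (oK a) 0 1) (blk φ (oK a) 1 0) D
    (by
      rw [hF, hA, hD]
      exact hfrob)
    (by
      have e1 : ∑ j, F j = bS φ (oK a) 0 0 + bS φ (oK a) 1 1 - 2 * e := by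
        simp only [F, A, D, Finset.sum_add_distrib, Finset.sum_sub_distrib, hδsum]
        simp only [bS]
        ring
      have e2 : ∑ j, A j = bS φ (oK a) 0 0 - e := by
        simp only [A, Finset.sum_sub_distrib, hδsum]
        rfl
      have e3 : ∑ j, D j = bS φ (oK a) 1 1 - e := by
        simp only [D, Finset.sum_sub_distrib, hδsum]
        rfl
      have e4 : ∑ j, blk φ (oK a) 0 1 j = bS φ (oK a) 0 1 := rfl
      have e5 : ∑ j, blk φ (oK a) 1 0 j = bS φ (oK a) 1 0 := rfl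
      rw [e1, e2, e3, e4, e5, ← h1, ← h2]
      have e6 : bS φ (oK a) 0 0 - e = bS φ (oK a) 0 1 := by
        rw [he]
        simp only [eg]
        ring
      rw [show bS φ (oK a) 0 0 + bS φ (oK a) 0 0 - 2 * e = 2 * (bS φ (oK a) 0 0 - e) by ring, e6]
      ring)
  -- evaluate
  have hsplit : ∀ f : ZMod p → ℤ, ∑ j, f j ^ 2 = f 0 ^ 2 + ∑ j ∈ Finset.univ.erase (0 : ZMod p), f j ^ 2 :=
    fun f => (Finset.add_sum_erase _ (fun j => f j ^ 2) (Finset.mem_univ (0 : ZMod p))).symm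
  have hδ0 : δ 0 = e := by simp [δ]
  have hδne : ∀ j ∈ Finset.univ.erase (0 : ZMod p), δ j = 0 := by
    intro j hj
    simp [δ, Finset.ne_of_mem_erase hj]
  have hF0 : F 0 = -2 * e := by
    simp only [F, A, D, hδ0, blk_zero φ ha]
    ring
  have hA0 : A 0 = -e := by
    simp only [A, hδ0, blk_zero φ ha]
    ring
  have hD0 : D 0 = -e := by
    simp only [D, hδ0, blk_zero φ ha]
    ring
  have hFsum : ∑ j ∈ Finset.univ.erase (0 : ZMod p), F j ^ 2 = ∑ j ∈ Finset.univ.erase (0 : ZMod p),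
      ((if O1 G φ j = a then 1 else 0) + (if O2 G φ j = a then 1 else 0) : ℤ) ^ 2 := by
    refine Finset.sum_congr rfl fun j hj => ?_
    simp only [F, A, D, hδne j hj, sub_zero, blk00, blk11]
  have hAsum : ∑ j ∈ Finset.univ.erase (0 : ZMod p), A j ^ 2 = bS φ (oK a) 0 0 := by
    have : ∀ j ∈ Finset.univ.erase (0 : ZMod p), A j ^ 2 = blk φ (oK a) 0 0 j := by
      intro j hj
      simp only [A, hδne j hj, sub_zero, blk_sq]
    rw [Finset.sum_congr rfl this, Finset.sum_erase _ (blk_zero φ ha 0)]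
    rfl
  have hDsum : ∑ j ∈ Finset.univ.erase (0 : ZMod p), D j ^ 2 = bS φ (oK a) 1 1 := by
    have : ∀ j ∈ Finset.univ.erase (0 : ZMod p), D j ^ 2 = blk φ (oK a) 1 1 j := by
      intro j hj
      simp only [D, hδne j hj, sub_zero, blk_sq]
    rw [Finset.sum_congr rfl this, Finset.sum_erase _ (blk_zero φ ha 1)]
    rfl
  have hB : ∑ j, blk φ (oK a) 0 1 j ^ 2 = bS φ (oK a) 0 1 := by
    simp only [blk_sq]
    rfl
  have hC : ∑ j, blk φ (oK a) 1 0 j ^ 2 = bS φ (oK a) 1 0 := by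
    simp only [blk_sq]
    rfl
  rw [hsplit F, hsplit A, hsplit D, hF0, hA0, hD0, hFsum, hAsum, hDsum, hB, hC] at hpars
  linear_combination hpars + h3 + h4 - h1 - h2

/-- The value of the correlation kernel on an orbital. -/
lemma nv_mul_cE (hx : ∀ (j : ZMod p) (s : Fin 2), x • φ (j, s) = φ (j + 1, s)) {y z : Ω} :
    nv φ (cls G y z) * cE G φ y z = Fintype.card G * eg φ (oK (cls G y z)) := by
  set a := cls G y z with ha
  have : Nonempty Ω := ⟨y⟩
  have h1 : ∑ y', ∑ z', oK a y' z' * cE G φ y' z' = Fintype.card Ω * (nv φ a * cE G φ y z) := by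
    have e1 : ∀ y' z', oK a y' z' * cE G φ y' z' = oK a y' z' * cE G φ y z := by
      intro y' z'
      by_cases h : cls G y' z' = a
      · obtain ⟨g, h2, h3⟩ := cls_eq_iff.mp h
        rw [← h2, ← h3, cE_inv φ]
      · rw [oK_eq_zero h]
        simp
    simp_rw [e1, ← Finset.sum_mul, nv_row φ]
    simp [mul_assoc]
  have h2 : ∑ y', ∑ z', oK a y' z' * cE G φ y' z' =
      Fintype.card Ω * (Fintype.card G * eg φ (oK a)) := by
    simp only [cE, Finset.mul_sum]
    have e1 : ∀ y' : Ω, ∑ z', ∑ g : G, oK a y' z' * (sv φ (g • y') * sv φ (g • z')) =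
        Fintype.card G * eg φ (oK a) := by
      intro y'
      rw [Finset.sum_comm]
      have e2 : ∀ g : G, ∑ z', oK a y' z' * (sv φ (g • y') * sv φ (g • z')) = eg φ (oK a) := by
        intro g
        have e3 := sum_T_sv_smul φ x hx (oK_inv a) g y'
        have e4 : ∀ z', oK a y' z' * (sv φ (g • y') * sv φ (g • z')) =
            sv φ (g • y') * (oK a y' z' * sv φ (g • z')) := fun z' => by ring
        simp_rw [e4]
        rw [← Finset.mul_sum, e3, mul_left_comm, sv_sq, mul_one]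
      simp_rw [e2]
      simp
    simp_rw [e1]
    simp
  have hn : (Fintype.card Ω : ℤ) ≠ 0 := by
    have : 0 < Fintype.card Ω := Fintype.card_pos
    omega
  exact mul_left_cancel₀ hn (h1.symm.trans h2)

/-- Antipodal orbitals do not exist. -/
lemma eg_ne_neg (hx : ∀ (j : ZMod p) (s : Fin 2), x • φ (j, s) = φ (j + 1, s))
    (hprim : IsPreprimitive G Ω) (a : orbitRel.Quotient G (Ω × Ω)) (ha : a ≠ dcl G φ) :
    eg φ (oK a) ≠ - nv φ a := by
  intro h
  obtain ⟨y, z, rfl⟩ := exists_cls a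
  have hyz : y ≠ z := fun h' => ha ((cls_diag φ).mpr h')
  have h1 := nv_mul_cE φ x hx (y := y) (z := z)
  rw [h] at h1
  have hpos := nv_pos φ (cls G y z)
  have h4 : cE G φ y z = - Fintype.card G := by
    have : nv φ (cls G y z) * (cE G φ y z + Fintype.card G) = 0 := by linarith
    have h5 := (mul_eq_zero.mp this).resolve_left (by omega)
    linarith
  have h6 : ∑ g : G, (sv φ (g • y) * sv φ (g • z) + 1) = 0 := by
    rw [Finset.sum_add_distrib]
    have : ∑ g : G, sv φ (g • y) * sv φ (g • z) = cE G φ y z := rfl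
    rw [this, h4]
    simp
  have h7 : ∀ g ∈ (Finset.univ : Finset G), 0 ≤ sv φ (g • y) * sv φ (g • z) + 1 := by
    intro g _
    simp only [sv, sgn]
    split_ifs <;> norm_num
  have h8 := (Finset.sum_eq_zero_iff_of_nonneg h7).mp h6
  refine prim_sign φ hprim hyz (-1) (Or.inr rfl) fun g => ?_
  have h9 := h8 g (Finset.mem_univ _)
  have h10 := sv_sq φ (g • z)
  have : sv φ (g • y) = sv φ (g • y) * (sv φ (g • z) * sv φ (g • z)) := by rw [h10, mul_one]
  rw [this]
  linear_combination (sv φ (g • z)) * h9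

end Orbitals

end Cfsg.Agent.Lib.Char.Wielandt2p
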