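import Mathlib
import Cfsg.Agent.Lib.Char.Wielandt2p

set_option autoImplicit false
set_option linter.unusedSectionVars false

/-!
# Wielandt's theorem on primitive groups of degree `2p`: the main argument
-/

namespace Cfsg.Agent.Lib.Char.Wielandt2p

open scoped ComplexConjugate BigOperators

variable {p : ℕ} [hp : Fact p.Prime]

lemma hat_delta (κ : ℤ) [DecidableEq (ZMod p)] :
    hat (fun j : ZMod p => if j = 0 then κ else 0) = (κ : ℂ) := by
  simp only [hat]
  rw [Finset.sum_eq_single 0]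
  · simp
  · intro b _ hb
    simp [hb]
  · simp

/-- A function whose Fourier transform is an integer is constant away from zero. -/
lemma const_of_hat (c : ZMod p → ℤ) (κ : ℤ) (h : hat c = κ) (j : ZMod p) (hj : j ≠ 0) :
    c j = c 0 - κ := by
  classical
  let f : ZMod p → ℤ := fun j => c j - if j = 0 then κ else 0
  have hf : hat f = 0 := by
    have := hat_sub c (fun j : ZMod p => if j = 0 then κ else 0)
    rw [hat_delta, h, sub_self] at this
    exact this
  have h1 := vanish f hf j 0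
  simp only [f, if_neg hj, if_true] at h1
  omega

section Main

open MulAction

variable {G : Type*} [Group G] [Fintype G] {Ω : Type*} [Fintype Ω] [MulAction G Ω]
  (φ : ZMod p × Fin 2 ≃ Ω) (x : G)
  (hx : ∀ (j : ZMod p) (s : Fin 2), x • φ (j, s) = φ (j + 1, s)) [IsPretransitive G Ω]

lemma one_ne_zero_zmod : (1 : ZMod p) ≠ 0 := one_ne_zero

include hx in
/-- An orbital whose first diagonal block vanishes is impossible. -/
lemma blk_not_all_zero (a : orbitRel.Quotient G (Ω × Ω))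
    (h : ∀ j, blk φ (oK a) 0 0 j = 0) (hprim : IsPreprimitive G Ω) (ha : a ≠ dcl G φ) : False := by
  obtain ⟨-, -, h3, -⟩ := bS_oK φ x hx a
  have h4 : bS φ (oK a) 0 0 = 0 := Finset.sum_eq_zero fun j _ => h j
  exact eg_ne_neg φ x hx hprim a ha (by omega)

include hx in
lemma case_I_orbital
    (h : Mh φ (cE G φ) 0 0 = eg φ (cE G φ) ∧ Mh φ (cE G φ) 1 1 = eg φ (cE G φ) ∧
        Mh φ (cE G φ) 0 1 = 0 ∧ Mh φ (cE G φ) 1 0 = 0)
    (a : orbitRel.Quotient G (Ω × Ω)) (ha : a ≠ dcl G φ) (hprim : IsPreprimitive G Ω) :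
    a = O1 G φ 1 := by
  by_contra hne
  have h1 := (case_one φ x hx h (oK_inv a)).1
  have h2 : ∀ j, j ≠ 0 → blk φ (oK a) 0 0 j = - eg φ (oK a) := by
    intro j hj
    rw [const_of_hat _ _ h1 j hj, blk_zero φ ha]
    ring
  have h3 : blk φ (oK a) 0 0 1 = 0 := oK_eq_zero fun h' => hne h'.symm
  have h4 : eg φ (oK a) = 0 := by
    have := h2 1 one_ne_zero
    omega
  refine blk_not_all_zero φ x hx a (fun j => ?_) hprim ha
  by_cases hj : j = 0
  · rw [hj, blk_zero φ ha]
  · rw [h2 j hj, h4, neg_zero]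

lemma two_of_unique (b : orbitRel.Quotient G (Ω × Ω))
    (h : ∀ a : orbitRel.Quotient G (Ω × Ω), a ≠ dcl G φ → a = b) :
    IsMultiplyPretransitive G Ω 2 := by
  rw [is_two_pretransitive_iff]
  intro y z y' z' hyz hyz'
  have h1 : cls G y' z' = cls G y z := by
    rw [h _ fun h' => hyz' ((cls_diag φ).mp h'), h _ fun h' => hyz ((cls_diag φ).mp h')]
  exact cls_eq_iff.mp h1

/-- The suborbit lengths are the valencies. -/
lemma card_orbit_eq (a₀ b : Ω) :
    (Nat.card (orbit (stabilizer G a₀) b) : ℤ) = nv φ (cls G a₀ b) := by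
  classical
  rw [← nv_row φ _ a₀]
  have h1 : ∀ z, oK (cls G a₀ b) a₀ z = if z ∈ orbit (stabilizer G a₀) b then 1 else 0 := by
    intro z
    by_cases h : z ∈ orbit (stabilizer G a₀) b
    · rw [if_pos h]
      refine oK_eq_one ?_
      obtain ⟨⟨g, hg⟩, rfl⟩ := h
      exact cls_eq_iff.mpr ⟨g, mem_stabilizer_iff.mp hg, rfl⟩
    · rw [if_neg h]
      refine oK_eq_zero fun h' => h ?_
      obtain ⟨g, h2, h3⟩ := cls_eq_iff.mp h'
      exact ⟨⟨g, mem_stabilizer_iff.mpr h2⟩, h3⟩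
  simp only [h1]
  rw [Finset.sum_boole]
  congr 1
  exact Nat.subtype_card _ (by simp)

include hx in
lemma case_II_zero (hprim : IsPreprimitive G Ω) (c d : orbitRel.Quotient G (Ω × Ω))
    (hc : c ≠ dcl G φ) (hd : d ≠ dcl G φ) (hec : eg φ (oK c) = 0)
    (hzero : ∀ j, j ≠ 0 → (O1 G φ j = c ↔ O2 G φ j = c))
    (hnb : ∀ j, j ≠ 0 → ¬ (O1 G φ j = d ∧ O2 G φ j = d)) : False := by
  classical
  obtain ⟨y₀, y₁, hy, hvec⟩ := exists_vec φ x hx hprim
  -- the blocks of `c` agree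
  have h1 : ∀ j, blk φ (oK c) 0 0 j = blk φ (oK c) 1 1 j := by
    intro j
    by_cases hj : j = 0
    · rw [hj, blk_zero φ hc, blk_zero φ hc]
    · rw [blk00, blk11]
      by_cases h2 : O1 G φ j = c
      · rw [if_pos h2, if_pos ((hzero j hj).mp h2)]
      · rw [if_neg h2, if_neg (fun h3 => h2 ((hzero j hj).mpr h3))]
  have h2 : Mh φ (oK c) 0 0 = Mh φ (oK c) 1 1 := by
    simp only [Mh, hat, h1]
  have h3 : Mh φ (oK c) 0 0 ≠ 0 := by
    intro h4
    have h5 : ∀ j, j ≠ 0 → blk φ (oK c) 0 0 j = 0 := by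
      intro j hj
      have := const_of_hat (blk φ (oK c) 0 0) 0 (by rw [← Mh, h4]; simp) j hj
      rw [this, blk_zero φ hc]
      simp
    refine blk_not_all_zero φ x hx c (fun j => ?_) hprim hc
    by_cases hj : j = 0
    · rw [hj, blk_zero φ hc]
    · exact h5 j hj
  have h4 : y₀ * conj y₀ = y₁ * conj y₁ := by
    obtain ⟨v1, v2, v3, v4⟩ := hvec _ (oK_inv c)
    have h5 := frob_aux _ _ _ _ y₀ y₁ v1 v2 v3 v4
    rw [hec, ← h2] at h5
    simp only [Int.cast_zero, sub_zero] at h5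
    exact mul_left_cancel₀ h3 h5
  have h5 : y₀ * conj y₀ ≠ 0 := by
    rcases hy with hy | hy
    · exact mul_ne_zero hy ((map_ne_zero _).mpr hy)
    · rw [h4]
      exact mul_ne_zero hy ((map_ne_zero _).mpr hy)
  -- so the blocks of `d` agree
  have h6 : Mh φ (oK d) 0 0 = Mh φ (oK d) 1 1 := by
    obtain ⟨v1, v2, v3, v4⟩ := hvec _ (oK_inv d)
    have h7 := frob_aux _ _ _ _ y₀ y₁ v1 v2 v3 v4
    rw [← h4] at h7
    have h8 := mul_right_cancel₀ h5 h7
    linear_combination h8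
  have h7 : ∀ j, j ≠ 0 → blk φ (oK d) 0 0 j = blk φ (oK d) 1 1 j := by
    intro j hj
    have h8 : hat (fun j => blk φ (oK d) 0 0 j - blk φ (oK d) 1 1 j) = ((0 : ℤ) : ℂ) := by
      rw [hat_sub]
      simpa [Mh] using sub_eq_zero.mpr h6
    have h9 := const_of_hat _ _ h8 j hj
    simp only [blk_zero φ hd] at h9
    omega
  refine blk_not_all_zero φ x hx d (fun j => ?_) hprim hd
  by_cases hj : j = 0
  · rw [hj, blk_zero φ hd]
  · have h8 := h7 j hj
    rw [blk00, blk11] at h8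
    rw [blk00]
    by_cases h9 : O1 G φ j = d
    · by_cases h10 : O2 G φ j = d
      · exact absurd ⟨h9, h10⟩ (hnb j hj)
      · rw [if_pos h9, if_neg h10] at h8
        exact absurd h8 one_ne_zero
    · rw [if_neg h9]

include hx in
lemma case_II_rel (h : Mh φ (cE G φ) 0 0 + Mh φ (cE G φ) 1 1 = eg φ (cE G φ)) (j : ZMod p)
    (hj : j ≠ 0) :
    eg φ (oK (O1 G φ j)) * nv φ (O2 G φ j) + eg φ (oK (O2 G φ j)) * nv φ (O1 G φ j) = 0 := by
  have h1 := case_two φ x hx h j hj
  have h2 := nv_mul_cE φ x hx (y := φ (0, 0)) (z := φ (j, 0))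
  have h3 := nv_mul_cE φ x hx (y := φ (0, 1)) (z := φ (j, 1))
  simp only [blk] at h1
  have hG : (Fintype.card G : ℤ) ≠ 0 := by
    have : 0 < Fintype.card G := Fintype.card_pos
    omega
  apply mul_left_cancel₀ hG
  simp only [O1, O2]
  linear_combination (-(nv φ (cls G (φ (0, 1)) (φ (j, 1))))) * h2 -
    (nv φ (cls G (φ (0, 0)) (φ (j, 0)))) * h3 +
    (nv φ (cls G (φ (0, 0)) (φ (j, 0)))) * (nv φ (cls G (φ (0, 1)) (φ (j, 1)))) * h1

include hx in
/-- The non-doubly-transitive case. -/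
lemma case_II (hprim : IsPreprimitive G Ω)
    (h : Mh φ (cE G φ) 0 0 + Mh φ (cE G φ) 1 1 = eg φ (cE G φ))
    [DecidableEq (orbitRel.Quotient G (Ω × Ω))] [Fintype (orbitRel.Quotient G (Ω × Ω))] :
    ∃ (a b : orbitRel.Quotient G (Ω × Ω)) (t : ℕ), a ≠ b ∧ a ≠ dcl G φ ∧ b ≠ dcl G φ ∧
      (∀ c, c ≠ dcl G φ → c = a ∨ c = b) ∧ 0 < t ∧
      nv φ a = t * (2 * t + 1) ∧ nv φ b = (t + 1) * (2 * t + 1) ∧
      (p : ℤ) = 2 * t ^ 2 + 2 * t + 1 := by
  set I : Finset (orbitRel.Quotient G (Ω × Ω)) := Finset.univ.erase (dcl G φ) with hI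
  have memI : ∀ a, a ∈ I ↔ a ≠ dcl G φ := by
    intro a
    simp [hI]
  have hsum4 : ∑ a ∈ I, eg φ (oK a) = -1 := by
    have := sum_eg φ x hx (G := G)
    rw [← Finset.add_sum_erase _ _ (Finset.mem_univ (dcl G φ)), eg_dcl φ x hx, ← hI] at this
    omega
  obtain ⟨hform, hnb, hzero, hcard⟩ := numerics I (Finset.univ.erase (0 : ZMod p))
    (O1 G φ) (O2 G φ) (fun a => eg φ (oK a)) (nv φ)
    (fun j hj => ⟨(memI _).mpr (O1_ne φ j (Finset.ne_of_mem_erase hj)),
      (memI _).mpr (O2_ne φ j (Finset.ne_of_mem_erase hj))⟩)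
    (fun a _ => nv_pos φ a)
    (fun j hj => case_II_rel φ x hx h j (Finset.ne_of_mem_erase hj))
    (fun a ha => sum_g φ x hx a ((memI a).mp ha))
    (fun a ha => sum_g_sq φ x hx hprim a ((memI a).mp ha))
    hsum4
    (fun a ha => eg_ne_neg φ x hx hprim a ((memI a).mp ha))
  obtain ⟨a', b', hab, hfil⟩ := Finset.card_eq_two.mp hcard
  have ha'mem : a' ∈ I.filter (fun a => eg φ (oK a) ≠ 0) := by rw [hfil]; simp
  have hb'mem : b' ∈ I.filter (fun a => eg φ (oK a) ≠ 0) := by rw [hfil]; simp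
  obtain ⟨ha'I, ha'e⟩ := Finset.mem_filter.mp ha'mem
  obtain ⟨hb'I, hb'e⟩ := Finset.mem_filter.mp hb'mem
  have hall : ∀ c ∈ I, eg φ (oK c) ≠ 0 := by
    intro c hc hec
    exact case_II_zero φ x hx hprim c a' ((memI c).mp hc) ((memI a').mp ha'I) hec
      (fun j hj => hzero c hc hec j (Finset.mem_erase.mpr ⟨hj, Finset.mem_univ _⟩))
      (fun j hj => hnb a' ha'I ha'e j (Finset.mem_erase.mpr ⟨hj, Finset.mem_univ _⟩))
  have hfilI : I.filter (fun a => eg φ (oK a) ≠ 0) = I :=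
    Finset.filter_true_of_mem hall
  rw [hfilI] at hfil
  have hsumeg : eg φ (oK a') + eg φ (oK b') = -1 := by
    rw [hfil, Finset.sum_pair hab] at hsum4
    exact hsum4
  have hsumnv : nv φ a' + nv φ b' + 1 = 2 * p := by
    have h1 := sum_nv φ (G := G)
    rw [← Finset.add_sum_erase _ _ (Finset.mem_univ (dcl G φ)), nv_dcl φ, ← hI, hfil,
      Finset.sum_pair hab] at h1
    have h2 : Fintype.card Ω = 2 * p := by
      rw [← Fintype.card_congr φ, Fintype.card_prod, ZMod.card, Fintype.card_fin, mul_comm]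
    rw [h2] at h1
    push_cast at h1
    linarith
  have hfa := hform a' ha'I ha'e
  have hfb := hform b' hb'I hb'e
  have hcases : ∀ (a b : orbitRel.Quotient G (Ω × Ω)), a ≠ b → I = {a, b} →
      eg φ (oK a) ≠ 0 → eg φ (oK b) ≠ 0 → eg φ (oK a) + eg φ (oK b) = -1 →
      nv φ a + nv φ b + 1 = 2 * p →
      nv φ a = eg φ (oK a) * (2 * eg φ (oK a) + 1) →
      nv φ b = eg φ (oK b) * (2 * eg φ (oK b) + 1) → 0 < eg φ (oK a) →
      ∃ (a b : orbitRel.Quotient G (Ω × Ω)) (t : ℕ), a ≠ b ∧ a ≠ dcl G φ ∧ b ≠ dcl G φ ∧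
        (∀ c, c ≠ dcl G φ → c = a ∨ c = b) ∧ 0 < t ∧
        nv φ a = t * (2 * t + 1) ∧ nv φ b = (t + 1) * (2 * t + 1) ∧
        (p : ℤ) = 2 * t ^ 2 + 2 * t + 1 := by
    intro a b hab hI2 hea heb hs1 hs2 hna hnb hpos
    lift eg φ (oK a) to ℕ using hpos.le with t ht
    have hebv : eg φ (oK b) = -1 - t := by omega
    refine ⟨a, b, t, hab, (memI a).mp (by rw [hI2]; simp), (memI b).mp (by rw [hI2]; simp),
      fun c hc => ?_, by omega, hna, ?_, ?_⟩
    · have := (memI c).mpr hc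
      rw [hI2] at this
      simpa using this
    · rw [hnb, hebv]
      ring
    · rw [hna, hnb, hebv] at hs2
      have : (2 : ℤ) * (p : ℤ) = 2 * (2 * t ^ 2 + 2 * t + 1) := by linear_combination -hs2
      linarith
  by_cases hpos : 0 < eg φ (oK a')
  · exact hcases a' b' hab hfil ha'e hb'e hsumeg hsumnv hfa hfb hpos
  · refine hcases b' a' hab.symm (by rw [hfil, Finset.pair_comm]) hb'e ha'e (by omega)
      (by omega) hfb hfa ?_
    have h1 : eg φ (oK b') ≠ 0 := hb'e
    have h2 : eg φ (oK a') ≠ 0 := ha'e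
    by_contra h3
    have h4 : eg φ (oK a') = -1 ∨ eg φ (oK b') = -1 ∨ (eg φ (oK a') ≤ -1 ∧ eg φ (oK b') ≤ -1) := by
      omega
    omega

include hx in
/-- **Wielandt's theorem** for a primitive group with a fixed point free element of order `p`. -/
theorem main (hprim : IsPreprimitive G Ω) (a₀ : Ω) :
    IsMultiplyPretransitive G Ω 2 ∨
      (Nat.card (orbitRel.Quotient (stabilizer G a₀) Ω) = 3 ∧
        ∃ a : ℕ, 0 < a ∧ p = 2 * a ^ 2 + 2 * a + 1 ∧
        ∀ b : Ω, b ≠ a₀ → Nat.card (orbit (stabilizer G a₀) b) = a * (2 * a + 1) ∨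
          Nat.card (orbit (stabilizer G a₀) b) = (a + 1) * (2 * a + 1)) := by
  classical
  let : Fintype (orbitRel.Quotient G (Ω × Ω)) := Fintype.ofFinite _
  rcases cE_dichotomy φ x hx hprim with h | h
  · left
    exact two_of_unique φ (O1 G φ 1) (fun a ha => case_I_orbital φ x hx h a ha hprim)
  · right
    obtain ⟨a, b, t, hab, ha, hb, hall, ht, hna, hnb, hpt⟩ := case_II φ x hx hprim h
    constructor
    · have h1 : Nat.card (orbitRel.Quotient (stabilizer G a₀) Ω) =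
          Nat.card (orbitRel.Quotient G (Ω × Ω)) :=
        Nat.card_congr (Equiv.ofBijective _ (PermChar.suborbitEquiv_bijective a₀))
      rw [h1, Nat.card_eq_fintype_card, ← Finset.card_univ]
      have h2 : (Finset.univ : Finset (orbitRel.Quotient G (Ω × Ω))) = {dcl G φ, a, b} := by
        ext c
        simp only [Finset.mem_univ, Finset.mem_insert, Finset.mem_singleton, true_iff]
        by_cases hc : c = dcl G φ
        · exact Or.inl hc
        · exact Or.inr (hall c hc)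
      rw [h2]
      exact Finset.card_eq_three.mpr ⟨_, _, _, ha.symm, hb.symm, hab, rfl⟩
    · refine ⟨t, ht, by exact_mod_cast hpt, fun b' hb' => ?_⟩
      have h1 := card_orbit_eq (G := G) φ a₀ b'
      have h2 : cls G a₀ b' ≠ dcl G φ := fun h' => hb' ((cls_diag φ).mp h').symm
      rcases hall _ h2 with h3 | h3
      · left
        rw [h3, hna] at h1
        exact_mod_cast h1
      · right
        rw [h3, hnb] at h1
        exact_mod_cast h1

end Main

end Cfsg.Agent.Lib.Char.Wielandt2p
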