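import Mathlib
import Cfsg.Agent.Lib.Char.PDerived
import Cfsg.Agent.Lib.Char.CliffordCorr
import Cfsg.Agent.Lib.Char.GlaubOver
import Cfsg.Agent.Lib.Solvable.MinimalNormal
import Cfsg.Agent.Lib.Char.Monomial
import Cfsg.Agent.Lib.Char.SchurBound4
import Cfsg.Agent.Lib.Char.LinearBound2
import Cfsg.Agent.Lib.Char.LinearChars
import Cfsg.Agent.Lib.Char.PrimeIndex
import Cfsg.Agent.Lib.Blocks.Kernel
import Cfsg.Agent.Lib.PGroup.Critical
import Cfsg.Agent.Lib.Basic.PCore
import Cfsg.Agent.Lib.Components.Fitting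
import Cfsg.Agent.Lib.Nilpotent.Sqf.FittingPart
import Cfsg.Agent.S0121

set_option autoImplicit false
open Cfsg
open scoped commutatorElement ComplexConjugate

namespace Cfsg.Agent.Lib.Char.Winter

open Cfsg.Agent.Lib.Char.PDerived Cfsg.Agent.Lib.Char.Basic Cfsg.Agent.Lib.Solvable.MinimalNormal

/-! ## Counting fixed points of an automorphism of `p`-power order -/

theorem eq_one_of_pow_eq_one {E : Type*} [Group E] {r p s : ℕ} [hr : Fact r.Prime] [hp : Fact p.Prime]
    (hrp : r ≠ p) (hE : IsPGroup r E) {z : E} (hz : z ^ (p ^ s) = 1) : z = 1 := by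
  obtain ⟨k, hk⟩ := (IsPGroup.iff_orderOf.1 hE) z
  have h1 : orderOf z ∣ p ^ s := orderOf_dvd_of_pow_eq_one hz
  rw [hk] at h1
  have hcop : Nat.Coprime (r ^ k) (p ^ s) :=
    Nat.Coprime.pow _ _ ((Nat.coprime_primes hr.out hp.out).2 hrp)
  have h2 : r ^ k = 1 := Nat.eq_one_of_dvd_coprimes hcop dvd_rfl h1
  rw [h2] at hk
  exact orderOf_eq_one_iff.1 hk

theorem aut_count {X : Type*} [Group X] [Finite X] {r p s : ℕ} [hr : Fact r.Prime] [hp : Fact p.Prime]
    (hrp : r ≠ p) (hX : IsPGroup r X) (f : X →* X) (hf : ∀ x, f^[p ^ s] x = x) :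
    ((f.eqLocus (MonoidHom.id X)).index : ℤ) ≡ 1 [ZMOD p] := by
  classical
  haveI := Fintype.ofFinite X
  set W := f.eqLocus (MonoidHom.id X) with hW
  let F : Function.End X := (f : X → X)
  have hF : F ^ p ^ s = 1 := by
    funext x
    have h0 : (F ^ p ^ s) = (f : X → X)^[p ^ s] :=
      hom_coe_pow (fun g : Function.End X ↦ g) rfl (fun g h ↦ rfl) F (p ^ s)
    rw [h0]
    exact hf x
  have h1 := Equiv.Perm.card_fixedPoints_modEq hF
  have h2 : Nat.card W = Fintype.card (Function.fixedPoints F) := by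
    rw [← Nat.card_eq_fintype_card]
    exact Nat.card_congr (Equiv.subtypeEquivRight fun x => Iff.rfl)
  rw [← h2, ← Nat.card_eq_fintype_card, ← Subgroup.card_mul_index W] at h1
  have hc : Nat.Coprime p (Nat.card W) := by
    obtain ⟨k, hk⟩ := IsPGroup.iff_card.1 (hX.to_subgroup W)
    rw [hk]
    exact Nat.Coprime.pow_right _ ((Nat.coprime_primes hp.out hr.out).2 hrp.symm)
  have h3 : Nat.card W * W.index ≡ Nat.card W * 1 [MOD p] := by simpa using h1
  have h4 := Nat.ModEq.cancel_left_of_coprime hc h3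
  have h5 := (Int.natCast_modEq_iff).2 h4
  simpa using h5


/-! ## The symplectic count -/

section Symp

variable {E : Type*} [Group E]

theorem comm_mul (hcl : ∀ x y : E, ⁅x, y⁆ ∈ Subgroup.center E) (x u v : E) :
    ⁅x, u * v⁆ = ⁅x, u⁆ * ⁅x, v⁆ := by
  have h := Subgroup.mem_center_iff.1 (hcl x v) u
  calc ⁅x, u * v⁆ = ⁅x, u⁆ * (u * ⁅x, v⁆ * u⁻¹) := by
        simp only [commutatorElement_def]; group
    _ = ⁅x, u⁆ * ⁅x, v⁆ := by rw [h]; group

theorem comm_mul_center {z : E} (hz : z ∈ Subgroup.center E) (x c : E) : ⁅x * z, c⁆ = ⁅x, c⁆ := by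
  have h := Subgroup.mem_center_iff.1 hz c
  have h' : z⁻¹ * c⁻¹ = c⁻¹ * z⁻¹ := by
    have := congrArg (·⁻¹) h
    simpa using this
  simp only [commutatorElement_def]
  calc x * z * c * (x * z)⁻¹ * c⁻¹ = x * (z * c) * z⁻¹ * x⁻¹ * c⁻¹ := by group
    _ = x * (c * z) * z⁻¹ * x⁻¹ * c⁻¹ := by rw [h]
    _ = x * c * x⁻¹ * c⁻¹ := by group

/-- The automorphism induced on `E / Z(E)`. -/
noncomputable def indMap (σ : MulAut E) (hfix : ∀ z ∈ Subgroup.center E, σ z = z) :
    E ⧸ Subgroup.center E →* E ⧸ Subgroup.center E :=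
  QuotientGroup.map _ _ σ.toMonoidHom (fun z hz => by
    show σ z ∈ Subgroup.center E
    rw [hfix z hz]; exact hz)

theorem indMap_mk (σ : MulAut E) (hfix : ∀ z ∈ Subgroup.center E, σ z = z) (e : E) :
    indMap σ hfix (e : E ⧸ Subgroup.center E) = ((σ e : E) : E ⧸ Subgroup.center E) := rfl

theorem indMap_iterate (σ : MulAut E) (hfix : ∀ z ∈ Subgroup.center E, σ z = z) (n : ℕ) (e : E) :
    (indMap σ hfix)^[n] (e : E ⧸ Subgroup.center E) = (((σ ^ n) e : E) : E ⧸ Subgroup.center E) := by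
  induction n with
  | zero => simp
  | succ n ih =>
    rw [Function.iterate_succ_apply', ih, indMap_mk, pow_succ', MulAut.mul_apply]

/-- The subgroup of the elements fixed modulo the centre. -/
noncomputable def fixMod (σ : MulAut E) (hfix : ∀ z ∈ Subgroup.center E, σ z = z) : Subgroup E :=
  ((indMap σ hfix).eqLocus (MonoidHom.id _)).comap (QuotientGroup.mk' _)

theorem mem_fixMod (σ : MulAut E) (hfix : ∀ z ∈ Subgroup.center E, σ z = z) (e : E) :
    e ∈ fixMod σ hfix ↔ ∃ z ∈ Subgroup.center E, σ e = e * z := by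
  show ((σ e : E) : E ⧸ Subgroup.center E) = (e : E ⧸ Subgroup.center E) ↔ _
  rw [eq_comm, QuotientGroup.eq]
  constructor
  · intro h
    exact ⟨_, h, by group⟩
  · rintro ⟨z, hz, h⟩
    rw [h]
    simpa using hz

theorem center_le_fixMod (σ : MulAut E) (hfix : ∀ z ∈ Subgroup.center E, σ z = z) :
    Subgroup.center E ≤ fixMod σ hfix := by
  intro z hz
  rw [mem_fixMod]
  exact ⟨1, one_mem _, by rw [hfix z hz, mul_one]⟩

theorem pow_fix (σ : MulAut E) (hfix : ∀ z ∈ Subgroup.center E, σ z = z) (n : ℕ) {z : E}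
    (hz : z ∈ Subgroup.center E) : (σ ^ n) z = z := by
  induction n with
  | zero => simp
  | succ n ih => rw [pow_succ', MulAut.mul_apply, ih, hfix z hz]

theorem pow_apply_of_mem (σ : MulAut E) (hfix : ∀ z ∈ Subgroup.center E, σ z = z) (n : ℕ) {x : E}
    (hx : x ∈ fixMod σ hfix) : ∃ z ∈ Subgroup.center E, (σ ^ n) x = x * z := by
  induction n with
  | zero => exact ⟨1, one_mem _, by simp⟩
  | succ n ih =>
    obtain ⟨z, hz, h⟩ := ih
    obtain ⟨z', hz', h'⟩ := (mem_fixMod σ hfix x).1 hx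
    refine ⟨z' * z, mul_mem hz' hz, ?_⟩
    rw [pow_succ', MulAut.mul_apply, h, map_mul, h', hfix z hz, mul_assoc]

variable {r p s : ℕ} [hr : Fact r.Prime] [hp : Fact p.Prime]

/-- The centre of `fixMod` is the centre of `E`. -/
theorem mem_center_of_central_fixMod (hrp : r ≠ p) (hE : IsPGroup r E) (σ : MulAut E)
    (hσ : σ ^ (p ^ s) = 1) (hfix : ∀ z ∈ Subgroup.center E, σ z = z)
    (hcl : ∀ x y : E, ⁅x, y⁆ ∈ Subgroup.center E) {x : E} (hx : x ∈ fixMod σ hfix)
    (hxc : ∀ d ∈ fixMod σ hfix, x * d = d * x) : x ∈ Subgroup.center E := by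
  rw [Subgroup.mem_center_iff]
  intro c
  -- the partial norm
  let w : ℕ → E := fun n => Nat.rec 1 (fun n wn => wn * (σ ^ n) c) n
  have hw0 : w 0 = 1 := rfl
  have hws : ∀ n, w (n + 1) = w n * (σ ^ n) c := fun n => rfl
  -- commutators
  have h1 : ∀ n, ⁅x, (σ ^ n) c⁆ = ⁅x, c⁆ := by
    intro n
    obtain ⟨z, hz, h⟩ := pow_apply_of_mem σ hfix n hx
    have h2 : (σ ^ n) ⁅x, c⁆ = ⁅x, c⁆ := pow_fix σ hfix n (hcl x c)
    rw [map_commutatorElement, h, comm_mul_center hz] at h2
    exact h2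
  have h3 : ∀ n, ⁅x, w n⁆ = ⁅x, c⁆ ^ n := by
    intro n
    induction n with
    | zero => simp [hw0]
    | succ n ih => rw [hws, comm_mul hcl, ih, h1, pow_succ]
  -- the norm lies in `fixMod`
  have hcomm : ∀ u v : E, (QuotientGroup.mk u : E ⧸ Subgroup.center E) * QuotientGroup.mk v = QuotientGroup.mk v * QuotientGroup.mk u := by
    intro u v
    rw [← QuotientGroup.mk_mul, ← QuotientGroup.mk_mul, QuotientGroup.eq]
    have := hcl v⁻¹ u⁻¹
    simpa [commutatorElement_def, mul_assoc] using this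
  have h4 : ∀ n, (QuotientGroup.mk (σ (w n)) : E ⧸ Subgroup.center E) * (QuotientGroup.mk c)
      = (QuotientGroup.mk (w n)) * (QuotientGroup.mk ((σ ^ n) c)) := by
    intro n
    induction n with
    | zero => simp [hw0]
    | succ n ih =>
      have e1 : σ ((σ ^ n) c) = (σ ^ (n + 1)) c := by rw [pow_succ', MulAut.mul_apply]
      rw [hws, map_mul, e1, QuotientGroup.mk_mul, QuotientGroup.mk_mul, mul_assoc, hcomm _ c,
        ← mul_assoc, ih]
  have h5 : w (p ^ s) ∈ fixMod σ hfix := by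
    show (QuotientGroup.mk (σ (w (p ^ s))) : E ⧸ Subgroup.center E) = QuotientGroup.mk (w (p ^ s))
    have := h4 (p ^ s)
    rw [hσ] at this
    exact mul_right_cancel this
  have h6 : ⁅x, w (p ^ s)⁆ = 1 := by
    rw [commutatorElement_eq_one_iff_mul_comm]
    exact hxc _ h5
  rw [h3] at h6
  have h7 := eq_one_of_pow_eq_one hrp hE h6
  rw [commutatorElement_eq_one_iff_mul_comm] at h7
  exact h7.symm

theorem fixMod_ne_top (hrp : r ≠ p) (hE : IsPGroup r E) (σ : MulAut E)
    (hσ : σ ^ (p ^ s) = 1) (hne : σ ≠ 1) (hfix : ∀ z ∈ Subgroup.center E, σ z = z) :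
    fixMod σ hfix ≠ ⊤ := by
  intro htop
  apply hne
  ext e
  have he : e ∈ fixMod σ hfix := by rw [htop]; exact Subgroup.mem_top e
  obtain ⟨z, hz, h⟩ := (mem_fixMod σ hfix e).1 he
  have h1 : ∀ n, (σ ^ n) e = e * z ^ n := by
    intro n
    induction n with
    | zero => simp
    | succ n ih =>
      rw [pow_succ', MulAut.mul_apply, ih, map_mul, h, map_pow, hfix z hz, pow_succ', mul_assoc]
  have h2 := h1 (p ^ s)
  rw [hσ] at h2
  have h3 : z ^ (p ^ s) = 1 := by simpa using h2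
  have h4 := eq_one_of_pow_eq_one hrp hE h3
  rw [h, h4, mul_one]
  rfl

end Symp

section SympChar

open Cfsg.Agent.Lib.Char.Ortho Cfsg.Agent.Lib.Char.CliffordCorr

/-- A character faithful on the centre vanishing off it through commutators. -/
theorem vanish_count {K : Type*} [Group K] [Finite K] {τ : K → ℂ} (hτ : IsIrrCharacter K τ)
    (hf : ∀ z ∈ Subgroup.center K, τ z = τ 1 → z = 1)
    (hc : ∀ x, x ∉ Subgroup.center K → ∃ c : K, ⁅c, x⁆ ∈ Subgroup.center K ∧ ⁅c, x⁆ ≠ 1) :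
    ∃ b : ℕ, τ 1 = b ∧ b ^ 2 * Nat.card (Subgroup.center K) = Nat.card K := by
  classical
  haveI := Fintype.ofFinite K
  obtain ⟨b, hb, -, -⟩ := Cfsg.Agent.Lib.Char.GlaubOver.exists_degree_dvd hτ
  refine ⟨b, hb, ?_⟩
  have hv : ∀ x, x ∉ Subgroup.center K → τ x = 0 := by
    intro x hx
    obtain ⟨c, hc1, hc2⟩ := hc x hx
    refine eq_zero_of_conj_eq_central_mul hτ (y := c) hc1 (by simp [commutatorElement_def]) ?_
    intro h
    exact hc2 (hf _ hc1 h)
  have h := deg_sq_mul_card_center_eq hτ hv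
  rw [hb] at h
  have h2 : ‖(b : ℂ)‖ = (b : ℝ) := by simp
  rw [h2] at h
  exact_mod_cast h

variable {E : Type*} [Group E] [Finite E] {r p s : ℕ} [hr : Fact r.Prime] [hp : Fact p.Prime]

/-- A constituent of the restriction to a subgroup containing a central subgroup has the same
central scalars. -/
theorem constituent_faithful [Fintype E] {D : Subgroup E} [Fintype D] {θ : E → ℂ} (hθ : IsIrrCharacter E θ)
    (hfaith : ∀ x, θ x = θ 1 → x = 1) {τ : D → ℂ} (hτ : IsIrrCharacter D τ)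
    (h : classInner (fun d : D => θ d) τ ≠ 0) (z : D) (hzD : z ∈ Subgroup.center D)
    (hzE : (z : E) ∈ Subgroup.center E) (hz : τ z = τ 1) : z = 1 := by
  by_contra hne
  obtain ⟨c, hc, -⟩ := exists_central_scalar hθ hzE
  obtain ⟨c', hc', -⟩ := exists_central_scalar hτ hzD
  have hc1 : c ≠ 1 := by
    rintro rfl
    have := hc 1
    rw [mul_one, one_mul] at this
    exact hne (Subtype.ext (hfaith _ this))
  have hc'1 : c' = 1 := by
    have h1 := hc' 1
    rw [mul_one, hz] at h1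
    have h2 : τ 1 ≠ 0 := irr_apply_one_ne_zero hτ
    have h3 : (c' - 1) * τ 1 = 0 := by rw [sub_mul, ← h1]; ring
    rcases mul_eq_zero.1 h3 with h4 | h4
    · exact sub_eq_zero.1 h4
    · exact absurd h4 h2
  apply h
  rw [classInner]
  have hs : ∑ g : D, θ g * conj (τ g) = c * ∑ g : D, θ g * conj (τ g) := by
    rw [Finset.mul_sum]
    rw [← Equiv.sum_comp (Equiv.mulLeft z)]
    refine Finset.sum_congr rfl fun g _ => ?_
    simp only [Equiv.coe_mulLeft]
    rw [hc' g, hc'1, one_mul]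
    have : (((z * g : D)) : E) = (z : E) * (g : E) := rfl
    rw [this, hc]
    ring
  have h0 : ∑ g : D, θ g * conj (τ g) = 0 := by
    have h3 : (1 - c) * ∑ g : D, θ g * conj (τ g) = 0 := by
      rw [sub_mul, one_mul, ← hs]; ring
    rcases mul_eq_zero.1 h3 with h4 | h4
    · exact absurd (sub_eq_zero.1 h4).symm hc1
    · exact h4
  rw [h0]
  simp

/-- **The symplectic count.**  A `p`-automorphism of a class two `r`-group which centralizes the
centre yields a power of `r` dividing the degree of a faithful irreducible character, congruent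
to `±1` modulo `p`. -/
theorem symp (hrp : r ≠ p) (hE : IsPGroup r E) (σ : MulAut E) (hσ : σ ^ (p ^ s) = 1) (hne : σ ≠ 1)
    (hfix : ∀ z ∈ Subgroup.center E, σ z = z) (hcl : ∀ x y : E, ⁅x, y⁆ ∈ Subgroup.center E)
    {θ : E → ℂ} (hθ : IsIrrCharacter E θ) (hfaith : ∀ x, θ x = θ 1 → x = 1) {a : ℕ} (ha : θ 1 = a) :
    ∃ q : ℕ, IsPrimePow q ∧ q ∣ a ∧ ((q : ℤ) ≡ 1 [ZMOD p] ∨ (q : ℤ) ≡ -1 [ZMOD p]) := by
  classical
  haveI := Fintype.ofFinite E
  set D := fixMod σ hfix with hD
  haveI : Fintype D := Fintype.ofFinite D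
  -- the congruence
  have hidx : (D.index : ℤ) ≡ 1 [ZMOD p] := by
    have h1 : D.index = ((indMap σ hfix).eqLocus (MonoidHom.id _)).index :=
      Subgroup.index_comap_of_surjective _ (QuotientGroup.mk'_surjective _)
    rw [h1]
    refine aut_count (s := s) hrp (hE.to_quotient _) _ ?_
    intro x
    obtain ⟨e, rfl⟩ := QuotientGroup.mk_surjective x
    rw [indMap_iterate, hσ]
    rfl
  have hDne : D ≠ ⊤ := fixMod_ne_top hrp hE σ hσ hne hfix
  -- the character of `E`
  obtain ⟨a', ha', hEc⟩ := vanish_count hθ (fun z _ h => hfaith z h) (by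
    intro x hx
    rw [Subgroup.mem_center_iff] at hx
    push Not at hx
    obtain ⟨c, hc⟩ := hx
    refine ⟨c, hcl c x, ?_⟩
    rw [Ne, commutatorElement_eq_one_iff_mul_comm]
    exact hc)
  have haa : a' = a := by
    rw [ha] at ha'
    exact_mod_cast ha'.symm
  subst haa
  -- the character of `D`
  have hresc : IsCharacter D (fun d : D => θ d) := isCharacter_restrict (isCharacter_of_isIrrCharacter hθ) D
  have h1 : (fun d : D => θ d) 1 ≠ 0 := by
    show θ 1 ≠ 0
    exact irr_apply_one_ne_zero hθ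
  obtain ⟨τ, hτ, hτne⟩ := exists_irr_constituent hresc h1
  have hcenD : ∀ z : D, z ∈ Subgroup.center D → (z : E) ∈ Subgroup.center E := by
    intro z hz
    refine mem_center_of_central_fixMod hrp hE σ hσ hfix hcl z.2 ?_
    intro d hd
    have := Subgroup.mem_center_iff.1 hz ⟨d, hd⟩
    have h2 := congrArg Subtype.val this
    exact h2.symm
  obtain ⟨b, hb, hDc⟩ := vanish_count hτ
    (fun z hz h => constituent_faithful hθ hfaith hτ hτne z hz (hcenD z hz) h) (by
    intro x hx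
    rw [Subgroup.mem_center_iff] at hx
    push Not at hx
    obtain ⟨c, hc⟩ := hx
    have hc' : ⁅c, x⁆ ≠ 1 := by
      rw [Ne, commutatorElement_eq_one_iff_mul_comm]
      exact hc
    refine ⟨c, ?_, hc'⟩
    rw [Subgroup.mem_center_iff]
    intro d
    apply Subtype.ext
    have h2 := Subgroup.mem_center_iff.1 (hcl (c : E) (x : E)) (d : E)
    exact h2)
  -- cardinalities
  have hcen : Nat.card (Subgroup.center D) = Nat.card (Subgroup.center E) := by
    have hle : Subgroup.center E ≤ D := center_le_fixMod σ hfix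
    have he : Subgroup.center D = (Subgroup.center E).subgroupOf D := by
      ext z
      rw [Subgroup.mem_subgroupOf]
      constructor
      · exact hcenD z
      · intro hz
        rw [Subgroup.mem_center_iff]
        intro d
        apply Subtype.ext
        exact Subgroup.mem_center_iff.1 hz (d : E)
    rw [he]
    exact Nat.card_congr (Subgroup.subgroupOfEquivOfLe hle).toEquiv
  have hmul : Nat.card D * D.index = Nat.card E := Subgroup.card_mul_index D
  rw [← hDc, hcen, ← hEc] at hmul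
  have hZpos : 0 < Nat.card (Subgroup.center E) := Nat.card_pos
  have hsq : b ^ 2 * D.index = a' ^ 2 := by
    have : Nat.card (Subgroup.center E) * (b ^ 2 * D.index) = Nat.card (Subgroup.center E) * a' ^ 2 := by
      linarith [hmul]
    exact Nat.eq_of_mul_eq_mul_left hZpos this
  have hbd : b ∣ a' := (Nat.pow_dvd_pow_iff (by norm_num : (2 : ℕ) ≠ 0)).1 ⟨_, hsq.symm⟩
  obtain ⟨t, rfl⟩ := hbd
  have hb0 : b ≠ 0 := by
    rintro rfl
    apply irr_apply_one_ne_zero hτ
    rw [hb]; simp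
  have hit : D.index = t ^ 2 := by
    have : b ^ 2 * D.index = b ^ 2 * t ^ 2 := by rw [hsq]; ring
    exact Nat.eq_of_mul_eq_mul_left (pow_pos (Nat.pos_of_ne_zero hb0) 2) this
  have ht1 : t ≠ 1 := by
    rintro rfl
    apply hDne
    rw [← Subgroup.index_eq_one, hit]
    simp
  -- `t` is a power of `r`
  obtain ⟨k, hk⟩ := IsPGroup.iff_card.1 hE
  have htd : t ∣ r ^ k := by
    rw [← hk, ← hEc]
    exact Dvd.dvd.mul_right (Dvd.dvd.pow (Dvd.intro_left _ rfl) (by norm_num)) _
  obtain ⟨j, -, hj⟩ := (Nat.dvd_prime_pow hr.out).1 htd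
  have hj0 : j ≠ 0 := by
    rintro rfl
    apply ht1
    simpa using hj
  refine ⟨t, ⟨r, j, hr.out.prime, Nat.pos_of_ne_zero hj0, hj.symm⟩, Dvd.intro_left _ rfl, ?_⟩
  rw [hit] at hidx
  have h3 : (p : ℤ) ∣ ((t : ℤ) - 1) * ((t : ℤ) + 1) := by
    have h4 := hidx.symm.dvd
    push_cast at h4
    have e : ((t : ℤ) - 1) * ((t : ℤ) + 1) = (t : ℤ) ^ 2 - 1 := by ring
    rw [e]
    exact h4
  have hpp : Prime (p : ℤ) := Nat.prime_iff_prime_int.1 hp.out
  rcases hpp.dvd_or_dvd h3 with h4 | h4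
  · left
    exact (Int.modEq_iff_dvd.2 h4).symm
  · right
    have e : (t : ℤ) + 1 = (t : ℤ) - (-1) := by ring
    rw [e] at h4
    exact (Int.modEq_iff_dvd.2 h4).symm

end SympChar

section Prim

theorem normal_of_sup_eq_top {Γ : Type*} [Group Γ] {A M N : Subgroup Γ} (hsup : M ⊔ N = ⊤)
    (hM : ∀ m ∈ M, ∀ a ∈ A, m * a * m⁻¹ ∈ A) (hN : ∀ n ∈ N, ∀ a ∈ A, n * a * n⁻¹ ∈ A) : A.Normal := by
  have h1 : ∀ g, (∀ a ∈ A, g * a * g⁻¹ ∈ A) → (∀ a ∈ A, g⁻¹ * a * g⁻¹⁻¹ ∈ A) →
      g ∈ Subgroup.normalizer (A : Set Γ) := by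
    intro g h1 h2
    rw [Subgroup.mem_normalizer_iff]
    intro x
    constructor
    · exact h1 x
    · intro hx
      have := h2 _ hx
      simpa [mul_assoc] using this
  have h2 : Subgroup.normalizer (A : Set Γ) = ⊤ := by
    rw [eq_top_iff, ← hsup]
    refine sup_le (fun m hm => h1 m (hM m hm) (hM _ (M.inv_mem hm))) (fun n hn => h1 n (hN n hn) (hN _ (N.inv_mem hn)))
  exact Subgroup.normalizer_eq_top_iff.1 h2

/-- The action on the minimal normal subgroup complementing a maximal core-free subgroup. -/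
theorem prim {Γ : Type*} [Group Γ] [Finite Γ] [Group.IsSolvable Γ] {M : Subgroup Γ} (hM : IsCoatom M)
    (hcore : M.normalCore = ⊥) {x : Γ} (hxM : x ∈ M) (hx1 : x ≠ 1) {p s : ℕ} [hp : Fact p.Prime]
    (hxp : x ^ (p ^ s) = 1) :
    p ∣ M.index ∨ ∃ q : ℕ, IsPrimePow q ∧ q ∣ M.index ∧ (q : ℤ) ≡ 1 [ZMOD p] := by
  classical
  haveI : Nontrivial Γ := ⟨⟨x, 1, hx1⟩⟩
  obtain ⟨N, hN⟩ := exists_isMinNormal (G := Γ)
  haveI hNn := hN.normal
  obtain ⟨r, hr, hpg, hcomm, -⟩ := hN.exists_isPGroup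
  haveI : Fact r.Prime := ⟨hr⟩
  have hle_core : ∀ A : Subgroup Γ, A.Normal → A ≤ M → A = ⊥ := by
    intro A hA hAM
    have : A ≤ M.normalCore := Subgroup.normal_le_normalCore.2 hAM
    rw [hcore] at this
    exact le_bot_iff.1 this
  have hNM : ¬ N ≤ M := fun h => hN.ne_bot (hle_core N hNn h)
  have hsup : M ⊔ N = ⊤ := by
    rcases le_or_sup_eq_top_of_isCoatom hM N with h | h
    · exact absurd h hNM
    · exact h
  have hab : ∀ a ∈ N, ∀ b ∈ N, a * b = b * a := by
    intro a ha b hb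
    have := hcomm.is_comm.comm ⟨a, ha⟩ ⟨b, hb⟩
    exact congrArg Subtype.val this
  -- `M ∩ N = 1`
  have hinf : M ⊓ N = ⊥ := by
    refine hle_core _ ?_ inf_le_left
    refine normal_of_sup_eq_top hsup ?_ ?_
    · rintro m hm a ⟨ha1, ha2⟩
      exact ⟨M.mul_mem (M.mul_mem hm ha1) (M.inv_mem hm), hNn.conj_mem a ha2 m⟩
    · rintro n hn a ⟨ha1, ha2⟩
      have e : n * a * n⁻¹ = a := by rw [hab n hn a ha2]; group
      rw [e]
      exact ⟨ha1, ha2⟩
  have hidx : M.index = Nat.card N := by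
    rw [index_eq_relIndex_of_sup_eq_top hsup, Subgroup.relIndex]
    have h1 : M.subgroupOf N = ⊥ := by
      rw [eq_bot_iff]
      rintro ⟨a, ha⟩ ha2
      rw [Subgroup.mem_subgroupOf] at ha2
      have h3 : a ∈ M ⊓ N := ⟨ha2, ha⟩
      rw [hinf] at h3
      exact Subtype.ext h3
    rw [h1, Subgroup.index_bot]
  by_cases hrp : r = p
  · left
    subst hrp
    obtain ⟨k, hk⟩ := IsPGroup.iff_card.1 hpg
    rw [hidx, hk]
    have hk0 : k ≠ 0 := by
      rintro rfl
      have h1 : Nat.card N = 1 := by simpa using hk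
      have := Subgroup.eq_bot_of_card_eq N h1
      exact hN.ne_bot this
    exact dvd_pow_self _ hk0
  right
  -- `x` does not centralize `N`
  have hxN : ∃ n : N, x * n * x⁻¹ ≠ n := by
    by_contra hcon
    push Not at hcon
    have hK : (M ⊓ Subgroup.centralizer (N : Set Γ)) = ⊥ := by
      refine hle_core _ ?_ inf_le_left
      refine normal_of_sup_eq_top hsup ?_ ?_
      · rintro m hm a ⟨ha1, ha2⟩
        refine ⟨M.mul_mem (M.mul_mem hm ha1) (M.inv_mem hm), ?_⟩
        haveI : (Subgroup.centralizer (N : Set Γ)).Normal := Subgroup.normal_centralizer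
        exact Subgroup.Normal.conj_mem this a ha2 m
      · rintro n hn a ⟨ha1, ha2⟩
        have e : n * a * n⁻¹ = a := by
          have := Subgroup.mem_centralizer_iff.1 ha2 n hn
          rw [this]; group
        rw [e]
        exact ⟨ha1, ha2⟩
    have hxc : x ∈ M ⊓ Subgroup.centralizer (N : Set Γ) := by
      refine ⟨hxM, ?_⟩
      show x ∈ Subgroup.centralizer (N : Set Γ)
      rw [Subgroup.mem_centralizer_iff]
      intro n hn
      have := hcon ⟨n, hn⟩
      simp only at this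
      rw [mul_inv_eq_iff_eq_mul] at this
      exact this.symm
    rw [hK] at hxc
    exact hx1 hxc
  let σ : MulAut N := MulAut.conjNormal x
  have hσ : ∀ n : N, ((σ n : N) : Γ) = x * n * x⁻¹ := fun n => MulAut.conjNormal_apply x n
  have hσpow : ∀ k, ∀ n : N, (((σ ^ k) n : N) : Γ) = x ^ k * n * (x ^ k)⁻¹ := by
    intro k n
    have : σ ^ k = MulAut.conjNormal (x ^ k) := by
      show (MulAut.conjNormal x) ^ k = _
      rw [map_pow]
    rw [this]
    exact MulAut.conjNormal_apply _ _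
  let f : N →* N := σ.toMonoidHom
  have hfit : ∀ k, ∀ n : N, f^[k] n = (σ ^ k) n := by
    intro k n
    induction k with
    | zero => simp
    | succ k ih =>
      rw [Function.iterate_succ_apply', ih, pow_succ']
      rfl
  have hcount := aut_count (s := s) hrp hpg f (by
    intro n
    rw [hfit]
    apply Subtype.ext
    rw [hσpow, hxp]
    simp)
  refine ⟨(f.eqLocus (MonoidHom.id N)).index, ?_, ?_, hcount⟩
  · have hq1 : (f.eqLocus (MonoidHom.id N)).index ≠ 1 := by
      intro h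
      rw [Subgroup.index_eq_one] at h
      obtain ⟨n, hn⟩ := hxN
      have h3 : n ∈ f.eqLocus (MonoidHom.id N) := by rw [h]; exact Subgroup.mem_top n
      apply hn
      rw [← hσ]
      exact congrArg Subtype.val h3
    obtain ⟨k, hk⟩ := IsPGroup.iff_card.1 hpg
    have hd : (f.eqLocus (MonoidHom.id N)).index ∣ r ^ k := by
      rw [← hk]
      exact Subgroup.index_dvd_card _
    obtain ⟨j, -, hj⟩ := (Nat.dvd_prime_pow hr).1 hd
    have hj0 : j ≠ 0 := by
      rintro rfl
      apply hq1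
      simpa using hj
    exact ⟨r, j, hr.prime, Nat.pos_of_ne_zero hj0, hj.symm⟩
  · rw [hidx]
    exact Subgroup.index_dvd_card _

/-- The condition in Winter's theorem. -/
def Good (p n : ℕ) : Prop :=
  ∃ q : ℕ, IsPrimePow q ∧ q ∣ n ∧
    ((q : ℤ) ≡ -1 [ZMOD p] ∨ (q : ℤ) ≡ 0 [ZMOD p] ∨ (q : ℤ) ≡ 1 [ZMOD p])

theorem not_dvd_of_not_good {p n : ℕ} (hp : p.Prime) (h : ¬ Good p n) : ¬ p ∣ n := by
  intro hd
  apply h
  refine ⟨p, hp.isPrimePow, hd, Or.inr (Or.inl ?_)⟩
  exact (Int.modEq_zero_iff_dvd).2 dvd_rfl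

/-- A subgroup of index dividing the degree is impossible. -/
theorem step_index {G : Type*} [Group G] [Finite G] (hsolv : Group.IsSolvable G) {p n : ℕ}
    [hp : Fact p.Prime] (P : Sylow p G) (hbad : ¬ Good p n)
    (hnoP : ∀ N : Subgroup G, N.Normal → N ≠ ⊤ → ¬ (P : Subgroup G) ≤ N)
    {H : Subgroup G} (hH : H ≠ ⊤) (hdvd : H.index ∣ n) : False := by
  classical
  haveI := hsolv
  obtain ⟨M, hM, hHM⟩ : ∃ M : Subgroup G, IsCoatom M ∧ H ≤ M := by
    rcases eq_top_or_exists_le_coatom H with h | h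
    · exact absurd h hH
    · obtain ⟨M, hM, h⟩ := h
      exact ⟨M, hM, h⟩
  have hMn : M.index ∣ n := (Subgroup.index_dvd_of_le hHM).trans hdvd
  have hpM : ¬ p ∣ M.index := fun h => not_dvd_of_not_good hp.out hbad (h.trans hMn)
  let C := M.normalCore
  haveI hCn : C.Normal := Subgroup.normalCore_normal M
  have hCM : C ≤ M := Subgroup.normalCore_le M
  have hCtop : C ≠ ⊤ := fun h => hM.1 (top_le_iff.1 (h ▸ hCM))
  -- a conjugate of `P` lies in `M`
  obtain ⟨g, hg⟩ : ∃ g : G, ∀ x ∈ (P : Subgroup G), g⁻¹ * x * g ∈ M := by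
    have hcard : ¬ p ∣ Nat.card (G ⧸ M) := hpM
    have hfp := (P.isPGroup').nonempty_fixed_point_of_prime_not_dvd_card (G ⧸ M) hcard
    obtain ⟨c, hc⟩ := hfp
    obtain ⟨g, rfl⟩ := QuotientGroup.mk_surjective c
    refine ⟨g, fun x hx => ?_⟩
    have h1 := hc ⟨x, hx⟩
    have h2 : (((x : G) * g : G) : G ⧸ M) = (g : G ⧸ M) := h1
    have h3 := QuotientGroup.eq.1 h2
    have h4 : (x * g)⁻¹ * g = g⁻¹ * x⁻¹ * g := by group
    rw [h4] at h3
    have h5 := M.inv_mem h3
    simpa [mul_assoc] using h5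
  obtain ⟨x, hxP, hxC⟩ : ∃ x ∈ (P : Subgroup G), x ∉ C := by
    by_contra hcon
    push Not at hcon
    exact hnoP C hCn hCtop hcon
  have hy : g⁻¹ * x * g ∉ C := by
    intro h
    apply hxC
    have := hCn.conj_mem _ h g
    simpa [mul_assoc] using this
  obtain ⟨s, hs⟩ := (IsPGroup.iff_orderOf.1 P.isPGroup') ⟨x, hxP⟩
  have hxs : x ^ (p ^ s) = 1 := by
    have h1 : (⟨x, hxP⟩ : (P : Subgroup G)) ^ (p ^ s) = 1 := by
      rw [← hs]; exact pow_orderOf_eq_one _
    exact congrArg Subtype.val h1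
  -- pass to the quotient
  let Mb : Subgroup (G ⧸ C) := M.map (QuotientGroup.mk' C)
  have hMb : IsCoatom Mb := isCoatom_map_mk' hM hCM
  have hMbi : Mb.index = M.index := index_map_mk' hCM
  have hcoreb : Mb.normalCore = ⊥ := by
    have h1 : (Mb.normalCore).comap (QuotientGroup.mk' C) ≤ C := by
      apply Subgroup.normal_le_normalCore.2
      intro a ha
      have h2 : (a : G ⧸ C) ∈ Mb := Subgroup.normalCore_le Mb ha
      obtain ⟨m, hm, hma⟩ := h2
      have h3 : m⁻¹ * a ∈ C := QuotientGroup.eq.1 hma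
      have := M.mul_mem hm (hCM h3)
      simpa using this
    rw [eq_bot_iff]
    intro a ha
    obtain ⟨b, rfl⟩ := QuotientGroup.mk_surjective a
    have : b ∈ C := h1 ha
    simpa using (QuotientGroup.eq_one_iff b).2 this
  haveI : Group.IsSolvable (G ⧸ C) := inferInstance
  have hgen := prim hMb hcoreb (x := ((g⁻¹ * x * g : G) : G ⧸ C)) (s := s) (p := p)
    ⟨_, hg x hxP, rfl⟩ (by
      intro h
      exact hy ((QuotientGroup.eq_one_iff _).1 h)) (by
      rw [← QuotientGroup.mk_pow]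
      have : (g⁻¹ * x * g) ^ (p ^ s) = 1 := by
        have h1 := conj_pow (a := g⁻¹) (b := x) (i := p ^ s)
        simp only [inv_inv] at h1
        rw [h1, hxs]
        group
      rw [this]
      rfl)
  rw [hMbi] at hgen
  rcases hgen with h | ⟨q, hq, hqd, hq1⟩
  · exact hpM h
  · exact hbad ⟨q, hq, hqd.trans hMn, Or.inr (Or.inr hq1)⟩

end Prim

section Steps

universe u

open Cfsg.Agent.Lib.Char.Ortho Cfsg.Agent.Lib.Char.CliffordCorr Cfsg.Agent.Lib.Char.Clifford
  Cfsg.Agent.Lib.Char.Monomial Cfsg.Agent.Lib.Char.SchurBound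

variable {G : Type u} [Group G]

/-- Degree data of a constituent. -/
theorem constituent_data [Fintype G] {χ : G → ℂ} (hχ : IsIrrCharacter G χ) {n : ℕ} (hn : χ 1 = n)
    (N : Subgroup G) [hN : N.Normal] [Fintype N] {θ : N → ℂ} (hθ : IsIrrCharacter N θ)
    (h : classInner (fun x : N => χ x) θ ≠ 0) {a : ℕ} (ha : θ 1 = a) :
    (inertiaOf N θ).index ∣ n ∧ a ∣ n := by
  obtain ⟨e, he⟩ := exists_nat_classInner (isCharacter_restrict (isCharacter_of_isIrrCharacter hχ) N)
    ⟨θ, hθ⟩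
  have h1 := apply_one_eq N θ (inertiaOf N θ) hθ (mem_inertiaOf N θ) hχ h
  have he' : classInner (fun x : N => χ x) θ = e := he
  rw [hn, he', ha] at h1
  have h2 : n = e * ((inertiaOf N θ).index * a) := by exact_mod_cast h1
  constructor
  · rw [h2]
    exact ⟨e * a, by ring⟩
  · rw [h2]
    exact ⟨e * (inertiaOf N θ).index, by ring⟩

/-- An invariant constituent is the whole restriction. -/
theorem homog [Fintype G] {χ : G → ℂ} (hχ : IsIrrCharacter G χ)
    (N : Subgroup G) [hN : N.Normal] [Fintype N] {θ : N → ℂ} (hθ : IsIrrCharacter N θ)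
    (h : classInner (fun x : N => χ x) θ ≠ 0) (hT : inertiaOf N θ = ⊤) (x : N) :
    χ x = classInner (fun x : N => χ x) θ * θ x := by
  have h1 := res_eq_smul_finsum N hχ hθ h
  have h2 : orbitSet N θ = {θ} := by
    ext ψ
    rw [Set.mem_singleton_iff]
    constructor
    · rintro ⟨g, rfl⟩
      exact (conjFun_eq_self_iff N θ (inertiaOf N θ) (mem_inertiaOf N θ) g).2 (by rw [hT]; trivial)
    · rintro rfl
      exact mem_orbitSet_self N _
  rw [h2, finsum_mem_singleton] at h1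
  have h3 := congrFun h1 x
  simpa using h3

/-- A normal subgroup with a linear invariant constituent is central. -/
theorem le_center_of_linear [Fintype G] {χ : G → ℂ} (hχ : IsIrrCharacter G χ)
    (hfaith : ∀ g, χ g = χ 1 → g = 1)
    (N : Subgroup G) [hN : N.Normal] [Fintype N] {θ : N → ℂ} (hθ : IsIrrCharacter N θ)
    (h : classInner (fun x : N => χ x) θ ≠ 0) (hT : inertiaOf N θ = ⊤) (h1 : θ 1 = 1) :
    N ≤ Subgroup.center G := by
  intro x hx
  rw [Subgroup.mem_center_iff]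
  intro g
  obtain ⟨φ, hφ⟩ := Cfsg.Agent.Lib.Char.LinearChars.exists_hom_of_isCharacter_one
    (isCharacter_of_isIrrCharacter hθ) h1
  have hnorm : ‖θ ⟨x, hx⟩‖ = 1 := by
    rw [hφ]
    exact Cfsg.Agent.Lib.Char.PrimeIndex.norm_hom_eq_one φ _
  have hx1 := homog hχ N hθ h hT ⟨x, hx⟩
  have hone := homog hχ N hθ h hT 1
  rw [h1, mul_one] at hone
  have hone' : χ 1 = classInner (fun x : N => χ x) θ := hone
  have hn1 : ‖χ x‖ = ‖χ 1‖ := by
    have h2 : χ x = classInner (fun x : N => χ x) θ * θ ⟨x, hx⟩ := hx1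
    rw [h2, norm_mul, hnorm, mul_one, hone']
  obtain ⟨n, ρ, -, rfl⟩ := hχ
  have hn2 : ‖ρ.character x‖ = ((Module.finrank ℂ (Fin n → ℂ) : ℕ) : ℝ) := by
    rw [hn1, ρ.char_one]
    simp
  obtain ⟨ω, hω⟩ := (Cfsg.Agent.Lib.Char.Values.norm_character_eq_iff ρ x).1 hn2
  have hcomm : ρ (g * x) = ρ (x * g) := by
    rw [map_mul, map_mul, hω]
    ext v i
    simp
  have hk : ρ (g * x * (x * g)⁻¹) = 1 := by
    have h5 : ρ (g * x * (x * g)⁻¹) = ρ (g * x) * ρ ((x * g)⁻¹) := map_mul _ _ _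
    rw [h5, hcomm, ← map_mul, mul_inv_cancel, map_one]
  have hk2 : g * x * (x * g)⁻¹ = 1 := by
    apply hfaith
    show ρ.character _ = ρ.character _
    simp only [Representation.character, hk, map_one]
  exact mul_inv_eq_one.1 hk2

/-- The kernel of an irreducible character is normal. -/
instance kerI_normal {H : Type*} [Group H] [Finite H] (τ : IrrCharacter H) : (kerI τ).Normal := by
  constructor
  intro x hx g
  rw [mem_kerI] at hx ⊢
  rw [Cfsg.Agent.Lib.Char.CompleteCor.isIrr_classFunction τ.2 x g, hx]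

/-- A normal Sylow subgroup of a quotient contains the images of the `p`-elements. -/
theorem mem_map_of_normal {H : Type*} [Group H] [Finite H] {p : ℕ} [hp : Fact p.Prime] (K : Subgroup H)
    [K.Normal] (hnor : ∀ Q : Sylow p (H ⧸ K), (Q : Subgroup (H ⧸ K)).Normal) (S : Sylow p H)
    {y : H} {k : ℕ} (hy : y ^ (p ^ k) = 1) :
    (y : H ⧸ K) ∈ (S : Subgroup H).map (QuotientGroup.mk' K) := by
  let Sb : Sylow p (H ⧸ K) := S.mapSurjective (QuotientGroup.mk'_surjective K)
  have hb : IsPGroup p (Subgroup.zpowers (y : H ⧸ K)) := by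
    have h1 : (y : H ⧸ K) ^ (p ^ k) = 1 := by rw [← QuotientGroup.mk_pow, hy]; rfl
    have h2 : orderOf (y : H ⧸ K) ∣ p ^ k := orderOf_dvd_of_pow_eq_one h1
    obtain ⟨j, -, hj⟩ := (Nat.dvd_prime_pow hp.out).1 h2
    exact IsPGroup.of_card (n := j) (by rw [Nat.card_zpowers, hj])
  obtain ⟨Q, hQ⟩ := hb.exists_le_sylow
  haveI := Sylow.unique_of_normal Sb (hnor Sb)
  have h2 : Q = Sb := Subsingleton.elim _ _
  have h3 : (y : H ⧸ K) ∈ Q := hQ (Subgroup.mem_zpowers _)
  rw [h2] at h3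
  exact h3

/-- The induction hypothesis of Winter's theorem at the prime `p`. -/
def WinterIH (c p : ℕ) [Fact p.Prime] : Prop :=
  ∀ (H : Type u) [Group H] [Finite H], Nat.card H < c → Group.IsSolvable H →
    ∀ θ : H → ℂ, IsIrrCharacter H θ → (∀ x, θ x = θ 1 → x = 1) → ∀ m : ℕ, θ 1 = m → ¬ Good p m →
      ∀ Q : Sylow p H, (Q : Subgroup H).Normal

theorem not_good_of_dvd {p m n : ℕ} (h : ¬ Good p n) (hd : m ∣ n) : ¬ Good p m := by
  rintro ⟨q, hq, hqd, hh⟩
  exact h ⟨q, hq, hqd.trans hd, hh⟩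

/-- Sylow subgroups of the quotient by the kernel are normal. -/
theorem quot_normal {H : Type u} [Group H] [Finite H] {p c : ℕ} [hp : Fact p.Prime] (τ : IrrCharacter H)
    {m : ℕ} (hm : (τ : H → ℂ) 1 = m) (hb : ¬ Good p m) (hlt : Nat.card H < c)
    (hs : Group.IsSolvable H) (IH : WinterIH.{u} c p) :
    ∀ Q : Sylow p (H ⧸ kerI τ), (Q : Subgroup (H ⧸ kerI τ)).Normal := by
  obtain ⟨ψ, hψ⟩ := Cfsg.Agent.Lib.Blocks.Kernel.exists_irr_of_kernel (N := kerI τ) τ.2 (fun n hn => hn)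
  have hle : Nat.card (H ⧸ kerI τ) ≤ Nat.card H := by
    have := Subgroup.card_mul_index (kerI τ)
    have h2 : 0 < Nat.card (kerI τ) := Nat.card_pos
    have h3 : (kerI τ).index = Nat.card (H ⧸ kerI τ) := rfl
    rw [← h3]
    nlinarith
  have hval : ∀ x : H, (ψ : H ⧸ kerI τ → ℂ) (x : H ⧸ kerI τ) = (τ : H → ℂ) x := by
    intro x
    have := congrFun hψ x
    exact this.symm
  refine IH (H ⧸ kerI τ) (lt_of_le_of_lt hle hlt) inferInstance ψ ψ.2 ?_ m ?_ hb
  · intro x hx
    obtain ⟨y, rfl⟩ := QuotientGroup.mk_surjective x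
    have h1 : (ψ : H ⧸ kerI τ → ℂ) 1 = (τ : H → ℂ) 1 := hval 1
    rw [hval, h1] at hx
    exact (QuotientGroup.eq_one_iff y).2 hx
  · have h1 : (ψ : H ⧸ kerI τ → ℂ) 1 = (τ : H → ℂ) 1 := hval 1
    rw [h1, hm]

/-- **Step 1.** A Sylow subgroup in a proper normal subgroup is normal. -/
theorem step_normal [Fintype G] {p : ℕ} [hp : Fact p.Prime] (hsolv : Group.IsSolvable G)
    {χ : G → ℂ} (hχ : IsIrrCharacter G χ) (hfaith : ∀ g, χ g = χ 1 → g = 1) {n : ℕ} (hn : χ 1 = n)
    (hbad : ¬ Good p n) (P : Sylow p G) (IH : WinterIH.{u} (Nat.card G) p)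
    (N : Subgroup G) [hN : N.Normal] (hNt : N ≠ ⊤) (hPN : (P : Subgroup G) ≤ N) :
    (P : Subgroup G).Normal := by
  classical
  haveI : Fintype N := Fintype.ofFinite N
  haveI : Fintype (IrrCharacter N) := Fintype.ofFinite _
  have hltN : Nat.card N < Nat.card G := by
    have h1 := Subgroup.card_le_card_group N
    refine lt_of_le_of_ne h1 ?_
    intro h
    exact hNt (Subgroup.eq_top_of_card_eq N h)
  have hres : IsCharacter N (fun x : N => χ x) :=
    isCharacter_restrict (isCharacter_of_isIrrCharacter hχ) N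
  let S : Sylow p N := P.subtype hPN
  have hsN : Group.IsSolvable N := inferInstance
  -- normal Sylow subgroups of the quotients
  have hquot : ∀ τ : IrrCharacter N, classInner (fun x : N => χ x) τ ≠ 0 →
      ∀ Q : Sylow p (N ⧸ kerI τ), (Q : Subgroup (N ⧸ kerI τ)).Normal := by
    intro τ hτ
    obtain ⟨a, ha, -, -⟩ := Cfsg.Agent.Lib.Char.GlaubOver.exists_degree_dvd τ.2
    have hd := (constituent_data hχ hn N τ.2 hτ ha).2
    exact quot_normal τ ha (not_good_of_dvd hbad hd) hltN hsN IH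
  let A : IrrCharacter N → Subgroup N := fun τ =>
    ((S : Subgroup N).map (QuotientGroup.mk' (kerI τ))).comap (QuotientGroup.mk' (kerI τ))
  let T : Subgroup N := ⨅ τ : {τ : IrrCharacter N // classInner (fun x : N => χ x) τ ≠ 0}, A τ.1
  have hmemT : ∀ t : N, t ∈ T ↔ ∀ τ : IrrCharacter N, classInner (fun x : N => χ x) τ ≠ 0 → t ∈ A τ := by
    intro t
    simp only [T, Subgroup.mem_iInf, Subtype.forall]
  obtain ⟨a, ha⟩ := IsPGroup.iff_card.1 S.isPGroup'
  -- `T` has exponent dividing `|S|`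
  have hpow : ∀ t ∈ T, t ^ (p ^ a) = 1 := by
    intro t ht
    have h1 : ∀ τ : IrrCharacter N, classInner (fun x : N => χ x) τ ≠ 0 →
        (τ : N → ℂ) (t ^ (p ^ a)) = (τ : N → ℂ) 1 := by
      intro τ hτ
      obtain ⟨u, hu, hut⟩ := (hmemT t).1 ht τ hτ
      have hu1 : u ^ (p ^ a) = 1 := by
        have h2 : (⟨u, hu⟩ : (S : Subgroup N)) ^ (p ^ a) = 1 := by
          rw [← ha]; exact pow_card_eq_one'
        exact congrArg Subtype.val h2
      have h3 : ((t ^ (p ^ a) : N) : N ⧸ kerI τ) = 1 := by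
        rw [QuotientGroup.mk_pow]
        have h4 : (t : N ⧸ kerI τ) = (u : N ⧸ kerI τ) := hut.symm
        rw [h4, ← QuotientGroup.mk_pow, hu1]
        rfl
      exact (QuotientGroup.eq_one_iff _).1 h3
    have h2 := congrFun (decomp_eq_sum_classInner hres) (t ^ (p ^ a))
    have h3 := congrFun (decomp_eq_sum_classInner hres) (1 : N)
    simp only [Finset.sum_apply, Pi.smul_apply, smul_eq_mul] at h2 h3
    have h4 : χ ((t ^ (p ^ a) : N) : G) = χ ((1 : N) : G) := by
      rw [h2, h3]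
      refine Finset.sum_congr rfl fun τ _ => ?_
      by_cases h0 : classInner (fun x : N => χ x) τ = 0
      · rw [h0, zero_mul, zero_mul]
      · rw [h1 τ h0]
    have h5 := hfaith _ h4
    exact Subtype.ext h5
  have hTp : IsPGroup p (T.map N.subtype) := by
    rintro ⟨x, t, ht, rfl⟩
    refine ⟨a, Subtype.ext ?_⟩
    have := hpow t ht
    have h2 := congrArg Subtype.val this
    simpa using h2
  have hPT : (P : Subgroup G) ≤ T.map N.subtype := by
    intro x hx
    refine ⟨⟨x, hPN hx⟩, (hmemT _).2 ?_, rfl⟩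
    intro τ _
    refine ⟨⟨x, hPN hx⟩, ?_, rfl⟩
    show (⟨x, hPN hx⟩ : N) ∈ (P.subtype hPN : Subgroup N)
    rw [Sylow.coe_subtype]
    exact hx
  have hTP : T.map N.subtype = P := P.is_maximal' hTp hPT
  constructor
  intro x hx g
  have hy : g * x * g⁻¹ ∈ N := hN.conj_mem x (hPN hx) g
  obtain ⟨k, hk⟩ := (IsPGroup.iff_orderOf.1 P.isPGroup') ⟨x, hx⟩
  have hxk : x ^ (p ^ k) = 1 := by
    have h1 : (⟨x, hx⟩ : (P : Subgroup G)) ^ (p ^ k) = 1 := by
      rw [← hk]; exact pow_orderOf_eq_one _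
    exact congrArg Subtype.val h1
  have hyk : (⟨g * x * g⁻¹, hy⟩ : N) ^ (p ^ k) = 1 := by
    apply Subtype.ext
    show (g * x * g⁻¹) ^ (p ^ k) = 1
    rw [conj_pow, hxk]
    group
  rw [← hTP]
  refine ⟨⟨g * x * g⁻¹, hy⟩, (hmemT _).2 ?_, rfl⟩
  intro τ hτ
  exact mem_map_of_normal (kerI τ) (hquot τ hτ) S hyk

/-- **Winter's theorem**, contrapositive form. -/
theorem winter_main (p : ℕ) [hp : Fact p.Prime] : ∀ (c : ℕ) (G : Type u) [Group G] [Finite G],
    Nat.card G = c → Group.IsSolvable G → ∀ χ : G → ℂ, IsIrrCharacter G χ →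
    (∀ g, χ g = χ 1 → g = 1) → ∀ n : ℕ, χ 1 = n → ¬ Good p n →
    ∀ P : Sylow p G, (P : Subgroup G).Normal := by
  intro c
  induction c using Nat.strong_induction_on with
  | _ c ih =>
  intro G _ _ hc hsolv χ hχ hfaith n hn hbad P
  classical
  haveI := Fintype.ofFinite G
  have IH : WinterIH.{u} (Nat.card G) p :=
    fun H _ _ hlt hs θ hθ hf m hm hb Q => ih _ (hc ▸ hlt) H rfl hs θ hθ hf m hm hb Q
  by_contra hnot
  have hnoP : ∀ N : Subgroup G, N.Normal → N ≠ ⊤ → ¬ (P : Subgroup G) ≤ N :=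
    fun N hN ht hle => hnot (step_normal hsolv hχ hfaith hn hbad P IH N ht hle)
  have hnoidx : ∀ H : Subgroup G, H ≠ ⊤ → ¬ H.index ∣ n :=
    fun H hH hd => step_index hsolv P hbad hnoP hH hd
  have hinv : ∀ (N : Subgroup G) [N.Normal] [Fintype N] {θ : N → ℂ}, IsIrrCharacter N θ →
      classInner (fun x : N => χ x) θ ≠ 0 → inertiaOf N θ = ⊤ := by
    intro N _ _ θ hθ h
    by_contra hT
    obtain ⟨a, ha, -, -⟩ := Cfsg.Agent.Lib.Char.GlaubOver.exists_degree_dvd hθ
    exact hnoidx _ hT (constituent_data hχ hn N hθ h ha).1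
  have hex : ∀ (N : Subgroup G) [N.Normal] [Fintype N], ∃ θ : N → ℂ, IsIrrCharacter N θ ∧
      classInner (fun x : N => χ x) θ ≠ 0 := by
    intro N _ _
    exact exists_irr_constituent (isCharacter_restrict (isCharacter_of_isIrrCharacter hχ) N)
      (irr_apply_one_ne_zero hχ)
  -- abelian normal subgroups are central
  have hA : ∀ N : Subgroup G, N.Normal → (∀ a ∈ N, ∀ b ∈ N, a * b = b * a) → N ≤ Subgroup.center G := by
    intro N hN hab
    haveI := hN
    haveI : Fintype N := Fintype.ofFinite N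
    obtain ⟨θ, hθ, h⟩ := hex N
    have h1 : θ 1 = 1 := Cfsg.Agent.Lib.Char.LinearBound.irr_apply_one_of_comm
      (fun x y => Subtype.ext (hab x x.2 y y.2)) hθ
    exact le_center_of_linear hχ hfaith N hθ h (hinv N hθ h) h1
  -- `O_p(G)` is central
  have hB : Cfsg.pCore p G ≤ Subgroup.center G := by
    haveI : Fintype (Cfsg.pCore p G) := Fintype.ofFinite _
    obtain ⟨θ, hθ, h⟩ := hex (Cfsg.pCore p G)
    obtain ⟨a, ha, -, had⟩ := Cfsg.Agent.Lib.Char.GlaubOver.exists_degree_dvd hθ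
    have hdn := (constituent_data hχ hn _ hθ h ha).2
    obtain ⟨m, hm⟩ := IsPGroup.iff_card.1 (Cfsg.Agent.Lib.Basic.PCore.pCore_isPGroup (G := G) p)
    rw [hm] at had
    obtain ⟨j, -, hj⟩ := (Nat.dvd_prime_pow hp.out).1 had
    have hj0 : j = 0 := by
      by_contra hj0
      apply not_dvd_of_not_good hp.out hbad
      refine (dvd_pow_self p hj0).trans ?_
      rw [← hj]
      exact hdn
    have h1 : θ 1 = 1 := by
      rw [ha, hj, hj0]
      simp
    exact le_center_of_linear hχ hfaith _ hθ h (hinv _ hθ h) h1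
  -- a `p`-element acting on some `O_r(G)`
  have hC : ∃ y ∈ (P : Subgroup G), ∃ r : ℕ, r.Prime ∧ r ≠ p ∧ ∃ x ∈ Cfsg.pCore r G, y * x ≠ x * y := by
    by_contra hcon
    push Not at hcon
    have hPF : (P : Subgroup G) ≤ Subgroup.centralizer (Cfsg.fittingSubgroup G : Set G) := by
      intro y hy
      rw [Subgroup.mem_centralizer_iff]
      have hF : Cfsg.fittingSubgroup G ≤ Subgroup.centralizer ({y} : Set G) := by
        rw [Cfsg.Agent.Lib.Basic.PCore.fittingSubgroup_eq_iSup_pCore]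
        refine iSup_le fun q => ?_
        intro x hx
        rw [Subgroup.mem_centralizer_iff]
        rintro _ rfl
        have hq : (q : ℕ).Prime := Nat.prime_of_mem_primeFactors q.2
        by_cases hqp : (q : ℕ) = p
        · have hx' : x ∈ Cfsg.pCore p G := hqp ▸ hx
          exact (Subgroup.mem_center_iff.1 (hB hx') _)
        · exact hcon _ hy q hq hqp x hx
      intro f hf
      have := Subgroup.mem_centralizer_iff.1 (hF hf) _ rfl
      exact this.symm
    have hle : Subgroup.centralizer (Cfsg.fittingSubgroup G : Set G) ≤ Cfsg.fittingSubgroup G := by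
      haveI : (Cfsg.fittingSubgroup G).Normal := Cfsg.Agent.Lib.Basic.PCore.fittingSubgroup_normal G
      refine Cfsg.Agent.Lib.Components.Fitting.le_fitting_of_solvable_of_le_centralizer _ le_rfl ?_ inferInstance
      haveI : (Subgroup.centralizer (Cfsg.fittingSubgroup G : Set G)).Normal := Subgroup.normal_centralizer
      rw [Subgroup.normalizer_eq_top_iff.2 this]
      exact le_top
    have hPc : (P : Subgroup G) ≤ Subgroup.center G := by
      intro x hx
      obtain ⟨k, hk⟩ := (IsPGroup.iff_orderOf.1 P.isPGroup') ⟨x, hx⟩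
      have hk' : orderOf x = p ^ k := by
        rw [← hk]
        exact (Subgroup.orderOf_mk x hx).symm
      exact hB (Cfsg.Agent.Lib.Nilpotent.Sqf.mem_pCore_of_mem_fitting (hle (hPF hx)) hk')
    apply hnot
    constructor
    intro x hx g
    have := Subgroup.mem_center_iff.1 (hPc hx) g
    rw [this]
    simpa using hx
  obtain ⟨y, hyP, r, hr, hrp, x₀, hx₀, hyx₀⟩ := hC
  haveI hrf : Fact r.Prime := ⟨hr⟩
  obtain ⟨s, hs⟩ := (IsPGroup.iff_orderOf.1 P.isPGroup') ⟨y, hyP⟩
  have hys : y ^ (p ^ s) = 1 := by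
    have h1 : (⟨y, hyP⟩ : (P : Subgroup G)) ^ (p ^ s) = 1 := by
      rw [← hs]; exact pow_orderOf_eq_one _
    exact congrArg Subtype.val h1
  let Q : Subgroup G := Cfsg.pCore r G
  haveI hQn : Q.Normal := Cfsg.Agent.Lib.Basic.PCore.pCore_normal r G
  have hQp : IsPGroup r Q := Cfsg.Agent.Lib.Basic.PCore.pCore_isPGroup (G := G) r
  obtain ⟨H, hchar, h1, h2, h3⟩ := Cfsg.Agent.Lib.PGroup.Critical.exists_critical (P := Q) hQp
  haveI := hchar
  let τ : MulAut Q := MulAut.conjNormal y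
  have hτpow : τ ^ (p ^ s) = 1 := by
    show (MulAut.conjNormal y : MulAut Q) ^ (p ^ s) = 1
    rw [← map_pow, hys, map_one]
  have hτ : ∃ h ∈ H, τ h ≠ h := by
    by_contra hcon
    push Not at hcon
    have hord : Nat.Coprime (orderOf τ) r := by
      have hd := orderOf_dvd_of_pow_eq_one hτpow
      obtain ⟨j, -, hj⟩ := (Nat.dvd_prime_pow hp.out).1 hd
      rw [hj]
      exact Nat.Coprime.pow_left _ ((Nat.coprime_primes hp.out hr).2 hrp.symm)
    have h4 := Cfsg.Agent.S0121.result hQp H hchar h1 h2 h3 τ hord hcon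
    apply hyx₀
    have h5 : τ ⟨x₀, hx₀⟩ = ⟨x₀, hx₀⟩ := by rw [h4]; rfl
    have h6 : y * x₀ * y⁻¹ = x₀ := congrArg Subtype.val h5
    rw [mul_inv_eq_iff_eq_mul] at h6
    exact h6
  obtain ⟨h₀, hh₀, hτh₀⟩ := hτ
  let C : Subgroup G := H.map Q.subtype
  haveI hCn : C.Normal := inferInstance
  haveI : Fintype C := Fintype.ofFinite C
  have hCp : IsPGroup r C := (hQp.to_subgroup H).map Q.subtype
  -- class two
  have hcl : ∀ a b : C, ⁅a, b⁆ ∈ Subgroup.center C := by
    rintro ⟨_, a, ha, rfl⟩ ⟨_, b, hb, rfl⟩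
    have hk := h2 (Subgroup.commutator_mem_commutator ha (Subgroup.mem_top b))
    rw [Subgroup.mem_center_iff]
    rintro ⟨_, g, hg, rfl⟩
    apply Subtype.ext
    have h5 := Subgroup.mem_centralizer_iff.1 hk.2 g hg
    have h6 : ((g * ⁅a, b⁆ : Q) : G) = ((⁅a, b⁆ * g : Q) : G) := congrArg Subtype.val h5
    exact h6
  -- the centre of `C` is central
  let Z : Subgroup G := (Subgroup.center C).map C.subtype
  haveI hZn : Z.Normal := inferInstance
  have hZc : Z ≤ Subgroup.center G := by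
    refine hA Z hZn ?_
    rintro _ ⟨a, ha, rfl⟩ _ ⟨b, hb, rfl⟩
    have := Subgroup.mem_center_iff.1 ha b
    exact (congrArg Subtype.val this).symm
  let σ : MulAut C := MulAut.conjNormal y
  have hσval : ∀ c : C, ((σ c : C) : G) = y * c * y⁻¹ := fun c => MulAut.conjNormal_apply y c
  have hσpow : σ ^ (p ^ s) = 1 := by
    show (MulAut.conjNormal y : MulAut C) ^ (p ^ s) = 1
    rw [← map_pow, hys, map_one]
  have hfix : ∀ z ∈ Subgroup.center C, σ z = z := by
    intro z hz
    apply Subtype.ext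
    rw [hσval]
    have h5 : (z : G) ∈ Z := ⟨z, hz, rfl⟩
    have h6 := Subgroup.mem_center_iff.1 (hZc h5) y
    rw [h6]
    group
  have hσne : σ ≠ 1 := by
    intro he
    apply hτh₀
    let c : C := ⟨(h₀ : G), h₀, hh₀, rfl⟩
    have h5 : σ c = c := by rw [he]; rfl
    have h6 := congrArg Subtype.val h5
    rw [hσval] at h6
    apply Subtype.ext
    exact h6
  obtain ⟨θ, hθ, hθne⟩ := hex C
  have hTC := hinv C hθ hθne
  obtain ⟨a, ha, -, -⟩ := Cfsg.Agent.Lib.Char.GlaubOver.exists_degree_dvd hθ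
  have had := (constituent_data hχ hn C hθ hθne ha).2
  have hθf : ∀ x, θ x = θ 1 → x = 1 := by
    intro x hx
    have h5 := homog hχ C hθ hθne hTC x
    have h6 := homog hχ C hθ hθne hTC 1
    rw [hx, ← h6] at h5
    exact Subtype.ext (hfaith _ h5)
  obtain ⟨q, hq, hqd, hqc⟩ := symp hrp hCp σ hσpow hσne hfix hcl hθ hθf ha
  apply hbad
  refine ⟨q, hq, hqd.trans had, ?_⟩
  rcases hqc with h | h
  · exact Or.inr (Or.inr h)
  · exact Or.inl h

end Steps

end Cfsg.Agent.Lib.Char.Winter
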