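import Mathlib
import Cfsg.Agent.Lib.Char.CoprimeCount
import Cfsg.Agent.Lib.Char.GalFix
import Cfsg.Agent.Lib.Char.Codegree
import Cfsg.Agent.Lib.Char.GaloisC
import Cfsg.Agent.Lib.Char.Values

/-!
# The canonical extension over a normal Hall subgroup

For `N` a normal Hall subgroup of `G` and `ϑ ∈ Irr(N)` invariant in `G`:

* `exists_canon`: `ϑ` has an extension `χ` with `(det χ) ^ |N| = 1`.
* `canon_unique`: this extension is unique.
* `canon_twist`: `χ (g ^ k) = χ g` for `k ≡ 1` modulo `|N|` prime to `|G|`.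
* `canon_central`: `χ x = χ 1` for `x` of order prime to `|N|` centralizing `N`.
-/

set_option autoImplicit false
set_option linter.style.haveILetI false

namespace Cfsg.Agent.Lib.Char.WinterCanon

open Cfsg Module Cfsg.Agent.Lib.Char.Basic Cfsg.Agent.Lib.Char.DetExt Cfsg.Agent.Lib.Char.DetExt2
  Cfsg.Agent.Lib.Char.Ortho Cfsg.Agent.Lib.Char.Induced Cfsg.Agent.Lib.Char.IndRep
  Cfsg.Agent.Lib.Char.Clifford Cfsg.Agent.Lib.Char.CliffordCorr Cfsg.Agent.Lib.Char.Monomial
  Cfsg.Agent.Lib.Char.LinearChars Cfsg.Agent.Lib.Char.PResChars Cfsg.Agent.Lib.Char.CoprimeCount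
  Cfsg.Agent.Lib.Char.Galois Cfsg.Agent.Lib.Char.GalFix

universe u

variable {G : Type u} [Group G] [Finite G] (N : Subgroup G) [hN : N.Normal]

theorem exists_canon (hcop : Nat.Coprime (Nat.card N) N.index) {ϑ : N → ℂ} (hϑ : IsIrrCharacter N ϑ)
    (hinv : ∀ (g : G) (n : N), ϑ ⟨g * n * g⁻¹, hN.conj_mem (n : G) n.2 g⟩ = ϑ n) :
    ∃ χ : G → ℂ, IsIrrCharacter G χ ∧ (∀ n : N, χ n = ϑ n) ∧ ∀ g, detChar χ g ^ Nat.card N = 1 := by
  have hc := isCharacter_of_isIrrCharacter hϑ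
  obtain ⟨l, hl⟩ := exists_hom_detChar hc
  have hlinv : ∀ (g : G) (n : N), l ⟨g * n * g⁻¹, hN.conj_mem (n : G) n.2 g⟩ = l n := by
    intro g n
    apply Units.ext
    rw [← hl, ← hl]
    exact detChar_inv N hc hinv g n
  have hord : orderOf l ∣ Nat.card N := by
    apply orderOf_dvd_of_pow_eq_one
    ext n
    simp [← map_pow, pow_card_eq_one']
  have hcop1 : Nat.Coprime (orderOf l) N.index := Nat.Coprime.coprime_dvd_left hord hcop
  obtain ⟨μ, hμ, hμo⟩ := exists_ext_hom N l hlinv hcop1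
  obtain ⟨d, hd, -, hdvd⟩ := Cfsg.Agent.Lib.Char.GlaubOver.exists_degree_dvd hϑ
  have hcop2 : Nat.Coprime N.index d := (Nat.Coprime.coprime_dvd_left hdvd hcop).symm
  have hμc : IsCharacter G (fun g => ((μ g : ℂˣ) : ℂ)) :=
    isCharacter_of_isIrrCharacter (isIrr_of_hom μ)
  have hμN : ∀ n : N, (fun g => ((μ g : ℂˣ) : ℂ)) (n : G) = detChar ϑ n := by
    intro n
    show ((μ n : ℂˣ) : ℂ) = _
    rw [hμ n, hl]
  obtain ⟨χ₀, hχ₀, hχ₀N⟩ := exists_ext_of_coprime N hcop hϑ hinv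
  obtain ⟨χ, ⟨h1, h2, h3⟩, -⟩ := existsUnique_ext_det N ϑ hϑ d hd hcop2 ⟨χ₀, hχ₀, hχ₀N⟩ _
    ⟨hμc, by simp⟩ hμN
  refine ⟨χ, h1, h2, fun g => ?_⟩
  rw [h3]
  have h4 : μ ^ Nat.card N = 1 := orderOf_dvd_iff_pow_eq_one.mp (hμo.symm ▸ hord)
  have h5 := congrArg (fun F : G →* ℂˣ => ((F g : ℂˣ) : ℂ)) h4
  simpa using h5

theorem canon_unique (hcop : Nat.Coprime (Nat.card N) N.index) {χ χ' : G → ℂ}
    (hχ : IsIrrCharacter G χ) (hχ' : IsIrrCharacter G χ')
    (hirr : IsIrrCharacter N (fun n : N => χ n)) (hres : ∀ n : N, χ' n = χ n)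
    (hdet : ∀ g, detChar χ g ^ Nat.card N = 1) (hdet' : ∀ g, detChar χ' g ^ Nat.card N = 1) :
    χ' = χ := by
  have hc := isCharacter_of_isIrrCharacter hχ
  have hc' := isCharacter_of_isIrrCharacter hχ'
  have hdeteq : detChar χ' = detChar χ := by
    obtain ⟨φ, hφ⟩ := exists_hom_detChar hc
    obtain ⟨φ', hφ'⟩ := exists_hom_detChar hc'
    have hN' : ∀ n : N, φ' n = φ n := by
      intro n
      apply Units.ext
      rw [← hφ, ← hφ', detChar_res N hc, detChar_res N hc']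
      congr 1
      funext m
      exact hres m
    funext g
    rw [hφ, hφ']
    congr 1
    -- the ratio
    set r := φ' g / φ g with hr
    have h1 : r ^ Nat.card N = 1 := by
      have h2 : φ' g ^ Nat.card N = 1 := by
        apply Units.ext
        have := hdet' g
        rw [hφ'] at this
        simpa using this
      have h3 : φ g ^ Nat.card N = 1 := by
        apply Units.ext
        have := hdet g
        rw [hφ] at this
        simpa using this
      rw [hr, div_pow, h2, h3, one_div_one]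
    have h2 : r ^ N.index = 1 := by
      have hmem : g ^ N.index ∈ N := Subgroup.pow_index_mem N g
      have h3 := hN' ⟨_, hmem⟩
      simp only [map_pow] at h3
      rw [hr, div_pow, h3, div_self']
    have h3 : r = 1 := by
      have h4 : orderOf r ∣ Nat.gcd (Nat.card N) N.index :=
        Nat.dvd_gcd (orderOf_dvd_of_pow_eq_one h1) (orderOf_dvd_of_pow_eq_one h2)
      rw [hcop] at h4
      exact orderOf_eq_one_iff.mp (Nat.dvd_one.mp h4)
    rw [hr] at h3
    exact div_eq_one.mp h3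
  obtain ⟨d, hd, -, hdvd⟩ := Cfsg.Agent.Lib.Char.GlaubOver.exists_degree_dvd hirr
  have hcop2 : Nat.Coprime N.index d := (Nat.Coprime.coprime_dvd_left hdvd hcop).symm
  have hμ : IsCharacter G (detChar χ) ∧ detChar χ 1 = 1 := detChar_isCharacter hc
  have hμN : ∀ n : N, detChar χ n = detChar (fun n : N => χ n) n := fun n => detChar_res N hc n
  obtain ⟨χ₀, -, huniq⟩ := existsUnique_ext_det N (fun n : N => χ n) hirr d hd hcop2 ⟨χ, hχ, fun _ => rfl⟩
    (detChar χ) hμ hμN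
  rw [huniq χ ⟨hχ, fun _ => rfl, rfl⟩, huniq χ' ⟨hχ', hres, hdeteq⟩]

theorem canon_twist (hcop : Nat.Coprime (Nat.card N) N.index) {χ : G → ℂ} (hχ : IsIrrCharacter G χ)
    (hirr : IsIrrCharacter N (fun n : N => χ n)) (hdet : ∀ g, detChar χ g ^ Nat.card N = 1) {k : ℕ}
    (hk : k.Coprime (Nat.card G)) (hk1 : k ≡ 1 [MOD Nat.card N]) (g : G) : χ (g ^ k) = χ g := by
  have hres : ∀ n : N, (fun g => χ (g ^ k)) (n : G) = χ n := by
    intro n
    have h1 : n ^ k = n := by
      rw [← pow_one n]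
      conv_rhs => rw [pow_one]
      have := pow_congr_of_modEq (x := n) (n := Nat.card N) (pow_card_eq_one') hk1
      simpa using this
    show χ ((n : G) ^ k) = χ n
    have h2 : (n : G) ^ k = n := by
      have := congrArg (Subtype.val) h1
      simpa using this
    rw [h2]
  have hχ' : IsIrrCharacter G (fun g => χ (g ^ k)) := isIrrCharacter_pow_of_coprime hχ hk
  have hdet' : ∀ g, detChar (fun g => χ (g ^ k)) g ^ Nat.card N = 1 := by
    intro g
    obtain ⟨m, ρ, hρ, rfl⟩ := hχ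
    obtain ⟨τ, hτ⟩ := exists_ringHom_pow (Nat.card G) Nat.card_pos k hk
    have h1 : (fun g => ρ.character (g ^ k)) = (twist τ ρ).character := by
      funext g
      rw [character_twist]
      exact (map_character τ Nat.card_pos hτ ρ g (pow_card_eq_one')).symm
    rw [h1, detChar_character]
    have h2 : LinearMap.det ((twist τ ρ) g) = τ (LinearMap.det (ρ g)) := det_twistEnd τ (ρ g)
    rw [h2, ← map_pow]
    have h3 := hdet g
    rw [detChar_character] at h3
    rw [h3, map_one]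
  have := canon_unique N hcop hχ hχ' hirr hres hdet hdet'
  exact congrFun this g

theorem canon_central {χ : G → ℂ} (hχ : IsIrrCharacter G χ)
    (hirr : IsIrrCharacter N (fun n : N => χ n)) (hdet : ∀ g, detChar χ g ^ Nat.card N = 1) {x : G}
    (hx : ∀ n ∈ N, x * n = n * x) (hord : Nat.Coprime (orderOf x) (Nat.card N)) : χ x = χ 1 := by
  classical
  obtain ⟨m, ρ, hρ, rfl⟩ := hχ
  haveI := hρ
  haveI := Fintype.ofFinite N
  -- the restriction is irreducible
  let σ : Representation ℂ N (Fin m → ℂ) := ρ.comp N.subtype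
  have hσ : σ.IsIrreducible := by
    apply isIrreducible_of_norm_one
    obtain ⟨m', σ', hσ', hσ'c⟩ := hirr
    haveI := hσ'
    have h1 : σ.character = σ'.character := by rw [hσ'c]; rfl
    rw [h1]
    exact norm_one_of_isIrreducible σ'
  obtain ⟨c, hc⟩ := Cfsg.Agent.Lib.Char.Integrality.exists_smul_id_of_commute σ (ρ x) (by
    intro n
    refine LinearMap.ext fun v => ?_
    show ρ x (ρ n v) = ρ n (ρ x v)
    have h1 : ρ x * ρ n = ρ n * ρ x := by
      rw [← map_mul, ← map_mul, hx n n.2]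
    exact congrArg (fun F : Module.End ℂ _ => F v) h1)
  have hfr : finrank ℂ (Fin m → ℂ) = m := by simp
  have hmdvd : m ∣ Nat.card N := by
    obtain ⟨d, hd, -, hdvd⟩ := Cfsg.Agent.Lib.Char.GlaubOver.exists_degree_dvd hirr
    have h1 : ρ.character ((1 : N) : G) = (m : ℂ) := by simp [Representation.character]
    have h2 : ρ.character ((1 : N) : G) = (d : ℂ) := hd
    have h3 : (m : ℂ) = d := h1.symm.trans h2
    have h4 : m = d := by exact_mod_cast h3
    rwa [h4]
  -- determinant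
  have hdetx : LinearMap.det (ρ x) = c ^ m := by
    rw [hc, LinearMap.det_smul, hfr]
    simp
  have hxo : x ^ orderOf x = 1 := pow_orderOf_eq_one x
  have hpo : (ρ x) ^ orderOf x = 1 := by rw [← map_pow, hxo, map_one]
  have hco : c ^ orderOf x = 1 := by
    rw [hc] at hpo
    have hm : 0 < m := Nat.pos_of_ne_zero (by
      rintro rfl
      have h1 := Cfsg.Agent.Lib.Char.Integrality.nontrivial_of_isIrreducible ρ
      exact not_nontrivial _ h1)
    have h0 : (Fin m → ℂ) := fun _ => 1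
    have h2 := congrArg (fun F : Module.End ℂ (Fin m → ℂ) => F (fun _ => 1)) hpo
    have h3 : (c • (LinearMap.id : (Fin m → ℂ) →ₗ[ℂ] (Fin m → ℂ))) ^ orderOf x = c ^ orderOf x • (1 : Module.End ℂ (Fin m → ℂ)) := by
      rw [smul_pow]
      congr 1
      exact one_pow _
    rw [h3] at h2
    have h4 := congrFun h2 ⟨0, hm⟩
    simpa using h4
  have hd1 : c ^ m = 1 := by
    have h3 := hdet x
    rw [detChar_character, hdetx] at h3
    have h4 : (c ^ m) ^ orderOf x = 1 := by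
      rw [← pow_mul, mul_comm, pow_mul, hco, one_pow]
    have h5 : Nat.gcd (orderOf x) (Nat.card N) = 1 := hord
    have h6 : (c ^ m) ^ Nat.gcd (orderOf x) (Nat.card N) = 1 := pow_gcd_eq_one.mpr ⟨h4, h3⟩
    rwa [h5, pow_one] at h6
  have hc1 : c = 1 := by
    have h1 : Nat.gcd (orderOf x) m = 1 := Nat.Coprime.coprime_dvd_right hmdvd hord
    have h2 : c ^ Nat.gcd (orderOf x) m = 1 := pow_gcd_eq_one.mpr ⟨hco, hd1⟩
    rwa [h1, pow_one] at h2
  have hρx : ρ x = 1 := by
    rw [hc, hc1, one_smul]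
    rfl
  have h1 : ρ 1 = 1 := map_one ρ
  show LinearMap.trace ℂ _ (ρ x) = LinearMap.trace ℂ _ (ρ 1)
  rw [hρx, h1]


/-- The irreducible case: the canonically extended character induced from the inertia group. -/
theorem core_irr (hcop : Nat.Coprime (Nat.card N) N.index) {ψ : G → ℂ} (hψ : IsIrrCharacter G ψ) :
    ∃ ψ' : G → ℂ, IsCharacter G ψ' ∧ (∃ e : ℕ, 0 < e ∧ ∀ n ∈ N, ψ n = e * ψ' n) ∧
      (∀ k : ℕ, k.Coprime (Nat.card G) → k ≡ 1 [MOD Nat.card N] → ∀ x, ψ' (x ^ k) = ψ' x) ∧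
      (∀ x : G, (∀ n ∈ N, x * n = n * x) → Nat.Coprime (orderOf x) (Nat.card N) → ψ' x = ψ' 1) := by
  classical
  letI : Fintype G := Fintype.ofFinite G
  letI : Fintype N := Fintype.ofFinite N
  have hψc := isCharacter_of_isIrrCharacter hψ
  have hres := isCharacter_restrict hψc N
  have hres1 : (fun n : N => ψ n) 1 ≠ 0 := by
    show ψ 1 ≠ 0
    exact irr_apply_one_ne_zero hψ
  obtain ⟨ϑ, hϑ, hin⟩ := exists_irr_constituent hres hres1
  set I : Subgroup G := inertiaOf N ϑ with hIdef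
  letI : Fintype I := Fintype.ofFinite I
  have hI := mem_inertiaOf N ϑ
  have hϑcl := isClassFunction_of_isCharacter (isCharacter_of_isIrrCharacter hϑ)
  have hNI : N ≤ I := by
    intro g hg
    rw [hIdef, hI]
    intro n
    exact hϑcl n ⟨g, hg⟩
  obtain ⟨η, hη, hind, hinner⟩ := exists_indFun_eq N ϑ I hNI hϑ hI hψ hin
  have hsm := res_eq_smul_of_inertia N ϑ I hNI hϑ hI hη (by rw [hinner]; exact hin)
  obtain ⟨e, he⟩ := exists_nat_classInner hres ⟨ϑ, hϑ⟩
  have he' : classInner (fun n : N => ψ n) ϑ = e := he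
  have hepos : 0 < e := by
    rcases Nat.eq_zero_or_pos e with h0 | h0
    · exfalso
      apply hin
      rw [he', h0]
      simp
    · exact h0
  have hηN : ∀ (y : G) (hy : y ∈ N), η ⟨y, hNI hy⟩ = (e : ℂ) * ϑ ⟨y, hy⟩ := by
    intro y hy
    have h1 := congrFun hsm ⟨y, hy⟩
    simp only [Pi.smul_apply, smul_eq_mul] at h1
    rw [hinner, he'] at h1
    exact h1
  -- the canonical extension
  let N' : Subgroup I := N.subgroupOf I
  haveI hN' : N'.Normal := Subgroup.Normal.subgroupOf hN I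
  let E : N' ≃* N := Subgroup.subgroupOfEquivOfLe hNI
  let ϑ' : N' → ℂ := fun x => ϑ (E x)
  have hϑ' : IsIrrCharacter N' ϑ' := isIrrCharacter_comp_surjective hϑ E.toMonoidHom E.surjective
  have hinv' : ∀ (g : I) (n : N'), ϑ' ⟨g * n * g⁻¹, hN'.conj_mem (n : I) n.2 g⟩ = ϑ' n := by
    intro g n
    exact (hI g.1).mp g.2 (E n)
  have hcardN' : Nat.card N' = Nat.card N := Nat.card_congr E.toEquiv
  have hcop' : Nat.Coprime (Nat.card N') N'.index := by
    rw [hcardN']
    have h1 : N'.index ∣ N.index := by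
      have h2 : N.relIndex I * I.index = N.index := Subgroup.relIndex_mul_index hNI
      exact Dvd.intro _ h2
    exact Nat.Coprime.coprime_dvd_right h1 hcop
  obtain ⟨ϑh, hϑh, hϑhN, hϑhdet⟩ := exists_canon N' hcop' hϑ' hinv'
  have hirrres : IsIrrCharacter N' (fun n : N' => ϑh n) := by
    have : (fun n : N' => ϑh n) = ϑ' := funext hϑhN
    rw [this]
    exact hϑ'
  have hϑhval : ∀ (y : G) (hy : y ∈ N), ϑh ⟨y, hNI hy⟩ = ϑ ⟨y, hy⟩ := by
    intro y hy
    exact hϑhN ⟨⟨y, hNI hy⟩, hy⟩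
  refine ⟨indFun I ϑh, isCharacter_indFun I (isCharacter_of_isIrrCharacter hϑh), ⟨e, hepos, ?_⟩, ?_, ?_⟩
  · intro n hn
    rw [← hind, indFun_apply, indFun_apply, mul_left_comm]
    congr 1
    rw [Finset.mul_sum]
    refine Finset.sum_congr rfl fun x _ => ?_
    have hy : x⁻¹ * n * x ∈ N := by
      have := hN.conj_mem n hn x⁻¹
      simpa using this
    rw [extendByZero_of_mem I η (hNI hy), extendByZero_of_mem I ϑh (hNI hy), hηN _ hy, hϑhval _ hy]
  · intro k hk hk1 x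
    have hkI : k.Coprime (Nat.card I) :=
      Nat.Coprime.coprime_dvd_right (Subgroup.card_subgroup_dvd_card I) hk
    rw [indFun_apply, indFun_apply]
    congr 1
    refine Finset.sum_congr rfl fun t _ => ?_
    have h1 : t⁻¹ * x ^ k * t = (t⁻¹ * x * t) ^ k := by
      have := conj_pow (a := t⁻¹) (b := x) (i := k)
      simpa using this.symm
    rw [h1]
    set y := t⁻¹ * x * t with hy
    by_cases hyI : y ∈ I
    · rw [extendByZero_of_mem I ϑh hyI, extendByZero_of_mem I ϑh (I.pow_mem hyI k)]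
      have := canon_twist N' hcop' hϑh hirrres hϑhdet hkI (by rw [hcardN']; exact hk1) ⟨y, hyI⟩
      exact this
    · have hyk : y ^ k ∉ I := fun h => hyI ((Cfsg.Agent.Lib.Char.GaloisC.pow_mem_iff_of_coprime I hk y).mp h)
      rw [extendByZero_of_notMem I ϑh hyI, extendByZero_of_notMem I ϑh hyk]
  · intro x hx hord
    rw [indFun_apply, indFun_apply]
    congr 1
    refine Finset.sum_congr rfl fun t _ => ?_
    have h1 : t⁻¹ * 1 * t = 1 := by group
    rw [h1]
    set y := t⁻¹ * x * t with hy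
    have hyc : ∀ n ∈ N, y * n = n * y := by
      intro n hn
      have h2 : t * n * t⁻¹ ∈ N := hN.conj_mem n hn t
      have h3 := hx _ h2
      rw [hy]
      have h4 : t⁻¹ * x * t * n = t⁻¹ * (x * (t * n * t⁻¹)) * t := by group
      have h5 : n * (t⁻¹ * x * t) = t⁻¹ * ((t * n * t⁻¹) * x) * t := by group
      rw [h4, h5, h3]
    have hyI : y ∈ I := by
      rw [hIdef, hI]
      intro n
      congr 1
      apply Subtype.ext
      show y * n * y⁻¹ = n
      rw [hyc n n.2]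
      group
    have hyo : orderOf y = orderOf x := by
      have h6 : y = MulAut.conj t⁻¹ x := by simp [hy, MulAut.conj_apply]
      rw [h6, MulEquiv.orderOf_eq]
    rw [extendByZero_of_mem I ϑh hyI, extendByZero_of_mem I ϑh (I.one_mem)]
    have hcom : ∀ n ∈ N', (⟨y, hyI⟩ : I) * n = n * ⟨y, hyI⟩ := by
      intro n hn
      apply Subtype.ext
      exact hyc n.1 hn
    have hordy : Nat.Coprime (orderOf (⟨y, hyI⟩ : I)) (Nat.card N') := by
      rw [hcardN', Subgroup.orderOf_mk, hyo]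
      exact hord
    exact canon_central N' hϑh hirrres hϑhdet hcom hordy


omit [Finite G] in
theorem eq_of_re_eq_of_norm_le {z : ℂ} {r : ℝ} (h1 : z.re = r) (h2 : ‖z‖ ≤ r) : z = r := by
  have hr : 0 ≤ r := (norm_nonneg z).trans h2
  have h3 : ‖z‖ ^ 2 ≤ r ^ 2 := pow_le_pow_left₀ (norm_nonneg z) h2 2
  rw [Complex.sq_norm, Complex.normSq_apply, h1] at h3
  have h4 : z.im = 0 := by nlinarith [mul_self_nonneg z.im]
  apply Complex.ext
  · simpa using h1
  · simpa using h4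

theorem add_eq_apply_one {α β : G → ℂ} (hα : IsCharacter G α) (hβ : IsCharacter G β) {g : G}
    (h : α g + β g = α 1 + β 1) : α g = α 1 ∧ β g = β 1 := by
  obtain ⟨a, ha⟩ := exists_nat_apply_one hα
  obtain ⟨b, hb⟩ := exists_nat_apply_one hβ
  have h1 := Cfsg.Agent.Lib.Char.Values.IsCharacter.norm_le hα g
  have h2 := Cfsg.Agent.Lib.Char.Values.IsCharacter.norm_le hβ g
  rw [ha] at h1 h
  rw [hb] at h2 h
  simp only [Complex.norm_natCast] at h1 h2
  have h3 : (α g).re ≤ a := (Complex.re_le_norm _).trans h1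
  have h4 : (β g).re ≤ b := (Complex.re_le_norm _).trans h2
  have h5 := congrArg Complex.re h
  simp only [Complex.add_re, Complex.natCast_re] at h5
  have h6 : (α g).re = a := by linarith
  have h7 : (β g).re = b := by linarith
  rw [ha, hb]
  exact ⟨by simpa using eq_of_re_eq_of_norm_le h6 h1, by simpa using eq_of_re_eq_of_norm_le h7 h2⟩

/-- The general case, by adding up the irreducible constituents. -/
theorem core_char (hcop : Nat.Coprime (Nat.card N) N.index) {χ : G → ℂ} (hχ : IsCharacter G χ) :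
    ∃ χ' : G → ℂ, IsCharacter G χ' ∧ (∃ a b : ℕ, χ' 1 = a ∧ χ 1 = b ∧ a ≤ b) ∧
      (∀ n ∈ N, χ' n = χ' 1 → χ n = χ 1) ∧
      (∀ k : ℕ, k.Coprime (Nat.card G) → k ≡ 1 [MOD Nat.card N] → ∀ x, χ' (x ^ k) = χ' x) := by
  refine isCharacter_induction_on_irr (P := fun χ => ∃ χ' : G → ℂ, IsCharacter G χ' ∧
      (∃ a b : ℕ, χ' 1 = a ∧ χ 1 = b ∧ a ≤ b) ∧
      (∀ n ∈ N, χ' n = χ' 1 → χ n = χ 1) ∧
      (∀ k : ℕ, k.Coprime (Nat.card G) → k ≡ 1 [MOD Nat.card N] → ∀ x, χ' (x ^ k) = χ' x)) ?_ ?_ ?_ hχ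
  · exact ⟨0, isCharacter_zero, ⟨0, 0, by simp, by simp, le_rfl⟩, fun _ _ _ => rfl, fun _ _ _ _ => rfl⟩
  · intro ψ hψ
    obtain ⟨ψ', hψ', ⟨e, he, hrel⟩, htw, -⟩ := core_irr N hcop hψ
    obtain ⟨a, ha⟩ := exists_nat_apply_one hψ'
    have h1 := hrel 1 N.one_mem
    refine ⟨ψ', hψ', ⟨a, e * a, ha, by rw [h1, ha]; push_cast; ring, Nat.le_mul_of_pos_left _ he⟩,
      fun n hn h => ?_, htw⟩
    rw [hrel n hn, h, ← h1]
  · rintro χ₁ χ₂ hχ₁ hχ₂ ⟨χ₁', h₁, ⟨a₁, b₁, h₁a, h₁b, h₁le⟩, h₁k, h₁t⟩ ⟨χ₂', h₂, ⟨a₂, b₂, h₂a, h₂b, h₂le⟩, h₂k, h₂t⟩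
    refine ⟨χ₁' + χ₂', isCharacter_add h₁ h₂, ⟨a₁ + a₂, b₁ + b₂, ?_, ?_, by omega⟩, ?_, ?_⟩
    · simp [h₁a, h₂a]
    · simp [h₁b, h₂b]
    · intro n hn h
      obtain ⟨h3, h4⟩ := add_eq_apply_one h₁ h₂ h
      show χ₁ n + χ₂ n = χ₁ 1 + χ₂ 1
      rw [h₁k n hn h3, h₂k n hn h4]
    · intro k hk hk1 x
      show χ₁' (x ^ k) + χ₂' (x ^ k) = χ₁' x + χ₂' x
      rw [h₁t k hk hk1, h₂t k hk hk1]

end Cfsg.Agent.Lib.Char.WinterCanon
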