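import Mathlib
import Cfsg.Agent.Lib.HallHigman.TheoremB
import Cfsg.Agent.Lib.Coprime.SZ

/-!
# The Hall subgroup of `O_{p,p'}(G)` and a Sylow subgroup of its normalizer

For `G` `p`-solvable, a complement `H` of `O_p(G)` in `O_{p,p'}(G)` and a Sylow `p`-subgroup `P` of `N_G(H)`
satisfy `|P : C_P(H)|_p ≥ |G : O_p(G)|_p`.
-/

set_option autoImplicit false
set_option linter.style.haveILetI false

open scoped Pointwise

namespace Cfsg.Agent.Lib.Char.WinterGroup

open Cfsg Cfsg.Agent.Lib.Solvable.PSeries Cfsg.Agent.Lib.Basic.PCore Cfsg.Agent.Lib.Coprime.SZ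

universe u

variable {G : Type u} [Group G] [Finite G] {p : ℕ} [hp : Fact p.Prime]

theorem exists_HP (hsolv : IsPSolvable p G) :
    ∃ H P : Subgroup G, (Nat.card H).Coprime p ∧ IsPGroup p P ∧ P ≤ Subgroup.normalizer (H : Set G) ∧
      ((pCore p G).index).factorization p ≤
        ((P ⊓ Subgroup.centralizer (H : Set G)).relIndex P).factorization p := by
  classical
  have hp' := hp.out
  set K := pCore p G with hK
  haveI hKn : K.Normal := pCore_normal p G
  let π : G →* G ⧸ K := QuotientGroup.mk' K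
  have hπ : Function.Surjective π := QuotientGroup.mk'_surjective K
  set Y := pPrimeCore p (G ⧸ K) with hY
  haveI hYn : Y.Normal := pPrimeCore_normal p _
  set L := Y.comap π with hL
  haveI hLn : L.Normal := Subgroup.Normal.comap hYn π
  have hKL : K ≤ L := by
    intro k hk
    show π k ∈ Y
    have : π k = 1 := (QuotientGroup.eq_one_iff k).mpr hk
    rw [this]
    exact Y.one_mem
  let K' : Subgroup L := K.subgroupOf L
  haveI hK'n : K'.Normal := Subgroup.Normal.subgroupOf hKn L
  have hKp : IsPGroup p K := pCore_isPGroup p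
  have hK'p : IsPGroup p K' :=
    hKp.of_injective (Subgroup.subgroupOfEquivOfLe hKL).toMonoidHom
      (Subgroup.subgroupOfEquivOfLe hKL).injective
  -- the index
  let f : L →* G ⧸ K := π.comp L.subtype
  have hfker : f.ker = K' := by
    ext x
    show π x = 1 ↔ (x : G) ∈ K
    exact QuotientGroup.eq_one_iff _
  have hfrange : f.range = Y := by
    ext y
    constructor
    · rintro ⟨x, rfl⟩
      exact x.2
    · intro hy
      obtain ⟨g, rfl⟩ := hπ y
      exact ⟨⟨g, hy⟩, rfl⟩
  have hidx : K'.index = Nat.card Y := by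
    rw [← hfker, Subgroup.index_ker, hfrange]
  have hYc : (Nat.card Y).Coprime p := pPrimeCore_coprime p
  have hcop : Nat.Coprime (Nat.card K') K'.index := by
    obtain ⟨a, ha⟩ := IsPGroup.iff_card.mp hK'p
    rw [ha, hidx]
    exact Nat.Coprime.pow_left _ hYc.symm
  obtain ⟨H₀, hH₀⟩ := Subgroup.exists_right_complement'_of_coprime hcop
  have hH₀card : Nat.card H₀ = K'.index := (hH₀.symm.index_eq_card).symm
  let H : Subgroup G := H₀.map L.subtype
  have hHL : H ≤ L := Subgroup.map_subtype_le _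
  have hHcard : Nat.card H = Nat.card Y := by
    have : Nat.card H = Nat.card H₀ :=
      (Nat.card_congr (H₀.equivMapOfInjective L.subtype L.subtype_injective).toEquiv).symm
    rw [this, hH₀card, hidx]
  have hmapH : ∀ y ∈ Y, ∃ h ∈ H, π h = y := by
    intro y hy
    obtain ⟨g, rfl⟩ := hπ y
    obtain ⟨⟨a, b⟩, hab⟩ := hH₀.2 ⟨g, hy⟩
    have hab' : ((a : L) : G) * ((b : L) : G) = g := by
      have := congrArg Subtype.val hab
      simpa using this
    refine ⟨((b : L) : G), ⟨b, b.2, rfl⟩, ?_⟩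
    rw [← hab', map_mul]
    have : π ((a : L) : G) = 1 := (QuotientGroup.eq_one_iff _).mpr a.2
    rw [this, one_mul]
  have hsolK' : Group.IsSolvable K' := by
    haveI := hK'p.isNilpotent
    infer_instance
  -- the Frattini argument
  have hfr : ∀ g : G, ∃ l ∈ L, l⁻¹ * g ∈ Subgroup.normalizer (H : Set G) := by
    intro g
    let H₁ : Subgroup L := (MulAut.conj g • H).subgroupOf L
    have hgHL : MulAut.conj g • H ≤ L := by
      intro x hx
      obtain ⟨h, hh, rfl⟩ := hx
      exact hLn.conj_mem h (hHL hh) g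
    have hH₁card : Nat.card H₁ = K'.index := by
      have h1 : Nat.card H₁ = Nat.card (MulAut.conj g • H : Subgroup G) :=
        Nat.card_congr (Subgroup.subgroupOfEquivOfLe hgHL).toEquiv
      rw [h1, card_conj_smul, hHcard, hidx]
    obtain ⟨l, hl⟩ := conj_of_solvable K' hcop (Or.inl hsolK') H₀ H₁ hH₀card hH₁card
    refine ⟨l, l.2, ?_⟩
    have hH₀eq : H.subgroupOf L = H₀ :=
      Subgroup.comap_map_eq_self_of_injective L.subtype_injective H₀
    have hl2 : MulAut.conj (l : G) • H = MulAut.conj g • H :=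
      map_subtype_conj_smul_subgroupOf (L := L) (A := H) (B := MulAut.conj g • H) hHL hgHL l
        (by rw [hH₀eq]; exact hl)
    rw [Subgroup.mem_normalizer_iff]
    intro h
    have h3 : ∀ x : G, x ∈ MulAut.conj (l : G) • H ↔ x ∈ MulAut.conj g • H := fun x => by rw [hl2]
    have h4 := h3 (g * h * g⁻¹)
    rw [mem_conj_smul, mem_conj_smul] at h4
    have h5 : g⁻¹ * (g * h * g⁻¹) * g = h := by group
    have h6 : (l : G)⁻¹ * (g * h * g⁻¹) * (l : G) = (l : G)⁻¹ * g * h * ((l : G)⁻¹ * g)⁻¹ := by group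
    rw [h5, h6] at h4
    exact h4.symm
  -- the normalizer covers the quotient
  let M : Subgroup G := Subgroup.normalizer (H : Set G)
  let fM : M →* G ⧸ K := π.comp M.subtype
  have hfM : Function.Surjective fM := by
    intro y
    obtain ⟨g, rfl⟩ := hπ y
    obtain ⟨l, hl, hlg⟩ := hfr g
    obtain ⟨h, hh, hhl⟩ := hmapH (π l) hl
    have hHM : H ≤ M := Subgroup.le_normalizer
    refine ⟨⟨h * (l⁻¹ * g), M.mul_mem (hHM hh) hlg⟩, ?_⟩
    show π (h * (l⁻¹ * g)) = π g
    rw [map_mul, map_mul, map_inv, hhl]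
    group
  -- the Sylow subgroup
  obtain ⟨Sb⟩ : Nonempty (Sylow p (G ⧸ K)) := Sylow.nonempty
  obtain ⟨P₀, hP₀⟩ := Sylow.mapSurjective_surjective hfM p Sb
  have hP₀map : (P₀ : Subgroup M).map fM = Sb := by
    rw [← hP₀]
    rfl
  let P : Subgroup G := (P₀ : Subgroup M).map M.subtype
  have hPp : IsPGroup p P := P₀.isPGroup'.map M.subtype
  have hPM : P ≤ M := Subgroup.map_subtype_le _
  -- `C_P(H) ≤ K`
  have hCK : ∀ x ∈ P, x ∈ Subgroup.centralizer (H : Set G) → x ∈ K := by
    intro x hxP hxC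
    have h1 : π x ∈ Subgroup.centralizer (Y : Set (G ⧸ K)) := by
      rw [Subgroup.mem_centralizer_iff]
      intro y hy
      obtain ⟨h, hh, rfl⟩ := hmapH y hy
      rw [← map_mul, ← map_mul, (Subgroup.mem_centralizer_iff.mp hxC h hh)]
    have h2 : π x ∈ Y :=
      Cfsg.Agent.Lib.HallHigman.TheoremB.centralizer_pPrimeCore_le (isPSolvable_quotient hsolv K)
        pCore_quotient_eq_bot h1
    obtain ⟨k, hk⟩ := (IsPGroup.iff_orderOf.mp hPp) ⟨x, hxP⟩
    have h3 : orderOf (π x) ∣ p ^ k := by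
      apply orderOf_dvd_of_pow_eq_one
      have h4 : x ^ p ^ k = 1 := by
        have h5 := pow_orderOf_eq_one (⟨x, hxP⟩ : P)
        rw [hk] at h5
        have := congrArg Subtype.val h5
        simpa using this
      rw [← map_pow, h4, map_one]
    have h4 : orderOf (π x) ∣ Nat.card Y := by
      have h5 := orderOf_dvd_natCard (⟨π x, h2⟩ : Y)
      rwa [Subgroup.orderOf_mk] at h5
    have h5 : Nat.Coprime (p ^ k) (Nat.card Y) := Nat.Coprime.pow_left _ hYc.symm
    have h6 : orderOf (π x) = 1 := Nat.eq_one_of_dvd_coprimes h5 h3 h4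
    exact (QuotientGroup.eq_one_iff x).mp (orderOf_eq_one_iff.mp h6)
  refine ⟨H, P, by rw [hHcard]; exact hYc, hPp, hPM, ?_⟩
  -- the index computation
  let φ : P →* G ⧸ K := π.comp P.subtype
  have hφker : φ.ker = K.subgroupOf P := by
    ext x
    show π x = 1 ↔ (x : G) ∈ K
    exact QuotientGroup.eq_one_iff _
  have hφrange : φ.range = Sb := by
    rw [← hP₀map]
    ext y
    constructor
    · rintro ⟨⟨_, ⟨m, hm, rfl⟩⟩, rfl⟩
      exact ⟨m, hm, rfl⟩
    · rintro ⟨m, hm, rfl⟩
      exact ⟨⟨_, ⟨m, hm, rfl⟩⟩, rfl⟩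
  have hidxP : (K.subgroupOf P).index = p ^ (K.index).factorization p := by
    rw [← hφker, Subgroup.index_ker, hφrange, Sylow.card_eq_multiplicity, Subgroup.index_eq_card]
  set C := P ⊓ Subgroup.centralizer (H : Set G) with hC
  have hle : C.subgroupOf P ≤ K.subgroupOf P := by
    intro x hx
    exact hCK x.1 x.2 hx.2
  have hdvd : (K.subgroupOf P).index ∣ C.relIndex P := Subgroup.index_dvd_of_le hle
  rw [hidxP] at hdvd
  have hne : C.relIndex P ≠ 0 := Subgroup.index_ne_zero_of_finite
  exact (hp'.pow_dvd_iff_le_factorization hne).mp hdvd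

end Cfsg.Agent.Lib.Char.WinterGroup
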